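import Cfsg.Agent.Mo.Pauli

/-! The algebra: bilinear and trilinear forms, the product, invariance. -/

set_option autoImplicit false

namespace Cfsg.Agent.Mo

open H5 H5.Lee Matrix Finset

theorem trace_mul_tr {m n : Type*} [Fintype m] [Fintype n] (A B : Matrix m n ℝ) :
    trace (A * Bᵀ) = ∑ i, ∑ j, A i j * B i j := by
  simp only [trace, Matrix.diag, Matrix.mul_apply, transpose_apply]

theorem trace_mul_tr_nonneg {m n : Type*} [Fintype m] [Fintype n] (A : Matrix m n ℝ) :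
    0 ≤ trace (A * Aᵀ) := by
  rw [trace_mul_tr]; exact sum_nonneg fun i _ => sum_nonneg fun j _ => mul_self_nonneg _

theorem eq_zero_of_trace {m n : Type*} [Fintype m] [Fintype n] {A : Matrix m n ℝ}
    (h : trace (A * Aᵀ) = 0) : A = 0 := by
  rw [trace_mul_tr] at h
  have h' := (sum_eq_zero_iff_of_nonneg fun i _ => sum_nonneg fun j _ => mul_self_nonneg (A i j)).1 h
  ext i j
  have := (sum_eq_zero_iff_of_nonneg fun j _ => mul_self_nonneg _).1 (h' i (mem_univ _)) j (mem_univ _)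
  exact mul_self_eq_zero.1 this

theorem trace_tr_comm {m n : Type*} [Fintype m] [Fintype n] (A B : Matrix m n ℝ) :
    trace (A * Bᵀ) = trace (B * Aᵀ) := by
  rw [← trace_transpose, transpose_mul, transpose_transpose]

theorem trace_rev {n : Type*} [Fintype n] {A B C : Matrix n n ℝ} (hA : Aᵀ = A) (hB : Bᵀ = B)
    (hC : Cᵀ = C) : trace (A * B * C) = trace (B * A * C) := by
  rw [← trace_transpose, transpose_mul, transpose_mul, hA, hB, hC, trace_mul_comm]


theorem neg_mem_L2 {r : Λ} (hr : r ∈ L2) : -r ∈ L2 := (norm_neg _).trans hr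
theorem ne_neg_L2 {r : Λ} (hr : r ∈ L2) : r ≠ -r := fun h => by
  have h1 : dotInt (r : V) (r : V) = dotInt (r : V) ((-r : Λ) : V) := by rw [← h]
  rw [NegMemClass.coe_neg, dot_neg_right, dot_self, show sqNorm (r : V) = 32 from hr] at h1
  omega
theorem sg_short {r : Λ} (hr : r ∈ L2) : sg (cl r / 4096) (cl r % 4096) = 1 := by
  rw [sg_cl_self, show sqNorm (r : V) = 32 from hr]; norm_num
theorem PL_tr {r : Λ} (hr : r ∈ L2) : (PL r)ᵀ = PL r := by
  rw [PL, P_transpose, sg_short hr, one_smul]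
theorem PL_mul' (x y : Λ) : PL x * PL y = sg (cl x / 4096) (cl y % 4096) • PL (x + y) := by
  rw [PL, PL, P_mul (cl_lt _) (cl_lt _), PL, cl_add]
theorem trace_PL {r : Λ} (hr : r ∈ L2) : trace (PL r) = 0 := trace_P (cl_lt _) (short_ne_zero hr)
theorem PL_mem {r : Λ} (hr : r ∈ L2) : PL r ∈ US := Submodule.subset_span ⟨r, hr, rfl⟩
theorem R_tr (r : Λ) : (R r)ᵀ = R r := by ext i j; simp only [transpose_apply, R]; ring

theorem US_tr {M : Matrix κ κ ℝ} (h : M ∈ US) : Mᵀ = M := by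
  refine Submodule.span_induction (p := fun M _ => Mᵀ = M) ?_ transpose_zero
    (fun x y _ _ a b => by rw [transpose_add, a, b]) (fun a x _ b => by rw [transpose_smul, b]) h
  rintro _ ⟨r, hr, rfl⟩
  exact PL_tr hr

theorem tr1 (u : VV) : (u : Amb).1ᵀ = (u : Amb).1 := u.2.1
theorem mem2 (u : VV) : (u : Amb).2.1 ∈ US := u.2.2.1
theorem tr2 (u : VV) : (u : Amb).2.1ᵀ = (u : Amb).2.1 := US_tr (mem2 u)

theorem mc_add (M N : Matrix κ κ ℝ) (r : Λ) : mc (M + N) r = mc M r + mc N r := by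
  simp only [mc, Matrix.mul_add, trace_add]; ring
theorem mc_smul (a : ℝ) (M : Matrix κ κ ℝ) (r : Λ) : mc (a • M) r = a * mc M r := by
  simp only [mc, Matrix.mul_smul, trace_smul, smul_eq_mul]; ring
theorem mc_zero (r : Λ) : mc 0 r = 0 := by simp only [mc, Matrix.mul_zero, trace_zero, zero_div]
theorem mc_sub (M N : Matrix κ κ ℝ) (r : Λ) : mc (M - N) r = mc M r - mc N r := by
  simp only [mc, Matrix.mul_sub, trace_sub]; ring
theorem mc_sum {α : Type*} (S : Finset α) (F : α → Matrix κ κ ℝ) (r : Λ) :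
    mc (∑ a ∈ S, F a) r = ∑ a ∈ S, mc (F a) r := by
  simp only [mc, Matrix.mul_sum, trace_sum, Finset.sum_div]
theorem mc_one {r : Λ} (hr : r ∈ L2) : mc 1 r = 0 := by
  rw [mc, Matrix.mul_one, trace_PL hr, zero_div]

theorem ip_comm (u v : Amb) : ip u v = ip v u := by
  rw [ip, ip, trace_mul_comm u.1, trace_mul_comm u.2.1, trace_tr_comm]
theorem ip_add (u v w : Amb) : ip (u + v) w = ip u w + ip v w := by
  simp only [ip, Prod.fst_add, Prod.snd_add, Matrix.add_mul, trace_add]; ring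
theorem ip_smul (a : ℝ) (u w : Amb) : ip (a • u) w = a * ip u w := by
  simp only [ip, Prod.smul_fst, Prod.smul_snd, Matrix.smul_mul, trace_smul, smul_eq_mul]; ring
theorem ip_subl (u v w : Amb) : ip (u - v) w = ip u w - ip v w := by
  simp only [ip, Prod.fst_sub, Prod.snd_sub, Matrix.sub_mul, trace_sub]; ring
theorem ip_self_eq (u : VV) : ip u u = trace ((u : Amb).1 * (u : Amb).1ᵀ) +
    trace ((u : Amb).2.1 * (u : Amb).2.1ᵀ) / 4096 + trace ((u : Amb).2.2 * (u : Amb).2.2ᵀ) := by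
  rw [tr1, tr2, ip]
theorem ip_self_nonneg (u : VV) : 0 ≤ ip u u := by
  rw [ip_self_eq]
  have := trace_mul_tr_nonneg (u : Amb).1
  have := trace_mul_tr_nonneg (u : Amb).2.1
  have := trace_mul_tr_nonneg (u : Amb).2.2
  linarith
theorem eq_zero_of_ip_self {u : VV} (h : ip u u = 0) : u = 0 := by
  rw [ip_self_eq] at h
  have h1 := trace_mul_tr_nonneg (u : Amb).1
  have h2 := trace_mul_tr_nonneg (u : Amb).2.1
  have h3 := trace_mul_tr_nonneg (u : Amb).2.2
  exact Subtype.ext (Prod.ext (eq_zero_of_trace (by linarith))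
    (Prod.ext (eq_zero_of_trace (by linarith)) (eq_zero_of_trace (by linarith))))
theorem ext_ip {u v : VV} (h : ∀ w : VV, ip u w = ip v w) : u = v := by
  rw [← sub_eq_zero]
  refine eq_zero_of_ip_self ?_
  rw [Submodule.coe_sub, ip_subl, ← Submodule.coe_sub, h, sub_self]

theorem T1_add1 (u u' : Amb) (W U : Matrix ι κ ℝ) : T1 (u + u') W U = T1 u W U + T1 u' W U := by
  simp only [T1, Prod.fst_add, Prod.snd_add, Matrix.add_mul, trace_add, mc_add, add_mul,
    sum_add_distrib]; ring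
theorem T1_add2 (u : Amb) (W W' U : Matrix ι κ ℝ) : T1 u (W + W') U = T1 u W U + T1 u W' U := by
  simp only [T1, Matrix.add_mul, Matrix.mul_add, trace_add, mul_add, sum_add_distrib]; ring
theorem T1_smul1 (a : ℝ) (u : Amb) (W U : Matrix ι κ ℝ) : T1 (a • u) W U = a * T1 u W U := by
  simp only [T1, Prod.smul_fst, Prod.smul_snd, Matrix.smul_mul, trace_smul, smul_eq_mul, mc_smul,
    mul_assoc, ← Finset.mul_sum]; ring
theorem T1_smul2 (a : ℝ) (u : Amb) (W U : Matrix ι κ ℝ) : T1 u (a • W) U = a * T1 u W U := by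
  simp only [T1, Matrix.smul_mul, Matrix.mul_smul, trace_smul, smul_eq_mul, mul_left_comm _ a,
    ← Finset.mul_sum]; ring
theorem T1_zero_left (u : Amb) (U : Matrix ι κ ℝ) : T1 u 0 U = 0 := by
  simp only [T1, Matrix.mul_zero, Matrix.zero_mul, trace_zero, mul_zero, sum_const_zero]; ring
theorem T1_comm {u : Amb} (h : u.1ᵀ = u.1) (W U : Matrix ι κ ℝ) : T1 u W U = T1 u U W := by
  have e : ∀ (A : Matrix ι ι ℝ) (Q : Matrix κ κ ℝ), Aᵀ = A → Qᵀ = Q →
      trace (A * W * Q * Uᵀ) = trace (A * U * Q * Wᵀ) := fun A Q hA hQ => by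
    rw [trace_tr_comm, transpose_mul, transpose_mul, hA, hQ, ← Matrix.mul_assoc, ← Matrix.mul_assoc,
      trace_mul_comm, ← Matrix.mul_assoc, ← Matrix.mul_assoc]
  have e1 := e u.1 1 h transpose_one
  rw [Matrix.mul_one, Matrix.mul_one] at e1
  rw [T1, T1, e1, trace_tr_comm W U, sum_congr rfl fun r hr => ?_]
  rw [e _ _ (by rw [transpose_sub, transpose_one, transpose_smul, R_tr]) (PL_tr (mem_L2F.1 hr))]

theorem TT_add (u u' v w : Amb) : TT (u + u') v w = TT u v w + TT u' v w := by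
  simp only [TT, T1_add1, Prod.snd_add, T1_add2, T0, Prod.fst_add, Matrix.add_mul, Matrix.mul_add,
    trace_add, mc_add, add_mul, mul_add, sum_add_distrib]; ring
theorem TT_smul (a : ℝ) (u v w : Amb) : TT (a • u) v w = a * TT u v w := by
  have e : ∀ r, trace (R r * (a • u).1) * mc v.2.1 r * mc w.2.1 r +
      trace (R r * v.1) * mc (a • u).2.1 r * mc w.2.1 r +
      trace (R r * w.1) * mc (a • u).2.1 r * mc v.2.1 r = a * (trace (R r * u.1) * mc v.2.1 r *
      mc w.2.1 r + trace (R r * v.1) * mc u.2.1 r * mc w.2.1 r +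
      trace (R r * w.1) * mc u.2.1 r * mc v.2.1 r) := fun r => by
    simp only [Prod.smul_fst, Prod.smul_snd, Matrix.mul_smul, trace_smul, smul_eq_mul, mc_smul]; ring
  simp only [TT, T0, e, T1_smul1, ← Finset.mul_sum]
  simp only [Prod.smul_fst, Prod.smul_snd, T1_smul2, Matrix.smul_mul, trace_smul, smul_eq_mul]
  ring
theorem TT_swap12 (u v w : VV) : TT u v w = TT v u w := by
  rw [TT, TT, T1_comm (tr1 w) (u : Amb).2.2, T0, T0, trace_rev (tr1 u) (tr1 v) (tr1 w),
    trace_rev (tr2 u) (tr2 v) (tr2 w)]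
  have : ∀ a b c d e f g : ℝ, c = d → a + c / 2 + b + e + f + g = a + d / 2 + b + f + e + g := by
    intros; subst_vars; ring
  exact this _ _ _ _ _ _ _ (sum_congr rfl fun r _ => by ring)
theorem TT_swap23 (u v w : VV) : TT u v w = TT u w v := by
  rw [TT, TT, T1_comm (tr1 u) (v : Amb).2.2, T0, T0, trace_rev (tr1 u) (tr1 v) (tr1 w),
    trace_rev (tr2 u) (tr2 v) (tr2 w), trace_mul_cycle (v : Amb).1, trace_mul_cycle (w : Amb).1,
    trace_mul_cycle (v : Amb).2.1, trace_mul_cycle (w : Amb).2.1]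
  have : ∀ a b c d e f g : ℝ, c = d → a + c / 2 + b + e + f + g = a + d / 2 + b + e + g + f := by
    intros; subst_vars; ring
  exact this _ _ _ _ _ _ _ (sum_congr rfl fun r _ => by ring)

theorem Lop_mem (u v : VV) : Lop u v ∈ V0 := by
  refine ⟨?_, Submodule.sum_mem _ fun r hr => US.smul_mem _ (PL_mem (mem_L2F.1 hr)), trivial⟩
  change (_ + _)ᵀ = _ + _
  simp only [transpose_add, transpose_smul, transpose_sum, transpose_mul, tr1, R_tr]
  rw [add_comm ((u : Amb).1 * _)]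

theorem mc_PL {r s : Λ} (hr : r ∈ L2) : mc (PL s) r = if cl r = cl s then 1 else 0 := by
  split_ifs with h
  · rw [mc, ← PL_congr h, PL_sq hr, trace_one, Fintype.card_fin]; norm_num
  · rw [mc, PL_mul', trace_smul, PL, trace_P (cl_lt _), smul_zero, zero_div]
    rw [cl_add]; exact fun e => h (Nat.xor_eq_zero_iff.1 e)
theorem mc_neg (M : Matrix κ κ ℝ) (r : Λ) : mc M (-r) = mc M r := by rw [mc, PL_neg, mc]
/-- a sum over the short vectors against `mc (PL s)` -/
theorem sum_mc_PL {α : Type*} [AddCommGroup α] [Module ℝ α] {s : Λ} (hs : s ∈ L2) (F : Λ → α)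
    (hF : F (-s) = F s) : ∑ r ∈ L2F, mc (PL s) r • F r = (2 : ℝ) • F s := by
  classical
  rw [← Finset.sum_subset (s₁ := {s, -s}), sum_pair (ne_neg_L2 hs), mc_neg, mc_PL hs, if_pos rfl,
    hF, one_smul, two_smul]
  · intro x hx
    rcases mem_insert.1 hx with rfl | hx
    · exact mem_L2F.2 hs
    · rw [mem_singleton.1 hx]; exact mem_L2F.2 (neg_mem_L2 hs)
  · intro x hx h
    rw [mc_PL (mem_L2F.1 hx), if_neg, zero_smul]
    intro e
    rcases short_eq hs (mem_L2F.1 hx) e.symm with e | e <;> simp [e] at h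
/-- expansion of the middle component -/
theorem US_expand {M : Matrix κ κ ℝ} (h : M ∈ US) : M = ∑ r ∈ L2F, (mc M r / 2) • PL r := by
  refine Submodule.span_induction (p := fun M _ => M = ∑ r ∈ L2F, (mc M r / 2) • PL r) ?_
    (by simp only [mc_zero, zero_div, zero_smul, sum_const_zero]) (fun x y _ _ a b => ?_)
    (fun a x _ b => ?_) h
  · rintro _ ⟨s, hs, rfl⟩
    have := sum_mc_PL hs (fun r => (1 / 2 : ℝ) • PL r) (by simp only [PL_neg])
    simp only [smul_smul] at this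
    rw [show (2 : ℝ) * (1 / 2) = 1 by norm_num, one_smul] at this
    conv_lhs => rw [← this]
    exact sum_congr rfl fun r _ => by rw [mul_one_div]
  · simp only [mc_add, add_div, add_smul, sum_add_distrib]; rw [← a, ← b]
  · simp only [mc_smul, mul_div_assoc, mul_smul, ← Finset.smul_sum]; rw [← b]
theorem trace_US {M : Matrix κ κ ℝ} (h : M ∈ US) (N : Matrix κ κ ℝ) :
    trace (M * N) / 4096 = ∑ r ∈ L2F, mc M r * mc N r / 2 := by
  conv_lhs => rw [US_expand h]
  simp only [Matrix.sum_mul, trace_sum, Matrix.smul_mul, trace_smul, smul_eq_mul, Finset.sum_div]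
  exact sum_congr rfl fun r _ => by rw [mc, mc]; ring
theorem US_ext {M N : Matrix κ κ ℝ} (hM : M ∈ US) (hN : N ∈ US) (h : ∀ r ∈ L2, mc M r = mc N r) :
    M = N := by
  rw [US_expand hM, US_expand hN]
  exact sum_congr rfl fun r hr => by rw [h r (mem_L2F.1 hr)]
/-- the coefficient of a combination of the `PL r` -/
theorem mc_comb (f : Λ → ℝ) {s : Λ} (hs : s ∈ L2) (hf : f (-s) = f s) :
    mc (∑ r ∈ L2F, (f r / 2) • PL r) s = f s := by
  have := sum_mc_PL hs (fun r => f r / 2) (by simp only [hf])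
  rw [mc_sum, show f s = (2 : ℝ) • (f s / 2) by rw [smul_eq_mul]; ring, ← this]
  refine sum_congr rfl fun r hr => ?_
  rw [mc_smul, mc_PL hs, mc_PL (mem_L2F.1 hr), smul_eq_mul, mul_comm]
  simp only [eq_comm]

theorem ip_Lop (u v w : VV) (hu : (u : Amb).2.2 = 0) : ip (Lop u v) w = TT u v w := by
  rw [TT, hu, T1_zero_left, T1_zero_left, T0, trace_mul_comm ((u : Amb).2.1 * _), trace_US (mem2 w), T1]
  simp only [ip, Lop, Matrix.add_mul, trace_add, Matrix.smul_mul, trace_smul, smul_eq_mul,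
    Matrix.sum_mul, trace_sum, trace_rev (tr1 v) (tr1 u) (tr1 w), Finset.sum_div]
  have e : ∀ r, trace (PL r * (w : Amb).2.1) = 4096 * mc (w : Amb).2.1 r := fun r => by
    rw [mc]; ring
  simp only [e]
  have key : ∀ (x y : ℝ) (a b c d e f : Λ → ℝ), (∀ r, a r + b r + c r = d r + e r + f r) →
      2 * (x + x) + ∑ r ∈ L2F, a r + ∑ r ∈ L2F, b r + (y + ∑ r ∈ L2F, c r) =
        4 * x + ∑ r ∈ L2F, d r + ∑ r ∈ L2F, e r + (y + ∑ r ∈ L2F, f r) + 0 + 0 := by
    intro x y a b c d e f h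
    have := sum_congr (rfl : L2F = L2F) fun r _ => h r
    simp only [sum_add_distrib] at this
    linarith
  exact key _ _ _ _ _ _ _ _ fun r => by ring

theorem TT_W (u v w : Amb) (hu : u.1 = 0 ∧ u.2.1 = 0) (hv : v.1 = 0 ∧ v.2.1 = 0)
    (hw : w.1 = 0 ∧ w.2.1 = 0) : TT u v w = 0 := by
  simp only [TT, T0, T1, hu.1, hu.2, hv.1, hv.2, hw.1, hw.2, Matrix.mul_zero, Matrix.zero_mul,
    trace_zero, mc_zero, mul_zero, zero_mul, add_zero, sum_const_zero, zero_div]

theorem sum_L2F_smul {α : Type*} [AddCommMonoid α] (g : Co0) (F : Λ → α) :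
    ∑ r ∈ L2F, F (g • r) = ∑ r ∈ L2F, F r :=
  Finset.sum_bijective (fun r => g • r) (MulAction.bijective g) (fun r => by
    rw [mem_L2F, mem_L2F]
    exact ⟨smul_mem_L2 g, fun h => by simpa using smul_mem_L2 g⁻¹ h⟩) fun _ _ => rfl

theorem conj_mul {m n k m' n' k' : Type*} [Fintype m] [Fintype n] [Fintype k] [Fintype n']
    [DecidableEq n] (a : Matrix m' m ℝ) {b : Matrix n' n ℝ} (c : Matrix k k' ℝ) (hb : bᵀ * b = 1)
    (A : Matrix m n ℝ) (B : Matrix n k ℝ) : a * A * bᵀ * (b * B * c) = a * (A * B) * c := by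
  simp only [Matrix.mul_assoc]
  rw [← Matrix.mul_assoc bᵀ, hb, Matrix.one_mul]
theorem trace_cj {m m' : Type*} [Fintype m] [Fintype m'] [DecidableEq m] {a : Matrix m' m ℝ}
    (ha : aᵀ * a = 1) (A : Matrix m m ℝ) : trace (a * A * aᵀ) = trace A := by
  rw [trace_mul_cycle, ha, Matrix.one_mul]
theorem tr_cj {m n m' n' : Type*} [Fintype m] [Fintype n] (a : Matrix m' m ℝ) (b : Matrix n' n ℝ)
    (A : Matrix m n ℝ) : (a * A * bᵀ)ᵀ = b * Aᵀ * aᵀ := by
  rw [transpose_mul, transpose_mul, transpose_transpose, Matrix.mul_assoc]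

theorem exists_sign (h : Ht) (r : Λ) : ∃ f, PL (h.1.1 • r) = sgn f • ((h.1.2 : Matrix κ κ ℝ) * PL r *
    (h.1.2 : Matrix κ κ ℝ)ᵀ) := by
  rcases h.2 r with e | e
  · exact ⟨false, by rw [e, sgn_false, one_smul]⟩
  · exact ⟨true, by rw [e, sgn_true, smul_neg, neg_smul, one_smul, neg_neg]⟩

theorem mc_cj {c : Matrix κ κ ℝ} (hc : cᵀ * c = 1) {r s : Λ} {a : ℝ} (e : PL s = a • (c * PL r * cᵀ))
    (M : Matrix κ κ ℝ) : mc (c * M * cᵀ) s = a * mc M r := by
  rw [mc, e, Matrix.smul_mul, conj_mul _ _ hc, trace_smul, trace_cj hc, mc, smul_eq_mul]; ring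

theorem ip_act (h : Ht) (u v : Amb) :
    ip (act (mat h.1.1) h.1.2 u) (act (mat h.1.1) h.1.2 v) = ip u v := by
  have hg := mat_tr_mul h.1.1
  have hc := OG.tr_mul h.1.2
  simp only [ip, act, LinearMap.coe_mk, AddHom.coe_mk, tr_cj, conj_mul _ _ hg, conj_mul _ _ hc,
    trace_cj hg, trace_cj hc]

theorem T1_act (h : Ht) (u : Amb) (W U : Matrix ι κ ℝ) :
    T1 (act (mat h.1.1) h.1.2 u) (mat h.1.1 * W * (h.1.2 : Matrix κ κ ℝ)ᵀ)
      (mat h.1.1 * U * (h.1.2 : Matrix κ κ ℝ)ᵀ) = T1 u W U := by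
  have hg := mat_tr_mul h.1.1
  have hc := OG.tr_mul h.1.2
  simp only [T1, act, LinearMap.coe_mk, AddHom.coe_mk, tr_cj, conj_mul _ _ hg, conj_mul _ _ hc,
    trace_cj hg, trace_cj hc]
  rw [← sum_L2F_smul h.1.1, sum_congr rfl fun r _ => ?_]
  obtain ⟨f, e⟩ := exists_sign h r
  have e1 : 1 - (2 : ℝ) • R (h.1.1 • r) = mat h.1.1 * (1 - (2 : ℝ) • R r) * (mat h.1.1)ᵀ := by
    rw [R_smul, Matrix.mul_sub, Matrix.sub_mul, Matrix.mul_one, mat_mul_tr, Matrix.mul_smul,
      Matrix.smul_mul]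
  rw [mc_cj hc e, e, e1]
  simp only [Matrix.mul_smul, Matrix.smul_mul, conj_mul _ _ hg, conj_mul _ _ hc, trace_smul,
    trace_cj hg, smul_eq_mul]
  linear_combination (mc u.2.1 r * ((1 - (2 : ℝ) • R r) * W * PL r * Uᵀ).trace) * sgn_mul_self f

theorem T0_act (h : Ht) (u v w : Amb) :
    T0 (act (mat h.1.1) h.1.2 u) (act (mat h.1.1) h.1.2 v) (act (mat h.1.1) h.1.2 w) = T0 u v w := by
  have hg := mat_tr_mul h.1.1
  have hc := OG.tr_mul h.1.2
  simp only [T0, act, LinearMap.coe_mk, AddHom.coe_mk, conj_mul _ _ hg, conj_mul _ _ hc,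
    trace_cj hg, trace_cj hc]
  rw [← sum_L2F_smul h.1.1, sum_congr rfl fun r _ => ?_]
  obtain ⟨f, e⟩ := exists_sign h r
  simp only [mc_cj hc e, R_smul, conj_mul _ _ hg, trace_cj hg]
  linear_combination (trace (R r * u.1) * mc v.2.1 r * mc w.2.1 r +
    trace (R r * v.1) * mc u.2.1 r * mc w.2.1 r + trace (R r * w.1) * mc u.2.1 r * mc v.2.1 r) *
    sgn_mul_self f

theorem rho_mem_Aut (h : Ht) : rho h ∈ Aut :=
  ⟨fun u v => ip_act h u v, fun u v w => by
    simp only [rho_smul, TT, T0_act]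
    rw [← T1_act h u, ← T1_act h v, ← T1_act h w]; rfl⟩
theorem rho_one0 (h : Ht) : rho h • one0 = one0 := by
  refine Subtype.ext ?_
  rw [rho_smul]
  simp only [act, one0, LinearMap.coe_mk, AddHom.coe_mk, Matrix.mul_one, Matrix.mul_zero,
    Matrix.zero_mul, mat_mul_tr]

theorem R_mul_R (r s : Λ) (i j : ι) : (R r * R s) i j =
    (dotInt (r : V) (s : V) : ℝ) / 8 * (((r : V) i : ℝ) * ((s : V) j : ℝ) / 8) := by
  simp only [Matrix.mul_apply, R, dotInt, Int.cast_sum, Int.cast_mul, Finset.sum_div,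
    Finset.sum_mul]
  exact sum_congr rfl fun k _ => by ring
theorem trace_R_R (r s : Λ) : trace (R r * R s) = ((dotInt (r : V) (s : V) : ℝ) / 8) ^ 2 := by
  simp only [trace, Matrix.diag, R_mul_R, ← Finset.mul_sum, ← Finset.sum_div]
  simp only [dotInt, Int.cast_sum, Int.cast_mul, sq]
theorem dot_L2 {r : Λ} (hr : r ∈ L2) : dotInt (r : V) (r : V) = 32 := (dot_self _).trans hr
theorem R_sq {r : Λ} (hr : r ∈ L2) : R r * R r = (4 : ℝ) • R r := by
  ext i j
  rw [R_mul_R, dot_L2 hr, Matrix.smul_apply, R]; norm_num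
theorem trace_R {r : Λ} (hr : r ∈ L2) : trace (R r) = 4 := by
  have : ((dotInt (r : V) (r : V) : ℤ) : ℝ) = 32 := by rw [dot_L2 hr]; norm_num
  simp only [dotInt, Int.cast_sum, Int.cast_mul] at this
  simp only [trace, Matrix.diag, R, ← Finset.sum_div, this]; norm_num
theorem trace_R_sq {r : Λ} (hr : r ∈ L2) : trace (R r * R r) = 16 := by
  rw [trace_R_R, dot_L2 hr]; norm_num
theorem R_A_R (r : Λ) (A : Matrix ι ι ℝ) : R r * A * R r = trace (R r * A) • R r := by
  ext i j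
  simp only [Matrix.mul_apply, trace, Matrix.diag, R, Matrix.smul_apply, smul_eq_mul,
    Finset.sum_mul]
  exact sum_congr rfl fun k _ => sum_congr rfl fun l _ => by ring

theorem ip_ax {r : Λ} (hr : r ∈ L2) (e : Bool) (v : Amb) :
    ip (ax r e) v = trace (R r * v.1) - 4 * sgn e * mc v.2.1 r := by
  rw [ax_val hr, ip, mc]
  simp only [Matrix.smul_mul, trace_smul, smul_eq_mul, Matrix.zero_mul, trace_zero]; ring
theorem ip_ax_ax {r s : Λ} (hr : r ∈ L2) (hs : s ∈ L2) (e f : Bool) : ip (ax r e) (ax s f) =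
    ((dotInt (r : V) (s : V) : ℝ) / 8) ^ 2 + if cl r = cl s then 16 * sgn e * sgn f else 0 := by
  rw [ip_ax hr, ax_val hs]
  simp only [trace_R_R, mc_smul, mc_PL hr]
  split_ifs <;> ring
theorem ip_ax_self {r : Λ} (hr : r ∈ L2) (e : Bool) : ip (ax r e) (ax r e) = 32 := by
  rw [ip_ax_ax hr hr, if_pos rfl, dot_L2 hr, mul_assoc, sgn_mul_self]; norm_num

end Cfsg.Agent.Mo
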