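import Cfsg.Agent.Mo.Alg0

/-! The adjoint action of a short axis; Miyamoto involutions; the `2A` algebra. -/

set_option autoImplicit false

namespace Cfsg.Agent.Mo

open H5 H5.Lee Matrix Finset

theorem smul_cg {α : Type*} [SMul ℝ α] {a b : ℝ} (h : a = b) (x : α) : a • x = b • x := by rw [h]

theorem Lop_add (u v w : Amb) : Lop u (v + w) = Lop u v + Lop u w := by
  simp only [Lop, Prod.fst_add, Prod.snd_add, Matrix.mul_add, Matrix.add_mul, mc_add, trace_add,
    Prod.mk_add_mk, Prod.mk.injEq, smul_add, mul_add, add_mul, add_div, add_smul, sum_add_distrib]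
  refine ⟨by abel, by abel, by abel⟩
theorem Lop_smul (a : ℝ) (u v : Amb) : Lop u (a • v) = a • Lop u v := by
  simp only [Lop, Prod.smul_fst, Prod.smul_snd, Matrix.mul_smul, Matrix.smul_mul, mc_smul,
    trace_smul, Prod.smul_mk, Prod.mk.injEq, smul_add, Finset.smul_sum, smul_smul, smul_eq_mul]
  refine ⟨?_, sum_congr rfl fun r _ => smul_cg (by ring) _, ?_⟩
  · rw [mul_comm a 2, sum_congr rfl fun r _ => ?_]; exact smul_cg (by ring) _
  · rw [mul_comm a, sum_congr rfl fun r _ => ?_]; rw [mul_comm]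

/-- multiplication by `u` -/
noncomputable def LL (u : VV) : VV →ₗ[ℝ] VV where
  toFun v := ⟨Lop u v, Lop_mem u v⟩
  map_add' v w := Subtype.ext (Lop_add _ _ _)
  map_smul' a v := Subtype.ext (Lop_smul _ _ _)
theorem LL_val (u v : VV) : (LL u v : Amb) = Lop u v := rfl

theorem Aut_LL {k : GG} (hk : k ∈ Aut) {u : VV} (hu : (u : Amb).2.2 = 0)
    (hku : ((k • u : VV) : Amb).2.2 = 0) (v : VV) : LL (k • u) (k • v) = k • LL u v :=
  ext_ip fun w => by
    rw [← smul_inv_smul k w, LL_val, ip_Lop _ _ _ hku, hk.2, hk.1, LL_val, ip_Lop _ _ _ hu]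

theorem V0_ind {p : Amb → Prop} (h1 : ∀ A : Matrix ι ι ℝ, Aᵀ = A → p (A, 0, 0))
    (h2 : ∀ s ∈ L2, p (0, PL s, 0)) (h3 : ∀ W, p (0, 0, W)) (ha : ∀ u v, p u → p v → p (u + v))
    (hs : ∀ (a : ℝ) u, p u → p (a • u)) {v : Amb} (hv : v ∈ V0) : p v := by
  have e : v = (v.1, 0, 0) + (0, v.2.1, 0) + (0, 0, v.2.2) := by simp
  rw [e]
  refine ha _ _ (ha _ _ (h1 _ hv.1) ?_) (h3 _)
  refine Submodule.span_induction (p := fun M _ => p (0, M, 0)) ?_ (h3 0) (fun x y _ _ a b => ?_)
    (fun a x _ b => ?_) hv.2.1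
  · rintro _ ⟨s, hs, rfl⟩; exact h2 s hs
  · simpa using ha _ _ a b
  · simpa using hs a _ b

/-- the projection to the middle component -/
noncomputable def pr (N : Matrix κ κ ℝ) : Matrix κ κ ℝ := ∑ r ∈ L2F, (mc N r / 2) • PL r
theorem pr_US {M : Matrix κ κ ℝ} (h : M ∈ US) : pr M = M := (US_expand h).symm
theorem pr_smul (a : ℝ) (M : Matrix κ κ ℝ) : pr (a • M) = a • pr M := by
  simp only [pr, mc_smul, mul_div_assoc, mul_smul, Finset.smul_sum]
theorem pr_one : pr 1 = 0 :=
  sum_eq_zero fun r hr => by rw [mc_one (mem_L2F.1 hr), zero_div, zero_smul]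
theorem pr_zero : pr 0 = 0 := by simp only [pr, mc_zero, zero_div, zero_smul, sum_const_zero]
theorem mc_pr (N : Matrix κ κ ℝ) {s : Λ} (hs : s ∈ L2) : mc (pr N) s = mc N s :=
  mc_comb (mc N) hs (mc_neg _ _)

/-- the square of the normalised inner product -/
noncomputable def sq8 (r s : Λ) : ℝ := ((dotInt (r : V) (s : V) : ℝ) / 8) ^ 2
theorem sq8_neg (r s : Λ) : sq8 r (-s) = sq8 r s := by
  rw [sq8, sq8, NegMemClass.coe_neg, dot_neg_right]; push_cast; ring
/-- the diagonal part -/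
noncomputable def dg8 (r : Λ) (M : Matrix κ κ ℝ) : Matrix κ κ ℝ :=
  ∑ s ∈ L2F, (sq8 r s * mc M s / 2) • PL s
theorem dg8_smul (r : Λ) (a : ℝ) (M : Matrix κ κ ℝ) : dg8 r (a • M) = a • dg8 r M := by
  simp only [dg8, mc_smul, Finset.smul_sum, smul_smul]
  exact sum_congr rfl fun s _ => smul_cg (by ring) _
theorem dg8_sub (r : Λ) (M N : Matrix κ κ ℝ) : dg8 r (M - N) = dg8 r M - dg8 r N := by
  simp only [dg8, mc_sub, mul_sub, sub_div, sub_smul, sum_sub_distrib]
theorem dg8_PL (r : Λ) {s : Λ} (hs : s ∈ L2) : dg8 r (PL s) = sq8 r s • PL s := by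
  have := sum_mc_PL hs (fun q => (sq8 r q / 2) • PL q) (by simp only [sq8_neg, PL_neg])
  simp only [smul_smul] at this
  rw [show 2 * (sq8 r s / 2) = sq8 r s by ring] at this
  rw [← this]
  exact sum_congr rfl fun q _ => smul_cg (by ring) _
theorem dg8_zero (r : Λ) : dg8 r 0 = 0 := by
  simp only [dg8, mc_zero, mul_zero, zero_div, zero_smul, sum_const_zero]
theorem mc_dg8 (r : Λ) (M : Matrix κ κ ℝ) {s : Λ} (hs : s ∈ L2) :
    mc (dg8 r M) s = sq8 r s * mc M s :=
  mc_comb (fun s => sq8 r s * mc M s) hs (by simp only [sq8_neg, mc_neg])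

theorem Lop_ax {r : Λ} (hr : r ∈ L2) (e : Bool) (v : Amb) : Lop (ax r e) v =
    ((2 : ℝ) • (R r * v.1 + v.1 * R r) - (4 * sgn e * mc v.2.1 r) • R r,
      dg8 r v.2.1 - (4 * sgn e) • pr (PL r * v.2.1) - (4 * sgn e * trace (R r * v.1)) • PL r,
      R r * v.2.2 + (1 / 2 : ℝ) • v.2.2 - (sgn e / 2) • ((1 - (2 : ℝ) • R r) * v.2.2 * PL r)) := by
  rw [ax_val hr, Lop]
  simp only [mc_smul, Matrix.smul_mul, trace_R hr, Prod.mk.injEq]
  refine ⟨?_, ?_, ?_⟩
  · have := sum_mc_PL hr (fun q => (-2 * sgn e * mc v.2.1 q) • R q) (by simp only [mc_neg, R_neg])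
    simp only [smul_smul] at this
    rw [sub_eq_add_neg, ← neg_smul, show -(4 * sgn e * mc v.2.1 r) = 2 * (-2 * sgn e * mc v.2.1 r)
      by ring, ← this, sum_congr rfl fun q _ => ?_]
    exact smul_cg (by ring) _
  · have := sum_mc_PL hr (fun q => (2 * sgn e * trace (R q * v.1)) • PL q)
      (by simp only [PL_neg, R_neg])
    simp only [smul_smul] at this
    rw [show 4 * sgn e * trace (R r * v.1) = 2 * (2 * sgn e * trace (R r * v.1)) by ring, ← this,
      dg8, pr, Finset.smul_sum, ← sum_sub_distrib, ← sum_sub_distrib]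
    refine sum_congr rfl fun q _ => ?_
    rw [smul_smul, ← sub_smul, ← sub_smul, trace_mul_comm (R q), trace_R_R, sq8]
    exact smul_cg (by ring) _
  · have := sum_mc_PL hr (fun q => (-sgn e / 4) • ((1 - (2 : ℝ) • R q) * v.2.2 * PL q))
      (by simp only [PL_neg, R_neg])
    simp only [smul_smul] at this
    rw [sub_eq_add_neg, ← neg_smul, show -(sgn e / 2) = 2 * (-sgn e / 4) by ring, ← this,
      show (4 : ℝ) / 8 = 1 / 2 by norm_num, sum_congr rfl fun q _ => ?_]
    exact smul_cg (by ring) _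

theorem sq8_self {r : Λ} (hr : r ∈ L2) : sq8 r r = 16 := by rw [sq8, dot_L2 hr]; norm_num

theorem Lop_ax_AP {r : Λ} (hr : r ∈ L2) (e : Bool) (A : Matrix ι ι ℝ) (m : ℝ) :
    Lop (ax r e) (A, m • PL r, 0) = ((2 : ℝ) • (R r * A + A * R r) - (4 * sgn e * m) • R r,
      (16 * m - 4 * sgn e * trace (R r * A)) • PL r, 0) := by
  rw [Lop_ax hr]
  simp only [mc_smul, mc_PL hr, if_true, mul_one, dg8_smul, dg8_PL r hr, sq8_self hr,
    Matrix.mul_smul, PL_sq hr, pr_smul, pr_one, smul_zero, sub_zero, smul_smul, Matrix.mul_zero,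
    Matrix.zero_mul, add_zero, sub_smul, mul_comm m, one_mul]

theorem Lop_ax_ax {r : Λ} (hr : r ∈ L2) (e : Bool) :
    Lop (ax r e) (ax r e) = (32 : ℝ) • (ax r e : Amb) := by
  have := Lop_ax_AP hr e (R r) (-4 * sgn e)
  rw [← ax_val hr] at this
  rw [this, ax_val hr, R_sq hr, trace_smul, trace_R hr]
  simp only [Prod.smul_mk, smul_zero, smul_smul, Prod.mk.injEq, and_true, smul_eq_mul]
  refine ⟨?_, smul_cg (by ring) _⟩
  rw [← add_smul, smul_smul, ← sub_smul]
  exact smul_cg (by linear_combination 16 * sgn_mul_self e) _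

theorem ax_W {r : Λ} (hr : r ∈ L2) (e : Bool) : (ax r e : Amb).2.2 = 0 := by rw [ax_val hr]

theorem TT_ax_ax {r : Λ} (hr : r ∈ L2) (e : Bool) (w : VV) :
    TT (ax r e) (ax r e) w = 32 * ip (ax r e) w := by
  rw [← ip_Lop _ _ _ (ax_W hr e), ← ip_smul, Lop_ax_ax hr]

theorem short_dot {r s : Λ} (hr : r ∈ L2) (hs : s ∈ L2) : s = r ∨ s = -r ∨
    dotInt (r : V) (s : V) = 0 ∨ (dotInt (r : V) (s : V) = 8 ∨ dotInt (r : V) (s : V) = -8) ∨
      (dotInt (r : V) (s : V) = 16 ∨ dotInt (r : V) (s : V) = -16) := by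
  by_cases h1 : s = r
  · exact Or.inl h1
  by_cases h2 : s = -r
  · exact Or.inr (Or.inl h2)
  have a := norm_ge (r - s).2 fun h => h1 (by
    rw [eq_comm, ← sub_eq_zero]; exact Subtype.ext h)
  have b := norm_ge (r + s).2 fun h => h2 (by
    rw [eq_neg_iff_add_eq_zero, add_comm]; exact Subtype.ext h)
  rw [AddSubgroupClass.coe_sub, norm_sub] at a
  rw [AddMemClass.coe_add, norm_add] at b
  rw [show sqNorm (r : V) = 32 from hr, show sqNorm (s : V) = 32 from hs] at a b
  have := dot8 r.2 s.2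
  omega

theorem cl_sub' (r s : Λ) : cl (r - s) = cl (r + s) := by
  rw [sub_eq_add_neg, cl_add, cl_neg, cl_add]

theorem exists_third {r s : Λ} (hr : r ∈ L2) (hs : s ∈ L2)
    (h : dotInt (r : V) (s : V) = 16 ∨ dotInt (r : V) (s : V) = -16) :
    ∃ u ∈ L2, cl u = cl (r + s) ∧ dotInt (r : V) (u : V) = 16 := by
  rcases h with h | h
  · refine ⟨r - s, ?_, cl_sub' _ _, ?_⟩
    · change sqNorm ((r : V) - (s : V)) = 32
      rw [norm_sub, show sqNorm (r : V) = 32 from hr, show sqNorm (s : V) = 32 from hs, h]; norm_num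
    · rw [AddSubgroupClass.coe_sub, dot_sub_right, dot_L2 hr, h]; norm_num
  · refine ⟨r + s, ?_, rfl, ?_⟩
    · change sqNorm ((r : V) + (s : V)) = 32
      rw [norm_add, show sqNorm (r : V) = 32 from hr, show sqNorm (s : V) = 32 from hs, h]; norm_num
    · rw [AddMemClass.coe_add, dot_add_right, dot_L2 hr, h]; norm_num

theorem mc_PL_add {r s q : Λ} (hr : r ∈ L2) (hs : s ∈ L2) (hq : q ∈ L2)
    (h : ¬(dotInt (r : V) (s : V) = 16 ∨ dotInt (r : V) (s : V) = -16)) : mc (PL (r + s)) q = 0 := by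
  rw [mc_PL hq, if_neg]
  exact fun e => h (short_add hr hs hq (by rw [e, cl_add]))

theorem pr_PL_mul {r s : Λ} (hr : r ∈ L2) (hs : s ∈ L2)
    (h : ¬(dotInt (r : V) (s : V) = 16 ∨ dotInt (r : V) (s : V) = -16)) : pr (PL r * PL s) = 0 := by
  rw [PL_mul', pr_smul, pr, sum_eq_zero fun q hq => ?_, smul_zero]
  rw [mc_PL_add hr hs (mem_L2F.1 hq) h, zero_div, zero_smul]

theorem PL_comm' (x y : Λ) : PL x * PL y =
    (if dotInt (x : V) (y : V) / 8 % 2 = 0 then (1 : ℝ) else -1) • (PL y * PL x) := by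
  rw [← sg_cl_comm, PL_mul', PL_mul', smul_smul, mul_assoc, sg_mul_self, mul_one, add_comm]

theorem xq_smul {r : Λ} (hr : r ∈ L2) (e : Bool) (v : VV) : ((xq r e • v : VV) : Amb) =
    ((v : Amb).1, PL r * (v : Amb).2.1 * PL r, sgn e • ((v : Amb).2.2 * PL r)) := by
  rw [xq, rho_smul]
  simp only [act, qe, LinearMap.coe_mk, AddHom.coe_mk, mat_one, Matrix.one_mul, transpose_one,
    Matrix.mul_one, transpose_smul, PL_tr hr, Matrix.mul_smul, Matrix.smul_mul, smul_smul,
    sgn_mul_self, one_smul]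


theorem Lop_ax_P {r s : Λ} (hr : r ∈ L2) (hs : s ∈ L2) (h : cl r ≠ cl s) (e : Bool) :
    Lop (ax r e) (0, PL s, 0) = (0, sq8 r s • PL s - (4 * sgn e) • pr (PL r * PL s), 0) := by
  rw [Lop_ax hr]
  simp only [mc_PL hr, if_neg h, Matrix.mul_zero, Matrix.zero_mul, add_zero, smul_zero, mul_zero,
    zero_smul, sub_zero, trace_zero, dg8_PL r hs]

theorem ne_of_dot {r s : Λ} (hr : r ∈ L2) (hs : s ∈ L2) (h1 : dotInt (r : V) (s : V) ≠ 32)
    (h2 : dotInt (r : V) (s : V) ≠ -32) : cl r ≠ cl s := fun e => by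
  rcases short_eq hr hs e with rfl | rfl
  · exact h1 (dot_L2 hr)
  · exact h2 (by rw [NegMemClass.coe_neg, dot_neg_right, dot_L2 hr])

theorem P_conj {r : Λ} (hr : r ∈ L2) (s : Λ) : PL r * PL s * PL r =
    (if dotInt (r : V) (s : V) / 8 % 2 = 0 then (1 : ℝ) else -1) • PL s := by
  rw [PL_comm', Matrix.smul_mul, Matrix.mul_assoc, PL_sq hr, Matrix.mul_one]

theorem key_ax {r : Λ} (hr : r ∈ L2) (e : Bool) {v : Amb} (hv : v ∈ V0) :
    Lop (ax r e) (Lop (ax r e) v) - (8 : ℝ) • Lop (ax r e) v =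
      (24 * ip (ax r e) v) • (ax r e : Amb) -
        (7 / 2 : ℝ) • (v - (v.1, PL r * v.2.1 * PL r, sgn e • (v.2.2 * PL r))) := by
  have hε := sgn_mul_self e
  have hAP : ∀ (A : Matrix ι ι ℝ) (m : ℝ), Lop (ax r e) (Lop (ax r e) (A, m • PL r, 0)) -
      (8 : ℝ) • Lop (ax r e) (A, m • PL r, 0) =
      (24 * ip (ax r e) (A, m • PL r, 0)) • (ax r e : Amb) := fun A m => by
    rw [Lop_ax_AP hr, Lop_ax_AP hr, ip_ax hr, ax_val hr]
    simp only [Prod.smul_mk, Prod.mk_sub_mk, smul_zero, sub_zero, Prod.mk.injEq, and_true, mc_smul,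
      mc_PL hr, if_true, Matrix.mul_sub, Matrix.sub_mul, Matrix.mul_add, Matrix.add_mul,
      Matrix.mul_smul, Matrix.smul_mul, ← Matrix.mul_assoc, R_sq hr, R_A_R, trace_sub, trace_add,
      trace_smul, trace_R hr, smul_eq_mul, Matrix.mul_assoc A]
    generalize trace (R r * A) = α
    rcases sgn_cases e with h | h <;> rw [h] <;> exact ⟨by module, by module⟩
  refine V0_ind (p := fun v => Lop (ax r e) (Lop (ax r e) v) - (8 : ℝ) • Lop (ax r e) v =
      (24 * ip (ax r e) v) • (ax r e : Amb) -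
        (7 / 2 : ℝ) • (v - (v.1, PL r * v.2.1 * PL r, sgn e • (v.2.2 * PL r)))) ?_ ?_ ?_ ?_ ?_ hv
  · intro A _
    have := hAP A 0
    rw [zero_smul] at this
    simp only [this, Matrix.mul_zero, Matrix.zero_mul, smul_zero, sub_self, sub_zero]
  · intro s hs
    have hP : Lop (ax r e) (Lop (ax r e) (0, PL r, 0)) - (8 : ℝ) • Lop (ax r e) (0, PL r, 0) =
        (24 * ip (ax r e) (0, PL r, 0)) • (ax r e : Amb) - (7 / 2 : ℝ) •
          (((0, PL r, 0) : Amb) - ((0, PL r * PL r * PL r, sgn e • ((0 : Matrix ι κ ℝ) * PL r)) : Amb)) := by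
      have := hAP 0 1
      rw [one_smul] at this
      simp only [this, PL_sq hr, Matrix.one_mul, Matrix.zero_mul, smul_zero, sub_self, sub_zero]
    have hip : cl r ≠ cl s → ip (ax r e) (0, PL s, 0) = 0 := fun h => by
      rw [ip_ax hr]
      simp only [mc_PL hr, if_neg h, Matrix.mul_zero, trace_zero, mul_zero, sub_zero]
    have z : Lop (ax r e) ((0, 0, 0) : Amb) = 0 := by
      have := Lop_smul 0 (ax r e) 0
      rwa [zero_smul, zero_smul] at this
    rcases short_dot hr hs with rfl | rfl | h | h | h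
    · exact hP
    · rw [PL_neg]; exact hP
    · have n := ne_of_dot hr hs (by omega) (by omega)
      rw [Lop_ax_P hr hs n, pr_PL_mul hr hs (by omega), hip n, P_conj hr, sq8, h]
      simp [z]
    · have n := ne_of_dot hr hs (by omega) (by omega)
      have e1 : Lop (ax r e) (0, PL s, 0) = (0, PL s, 0) := by
        rw [Lop_ax_P hr hs n, pr_PL_mul hr hs (by omega), sq8]
        rcases h with h | h <;> rw [h] <;> simp
      rw [e1, e1, hip n, P_conj hr, if_neg (by omega)]
      simp only [Prod.smul_mk, Prod.mk_sub_mk, smul_zero, sub_zero, Matrix.zero_mul, mul_zero,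
        zero_smul, zero_sub, Prod.neg_mk, neg_zero, Prod.mk.injEq, true_and, and_true]
      module
    · have n := ne_of_dot hr hs (by omega) (by omega)
      obtain ⟨u, hu, cu, du⟩ := exists_third hr hs h
      have n' := ne_of_dot hr hu (by omega) (by omega)
      have e1 := PL_mul' r s
      rw [← PL_congr cu] at e1
      have hσ := sg_mul_self (cl r / 4096) (cl s % 4096)
      generalize sg (cl r / 4096) (cl s % 4096) = σ at e1 hσ
      have e2 : PL r * PL u = σ • PL s := by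
        have := congrArg (fun M => σ • (PL r * M)) e1
        simp only [← Matrix.mul_assoc, PL_sq hr, Matrix.one_mul, Matrix.mul_smul, smul_smul, hσ,
          one_smul] at this
        exact this.symm
      have s1 : sq8 r s = 4 := by rw [sq8]; rcases h with h | h <;> rw [h] <;> norm_num
      have s2 : sq8 r u = 4 := by rw [sq8, du]; norm_num
      have a1 : Lop (ax r e) (0, PL s, 0) =
          (4 : ℝ) • (0, PL s, 0) + (-4 * sgn e * σ) • (0, PL u, 0) := by
        rw [Lop_ax_P hr hs n, e1, pr_smul, pr_US (PL_mem hu), s1]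
        simp only [Prod.smul_mk, Prod.mk_add_mk, smul_zero, add_zero, Prod.mk.injEq, true_and,
          and_true]
        module
      have a2 : Lop (ax r e) (0, PL u, 0) =
          (4 : ℝ) • (0, PL u, 0) + (-4 * sgn e * σ) • (0, PL s, 0) := by
        rw [Lop_ax_P hr hu n', e2, pr_smul, pr_US (PL_mem hs), s2]
        simp only [Prod.smul_mk, Prod.mk_add_mk, smul_zero, add_zero, Prod.mk.injEq, true_and,
          and_true]
        module
      rw [a1, Lop_add, Lop_smul, Lop_smul, a1, a2, hip n, P_conj hr, if_pos (by omega)]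
      simp only [one_smul, Matrix.zero_mul, smul_zero, sub_self, mul_zero, zero_smul]
      have : (-4 * sgn e * σ) * (-4 * sgn e * σ) = 16 := by
        linear_combination 16 * σ * σ * hε + 16 * hσ
      generalize -4 * sgn e * σ = c at this
      linear_combination (norm := module) this • ((0, PL s, 0) : Amb)
  · intro W
    rw [Lop_ax hr, Lop_ax hr, ip_ax hr]
    simp only [Matrix.mul_zero, Matrix.zero_mul, add_zero, smul_zero, mc_zero, mul_zero, zero_smul,
      sub_zero, dg8_zero, pr_zero, trace_zero, Prod.smul_mk, Prod.mk_sub_mk, zero_sub, Prod.neg_mk,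
      neg_zero, Prod.mk.injEq, true_and, Matrix.mul_sub, Matrix.sub_mul, Matrix.mul_add,
      Matrix.add_mul, Matrix.mul_smul, Matrix.smul_mul, Matrix.one_mul, ← Matrix.mul_assoc, R_sq hr,
      Matrix.mul_assoc _ (PL r) (PL r), PL_sq hr, Matrix.mul_one]
    rcases sgn_cases e with h | h <;> rw [h] <;> module
  · intro u v hu hv
    rw [Lop_add, Lop_add, ip_comm, ip_add, ip_comm u, ip_comm v]
    simp only [Prod.fst_add, Prod.snd_add, Matrix.mul_add, Matrix.add_mul, smul_add,
      ← Prod.mk_add_mk]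
    linear_combination (norm := module) hu + hv
  · intro a v hv
    rw [Lop_smul, Lop_smul, ip_comm, ip_smul, ip_comm v]
    simp only [Prod.smul_fst, Prod.smul_snd, Matrix.mul_smul, Matrix.smul_mul, smul_comm (sgn e) a,
      ← Prod.smul_mk]
    linear_combination (norm := module) a • hv

theorem xq_eq_LL {r : Λ} (hr : r ∈ L2) (e : Bool) (v : VV) : xq r e • v = v + (2 / 7 : ℝ) •
    (LL (ax r e) (LL (ax r e) v) - (8 : ℝ) • LL (ax r e) v - (24 * ip (ax r e) v) • ax r e) := by
  refine Subtype.ext ?_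
  have := key_ax hr e v.2
  rw [← xq_smul hr] at this
  simp only [Submodule.coe_add, Submodule.coe_smul, Submodule.coe_sub, LL_val]
  linear_combination (norm := module) (-2 / 7 : ℝ) • this

theorem GG_add (k : GG) (u v : VV) : k • (u + v) = k • u + k • v := smul_add k u v
theorem GG_sub (k : GG) (u v : VV) : k • (u - v) = k • u - k • v := smul_sub k u v
theorem GG_smul (k : GG) (a : ℝ) (u : VV) : k • (a • u) = a • (k • u) := map_smul k.1 a u
theorem GG_ext {k l : GG} (h : ∀ v : VV, k • v = l • v) : k = l := Units.ext (LinearMap.ext h)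

/-- an automorphism fixing a short axis centralises its involution -/
theorem miyamoto {k : GG} (hk : k ∈ Aut) {r : Λ} (hr : r ∈ L2) {e : Bool} (h : k • ax r e = ax r e) :
    k * xq r e = xq r e * k := by
  refine GG_ext fun v => ?_
  have hL : ∀ v, LL (ax r e) (k • v) = k • LL (ax r e) v := fun v => by
    rw [← Aut_LL hk (ax_W hr e) (by rw [h]; exact ax_W hr e), h]
  have hi : ip (ax r e) (k • v : VV) = ip (ax r e) v := by rw [← hk.1 (ax r e) v, h]
  rw [mul_smul, mul_smul, xq_eq_LL hr, xq_eq_LL hr, hL, hL, hi, GG_add, GG_smul, GG_sub, GG_sub,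
    GG_smul, GG_smul, h]


theorem R_third {r s t : Λ} (hr : r ∈ L2) (hs : s ∈ L2) (ht : t ∈ L2) (h : cl t = cl (r + s)) :
    (2 : ℝ) • (R r * R s + R s * R r) = (4 : ℝ) • (R r + R s - R t) := by
  rcases short_add hr hs ht (by rw [h, cl_add]) with d | d
  · have hu : r - s ∈ L2 := by
      change sqNorm ((r : V) - (s : V)) = 32
      rw [norm_sub, show sqNorm (r : V) = 32 from hr, show sqNorm (s : V) = 32 from hs, d]; norm_num
    rw [R_congr ht hu (h.trans (cl_sub' _ _).symm)]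
    ext i j
    simp only [Matrix.smul_apply, Matrix.add_apply, Matrix.sub_apply, R_mul_R, dot_comm (s : V), d,
      R, AddSubgroupClass.coe_sub, Pi.sub_apply, smul_eq_mul]
    push_cast; ring
  · have hu : r + s ∈ L2 := by
      change sqNorm ((r : V) + (s : V)) = 32
      rw [norm_add, show sqNorm (r : V) = 32 from hr, show sqNorm (s : V) = 32 from hs, d]; norm_num
    rw [R_congr ht hu h]
    ext i j
    simp only [Matrix.smul_apply, Matrix.add_apply, Matrix.sub_apply, R_mul_R, dot_comm (s : V), d,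
      R, AddMemClass.coe_add, Pi.add_apply, smul_eq_mul]
    push_cast; ring

/-- the `2A` algebra -/
theorem twoA {r s t : Λ} (hr : r ∈ L2) (hs : s ∈ L2) (ht : t ∈ L2) {e f g : Bool}
    (h : xq r e * xq s f = xq t g) (w : VV) :
    TT (ax r e) (ax s f) w = 4 * ip (ax r e + ax s f - ax t g : VV) w := by
  obtain ⟨g', hg⟩ := exists_sgn_mul r s e f
  rw [xq_mul hg, xq_eq_iff] at h
  obtain ⟨c, rfl⟩ := h
  have d := short_add hr hs ht (by rw [← c, cl_add])
  have n := ne_of_dot hr hs (by omega) (by omega)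
  have s1 : sq8 r s = 4 := by rw [sq8]; rcases d with h | h <;> rw [h] <;> norm_num
  rw [← ip_Lop _ _ _ (ax_W hr e), ← ip_smul]
  refine congrArg (ip · _) ?_
  rw [Lop_ax hr, Submodule.coe_sub, Submodule.coe_add, ax_val hr, ax_val hs, ax_val ht]
  simp only [mc_smul, mc_PL hr, if_neg n, mul_zero, zero_smul, sub_zero, R_third hr hs ht c.symm,
    dg8_smul, dg8_PL r hs, s1, Matrix.mul_smul, PL_mul', PL_congr c, pr_smul, pr_US (PL_mem ht),
    trace_R_R, Matrix.mul_zero, Matrix.zero_mul, smul_zero, add_zero, Prod.mk_add_mk,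
    Prod.mk_sub_mk, Prod.smul_mk, Prod.mk.injEq, true_and, and_true, ← hg]
  rw [show ((dotInt (r : V) (s : V) : ℝ) / 8) ^ 2 = 4 from s1]
  module

end Cfsg.Agent.Mo
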