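import Cfsg.Agent.Mo.Alg1

/-! Dimension bounds. -/

set_option autoImplicit false

namespace Cfsg.Agent.Mo

open H5 H5.Lee Matrix Finset Module

theorem exists_half {α : Type*} (S : Finset α) (σ : α → α) (hσ : ∀ s ∈ S, σ s ∈ S)
    (h2 : ∀ s ∈ S, σ (σ s) = s) (hn : ∀ s ∈ S, σ s ≠ s) :
    ∃ T ⊆ S, 2 * #T ≤ #S ∧ ∀ s ∈ S, s ∈ T ∨ σ s ∈ T := by
  classical
  obtain ⟨o, -⟩ := exists_wellFoundedLT (α := α)
  refine ⟨S.filter fun s => s < σ s, filter_subset _ _, ?_, fun s hs => ?_⟩
  · have h1 : #(S.filter fun s => s < σ s) ≤ #(S.filter fun s => ¬ s < σ s) := by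
      refine card_le_card_of_injOn σ (fun s hs => ?_) fun s hs t ht e => ?_
      · have := mem_filter.1 (mem_coe.1 hs)
        refine mem_coe.2 (mem_filter.2 ⟨hσ s this.1, ?_⟩)
        rw [h2 s this.1]; exact not_lt_of_gt this.2
      · rw [← h2 s (mem_filter.1 (mem_coe.1 hs)).1, e, h2 t (mem_filter.1 (mem_coe.1 ht)).1]
    have := card_filter_add_card_filter_not (s := S) fun s => s < σ s
    omega
  · rcases lt_or_gt_of_ne (hn s hs) with h | h
    · exact Or.inr (mem_filter.2 ⟨hσ s hs, by rw [h2 s hs]; exact h⟩)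
    · exact Or.inl (mem_filter.2 ⟨hs, h⟩)

theorem card_ι : Fintype.card ι = 24 := rfl

theorem card_κ : Fintype.card κ = 4096 := Fintype.card_fin _

theorem card_L2F : #L2F = 196560 := by
  rw [← ncard_L2, L2F, ← Set.ncard_eq_toFinset_card _ (finite_normL 32)]; rfl

theorem finrank_US : finrank ℝ US ≤ 98280 := by
  classical
  obtain ⟨T, hT, hc, h⟩ := exists_half L2F (fun r => -r)
    (fun s hs => mem_L2F.2 (neg_mem_L2 (mem_L2F.1 hs))) (fun s _ => neg_neg s)
    fun s hs => (ne_neg_L2 (mem_L2F.1 hs)).symm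
  have e : PL '' L2 = (T.image PL : Finset _) := by
    ext M
    simp only [Set.mem_image, coe_image, mem_coe]
    refine ⟨fun ⟨r, hr, e⟩ => ?_, fun ⟨r, hr, e⟩ => ⟨r, mem_L2F.1 (hT hr), e⟩⟩
    rcases h r (mem_L2F.2 hr) with h | h
    exacts [⟨r, h, e⟩, ⟨-r, h, (PL_neg r).trans e⟩]
  have h1 := finrank_span_finset_le_card (R := ℝ) (T.image PL)
  have h2 := card_image_le (s := T) (f := PL)
  rw [card_L2F] at hc
  rw [US, e]
  exact h1.trans (by omega)

theorem finrank_symS : finrank ℝ symS ≤ 300 := by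
  let f : symS →ₗ[ℝ] (Sym2 ι → ℝ) :=
    { toFun := fun A => Sym2.lift ⟨fun i j => A.1 i j, fun i j =>
        congrFun (congrFun (show A.1ᵀ = A.1 from A.2) j) i⟩
      map_add' := fun A B => funext (Sym2.ind fun i j => rfl)
      map_smul' := fun a A => funext (Sym2.ind fun i j => rfl) }
  have hf : Function.Injective f := fun A B h => Subtype.ext (Matrix.ext fun i j => congrFun h s(i, j))
  have := LinearMap.finrank_le_finrank_of_injective hf
  rwa [finrank_fintype_fun_eq_card, Sym2.card, card_ι] at this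

theorem finrank_VV : finrank ℝ VV ≤ 196884 := by
  let f : VV →ₗ[ℝ] symS × US × Matrix ι κ ℝ :=
    { toFun := fun u => (⟨u.1.1, u.2.1⟩, ⟨u.1.2.1, u.2.2.1⟩, u.1.2.2)
      map_add' := fun _ _ => rfl
      map_smul' := fun _ _ => rfl }
  have hf : Function.Injective f := fun u v h => Subtype.ext (Prod.ext
    (congrArg (fun x => x.1.1) h) (Prod.ext (congrArg (fun x => x.2.1.1) h)
      (congrArg (fun x => x.2.2) h)))
  have := LinearMap.finrank_le_finrank_of_injective hf
  have e := finrank_matrix ℝ ℝ ι κ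
  rw [card_ι, card_κ, finrank_self] at e
  rw [finrank_prod, finrank_prod, e] at this
  exact this.trans (Nat.add_le_add finrank_symS (Nat.add_le_add finrank_US (le_refl 98304)))

theorem finrank_fix {n : Type*} [Fintype n] [DecidableEq n] {Q : Matrix n n ℝ} (h : Q * Q = 1)
    (ht : trace Q = 0) : 2 * finrank ℝ (LinearMap.ker (toLin' (Q - 1))) = Fintype.card n := by
  have hp : LinearMap.IsProj (LinearMap.ker (toLin' (Q - 1))) (toLin' ((1 / 2 : ℝ) • (1 + Q))) := by
    refine ⟨fun x => ?_, fun x hx => ?_⟩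
    · rw [LinearMap.mem_ker, toLin'_apply, toLin'_apply, mulVec_mulVec, Matrix.mul_smul,
        Matrix.sub_mul, Matrix.mul_add, h, Matrix.mul_one, Matrix.one_mul, add_comm, sub_self,
        smul_zero, zero_mulVec]
    · rw [LinearMap.mem_ker, toLin'_apply, sub_mulVec, one_mulVec, sub_eq_zero] at hx
      rw [toLin'_apply, smul_mulVec, add_mulVec, one_mulVec, hx]
      module
  have := hp.trace
  rw [trace_toLin'_eq, trace_smul, trace_add, ht, trace_one, add_zero, smul_eq_mul] at this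
  have e : ((2 * finrank ℝ (LinearMap.ker (toLin' (Q - 1))) : ℕ) : ℝ) = Fintype.card n := by
    push_cast; linarith
  exact_mod_cast e

/-- the eigenspace of a short axis for the eigenvalue `1/4` -/
def E8 (a : VV) : Submodule ℝ VV where
  carrier := {v | ∀ w : VV, TT a v w = 8 * ip v w}
  add_mem' := fun {u v} hu hv w => by
    rw [TT_swap12, Submodule.coe_add, TT_add, ip_add, TT_swap12 u, TT_swap12 v, hu w, hv w]; ring
  zero_mem' := fun w => by
    rw [TT_swap12, show ((0 : VV) : Amb) = (0 : ℝ) • (0 : Amb) by simp, TT_smul, ip_smul]; ring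
  smul_mem' := fun c v hv w => by
    rw [TT_swap12, Submodule.coe_smul, TT_smul, ip_smul, TT_swap12 v, hv w]; ring

theorem E8_LL {r : Λ} (hr : r ∈ L2) {e : Bool} {v : VV} (hv : v ∈ E8 (ax r e)) :
    LL (ax r e) v = (8 : ℝ) • v :=
  ext_ip fun w => by rw [LL_val, ip_Lop _ _ _ (ax_W hr e), hv w, Submodule.coe_smul, ip_smul]

theorem xq_ax {r : Λ} (hr : r ∈ L2) (e : Bool) : xq r e • ax r e = ax r e := by
  refine Subtype.ext ?_
  rw [xq_smul hr, ax_val hr]
  simp only [Matrix.mul_smul, Matrix.smul_mul, PL_sq hr, Matrix.one_mul, Matrix.zero_mul, smul_zero]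

theorem E8_fix {r : Λ} (hr : r ∈ L2) {e : Bool} {v : VV} (hv : v ∈ E8 (ax r e)) :
    xq r e • v = v ∧ ip (ax r e) v = 0 := by
  have h1 := xq_eq_LL hr e v
  rw [E8_LL hr hv, map_smul, E8_LL hr hv, sub_self, zero_sub] at h1
  have h2 := (rho_mem_Aut (qe r e)).1 (ax r e) v
  change ip (xq r e • ax r e : VV) (xq r e • v : VV) = _ at h2
  rw [← neg_smul (24 * ip (ax r e) v) (ax r e)] at h1
  rw [xq_ax hr, h1, ip_comm, Submodule.coe_add, ip_add, Submodule.coe_smul, ip_smul,
    Submodule.coe_smul, ip_smul, ip_ax_self hr, ip_comm] at h2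
  have h3 : ip (ax r e) v = 0 := by linarith
  rw [h1, h3]
  simp

theorem mc_US_zero {M : Matrix κ κ ℝ} (hM : M ∈ US) {x : Λ} (h : ∀ q ∈ L2, cl x ≠ cl q) :
    mc M x = 0 := by
  rw [US_expand hM, mc_sum]
  refine sum_eq_zero fun q hq => ?_
  refine (mc_smul _ _ _).trans (mul_eq_zero_of_right _ ?_)
  rw [mc, PL_mul', trace_smul, PL, trace_P (cl_lt _), smul_zero, zero_div]
  rw [cl_add]; exact fun e => h q (mem_L2F.1 hq) (Nat.xor_eq_zero_iff.1 e)

theorem mc_PL_mul (r s : Λ) (M : Matrix κ κ ℝ) :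
    mc (PL r * M) s = sg (cl s / 4096) (cl r % 4096) * mc M (s + r) := by
  rw [mc, ← Matrix.mul_assoc, PL_mul', Matrix.smul_mul, trace_smul, mc, smul_eq_mul]; ring

theorem mc_congr (M : Matrix κ κ ℝ) {r s : Λ} (h : cl r = cl s) : mc M r = mc M s := by
  rw [mc, PL_congr h, mc]

theorem R_eq' (r : Λ) : R r = (1 / 8 : ℝ) • vecMulVec (rv r) (rv r) := by
  ext i j; simp only [R, rv, Matrix.smul_apply, vecMulVec_apply, smul_eq_mul]; ring
theorem rv_dot (r s : Λ) : rv r ⬝ᵥ rv s = (dotInt (r : V) (s : V) : ℝ) := by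
  simp only [rv, dotProduct, dotInt, Int.cast_sum, Int.cast_mul]
theorem trace_R_mul (r : Λ) (A : Matrix ι ι ℝ) : trace (R r * A) = rv r ⬝ᵥ (A *ᵥ rv r) / 8 := by
  rw [R_eq', Matrix.smul_mul, trace_smul, vecMulVec_mul, trace_vecMulVec, dotProduct_comm,
    ← dotProduct_mulVec, smul_eq_mul]; ring

theorem R_mul {n : Type*} (r : Λ) (W : Matrix ι n ℝ) :
    R r * W = (1 / 8 : ℝ) • vecMulVec (rv r) (Wᵀ *ᵥ rv r) := by
  rw [R_eq', Matrix.smul_mul, vecMulVec_mul, mulVec_transpose]

theorem E8_zero {r : Λ} (hr : r ∈ L2) {e : Bool} {v : VV} (hv : v ∈ E8 (ax r e)) {T : Finset Λ}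
    (hT : ∀ s ∈ L2, dotInt (r : V) (s : V) = -16 → s ∈ T ∨ -r - s ∈ T)
    (h1 : (v : Amb).1 *ᵥ rv r = 0) (h2 : ∀ s ∈ T, mc (v : Amb).2.1 s = 0)
    (h3 : (v : Amb).2.2ᵀ *ᵥ rv r = 0) : v = 0 := by
  have hL := congrArg Subtype.val (E8_LL hr hv)
  obtain ⟨hf, hi⟩ := E8_fix hr hv
  have hW := congrArg (fun u : VV => (u : Amb).2.2) hf
  simp only [xq_smul hr] at hW
  rw [LL_val, Lop_ax hr, Submodule.coe_smul] at hL
  have hRA : R r * (v : Amb).1 = 0 := by rw [R_mul, tr1, h1]; ext; simp [vecMulVec_apply]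
  have hAR : (v : Amb).1 * R r = 0 := by
    rw [← tr1, ← R_tr, ← transpose_mul, hRA, transpose_zero]
  have hRW : R r * (v : Amb).2.2 = 0 := by rw [R_mul, h3]; ext; simp [vecMulVec_apply]
  rw [ip_ax hr, hRA, trace_zero, zero_sub, neg_eq_zero] at hi
  have hm : mc (v : Amb).2.1 r = 0 := by
    linear_combination (sgn e / 4) * hi - mc (v : Amb).2.1 r * sgn_mul_self e
  have a1 := congrArg Prod.fst hL
  have a2 := congrArg (fun u : Amb => u.2.1) hL
  have a3 := congrArg (fun u : Amb => u.2.2) hL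
  simp only [hRA, hAR, hi, hRW, Matrix.sub_mul, Matrix.smul_mul, Matrix.one_mul, Matrix.zero_mul,
    add_zero, smul_zero, zero_smul, sub_zero, trace_zero, mul_zero, Prod.smul_fst, Prod.smul_snd,
    zero_add] at a1 a2 a3
  have hc : ∀ s ∈ L2, sq8 r s * mc (v : Amb).2.1 s - 4 * sgn e * (sg (cl s / 4096) (cl r % 4096) *
      mc (v : Amb).2.1 (s + r)) = 8 * mc (v : Amb).2.1 s := fun s hs => by
    have := congrArg (mc · s) a2
    simpa only [mc_sub, mc_smul, mc_dg8 r _ hs, mc_pr _ hs, mc_PL_mul] using this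
  have h16 : ∀ s ∈ L2, dotInt (r : V) (s : V) = -16 → mc (v : Amb).2.1 s = 0 := fun s hs d => by
    rcases hT s hs d with h | h
    · exact h2 s h
    · have := hc s hs
      rw [mc_congr _ (show cl (s + r) = cl (-r - s) by
        rw [← cl_neg]; congr 1; abel), h2 _ h, sq8, d] at this
      norm_num at this
      linarith
  refine Subtype.ext (Prod.ext ?_ (Prod.ext (US_ext (mem2 v) (zero_mem _) fun s hs => ?_) ?_))
  · exact (smul_eq_zero.1 a1.symm).resolve_left (by norm_num)
  · refine Eq.trans ?_ (mc_zero _).symm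
    have hz : ¬(dotInt (r : V) (s : V) = 16 ∨ dotInt (r : V) (s : V) = -16) →
        mc (v : Amb).2.1 (s + r) = 0 := fun h => mc_US_zero (mem2 v) fun q hq e =>
      h (short_add hr hs hq (by rw [← e, add_comm, cl_add]))
    have := hc s hs
    rcases short_dot hr hs with rfl | rfl | h | h | h | h
    · exact hm
    · rw [mc_neg]; exact hm
    · rw [hz (by omega), sq8, h] at this
      norm_num at this
      exact this
    · rw [hz (by omega), sq8] at this
      rcases h with h | h <;> rw [h] at this <;> norm_num at this <;> linarith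
    · rw [← mc_neg]
      exact h16 _ (neg_mem_L2 hs) (by rw [NegMemClass.coe_neg, dot_neg_right, h])
    · exact h16 _ hs h
  · change (v : Amb).2.2 = 0
    linear_combination (norm := module) (-1 / 8 : ℝ) • a3 - (1 / 16 : ℝ) • hW

theorem finrank_E8 {r : Λ} (hr : r ∈ L2) (e : Bool) : finrank ℝ (E8 (ax r e)) ≤ 4371 := by
  classical
  obtain ⟨T, -, hc, hT⟩ := exists_half (L2F.filter fun s : Λ => dotInt (r : V) (s : V) = -16)
    (fun s => -r - s) (fun s hs => by
      obtain ⟨hs, d⟩ := mem_filter.1 hs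
      have hs := mem_L2F.1 hs
      refine mem_filter.2 ⟨mem_L2F.2 ?_, ?_⟩
      · change sqNorm (-(r : V) - (s : V)) = 32
        rw [norm_sub, norm_neg, dot_neg_left, show sqNorm (r : V) = 32 from hr,
          show sqNorm (s : V) = 32 from hs, d]; norm_num
      · change dotInt _ (-(r : V) - (s : V)) = _
        rw [dot_sub_right, dot_neg_right, dot_L2 hr, d]; norm_num)
    (fun s _ => by abel) fun s hs e => by
      obtain ⟨hs, d⟩ := mem_filter.1 hs
      have := dot_L2 (mem_L2F.1 hs)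
      nth_rewrite 1 [← e] at this
      change dotInt (-(r : V) - (s : V)) _ = _ at this
      rw [dot_sub_left, dot_neg_left, dot_L2 (mem_L2F.1 hs), d] at this
      omega
  have c1 : #(L2F.filter fun s : Λ => dotInt (r : V) (s : V) = -16) = 4600 := by
    rw [← (ncard_dots hr).1, ← Set.ncard_coe_finset]
    congr 1
    ext s
    simp only [coe_filter, mem_L2F, Set.mem_ofPred_eq]
  let K1 : Submodule ℝ (ι → ℝ) := LinearMap.ker (dotProductBilin ℝ ℝ (rv r))
  have k1 : finrank ℝ K1 < 24 := by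
    have : K1 ≠ ⊤ := fun h => by
      have : rv r ∈ K1 := h ▸ Submodule.mem_top
      change rv r ⬝ᵥ rv r = 0 at this
      rw [rv_dot, dot_L2 hr] at this
      norm_num at this
    have := Submodule.finrank_lt this
    rwa [finrank_fintype_fun_eq_card, card_ι] at this
  have k2 := finrank_fix (Q := sgn e • PL r) (by
    rw [Matrix.smul_mul, Matrix.mul_smul, PL_sq hr, smul_smul, sgn_mul_self, one_smul])
    (by rw [trace_smul, trace_PL hr, smul_zero])
  rw [card_κ] at k2
  let f : E8 (ax r e) →ₗ[ℝ] K1 × (T → ℝ) × LinearMap.ker (toLin' (sgn e • PL r - 1)) :=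
    { toFun := fun v => (⟨v.1.1.1 *ᵥ rv r, by
          have hL := congrArg (fun u : VV => trace (R r * (u : Amb).1)) (E8_LL hr v.2)
          have hi := (E8_fix hr v.2).2
          rw [ip_ax hr] at hi
          simp only [LL_val, Lop_ax hr, Submodule.coe_smul, Prod.smul_fst, Matrix.mul_sub,
            Matrix.mul_smul, Matrix.mul_add, ← Matrix.mul_assoc, R_sq hr, R_A_R, Matrix.smul_mul,
            trace_sub, trace_smul, trace_add, trace_R hr, smul_eq_mul] at hL
          have := trace_R_mul r v.1.1.1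
          change rv r ⬝ᵥ _ = 0
          linarith⟩,
        fun s => mc v.1.1.2.1 s, ⟨v.1.1.2.2ᵀ *ᵥ rv r, by
          have hW := congrArg (fun u : VV => (u : Amb).2.2ᵀ) (E8_fix hr v.2).1
          simp only [xq_smul hr, transpose_smul, transpose_mul, PL_tr hr] at hW
          rw [LinearMap.mem_ker, toLin'_apply, mulVec_mulVec, Matrix.sub_mul, Matrix.smul_mul, hW,
            Matrix.one_mul, sub_self, zero_mulVec]⟩)
      map_add' := fun u v => Prod.ext (Subtype.ext (add_mulVec u.1.1.1 v.1.1.1 _))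
        (Prod.ext (funext fun s => mc_add _ _ _) (Subtype.ext (add_mulVec u.1.1.2.2ᵀ v.1.1.2.2ᵀ _)))
      map_smul' := fun a v => Prod.ext (Subtype.ext (smul_mulVec a v.1.1.1 _))
        (Prod.ext (funext fun s => mc_smul _ _ _) (Subtype.ext (smul_mulVec a v.1.1.2.2ᵀ _))) }
  have hf0 : ∀ v, f v = 0 → v = 0 := fun v h => Subtype.ext
    (E8_zero hr v.2 (fun s hs d => hT s (mem_filter.2 ⟨mem_L2F.2 hs, d⟩))
      (congrArg (fun x => x.1.1) h) (fun s hs => congrArg (fun x => x.2.1 ⟨s, hs⟩) h)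
      (congrArg (fun x => x.2.2.1) h))
  have hf : Function.Injective f := fun u v h =>
    sub_eq_zero.1 (hf0 _ ((f.map_sub u v).trans (sub_eq_zero.2 h)))
  have := LinearMap.finrank_le_finrank_of_injective hf
  rw [finrank_prod, finrank_prod, finrank_fintype_fun_eq_card, Fintype.card_coe] at this
  omega

end Cfsg.Agent.Mo
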