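import Mathlib

/-! Orthogonal maps of a matrix space normalising the left multiplications. -/

set_option autoImplicit false

namespace Cfsg.Agent.Mo

open Matrix Finset

variable {m n : Type*} [Fintype m] [Fintype n] [DecidableEq m] [DecidableEq n]

omit [Fintype n] in
theorem left_cancel_all [Nonempty n] {Y Z : Matrix m m ℝ} (h : ∀ W : Matrix m n ℝ, Y * W = Z * W) :
    Y = Z := by
  obtain ⟨k⟩ := ‹Nonempty n›
  ext i j
  simpa using congrFun (congrFun (h (single j k 1)) i) k

omit [Fintype m] in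
theorem right_cancel_all [Nonempty m] {Y Z : Matrix n n ℝ} (h : ∀ W : Matrix m n ℝ, W * Y = W * Z) :
    Y = Z := by
  obtain ⟨k⟩ := ‹Nonempty m›
  ext i j
  simpa using congrFun (congrFun (h (single k i 1)) k) j

omit [DecidableEq m] [DecidableEq n] in
theorem trace_tr_eq_zero {A : Matrix m n ℝ} (h : trace (A * Aᵀ) = 0) : A = 0 := by
  simp only [trace, Matrix.diag, Matrix.mul_apply, transpose_apply] at h
  have h' := (sum_eq_zero_iff_of_nonneg fun i _ => sum_nonneg fun j _ => mul_self_nonneg (A i j)).1 h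
  ext i j
  exact mul_self_eq_zero.1
    ((sum_eq_zero_iff_of_nonneg fun j _ => mul_self_nonneg _).1 (h' i (mem_univ _)) j (mem_univ _))

theorem skolem [Nonempty m] [Nonempty n] (c : Matrix m n ℝ →ₗ[ℝ] Matrix m n ℝ)
    (hs : Function.Surjective c) (ho : ∀ W U, trace (c W * (c U)ᵀ) = trace (W * Uᵀ))
    (hA : ∀ A : Matrix m m ℝ, Aᵀ = A → ∃ B : Matrix m m ℝ, ∀ W, c (A * W) = B * c W) :
    ∃ (g : Matrix m m ℝ) (D : Matrix n n ℝ), gᵀ * g = 1 ∧ D * Dᵀ = 1 ∧ ∀ W, c W = g * W * D := by
  obtain ⟨o⟩ := ‹Nonempty m›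
  obtain ⟨k0⟩ := ‹Nonempty n›
  have un : ∀ {Y Z : Matrix m m ℝ}, (∀ W, Y * c W = Z * c W) → Y = Z := fun h =>
    left_cancel_all (n := n) fun W => by obtain ⟨U, rfl⟩ := hs W; exact h U
  have hF : ∀ i j : m, ∃ F : Matrix m m ℝ, ∀ W, c (single i j (1 : ℝ) * W) = F * c W := fun i j => by
    by_cases h : i = j
    · exact hA _ (by rw [h, transpose_single])
    obtain ⟨B, hB⟩ := hA (single i i 1) (by rw [transpose_single])
    obtain ⟨C, hC⟩ := hA (single i j 1 + single j i 1) (by
      rw [transpose_add, transpose_single, transpose_single, add_comm])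
    refine ⟨B * C, fun W => ?_⟩
    rw [Matrix.mul_assoc, ← hC, ← hB, ← Matrix.mul_assoc, Matrix.mul_add, single_mul_single_same,
      single_mul_single_of_ne _ _ _ _ h, add_zero, one_mul]
  choose F hF using hF
  have m1 : ∀ i j l, F i j * F j l = F i l := fun i j l => un fun W => by
    rw [Matrix.mul_assoc, ← hF, ← hF, ← hF, ← Matrix.mul_assoc, single_mul_single_same, one_mul]
  have m2 : ∀ i j k l, j ≠ k → F i j * F k l = 0 := fun i j k l h => un fun W => by
    rw [Matrix.mul_assoc, ← hF, ← hF, ← Matrix.mul_assoc, single_mul_single_of_ne _ _ _ _ h,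
      Matrix.zero_mul, Matrix.zero_mul, map_zero]
  have m3 : ∀ i j, (F i j)ᵀ = F j i := fun i j => un fun W => by
    rw [← sub_eq_zero]
    refine trace_tr_eq_zero ?_
    obtain ⟨U, hU⟩ := hs ((F i j)ᵀ * c W - F j i * c W)
    nth_rewrite 2 [← hU]
    rw [Matrix.sub_mul, trace_sub, ← hF, ho, Matrix.mul_assoc, trace_mul_comm, Matrix.mul_assoc,
      ← transpose_mul, ← hF, ho, transpose_mul, transpose_single, ← Matrix.mul_assoc,
      trace_mul_comm, Matrix.mul_assoc, sub_self]
  obtain ⟨v, hv, hn⟩ : ∃ v, F o o *ᵥ v = v ∧ v ⬝ᵥ v = 1 := by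
    have h0 : F o o ≠ 0 := fun h => by
      have := ho (single o o (1 : ℝ) * single o k0 (1 : ℝ)) (single o o (1 : ℝ) * single o k0 (1 : ℝ))
      rw [hF, h, Matrix.zero_mul, Matrix.zero_mul, trace_zero] at this
      simp at this
    obtain ⟨w, hw⟩ : ∃ w, F o o *ᵥ w ≠ 0 := by
      by_contra! h
      exact h0 (toLin'.injective (LinearMap.ext fun w => by simpa using h w))
    have hp : 0 < (F o o *ᵥ w) ⬝ᵥ (F o o *ᵥ w) :=
      lt_of_le_of_ne (sum_nonneg fun i _ => mul_self_nonneg _)
        fun h => hw (dotProduct_self_eq_zero.1 h.symm)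
    refine ⟨(√((F o o *ᵥ w) ⬝ᵥ (F o o *ᵥ w)))⁻¹ • (F o o *ᵥ w), ?_, ?_⟩
    · rw [mulVec_smul, mulVec_mulVec, m1]
    · rw [smul_dotProduct, dotProduct_smul, smul_smul, ← mul_inv, Real.mul_self_sqrt hp.le,
        smul_eq_mul, inv_mul_cancel₀ hp.ne']
  let g : Matrix m m ℝ := fun a i => (F i o *ᵥ v) a
  have hg : gᵀ * g = 1 := by
    ext i j
    change (F i o *ᵥ v) ⬝ᵥ (F j o *ᵥ v) = _
    rw [dotProduct_mulVec, ← mulVec_transpose, mulVec_mulVec, m3, one_apply]
    split_ifs with h
    · rw [h, m1, hv, hn]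
    · rw [m2 _ _ _ _ (Ne.symm h), zero_mulVec, zero_dotProduct]
  have hFg : ∀ i j, F i j * g = g * single i j 1 := fun i j => by
    ext a k
    change (F i j *ᵥ (F k o *ᵥ v)) a = _
    rw [mulVec_mulVec]
    by_cases h : k = j
    · rw [h, m1, mul_single_apply_same, mul_one]
    · rw [m2 _ _ _ _ (Ne.symm h), zero_mulVec, mul_single_apply_of_ne _ _ _ _ _ h]; rfl
  have hgF : ∀ i j, gᵀ * F i j = single i j 1 * gᵀ := fun i j => by
    rw [← m3, ← transpose_mul, hFg, transpose_mul, transpose_single]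
  let D : Matrix n n ℝ := fun k l => (gᵀ * c (single o k 1)) o l
  have hD : ∀ W, gᵀ * c W = W * D := fun W => by
    induction W using Matrix.induction_on' with
    | h_zero => simp
    | h_add p q a b => rw [map_add, Matrix.mul_add, a, b, Matrix.add_mul]
    | h_std_basis i k x =>
      have e : (single i k x : Matrix m n ℝ) = x • (single i o (1 : ℝ) * single o k (1 : ℝ)) := by
        rw [single_mul_single_same, smul_single, mul_one, smul_eq_mul, mul_one]
      conv_lhs => rw [e, map_smul, hF, Matrix.mul_smul, ← Matrix.mul_assoc, hgF, Matrix.mul_assoc]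
      ext a l
      by_cases h : a = i
      · rw [h, Matrix.smul_apply, single_mul_apply_same, single_mul_apply_same, one_mul, smul_eq_mul]
      · rw [Matrix.smul_apply, single_mul_apply_of_ne _ _ _ _ _ h,
          single_mul_apply_of_ne _ _ _ _ _ h, smul_zero]
  have hc : ∀ W, c W = g * W * D := fun W => by
    rw [Matrix.mul_assoc, ← hD, ← Matrix.mul_assoc, mul_eq_one_comm.1 hg, Matrix.one_mul]
  refine ⟨g, D, hg, ?_, hc⟩
  ext k l
  have := ho (single o k 1) (single o l 1)
  rw [hc, hc, transpose_mul, transpose_mul, ← Matrix.mul_assoc, ← Matrix.mul_assoc,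
    trace_mul_comm, ← Matrix.mul_assoc, ← Matrix.mul_assoc, ← Matrix.mul_assoc,
    ← Matrix.mul_assoc, hg, Matrix.one_mul, Matrix.mul_assoc _ D, transpose_single,
    trace_mul_comm, trace_mul_comm (single o k 1)] at this
  rw [← Matrix.mul_assoc, single_mul_single_same, trace_single_mul, one_mul, smul_eq_mul,
    one_mul] at this
  rw [this, one_apply]
  split_ifs with h
  · rw [h, trace_single_eq_same]
  · exact trace_single_eq_of_ne _ _ _ (Ne.symm h)

/-- two-sided multiplication -/
def sand (X : Matrix m m ℝ) (Y : Matrix n n ℝ) : Module.End ℝ (Matrix m n ℝ) where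
  toFun W := X * W * Y
  map_add' a b := by rw [Matrix.mul_add, Matrix.add_mul]
  map_smul' a b := by rw [Matrix.mul_smul, Matrix.smul_mul]; rfl

omit [DecidableEq m] [DecidableEq n] in
theorem sand_apply (X : Matrix m m ℝ) (Y : Matrix n n ℝ) (W : Matrix m n ℝ) :
    sand X Y W = X * W * Y := rfl

omit [DecidableEq m] [DecidableEq n] in
theorem sand_mul (X X' : Matrix m m ℝ) (Y Y' : Matrix n n ℝ) :
    sand X Y * sand X' Y' = sand (X * X') (Y' * Y) :=
  LinearMap.ext fun W => by simp only [Module.End.mul_apply, sand_apply, Matrix.mul_assoc]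

omit [DecidableEq m] [DecidableEq n] in
theorem trace_sand (X : Matrix m m ℝ) (Y : Matrix n n ℝ) :
    LinearMap.trace ℝ _ (sand X Y) = trace X * trace Y := by
  classical
  rw [LinearMap.trace_eq_matrix_trace ℝ (Matrix.stdBasis ℝ m n), trace, trace, trace,
    sum_mul_sum, Fintype.sum_prod_type]
  refine sum_congr rfl fun i _ => sum_congr rfl fun j _ => ?_
  rw [Matrix.diag, LinearMap.toMatrix_apply, stdBasis_eq_single, sand_apply]
  have e : ∀ W : Matrix m n ℝ, (stdBasis ℝ m n).repr W (i, j) = W i j := fun W => by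
    simp [stdBasis]
  rw [e, Matrix.mul_apply, sum_eq_single j (fun b _ h => by
    rw [mul_single_apply_of_ne _ _ _ _ _ h, zero_mul]) (by simp), mul_single_apply_same, mul_one]
  rfl

theorem trace_of_conj {M : Type*} [AddCommGroup M] [Module ℝ M] {f g e e' : Module.End ℝ M}
    (h : f * e = e * g) (h1 : e * e' = 1) (h2 : e' * e = 1) :
    LinearMap.trace ℝ M f = LinearMap.trace ℝ M g := by
  rw [← mul_one f, ← h1, ← mul_assoc, h, LinearMap.trace_mul_comm, ← mul_assoc, h2, one_mul]

omit [Fintype m] [DecidableEq m] in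
theorem eq_or_neg_of_vecMulVec {x y : m → ℝ} (h : vecMulVec x x = vecMulVec y y) :
    x = y ∨ x = -y := by
  have e : ∀ i j, x i * x j = y i * y j := fun i j => congrFun (congrFun h i) j
  by_cases h0 : ∀ i, y i = 0
  · exact Or.inl (funext fun i => by
      rw [h0 i]; exact mul_self_eq_zero.1 (by rw [e, h0, mul_zero]))
  obtain ⟨i, hi⟩ := not_forall.1 h0
  rcases mul_self_eq_mul_self_iff.1 (e i i) with a | a
  · exact Or.inl (funext fun j => mul_left_cancel₀ hi (by rw [← e, a]))
  · exact Or.inr (funext fun j => mul_left_cancel₀ hi (by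
      rw [Pi.neg_apply, mul_neg, ← e, a]; ring))

end Cfsg.Agent.Mo
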