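import Cfsg.Agent.Mo.Alg2
import Cfsg.Agent.Mo.Alg3

/-! The centraliser of the central involution. -/

set_option autoImplicit false

namespace Cfsg.Agent.Mo

open H5 H5.Lee Matrix Finset

theorem one_comm {n : Type*} [Fintype n] [DecidableEq n] {A B : Matrix n n ℝ} (h : A * B = 1) :
    B * A = 1 := mul_eq_one_comm.1 h

noncomputable def vW : Matrix ι κ ℝ →ₗ[ℝ] VV where
  toFun W := ⟨(0, 0, W), transpose_zero, zero_mem _, trivial⟩
  map_add' a b := Subtype.ext (by simp)
  map_smul' a b := Subtype.ext (by simp)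
theorem vW_val (W : Matrix ι κ ℝ) : (vW W : Amb) = (0, 0, W) := rfl
noncomputable def vA (A : Matrix ι ι ℝ) (h : Aᵀ = A) : VV := ⟨(A, 0, 0), h, zero_mem _, trivial⟩
noncomputable def vP {r : Λ} (h : r ∈ L2) : VV := ⟨(0, PL r, 0), transpose_zero, PL_mem h, trivial⟩

/-- the action on the third component -/
noncomputable def wp (c : GG) : Module.End ℝ (Matrix ι κ ℝ) where
  toFun W := ((c • vW W : VV) : Amb).2.2
  map_add' a b := by rw [map_add, GG_add]; rfl
  map_smul' a b := by rw [map_smul, GG_smul]; rfl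

theorem cz_W {c : GG} (h : c * zz = zz * c) {u : VV} (hu : (u : Amb).2.2 = 0) :
    ((c • u : VV) : Amb).2.2 = 0 := by
  have e : zz • u = u := Subtype.ext (by rw [zz_smul, hu, neg_zero, ← hu])
  have := congrArg (fun v : VV => (v : Amb).2.2) (show zz • c • u = c • u by
    rw [← mul_smul, ← h, mul_smul, e])
  simp only [zz_smul] at this
  linear_combination (norm := module) (-1 / 2 : ℝ) • this

theorem cz_vW {c : GG} (h : c * zz = zz * c) (W : Matrix ι κ ℝ) : c • vW W = vW (wp c W) := by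
  have e : zz • vW W = (-1 : ℝ) • vW W := Subtype.ext (by rw [zz_smul]; simp [vW_val])
  have := congrArg Subtype.val (show zz • c • vW W = (-1 : ℝ) • c • vW W by
    rw [← mul_smul, ← h, mul_smul, e, GG_smul])
  rw [zz_smul, Submodule.coe_smul] at this
  have a1 := congrArg Prod.fst this
  have a2 := congrArg (fun u : Amb => u.2.1) this
  simp only [Prod.smul_fst, Prod.smul_snd] at a1 a2
  refine Subtype.ext (Prod.ext ?_ (Prod.ext ?_ rfl))
  · change _ = 0
    linear_combination (norm := module) (1 / 2 : ℝ) • a1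
  · change _ = 0
    linear_combination (norm := module) (1 / 2 : ℝ) • a2

theorem wp_mul {c d : GG} (h : d * zz = zz * d) : wp (c * d) = wp c * wp d :=
  LinearMap.ext fun W => by
    change ((_ • _ : VV) : Amb).2.2 = ((c • vW (wp d W) : VV) : Amb).2.2
    rw [mul_smul, cz_vW h]
theorem wp_one : wp 1 = 1 := LinearMap.ext fun W => by
  change ((_ • _ : VV) : Amb).2.2 = _
  rw [one_smul]; rfl

/-- multiplication by `u` on the third component -/
noncomputable def lm (u : Amb) : Module.End ℝ (Matrix ι κ ℝ) :=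
  sand (u.1 + (trace u.1 / 8) • 1) 1 + ∑ r ∈ L2F, (mc u.2.1 r / 16) • sand (1 - (2 : ℝ) • R r) (PL r)

theorem LL_vW (u : VV) (W : Matrix ι κ ℝ) : LL u (vW W) = vW (lm u W) := by
  refine Subtype.ext ?_
  simp only [LL_val, vW_val, Lop, lm, Matrix.mul_zero, Matrix.zero_mul, add_zero, smul_zero, mc_zero,
    mul_zero, zero_div, zero_smul, sum_const_zero, trace_zero, zero_mul, LinearMap.add_apply,
    LinearMap.sum_apply, LinearMap.smul_apply, sand_apply, Matrix.mul_one, Matrix.add_mul,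
    Matrix.smul_mul, Matrix.one_mul]

theorem vW_inj : Function.Injective vW := fun _ _ h => congrArg (fun u : VV => (u : Amb).2.2) h

theorem lm_wp {c : GG} (hc : c ∈ Aut) (h : c * zz = zz * c) {u : VV} (hu : (u : Amb).2.2 = 0) :
    lm (c • u : VV) * wp c = wp c * lm u := LinearMap.ext fun W => vW_inj (by
  rw [Module.End.mul_apply, Module.End.mul_apply, ← LL_vW, ← cz_vW h, ← cz_vW h, ← LL_vW,
    Aut_LL hc hu (cz_W h hu)])

theorem trace_lm (u : Amb) : LinearMap.trace ℝ _ (lm u) = 16384 * trace u.1 := by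
  rw [lm, map_add, map_sum, sum_eq_zero fun r hr => ?_, trace_sand, trace_one', trace_add, trace_smul,
    trace_one, card_ι, smul_eq_mul]
  · push_cast; ring
  · rw [map_smul, trace_sand, trace_PL (mem_L2F.1 hr), mul_zero, smul_zero]

theorem trace_lm_sq (u : Amb) : LinearMap.trace ℝ _ (lm u * lm u) =
    4096 * (trace (u.1 * u.1) + 5 / 8 * trace u.1 ^ 2 + 9 / 16 * ∑ r ∈ L2F, mc u.2.1 r ^ 2) := by
  simp only [lm, mul_add, add_mul, Finset.mul_sum, Finset.sum_mul, map_add, map_sum, smul_mul_assoc,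
    mul_smul_comm, sand_mul, map_smul, trace_sand, Matrix.mul_one, Matrix.one_mul, trace_one',
    smul_eq_mul, trace_add, trace_smul, trace_one, card_ι, sum_add_distrib]
  have z : ∀ f g : Λ → ℝ, ∑ r ∈ L2F, f r * (g r * trace (PL r)) = 0 := fun f g =>
    sum_eq_zero fun r hr => by rw [trace_PL (mem_L2F.1 hr), mul_zero, mul_zero]
  have y : ∀ r ∈ L2F, ∑ s ∈ L2F, mc u.2.1 r / 16 * (mc u.2.1 s / 16 *
      (trace ((1 - (2 : ℝ) • R s) * (1 - (2 : ℝ) • R r)) * trace (PL r * PL s))) =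
      4096 * (9 / 16 * mc u.2.1 r ^ 2) := fun r hr => by
    have hr := mem_L2F.1 hr
    have := sum_mc_PL hr (fun s => 16 * mc u.2.1 r * mc u.2.1 s *
      trace ((1 - (2 : ℝ) • R s) * (1 - (2 : ℝ) • R r))) (by simp only [mc_neg, R_neg])
    have e : trace ((1 - (2 : ℝ) • R r) * (1 - (2 : ℝ) • R r)) = 72 := by
      simp only [Matrix.mul_sub, Matrix.sub_mul, Matrix.mul_one, Matrix.one_mul, Matrix.mul_smul,
        Matrix.smul_mul, R_sq hr, trace_sub, trace_smul, trace_one, card_ι, trace_R hr, smul_eq_mul]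
      norm_num
    rw [e] at this
    rw [show 4096 * (9 / 16 * mc u.2.1 r ^ 2) = (2 : ℝ) • (16 * mc u.2.1 r * mc u.2.1 r * 72) by
      rw [smul_eq_mul]; ring, ← this]
    refine sum_congr rfl fun s _ => ?_
    have : trace (PL r * PL s) = 4096 * mc (PL r) s := by rw [mc, trace_mul_comm]; ring
    rw [this, smul_eq_mul]
    ring
  simp only [z, sum_congr rfl y, card_κ]
  push_cast; ring

theorem ip_plus {u : VV} (hu : (u : Amb).2.2 = 0) : ip u u =
    trace ((u : Amb).1 * (u : Amb).1) + (∑ r ∈ L2F, mc (u : Amb).2.1 r ^ 2) / 2 := by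
  rw [ip, hu, trace_US (mem2 u), Matrix.zero_mul, trace_zero, add_zero, Finset.sum_div]
  simp only [sq]

theorem cz_inv {c : GG} (h : c * zz = zz * c) : c⁻¹ * zz = zz * c⁻¹ :=
  (Commute.inv_left h).eq

theorem cz_forms {c : GG} (hc : c ∈ Aut) (h : c * zz = zz * c) {u : VV} (hu : (u : Amb).2.2 = 0) :
    trace ((c • u : VV) : Amb).1 = trace (u : Amb).1 ∧
    trace (((c • u : VV) : Amb).1 * ((c • u : VV) : Amb).1) = trace ((u : Amb).1 * (u : Amb).1) ∧
    ∑ r ∈ L2F, mc ((c • u : VV) : Amb).2.1 r ^ 2 = ∑ r ∈ L2F, mc (u : Amb).2.1 r ^ 2 := by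
  have i1 : wp c * wp c⁻¹ = 1 := by rw [← wp_mul (cz_inv h), mul_inv_cancel, wp_one]
  have i2 : wp c⁻¹ * wp c = 1 := by rw [← wp_mul h, inv_mul_cancel, wp_one]
  have e := lm_wp hc h hu
  have t1 := trace_of_conj e i1 i2
  have t2 := trace_of_conj (f := lm (c • u : VV) * lm (c • u : VV)) (g := lm u * lm u) (by
    rw [mul_assoc, e, ← mul_assoc, e, mul_assoc]) i1 i2
  have t3 := hc.1 u u
  rw [trace_lm, trace_lm] at t1
  rw [trace_lm_sq, trace_lm_sq] at t2
  rw [ip_plus hu, ip_plus (cz_W h hu)] at t3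
  have t1' : trace ((c • u : VV) : Amb).1 = trace (u : Amb).1 := by linarith
  rw [t1'] at t2
  exact ⟨t1', by linarith, by linarith⟩

theorem cz_A {c : GG} (hc : c ∈ Aut) (h : c * zz = zz * c) {A : Matrix ι ι ℝ} (hA : Aᵀ = A) :
    ((c • vA A hA : VV) : Amb).2.1 = 0 ∧ ∀ W, wp c (A * W) = ((c • vA A hA : VV) : Amb).1 * wp c W := by
  obtain ⟨t1, -, t3⟩ := cz_forms hc h (u := vA A hA) rfl
  have z : ((c • vA A hA : VV) : Amb).2.1 = 0 := by
    refine US_ext (mem2 _) (zero_mem _) fun r hr => ?_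
    have : ∑ r ∈ L2F, mc (vA A hA : Amb).2.1 r ^ 2 = 0 :=
      sum_eq_zero fun r _ => by rw [show (vA A hA : Amb).2.1 = 0 from rfl, mc_zero]; norm_num
    rw [this] at t3
    rw [mc_zero]
    exact pow_eq_zero_iff two_ne_zero |>.1
      ((sum_eq_zero_iff_of_nonneg fun r _ => sq_nonneg _).1 t3 r (mem_L2F.2 hr))
  refine ⟨z, fun W => ?_⟩
  have := LinearMap.congr_fun (lm_wp hc h (u := vA A hA) rfl) W
  simp only [Module.End.mul_apply, lm, z, t1, show (vA A hA : Amb).2.1 = 0 from rfl,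
    show (vA A hA : Amb).1 = A from rfl, mc_zero, zero_div, zero_smul, sum_const_zero, add_zero,
    sand_apply, Matrix.mul_one, Matrix.add_mul, Matrix.smul_mul, Matrix.one_mul, map_add,
    map_smul, add_left_inj] at this
  exact this.symm

theorem cz_P {c : GG} (hc : c ∈ Aut) (h : c * zz = zz * c) {r : Λ} (hr : r ∈ L2) :
    ((c • vP hr : VV) : Amb).1 = 0 := by
  have t := (cz_forms hc h (u := vP hr) rfl).2.1
  rw [show (vP hr : Amb).1 = 0 from rfl, Matrix.zero_mul, trace_zero] at t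
  exact eq_zero_of_trace (by rw [tr1]; exact t)

theorem rv_inj {r s : Λ} (h : rv r = rv s) : r = s :=
  Subtype.ext (funext fun i => Int.cast_injective (α := ℝ) (congrFun h i))
theorem rv_add (r s : Λ) : rv (r + s) = rv r + rv s := funext fun i => by simp [rv]
theorem rv_neg (r : Λ) : rv (-r) = -rv r := funext fun i => by simp [rv]
theorem rv_zero : rv 0 = 0 := funext fun i => by simp [rv]

theorem R_inj {r s : Λ} (h : R r = R s) : r = s ∨ r = -s := by
  rw [R_eq', R_eq'] at h
  rcases eq_or_neg_of_vecMulVec (smul_right_injective _ (by norm_num) h) with e | e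
  exacts [Or.inl (rv_inj e), Or.inr (rv_inj (e.trans (rv_neg s).symm))]

theorem lm_P {u : Amb} {s : Λ} (hs : s ∈ L2) {μ : ℝ} (h1 : u.1 = 0) (h2 : u.2.1 = μ • PL s)
    (W : Matrix ι κ ℝ) : lm u W = (μ / 8) • ((1 - (2 : ℝ) • R s) * W * PL s) := by
  have := sum_mc_PL hs (fun q => (μ / 16) • ((1 - (2 : ℝ) • R q) * W * PL q))
    (by simp only [PL_neg, R_neg])
  simp only [smul_smul] at this
  rw [show μ / 8 = 2 * (μ / 16) by ring, ← this]
  simp only [lm, h1, h2, trace_zero, zero_div, zero_smul, add_zero, LinearMap.add_apply,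
    LinearMap.sum_apply, LinearMap.smul_apply, sand_apply, Matrix.zero_mul, zero_add, mc_smul]
  exact sum_congr rfl fun q _ => smul_cg (by ring) _

theorem cz_short {c : GG} (hc : c ∈ Aut) (h : c * zz = zz * c) {g : Matrix ι ι ℝ} {D : Matrix κ κ ℝ}
    (hg : gᵀ * g = 1) (hD : D * Dᵀ = 1) (hw : ∀ W, wp c W = g * W * D)
    (hA : ∀ A hA, ((c • vA A hA : VV) : Amb) = (g * A * gᵀ, 0, 0)) {r : Λ} (hr : r ∈ L2) :
    ∃ s ∈ L2, g *ᵥ rv r = rv s ∧ (Dᵀ * PL r * D = PL s ∨ Dᵀ * PL r * D = -PL s) ∧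
      ((c • vP hr : VV) : Amb) = (0, Dᵀ * PL r * D, 0) := by
  have hg' := mul_eq_one_comm.1 hg
  have hD' : Dᵀ * D = 1 := one_comm hD
  have z1 := cz_P hc h hr
  have z3 := cz_W h (u := vP hr) rfl
  have hN := mem2 (c • vP hr)
  have k1 : ∀ s ∈ L2, mc ((c • vP hr : VV) : Amb).2.1 s ≠ 0 → R s = g * R r * gᵀ := fun s hs n => by
    have k : ∀ A : Matrix ι ι ℝ, Aᵀ = A → trace (gᵀ * R s * g * A) = trace (R r * A) := fun A a => by
      have e := Aut_LL hc (u := vA A a) rfl (cz_W h rfl) (vP hr)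
      have e2 : LL (vA A a) (vP hr) = trace (R r * A) • vP hr := by
        refine Subtype.ext ?_
        have := sum_mc_PL hr (fun q => (trace (R q * A) / 2) • PL q) (by simp only [PL_neg, R_neg])
        simp only [smul_smul] at this
        rw [show 2 * (trace (R r * A) / 2) = trace (R r * A) by ring] at this
        simp only [LL_val, Lop, vA, vP, Matrix.mul_zero, Matrix.zero_mul, add_zero, smul_zero,
          mc_zero, mul_zero, zero_div, zero_smul, sum_const_zero, trace_zero, zero_mul,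
          Submodule.coe_smul, Prod.smul_mk, Prod.mk.injEq, true_and, and_true, ← this]
        exact sum_congr rfl fun q _ => smul_cg (by ring) _
      rw [e2, GG_smul] at e
      have e3 := congrArg (fun u : VV => mc (u : Amb).2.1 s) e
      simp only [LL_val, Lop, hA, z1, Matrix.mul_zero, Matrix.zero_mul, mc_zero, mul_zero,
        trace_zero, add_zero, Submodule.coe_smul, Prod.smul_snd, Prod.smul_fst, mc_smul] at e3
      rw [mc_comb (fun q => trace (R q * (g * A * gᵀ)) * mc ((c • vP hr : VV) : Amb).2.1 q) hs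
        (by simp only [R_neg, mc_neg])] at e3
      rw [← mul_right_cancel₀ n e3, ← Matrix.mul_assoc (R s), trace_mul_comm _ gᵀ]
      simp only [Matrix.mul_assoc]
    have sy : (gᵀ * R s * g - R r)ᵀ = gᵀ * R s * g - R r := by
      rw [transpose_sub, transpose_mul, transpose_mul, transpose_transpose, R_tr, R_tr,
        Matrix.mul_assoc]
    have := eq_zero_of_trace (A := gᵀ * R s * g - R r) (by
      rw [sy, Matrix.sub_mul, trace_sub, k _ sy, sub_self])
    rw [← sub_eq_zero.1 this, ← Matrix.mul_assoc, ← Matrix.mul_assoc, hg', Matrix.one_mul,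
      Matrix.mul_assoc, hg', Matrix.mul_one]
  have nr := hc.1 (vP hr) (vP hr)
  rw [ip, ip, z1, z3] at nr
  simp only [vP, PL_sq hr, Matrix.zero_mul, trace_zero, zero_add, add_zero, trace_one'] at nr
  change trace (((c • vP hr : VV) : Amb).2.1 * ((c • vP hr : VV) : Amb).2.1) / _ = _ at nr
  obtain ⟨s, hs, n⟩ : ∃ s ∈ L2, mc ((c • vP hr : VV) : Amb).2.1 s ≠ 0 := by
    by_contra! a
    rw [US_ext hN (zero_mem _) fun s hs => (a s hs).trans (mc_zero _).symm] at nr
    simp at nr
  have k2 := k1 s hs n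
  have k3 : ((c • vP hr : VV) : Amb).2.1 = mc ((c • vP hr : VV) : Amb).2.1 s • PL s := by
    refine US_ext hN (US.smul_mem _ (PL_mem hs)) fun q hq => ?_
    rw [mc_smul, mc_PL hq]
    split_ifs with e
    · rw [mul_one, mc_congr _ e]
    · rw [mul_zero]
      by_contra n'
      rcases R_inj ((k1 q hq n').trans k2.symm) with rfl | rfl
      exacts [e rfl, e (cl_neg _)]
  generalize mc ((c • vP hr : VV) : Amb).2.1 s = μ at k3
  have hμ : μ * μ = 1 := by
    rw [k3, Matrix.smul_mul, Matrix.mul_smul, PL_sq hs, trace_smul, trace_smul, trace_one'] at nr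
    simp only [smul_eq_mul] at nr
    linarith
  have k4 : Dᵀ * PL r * D = μ • PL s := by
    have : PL r * D = μ • (D * PL s) := right_cancel_all (m := ι) fun W => by
      have e := LinearMap.congr_fun (lm_wp hc h (u := vP hr) rfl) W
      rw [Module.End.mul_apply, Module.End.mul_apply, lm_P hs z1 k3,
        lm_P hr (μ := 1) rfl (one_smul _ _).symm, hw, hw, k2] at e
      have e' := congrArg (fun X => (8 : ℝ) • ((1 - (2 / 7 : ℝ) • R r) * gᵀ * X)) e
      simp only [Matrix.mul_smul, Matrix.smul_mul, Matrix.mul_sub, Matrix.sub_mul, Matrix.one_mul,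
        ← Matrix.mul_assoc, Matrix.mul_assoc _ gᵀ g, hg, Matrix.mul_one, R_sq hr] at e' ⊢
      linear_combination (norm := module) -e'
    rw [Matrix.mul_assoc, this, Matrix.mul_smul, ← Matrix.mul_assoc, hD', Matrix.one_mul]
  have k5 : Dᵀ * PL r * D = PL s ∨ Dᵀ * PL r * D = -PL s := by
    rcases mul_self_eq_one_iff.1 hμ with e | e <;> rw [k4, e]
    exacts [Or.inl (one_smul _ _), Or.inr (neg_one_smul _ _)]
  have k6 : ((c • vP hr : VV) : Amb) = (0, Dᵀ * PL r * D, 0) :=
    Prod.ext z1 (Prod.ext (k3.trans k4.symm) z3)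
  rw [R_eq', R_eq', Matrix.mul_smul, Matrix.smul_mul, mul_vecMulVec, vecMulVec_mul,
    vecMul_transpose] at k2
  rcases eq_or_neg_of_vecMulVec (smul_right_injective _ (by norm_num) k2.symm) with e | e
  · exact ⟨s, hs, e, k5, k6⟩
  · exact ⟨-s, neg_mem_L2 hs, e.trans (rv_neg s).symm, by rw [PL_neg]; exact k5, k6⟩

/-- the centraliser of `zz` -/
theorem cent_zz {c : GG} (hc : c ∈ Aut) (h : c * zz = zz * c) : c ∈ HH := by
  have i1 : wp c * wp c⁻¹ = 1 := by rw [← wp_mul (cz_inv h), mul_inv_cancel, wp_one]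
  obtain ⟨g, D, hg, hD, hw⟩ := skolem (wp c) (fun W => ⟨_, LinearMap.congr_fun i1 W⟩) (fun W U => by
    have := hc.1 (vW W) (vW U)
    rw [cz_vW h, cz_vW h] at this
    simpa only [ip, vW_val, Matrix.zero_mul, trace_zero, zero_div, zero_add] using this)
    fun A hA => ⟨_, (cz_A hc h hA).2⟩
  have hg' := mul_eq_one_comm.1 hg
  have hA : ∀ A hA, ((c • vA A hA : VV) : Amb) = (g * A * gᵀ, 0, 0) := fun A hA => by
    refine Prod.ext ?_ (Prod.ext (cz_A hc h hA).1 (cz_W h rfl))
    have : g * A = ((c • vA A hA : VV) : Amb).1 * g := left_cancel_all (n := κ) fun W => by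
      have := congrArg (· * Dᵀ) ((cz_A hc h hA).2 W)
      simpa only [hw, ← Matrix.mul_assoc, Matrix.mul_assoc _ D, hD, Matrix.mul_one] using this
    change _ = g * A * gᵀ
    rw [this, Matrix.mul_assoc, hg', Matrix.mul_one]
  have hs := fun r hr => cz_short hc h hg hD hw hA (r := r) hr
  have hb : ∀ k, ∃ y : Λ, k < 24 → g *ᵥ rv (bb k) = rv y := fun k => by
    by_cases hk : k < 24
    · obtain ⟨s, -, e, -⟩ := hs _ (norm_bb hk)
      exact ⟨s, fun _ => e⟩
    · exact ⟨0, fun a => absurd a hk⟩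
  choose y hy using hb
  let γ : Co0 := mkCo (lin y) (norm_lin y fun k hk l hl => by
    have : rv (y k) ⬝ᵥ rv (y l) = rv (bb k) ⬝ᵥ rv (bb l) := by
      rw [← hy k hk, ← hy l hl, dotProduct_mulVec, ← mulVec_transpose, mulVec_mulVec, hg, one_mulVec]
    rw [rv_dot, rv_dot] at this
    exact_mod_cast this)
  have hγ : ∀ x, g *ᵥ rv x = rv (γ • x) := fun x => by
    induction x using basis_ind with
    | h0 => rw [smul_zero', rv_zero, mulVec_zero]
    | hb k hk => rw [hy k hk, mkCo_smul, lin_bb _ hk]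
    | ha x y a b => rw [smul_add', rv_add, rv_add, mulVec_add, a, b]
    | hn x a => rw [smul_neg', rv_neg, rv_neg, mulVec_neg, a]
  have hm : mat γ = g := by
    ext i j
    have := congrFun (hγ (e8 j)) i
    have e : rv (e8 j) = Pi.single j 8 := funext fun a => by
      simp only [rv, e8, Pi.single_apply]; split_ifs <;> simp
    rw [e, mulVec_single] at this
    change _ = (((γ • e8 j : Λ) : V) i : ℝ) at this
    rw [mat, ← this]
    simp
  have hP : ∀ x : Λ, Dᵀ * PL x * Dᵀᵀ = PL (γ • x) ∨ Dᵀ * PL x * Dᵀᵀ = -PL (γ • x) := fun x => by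
    rw [transpose_transpose]
    induction x using basis_ind with
    | h0 => rw [smul_zero', PL_zero, Matrix.mul_one, one_comm hD]; exact Or.inl rfl
    | hb k hk =>
      obtain ⟨s, -, e, a, -⟩ := hs _ (norm_bb hk)
      rwa [rv_inj ((hγ _).symm.trans e)]
    | ha x y a b =>
      have e : ∀ x y, PL (x + y) = PL x * PL y ∨ PL (x + y) = -(PL x * PL y) := fun x y => by
        rw [PL_mul']
        rcases sg_cases (cl x / 4096) (cl y % 4096) with e | e <;> simp [e]
      have e2 : Dᵀ * (PL x * PL y) * D = Dᵀ * PL x * D * (Dᵀ * PL y * D) := by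
        simp only [← Matrix.mul_assoc, Matrix.mul_assoc _ D, hD, Matrix.mul_one]
      rw [smul_add']
      rcases e x y with p | p <;> rcases e (γ • x) (γ • y) with q | q <;> rcases a with a | a <;>
        rcases b with b | b <;>
        simp only [p, q, Matrix.mul_neg, Matrix.neg_mul, e2, a, b, neg_neg, true_or, or_true]
    | hn x a => rwa [smul_neg', PL_neg, PL_neg]
  let p : Ht := ⟨(γ, ⟨Dᵀ, mem_OG (by rw [transpose_transpose, hD])⟩), hP⟩
  have hp : ∀ u : VV, ((rho p • u : VV) : Amb) = act g Dᵀ u := fun u => by rw [rho_smul, ← hm]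
  refine ⟨p, GG_ext fun v => Subtype.ext ?_⟩
  obtain ⟨_, e⟩ := V0_ind (p := fun v => ∃ hv : v ∈ V0, act g Dᵀ v = ((c • (⟨v, hv⟩ : VV) : VV) : Amb))
    (fun A a => ⟨(vA A a).2, (hA A a).symm ▸ by simp [act_apply]⟩)
    (fun s hs' => ⟨(vP hs').2, by
      obtain ⟨_, -, -, -, e⟩ := hs s hs'
      exact Eq.trans (by simp [act_apply]) e.symm⟩)
    (fun W => ⟨(vW W).2, Eq.trans (by simp [act_apply, vW_val, hw])
      (congrArg Subtype.val (cz_vW h W)).symm⟩)
    (fun u v ⟨hu, a⟩ ⟨hv, b⟩ => ⟨add_mem hu hv, by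
      rw [map_add, a, b]; exact congrArg Subtype.val (GG_add c ⟨u, hu⟩ ⟨v, hv⟩).symm⟩)
    (fun t u ⟨hu, a⟩ => ⟨V0.smul_mem t hu, by
      rw [map_smul, a]; exact congrArg Subtype.val (GG_smul c t ⟨u, hu⟩).symm⟩) v.2
  exact (hp v).trans e

end Cfsg.Agent.Mo
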