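import Cfsg.Agent.Mo.Pauli
import Cfsg.Agent.H2.Extra

/-! The extraspecial group `2^{1+24}` and the quotient `Co1`. -/

set_option autoImplicit false

namespace Cfsg.Agent.Mo

open H5 H5.Lee Matrix Finset

/-- the extraspecial group -/
def QQ : Subgroup GG where
  carrier := {g | ∃ x e, g = xq x e}
  one_mem' := ⟨0, false, xq_zero.symm⟩
  mul_mem' := by
    rintro _ _ ⟨x, e, rfl⟩ ⟨y, f, rfl⟩
    obtain ⟨g, hg⟩ := exists_sgn_mul x y e f
    exact ⟨_, g, xq_mul hg⟩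
  inv_mem' := by
    rintro _ ⟨x, e, rfl⟩
    obtain ⟨y, f, h⟩ := exists_qe (qe x e)⁻¹ (by rw [Ht_inv_fst, qe_fst, inv_one])
    exact ⟨y, f, by rw [xq, xq, ← h, map_inv]⟩
theorem QQ_le : QQ ≤ HH := fun _ ⟨_, _, h⟩ => ⟨_, h.symm⟩
theorem xq_mem (x : Λ) (e : Bool) : xq x e ∈ QQ := ⟨x, e, rfl⟩
theorem card_QQ : Nat.card QQ = 2 ^ 25 := by
  obtain ⟨N, hN⟩ : ∃ N, N = 2 ^ 24 := ⟨_, rfl⟩
  have hl : ∀ n : Fin N, ∃ x : Λ, cl x = n := fun n => cl_surj (hN ▸ n.2)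
  choose lf hl using hl
  have hb : Function.Bijective fun p : Fin N × Bool => (⟨xq (lf p.1) p.2, xq_mem _ _⟩ : QQ) := by
    refine ⟨fun p q h => ?_, ?_⟩
    · obtain ⟨a, b⟩ := xq_eq_iff.1 (congrArg Subtype.val h)
      exact Prod.ext (Fin.ext (by rw [← hl, ← hl, a])) b
    · rintro ⟨_, x, e, rfl⟩
      exact ⟨(⟨cl x, hN ▸ cl_lt x⟩, e), Subtype.ext (xq_eq_iff.2 ⟨hl _, rfl⟩)⟩
  rw [← Nat.card_eq_of_bijective _ hb, Nat.card_prod, Nat.card_fin, Nat.card_eq_fintype_card,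
    Fintype.card_bool, hN, ← pow_succ]
instance finite_QQ : Finite QQ := Nat.finite_of_card_ne_zero (by rw [card_QQ]; norm_num)
theorem zz_ne_one' : zz ≠ 1 := fun h => by
  rw [← xq_zero, zz, xq_eq_iff] at h
  exact absurd h.2 (by decide)
theorem zz_mul_zz : zz * zz = 1 := by rw [← xq_zero]; exact zz_mul_xq 0 true
theorem xq_of_cl0 {x : Λ} (h : cl x = 0) (e : Bool) : xq x e = 1 ∨ xq x e = zz := by
  rw [← cl_zero] at h
  cases e
  · exact Or.inl ((xq_eq_iff.2 ⟨h, rfl⟩).trans xq_zero)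
  · exact Or.inr (xq_eq_iff.2 ⟨h, rfl⟩)
theorem cl_eq_zero_of_comm {x : Λ} {e : Bool}
    (h : ∀ y, xq x e * xq y false = xq y false * xq x e) : cl x = 0 := by
  rw [← cl_zero, cl_eq_iff_bz]
  intro k _
  have := xq_comm x (uu k) e false
  rw [h, eq_comm, mul_eq_right] at this
  rw [map_zero, bz_comm, bz_apply, cast2_eq_zero]
  by_contra a
  exact zz_ne_one' (by rwa [if_neg a] at this)
theorem ES_QQ : H2.ES 2 (⟨zz, xq_mem 0 true⟩ : QQ) := by
  have hz : ∀ w : QQ, w.1 = 1 ∨ w.1 = zz → w ∈ Subgroup.zpowers (⟨zz, xq_mem 0 true⟩ : QQ) := by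
    rintro w (h | h)
    · rw [show w = 1 from Subtype.ext h]; exact one_mem _
    · rw [show w = ⟨zz, xq_mem 0 true⟩ from Subtype.ext h]; exact Subgroup.mem_zpowers _
  refine ⟨orderOf_eq_prime (Subtype.ext ((sq zz).trans zz_mul_zz))
    fun h => zz_ne_one' (congrArg Subtype.val h), le_antisymm ?_ ?_, ?_, ?_⟩
  · rintro ⟨_, x, e, rfl⟩ h
    exact hz _ (xq_of_cl0 (cl_eq_zero_of_comm fun y => (congrArg Subtype.val
      (Subgroup.mem_center_iff.1 h ⟨_, xq_mem y false⟩)).symm) e)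
  · refine Subgroup.zpowers_le.2 (Subgroup.mem_center_iff.2 ?_)
    rintro ⟨_, x, e, rfl⟩
    exact Subtype.ext (zz_comm _)
  · rintro ⟨_, x, e, rfl⟩ ⟨_, y, f, rfl⟩
    refine hz _ ?_
    change xq x e * xq y f * (xq x e)⁻¹ * (xq y f)⁻¹ = 1 ∨
      xq x e * xq y f * (xq x e)⁻¹ * (xq y f)⁻¹ = zz
    rw [xq_comm]
    split_ifs
    · left; group
    · right; group
  · rintro ⟨_, x, e, rfl⟩
    refine hz _ ?_
    obtain ⟨g, hg⟩ := exists_sgn_mul x x e e
    change xq x e ^ 2 = 1 ∨ xq x e ^ 2 = zz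
    rw [sq, xq_mul hg]
    exact xq_of_cl0 (by rw [cl_add, Nat.xor_self]) g
theorem extraspecial_QQ : IsExtraspecial 2 QQ := by
  refine ES_QQ.isExtraspecial (x := ⟨_, xq_mem (ug 0) false⟩) fun h => ?_
  have h0 : cl (ug 0) ≠ cl 0 := by rw [cl_ug (by omega), cl_zero]; omega
  rcases ES_QQ.mem_zpowers_iff_two.1 h with a | a
  · exact h0 (xq_eq_iff.1 ((congrArg Subtype.val a).trans xq_zero.symm)).1
  · exact h0 (xq_eq_iff.1 (congrArg Subtype.val a)).1
instance normal_QQ : (QQ.subgroupOf HH).Normal := ⟨by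
  rintro ⟨_, _⟩ ⟨x, e, rfl⟩ ⟨_, h, rfl⟩
  obtain ⟨f, c⟩ := exists_Cj h x e
  exact ⟨_, f, c.conj⟩⟩
theorem quot_HH : Nonempty (HH ⧸ QQ.subgroupOf HH ≃* Co0 ⧸ Subgroup.center Co0) := by
  let φ : Ht →* HH ⧸ QQ.subgroupOf HH := (QuotientGroup.mk' _).comp rho.rangeRestrict
  let ψ : Ht →* Co0 ⧸ Subgroup.center Co0 :=
    (QuotientGroup.mk' _).comp ((MonoidHom.fst _ _).comp Ht.subtype)
  have h1 : Function.Surjective φ :=
    (QuotientGroup.mk'_surjective _).comp rho.rangeRestrict_surjective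
  have h2 : Function.Surjective ψ := (QuotientGroup.mk'_surjective _).comp Ht_surj
  have h3 : φ.ker = ψ.ker := by
    ext p
    exact (QuotientGroup.eq_one_iff _).trans
      ((rho_eq_xq_iff p).trans (QuotientGroup.eq_one_iff _).symm)
  exact ⟨(QuotientGroup.quotientKerEquivOfSurjective φ h1).symm.trans
    ((QuotientGroup.quotientMulEquivOfEq h3).trans
      (QuotientGroup.quotientKerEquivOfSurjective ψ h2))⟩
theorem neg1_ne_one : neg1 ≠ 1 := fun h => by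
  have := congrFun (congrFun mat_neg1 none) none
  rw [h, mat_one] at this
  norm_num at this
theorem neg1_mem : neg1 ∈ Subgroup.center Co0 :=
  Subgroup.mem_center_iff.2 fun g => mat_inj (by rw [mat_mul, mat_mul, mat_neg1]; simp)
theorem card_center_Co0 : Nat.card (Subgroup.center Co0) = 2 := by
  rw [Nat.card_eq_two_iff]
  refine ⟨1, ⟨neg1, neg1_mem⟩, fun h => neg1_ne_one (congrArg Subtype.val h).symm, ?_⟩
  refine Set.eq_univ_of_forall fun ⟨g, hg⟩ => ?_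
  rcases central_cases hg with rfl | rfl
  exacts [Or.inl rfl, Or.inr rfl]
theorem card_HH : Nat.card HH = 2 ^ 24 * Nat.card Co0 := by
  obtain ⟨e⟩ := quot_HH
  rw [Subgroup.card_eq_card_quotient_mul_card_subgroup (QQ.subgroupOf HH),
    Subgroup.card_eq_card_quotient_mul_card_subgroup (Subgroup.center Co0), card_center_Co0,
    Nat.card_congr e.toEquiv, Nat.card_congr (Subgroup.subgroupOfEquivOfLe QQ_le).toEquiv, card_QQ]
  ring

end Cfsg.Agent.Mo
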