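import Cfsg.Agent.Mo.Chk2

/-! INTERFACE (part M): assembly of `Hyp` from the checked data. -/

set_option autoImplicit false

namespace Cfsg.Agent.Mo

open H4 H5 H5.Lee

structure Dat where
  SV : Fin 12 → List ℕ
  ST : Fin 12 → List (List ℕ × ℕ)
  SG : Fin 12 → Fin 4 → List Sd
  QS : Fin 12 → List ℕ
  cnt : Fin 12 → Fin 4 → ℕ
  q0 : ℕ
  h0 : List ℕ
  CN : List Cn
  E : List Ed
  sz : Fin 12 → ℕ
  n0 : Fin 12 → ℕ
  n4 : Fin 12 → ℕ
  c1 : ℤ
  n1 : Fin 12 → ℕ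
  par : Fin 12 → Fin 12
  HN : List (Nd × List ℕ)
  xi : Fin 12
  xh : List ℕ

noncomputable def Dat.v (D : Dat) (i : Fin 12) : VV := inc (val (D.SV i))
def Dat.SD (D : Dat) (i : Fin 12) : List Sd := D.SG i 0 ++ (D.SG i 1 ++ (D.SG i 2 ++ D.SG i 3))
/-- the nine canonical vectors -/
noncomputable def Dat.wc (D : Dat) (c : Fin 9) : VV :=
  Fin.cases (ax (rq 1) false)
    (fun j : Fin 8 => Option.rec (ax (rq 1) false) (fun x => x.vec D.v) D.CN[j.val]?) c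
def all12 (p : Fin 12 → Bool) : Bool := allL [0, 1, 2, 3, 4, 5, 6, 7, 8, 9, 10, 11] p
theorem all12_spec {p : Fin 12 → Bool} (h : all12 p = true) (i : Fin 12) : p i = true :=
  allL_iff.1 h i (by revert i; decide)
def sum12 (f : Fin 12 → ℕ) : ℕ :=
  f 0 + (f 1 + (f 2 + (f 3 + (f 4 + (f 5 + (f 6 + (f 7 + (f 8 + (f 9 + (f 10 + f 11))))))))))
theorem sum12_eq (f : Fin 12 → ℕ) : sum12 f = ∑ i, f i := by
  simp only [sum12, Fin.sum_univ_succ, Fin.sum_univ_zero, add_zero]; rfl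
noncomputable def cnF (SV : Fin 12 → List ℕ) (c : Cn) : Bool :=
  (Nat.ble 2 c.n && Nat.ble c.n 5 || Nat.beq c.n 6 && decide (c.ip8 = 5)) && okW c.h &&
    cnd (decide (c.ip8 = 0)) (eqL (appW c.h (SV c.nd.1)) (axS 1 true)) true &&
    cnd (decide (c.ip8 = 32)) (eqL (appW c.h (SV c.nd.1)) (axS 2 false)) true
/-- how often the label `k` occurs in a seed -/
def mu (k : Fin 12) (s : Sd) : ℕ := cnd (feq s.k0 k) 1 0 + cnd (feq s.k1 k) 1 0
theorem mu_eq (k : Fin 12) (s : Sd) :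
    mu k s = (if s.k0 = k then 1 else 0) + if s.k1 = k then 1 else 0 := by
  have e : ∀ a : Fin 12, cnd (feq a k) 1 0 = if a = k then 1 else 0 := fun a => by
    split_ifs with h
    · rw [feq_iff.2 h, cnd_true]
    · rw [Bool.eq_false_iff.2 (mt feq_iff.1 h), cnd_false]
  rw [mu, e, e]
def mu1 (k : Fin 12) (L : List Sd) : ℕ := List.rec 0 (fun s _ _ => mu k s) L
def Dat.m (D : Dat) (i k : Fin 12) : Fin 4 → ℕ :=
  ![0, mu1 k (D.SG i 1), mu1 k (D.SG i 2), mu1 k (D.SG i 3)]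
def Dat.okM (D : Dat) (i k : Fin 12) : Bool :=
  allL [0, 1, 2, 3] fun g => allL (D.SG i g) fun s => Nat.beq (mu k s) (D.m i k g)
def Dat.pp (D : Dat) (i k : Fin 12) : ℕ :=
  D.m i k 1 * D.cnt i 1 + D.m i k 2 * D.cnt i 2 + D.m i k 3 * D.cnt i 3
def Dat.tre (D : Dat) (k : Fin 12) : Bool :=
  feq k 0 || (Nat.blt (D.par k).val k.val && D.okM k (D.par k) && D.okM (D.par k) k &&
    Nat.blt 0 (D.pp k (D.par k)) &&
    Nat.beq (D.sz k * D.pp k (D.par k)) (D.sz (D.par k) * D.pp (D.par k) k))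
def covN (QS : Fin 12 → List ℕ) (K : List Nd) : Bool :=
  all12 fun i => allL (QS i) fun q => memN K (i, q, false) && memN K (i, q, true)
theorem covN_spec {QS : Fin 12 → List ℕ} {K : List Nd} (h : covN QS K = true) {i : Fin 12} {q : ℕ}
    (hq : q ∈ QS i) (f : Bool) : (i, q, f) ∈ K := by
  have := Bool.and_eq_true_iff.1 (allL_iff.1 (all12_spec h i) q hq)
  cases f
  exacts [memN_spec this.1, memN_spec this.2]
/-- the sign of the triple -/
def eT : Bool := N3.sM.testBit 2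
theorem tri_eT : xq (rq 1) false * xq (rq 2) false = xq (rq 26) eT :=
  (xq_mul (by
    rw [sgn_false, one_mul, one_mul, cl_rq N3.vm1, cl_rq K2.tri_chk.1, N3.cp1]
    exact N3.sg_sM 2)).trans (xq_cl (by
    rw [cl_add, cl_rq N3.vm1, cl_rq K2.tri_chk.1, cl_rq K2.tri_chk.2.1, K2.tri_chk.2.2.1]) _)
noncomputable def exC (X : List ℕ) : Bool :=
  K2.ipE X 1 false 32 && K2.ipE X 2 false 13 && K2.ipE X 26 eT 5
/-- checks on states -/
noncomputable def Dat.finA (D : Dat) : Bool :=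
  eqL (D.SV 0) (axS 1 false) && allL D.CN (cnF D.SV) && (okW D.xh && exC (appW D.xh (D.SV D.xi)))
/-- arithmetic -/
def Dat.finB (D : Dat) : Bool :=
  all12 (fun i => all12 fun k => feq i k ||
      !(Nat.beq (D.n0 i) (D.n0 k) && Nat.beq (D.n4 i) (D.n4 k) && Nat.beq (D.n1 i) (D.n1 k))) &&
    Nat.beq (D.sz 0) 196560 && Nat.beq (sum12 D.sz) 97239461142009186000 &&
    Nat.beq (sum12 fun i => D.sz i * D.n0 i) (196560 * 11707448673375) &&
    Nat.beq (sum12 fun i => D.sz i * D.n4 i) (196560 * 27143910000) && all12 D.tre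
/-- nodes -/
noncomputable def Dat.finC (D : Dat) : Bool :=
  covN D.QS (grow ((0, 1, false) :: D.CN.map Cn.nd) D.E) && covN D.QS (D.HN.map Prod.fst) &&
    Nat.ble D.CN.length 8
/-- the remaining cheap checks -/
noncomputable def Dat.fin (D : Dat) : Bool := D.finA && D.finB && D.finC
theorem Dat.fin_of {D : Dat} (a : D.finA = true) (b : D.finB = true) (c : D.finC = true) :
    D.fin = true := by rw [Dat.fin, a, b, c]; rfl

theorem Dat.mem_SD {D : Dat} {i : Fin 12} {s : Sd} (h : s ∈ D.SD i) : ∃ g, s ∈ D.SG i g := by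
  simp only [Dat.SD, List.mem_append] at h
  rcases h with h | h | h | h <;> exact ⟨_, h⟩
theorem Dat.wc_mem (D : Dat) (c : Fin 9) :
    D.wc c = ax (rq 1) false ∨ ∃ x ∈ D.CN, D.wc c = x.vec D.v := by
  refine Fin.cases (Or.inl rfl) (fun j => ?_) c
  rw [Dat.wc, Fin.cases_succ]
  cases m : D.CN[j.val]? with
  | none => exact Or.inl rfl
  | some x => exact Or.inr ⟨x, List.mem_of_getElem? m, rfl⟩
theorem Dat.exists_wc (D : Dat) (h : D.CN.length ≤ 8) {x : Cn} (hx : x ∈ D.CN) :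
    ∃ c, D.wc c = x.vec D.v := by
  obtain ⟨j, hj, rfl⟩ := List.getElem_of_mem hx
  exact ⟨Fin.succ ⟨j, by omega⟩, by rw [Dat.wc, Fin.cases_succ, List.getElem?_eq_getElem hj]⟩

/-- everything that has been checked -/
structure Dat.OK (D : Dat) : Prop where
  aut : tau ∈ Aut
  good : ∀ i, goodC (D.SV i) = true
  st : ∀ i, ∀ t ∈ D.ST i, StOK (D.v i) t
  sd : ∀ i g, ∀ s ∈ D.SG i g, SdOK D.v i s
  bfs : ∀ i, ∃ gs seeds, BfsOK gs seeds (D.cnt i) ∧ colC (D.ST i) (D.SG i) (D.QS i) gs seeds = true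
  ns : ∀ i, nsC (D.SV i) 0 = D.n0 i ∧ nsC (D.SV i) 32 = D.n4 i ∧ nsC (D.SV i) D.c1 = D.n1 i
  ed : ∀ x ∈ D.E, edC D.ST D.SD x = true
  cn : ∀ c ∈ D.CN, cnC D.SV D.q0 D.h0 c = true
  nd : ∀ p ∈ D.HN, ndC D.SV p.1 p.2 = true
  fin : D.fin = true

namespace Dat.OK
variable {D : Dat} (H : D.OK)
include H

theorem rp (i : Fin 12) : Rp (D.SV i) (D.v i) := goodC_spec (H.good i)
theorem fA : eqL (D.SV 0) (axS 1 false) = true ∧ allL D.CN (cnF D.SV) = true ∧ okW D.xh = true ∧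
    exC (appW D.xh (D.SV D.xi)) = true := by
  have := H.fin
  simp only [Dat.fin, Dat.finA, Bool.and_eq_true] at this
  exact ⟨this.1.1.1.1, this.1.1.1.2, this.1.1.2⟩
theorem v0 : D.v 0 = ax (rq 1) false := (H.rp 0).eq (eqL_spec H.fA.1 ▸ axS_spec N3.vm1 false)
theorem ns0 (i : Fin 12) : NS (D.v i) 0 = D.n0 i := by
  rw [← (H.ns i).1, ← nsC_spec (H.rp i)]; norm_num
theorem ns4 (i : Fin 12) : NS (D.v i) 4 = D.n4 i := by
  rw [← (H.ns i).2.1, ← nsC_spec (H.rp i)]; norm_num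
theorem base : Base tau (ug 23) (ug 11) false D.v where
  aut := H.aut
  hΩ := cl_ug (by norm_num)
  hδ := delta_odd
  tz := tau_tz
  tx := tau_tx
  sep i k h := by
    have := H.fin
    simp only [Dat.fin, Dat.finB, Bool.and_eq_true] at this
    have a := all12_spec (all12_spec this.1.2.1.1.1.1.1 i) k
    rw [← H.ns0, ← H.ns0, ← H.ns4, ← H.ns4, ← (H.ns i).2.2, ← (H.ns k).2.2, ← nsC_spec (H.rp i),
      ← nsC_spec (H.rp k), h, h, h, Nat.beq_refl, Nat.beq_refl, Nat.beq_refl] at a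
    exact feq_iff.1 (by simpa using a)
theorem col (i : Fin 12) :
    (∃ R, Col tau (ug 11) D.v i R (fun g => (D.SG i g).map fun s => (s.k0, s.k1)) ∧
      ∀ g, g ≠ 0 → (R g).ncard = D.cnt i g) ∧
    ∀ r ∈ L2, ∀ f, ∃ q ∈ D.QS i, VM.testBit q = true ∧ ∃ (f' : Bool) (s : Ht),
      rho s • D.v i = D.v i ∧ rho s • ax (rq q) f' = ax r f := by
  obtain ⟨gs, seeds, a, b⟩ := H.bfs i
  exact colC_spec (H.st i) (H.sd i) a b
theorem pp {i k : Fin 12} (h : D.okM i k = true) : PP tau (ug 11) D.v i k = D.pp i k := by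
  obtain ⟨R, a, b⟩ := (H.col i).1
  rw [a.PP_eq H.base k (D.m i k) (D.cnt i) rfl (fun g => List.forall_mem_map.2 fun s hs => ?_) b,
    Fin.sum_univ_four, Dat.pp, show D.m i k 0 = 0 from rfl, zero_mul, zero_add]
  rw [← mu_eq]
  exact Nat.eq_of_beq_eq_true (allL_iff.1 (allL_iff.1 h g (by fin_cases g <;> simp)) s hs)
theorem edge (wc : Fin 9 → VV) : ∀ x ∈ D.E, CanN D.v wc x.a ↔ CanN D.v wc x.b := fun x hx =>
  edC_spec H.st (fun i s hs => (Dat.mem_SD hs).elim fun g => H.sd i g s) (H.ed x hx)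
theorem canN {wc : Fin 9 → VV} {x : Cn} (hx : x ∈ D.CN) {c : Fin 9} (h : wc c = x.vec D.v) :
    CanN D.v wc x.nd := by
  obtain ⟨-, ⟨a, b⟩, -⟩ := cnC_spec H.rp (H.cn x hx)
  refine ⟨a, (Can.smul (wd x.h)).1 ?_⟩
  rw [b]
  exact (show wc c = rho (wd x.h) • D.v x.nd.1 from h) ▸ Can.base _ _ _ c
theorem cnf {x : Cn} (hx : x ∈ D.CN) : ((2 ≤ x.n ∧ x.n ≤ 5) ∨ (x.n = 6 ∧ x.ip8 = 5)) ∧
    (x.ip8 = 0 → x.vec D.v = ax (rq 1) true) ∧ (x.ip8 = 32 → x.vec D.v = ax (rq 2) false) := by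
  have := allL_iff.1 H.fA.2.1 x hx
  simp only [cnF, Bool.and_eq_true, Bool.or_eq_true, Nat.ble_eq, Nat.beq_eq, decide_eq_true_eq] at this
  obtain ⟨⟨⟨a, b⟩, c⟩, d⟩ := this
  refine ⟨a, fun e => ((H.rp _).appW b).eq ?_, fun e => ((H.rp _).appW b).eq ?_⟩
  · rw [decide_eq_true e, cnd_true] at c
    exact eqL_spec c ▸ axS_spec N3.vm1 true
  · rw [decide_eq_true e, cnd_true] at d
    exact eqL_spec d ▸ axS_spec K2.tri_chk.1 false

theorem hyp2 : Hyp2 tau (rq 1) (rq 2) (rq 26) (ug 23) (ug 11) false eT false D.v D.sz D.wc := by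
  have F := H.fin
  simp only [Dat.fin, Dat.finB, Dat.finC, Bool.and_eq_true, Nat.beq_eq, Nat.ble_eq, sum12_eq] at F
  obtain ⟨⟨-, ⟨⟨⟨⟨-, b1⟩, b2⟩, b3⟩, b4⟩, b5⟩, ⟨c1, c2⟩, c3⟩ := F
  have ip1 : ip (ax (rq 1) false) (ax (rq 1) false) = 32 := ip_ax_self (rq_mem N3.vm1) _
  refine { H.base with
    hβ := rq_mem N3.vm1, hγ := rq_mem K2.tri_chk.1, hγ' := rq_mem K2.tri_chk.2.1, short := short_beta
    tri := tri_eT, tv := tau_ax, t1 := tau_one0, out := tau_out, v0 := H.v0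
    clos := fun i => (H.col i).1.elim fun _ a => a.1.clos, sz0 := b1, tree := fun k hk => ?_
    sumX := b2, sumY := by simp only [H.ns0, b3], sumW := by simp only [H.ns4, b4]
    can := fun i r hr f => ?_, wc0 := fun c h => ?_, wc4 := fun c h => ?_, wcp := fun c => ?_
    n66 := fun i r hr f h => ?_, ex36 := ?_ }
  · have := all12_spec b5 k
    simp only [Dat.tre, Bool.or_eq_true, feq_iff, hk, false_or, Bool.and_eq_true, Nat.blt_eq,
      Nat.beq_eq] at this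
    obtain ⟨⟨⟨⟨a1, a2⟩, a3⟩, a4⟩, a5⟩ := this
    exact ⟨_, a1, by rwa [H.pp a2], by rwa [H.pp a2, H.pp a3]⟩
  · obtain ⟨q, a1, -, f', s, a2, a3⟩ := (H.col i).2 r hr f
    have := grow_spec (P := CanN D.v D.wc) (List.forall_mem_cons.2 ⟨⟨N3.vm1, by
      rw [H.v0]; exact Can.base _ _ D.wc 0⟩, List.forall_mem_map.2 fun x hx =>
        (D.exists_wc c3 hx).elim fun _ => H.canN hx⟩) (H.edge _) _ (covN_spec c1 a1 f')
    rw [← a3, ← a2]
    exact (Can.smul s).2 this.2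
  · rcases D.wc_mem c with a | ⟨x, a, b⟩
    · rw [a, ip1] at h; norm_num at h
    · rw [b, (cnC_spec H.rp (H.cn x a)).1, div_eq_zero_iff, or_iff_left (by norm_num),
        Int.cast_eq_zero] at h
      rw [b, (H.cnf a).2.1 h]
  · rcases D.wc_mem c with a | ⟨x, a, b⟩
    · rw [a, ip1] at h; norm_num at h
    · rw [b, (cnC_spec H.rp (H.cn x a)).1, div_eq_iff (by norm_num)] at h
      rw [b, (H.cnf a).2.2 (Int.cast_injective (α := ℝ) (h.trans (by norm_num)))]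
  · rcases D.wc_mem c with a | ⟨x, a, b⟩
    · exact ⟨⟨256, by rw [a, ip1]; norm_num⟩, Or.inl a⟩
    · obtain ⟨e1, -, g, e2, e3, e4, e5⟩ := cnC_spec H.rp (H.cn x a)
      rw [b]
      refine ⟨⟨_, e1⟩, Or.inr ⟨g, e2, e3, e4, ?_⟩⟩
      rcases (H.cnf a).1 with d | d
      exacts [Or.inl ⟨_, d.1, d.2, e5⟩, Or.inr ⟨d.1 ▸ e5, by rw [e1, d.2]; norm_num⟩]
  · obtain ⟨q, a1, a0, f', s, a2, a3⟩ := (H.col i).2 r hr f
    obtain ⟨p, hp, e⟩ := List.mem_map.1 (covN_spec c2 a1 f')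
    have := ndC_spec H.rp (H.nd p hp)
    rw [e] at this
    rw [← a3, ← a2] at h ⊢
    exact (N66.smul s).2 (this a0 (((rho_mem_Aut s).1 _ _).symm.trans h))
  · obtain ⟨-, -, a, b⟩ := H.fA
    simp only [exC, Bool.and_eq_true] at b
    have r := (H.rp D.xi).appW a
    exact ⟨D.xi, wd D.xh, ((K2.ipE_iff r N3.vm1 _ _).1 b.1.1).trans (by norm_num),
      ((K2.ipE_iff r K2.tri_chk.1 _ _).1 b.1.2).trans (by norm_num),
      ((K2.ipE_iff r K2.tri_chk.2.1 _ _).1 b.2).trans (by norm_num)⟩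

end Dat.OK

theorem Dat.hyp (D : Dat) (aut : tau ∈ Aut) (good : ∀ i, goodC (D.SV i) = true)
    (st : ∀ i, ∀ t ∈ D.ST i, StOK (D.v i) t) (sd : ∀ i g, ∀ s ∈ D.SG i g, SdOK D.v i s)
    (bfs : ∀ i, ∃ gs seeds, BfsOK gs seeds (D.cnt i) ∧ colC (D.ST i) (D.SG i) (D.QS i) gs seeds = true)
    (ns : ∀ i, nsC (D.SV i) 0 = D.n0 i ∧ nsC (D.SV i) 32 = D.n4 i ∧ nsC (D.SV i) D.c1 = D.n1 i)
    (ed : ∀ x ∈ D.E, edC D.ST D.SD x = true) (cn : ∀ c ∈ D.CN, cnC D.SV D.q0 D.h0 c = true)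
    (nd : ∀ p ∈ D.HN, ndC D.SV p.1 p.2 = true) (fin : D.fin = true) :
    ∃ e', Hyp tau (rq 1) (rq 2) (rq 26) (ug 23) false e' false :=
  ⟨_, (Dat.OK.hyp2 ⟨aut, good, st, sd, bfs, ns, ed, cn, nd, fin⟩).hyp⟩

end Cfsg.Agent.Mo
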