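import Cfsg.Agent.H5.Pack
import Cfsg.Agent.H4.Bits

/-! Bitmaps stored as binary trees of numbers, and their images under transvections. -/

set_option autoImplicit false

namespace Cfsg.Agent.Mo.Bf

open Finset H5

/-! ### parities -/

abbrev bt (a t : ℕ) : ZMod 2 := H5.bit (ZMod 2) a t

def par (n f x : ℕ) : ZMod 2 := ∑ j ∈ range n, bt f j * bt x j

theorem z2 (c : ZMod 2) : c = 0 ∨ c = 1 := by revert c; decide

theorem bt_of {a t : ℕ} {b : Bool} (h : a.testBit t = b) : bt a t = if b then 1 else 0 := by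
  rw [bt, H5.bit, h]

theorem bt_succ (a t : ℕ) : bt a (t + 1) = bt (a / 2) t := by
  rw [bt, bt, H5.bit, H5.bit, Nat.testBit_add_one]

theorem par_succ (n f x : ℕ) : par (n + 1) f x = par n f x + bt f n * bt x n := sum_range_succ _ _

theorem par_succ' (n f x : ℕ) : par (n + 1) f x = par n (f / 2) (x / 2) + bt f 0 * bt x 0 := by
  rw [par, sum_range_succ']; simp only [bt_succ]; rfl

theorem par_xor (n f x y : ℕ) : par n f (x ^^^ y) = par n f x + par n f y := by
  simp only [par, bt, bit_xor, mul_add, sum_add_distrib]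

theorem par_congr {n f x y : ℕ} (h : ∀ j < n, x.testBit j = y.testBit j) : par n f x = par n f y :=
  sum_congr rfl fun j hj => by rw [bt_of (h j (mem_range.1 hj))]; rfl

theorem par_pow {n f i : ℕ} (h : f.testBit i = false) : par n f (2 ^ i) = 0 :=
  sum_eq_zero fun j _ => by
    by_cases e : i = j
    · rw [← e, bt_of h]; simp
    · rw [bt_of (Nat.testBit_two_pow_of_ne e)]; simp

theorem xor_pow_eq (i : ℕ) : ∀ y : ℕ, y.testBit i = false → y ^^^ 2 ^ i = y + 2 ^ i := by
  induction i with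
  | zero => intro y h; exact Nat.xor_one_of_even (Nat.even_iff.2 (by simpa using h))
  | succ i ih =>
    intro y h
    have h1 := ih (y / 2) (by rwa [Nat.testBit_add_one] at h)
    have h2 : (y ^^^ 2 ^ (i + 1)) / 2 = y / 2 + 2 ^ i := by
      rw [Nat.xor_div_two, pow_succ, Nat.mul_div_cancel _ two_pos, h1]
    have h3 := Nat.xor_mod_two_eq_one (a := y) (b := 2 ^ (i + 1))
    rw [pow_succ] at h2 h3 ⊢
    omega

/-- the transvection `x_j += f x + c` -/
def ph (n j f : ℕ) (c : ZMod 2) (x : ℕ) : ℕ := if par n f x + c = 1 then x ^^^ 2 ^ j else x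

/-- `P`, `Q` are the positions below `2 ^ n` with bit `i` zero and `π = 1`, `π = 0` -/
def MK (n i : ℕ) (π : ℕ → ZMod 2) (P Q : ℕ) : Prop := ∀ y,
  (P.testBit y = true ↔ y < 2 ^ n ∧ y.testBit i = false ∧ π y = 1) ∧
    (Q.testBit y = true ↔ y < 2 ^ n ∧ y.testBit i = false ∧ π y = 0)

theorem MK.swap {n i : ℕ} {π : ℕ → ZMod 2} {P Q : ℕ} (h : MK n i π P Q) :
    MK n i (fun y => π y + 1) Q P := fun y => by
  rw [(h y).1, (h y).2]
  rcases z2 (π y) with e | e <;> simp [e, show (1 : ZMod 2) + 1 = 0 from rfl]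

theorem MK.congr {n i : ℕ} {π ρ : ℕ → ZMod 2} {P Q : ℕ} (h : MK n i π P Q) (e : ∀ y, π y = ρ y) :
    MK n i ρ P Q := funext e ▸ h

def dbm (j A B : ℕ) : ℕ := Nat.lor A (Nat.shiftLeft B (Nat.shiftLeft 1 j))

theorem testBit_dbm (j A B y : ℕ) :
    (dbm j A B).testBit y = (A.testBit y || decide (2 ^ j ≤ y) && B.testBit (y - 2 ^ j)) := by
  change (A ||| B <<< (1 <<< j)).testBit y = _
  rw [Nat.testBit_or, Nat.testBit_shiftLeft, Nat.one_shiftLeft]

noncomputable def pq (f i n : ℕ) : ℕ × ℕ :=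
  Nat.rec (motive := fun _ => ℕ × ℕ) (0, 1) (fun j ih => Prod.rec (motive := fun _ => ℕ × ℕ)
    (fun P Q => Bool.rec (motive := fun _ => ℕ × ℕ) (Bool.rec (motive := fun _ => ℕ × ℕ)
      (dbm j P P, dbm j Q Q) (dbm j P Q, dbm j Q P) (H4.tb f j)) (P, Q) (Nat.beq j i)) ih) n

theorem pq_succ (f i j : ℕ) : pq f i (j + 1) = if j = i then pq f i j else
    if f.testBit j then (dbm j (pq f i j).1 (pq f i j).2, dbm j (pq f i j).2 (pq f i j).1)
    else (dbm j (pq f i j).1 (pq f i j).1, dbm j (pq f i j).2 (pq f i j).2) := by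
  have : pq f i (j + 1) = Bool.rec (motive := fun _ => ℕ × ℕ) (Bool.rec (motive := fun _ => ℕ × ℕ)
      (dbm j (pq f i j).1 (pq f i j).1, dbm j (pq f i j).2 (pq f i j).2)
      (dbm j (pq f i j).1 (pq f i j).2, dbm j (pq f i j).2 (pq f i j).1) (H4.tb f j))
      ((pq f i j).1, (pq f i j).2) (Nat.beq j i) := rfl
  rw [this, H4.tb_eq]
  by_cases h : j = i
  · rw [if_pos h, h, Nat.beq_refl]
  · rw [if_neg h, Bool.eq_false_iff.2 (mt Nat.eq_of_beq_eq_true h)]; cases f.testBit j <;> rfl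

theorem dbm_spec {j i f A B : ℕ} {a b : ZMod 2} (hi : j ≠ i)
    (hA : ∀ y, A.testBit y = true ↔ y < 2 ^ j ∧ y.testBit i = false ∧ par j f y = a)
    (hB : ∀ y, B.testBit y = true ↔ y < 2 ^ j ∧ y.testBit i = false ∧ par j f y = b)
    (hab : b + bt f j = a) (y : ℕ) : (dbm j A B).testBit y = true ↔
      y < 2 ^ (j + 1) ∧ y.testBit i = false ∧ par (j + 1) f y = a := by
  rw [testBit_dbm, Bool.or_eq_true, Bool.and_eq_true, decide_eq_true_iff, hA, hB, par_succ, pow_succ]
  by_cases h : y < 2 ^ j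
  · rw [bt_of (Nat.testBit_lt_two_pow h)]
    simp only [h, true_and, not_le.2 h, false_and, or_false, show y < 2 ^ j * 2 by omega]
    simp
  · obtain ⟨z, rfl⟩ := Nat.exists_eq_add_of_le (not_lt.1 h)
    rw [Nat.add_sub_cancel_left]
    simp only [h, false_and, false_or, Nat.le_add_right, true_and]
    rw [show 2 ^ j + z < 2 ^ j * 2 ↔ z < 2 ^ j by omega]
    refine and_congr_right fun hz => and_congr ?_ ?_
    · rcases lt_or_gt_of_ne hi with e | e
      · rw [Nat.testBit_lt_two_pow (hz.trans (Nat.pow_lt_pow_right one_lt_two e)),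
          Nat.testBit_lt_two_pow (lt_of_lt_of_le (by omega : 2 ^ j + z < 2 ^ (j + 1))
            (Nat.pow_le_pow_right two_pos e))]
      · rw [Nat.testBit_two_pow_add_gt e]
    · rw [par_congr fun k hk => Nat.testBit_two_pow_add_gt hk z,
        bt_of (Nat.testBit_two_pow_add_eq z j), Nat.testBit_lt_two_pow hz, ← hab]
      simp

theorem pq_spec (f i n : ℕ) : MK n i (par n f) (pq f i n).1 (pq f i n).2 := by
  induction n with
  | zero =>
    intro y
    change (Nat.testBit 0 y = true ↔ _) ∧ (Nat.testBit 1 y = true ↔ _)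
    rw [Nat.testBit_one_eq_true_iff_self_eq_zero]
    simp +contextual [par]
  | succ j ih =>
    intro y
    rw [pq_succ]
    split_ifs with h1 h2
    · subst h1
      rw [(ih y).1, (ih y).2, par_succ]
      by_cases h : y.testBit j = false
      · have : y < 2 ^ (j + 1) ↔ y < 2 ^ j := ⟨fun h3 => Nat.lt_pow_two_of_testBit _ fun k hk => by
          rcases hk.eq_or_lt with rfl | hk
          · exact h
          · exact Nat.testBit_lt_two_pow (h3.trans_le (Nat.pow_le_pow_right two_pos hk)),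
          fun h3 => by omega⟩
        rw [this, bt_of h]; simp
      · simp [h]
    · exact ⟨dbm_spec h1 (fun y => (ih y).1) (fun y => (ih y).2) (by rw [bt_of h2]; rfl) y,
        dbm_spec h1 (fun y => (ih y).2) (fun y => (ih y).1) (by rw [bt_of h2]; rfl) y⟩
    · rw [Bool.not_eq_true] at h2
      exact ⟨dbm_spec h1 (fun y => (ih y).1) (fun y => (ih y).1) (by rw [bt_of h2]; rfl) y,
        dbm_spec h1 (fun y => (ih y).2) (fun y => (ih y).2) (by rw [bt_of h2]; rfl) y⟩

/-! ### trees -/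

noncomputable def val (T : Tr) : ℕ := Tr.rec (motive := fun _ => ℕ) (fun v => v) (fun _ _ _ _ => 0) T
noncomputable def lf (T : Tr) : Tr := Tr.rec (motive := fun _ => Tr) Tr.l (fun a _ _ _ => a) T
noncomputable def rt (T : Tr) : Tr := Tr.rec (motive := fun _ => Tr) Tr.l (fun _ b _ _ => b) T

/-- membership in a tree of depth `h` -/
noncomputable def tm : ℕ → Tr → ℕ → Bool
  | 0, T, x => (val T).testBit x
  | h + 1, T, x => if x % 2 = 1 then tm h (rt T) (x / 2) else tm h (lf T) (x / 2)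

theorem tm_n (h : ℕ) (a b : Tr) (x : ℕ) :
    tm (h + 1) (.n a b) x = if x % 2 = 1 then tm h b (x / 2) else tm h a (x / 2) := rfl

noncomputable def zw (op : ℕ → ℕ → ℕ) (h : ℕ) : Tr → Tr → Tr :=
  Nat.rec (motive := fun _ => Tr → Tr → Tr) (fun a b => .l (op (val a) (val b)))
    (fun _ ih a b => .n (ih (lf a) (lf b)) (ih (rt a) (rt b))) h

theorem tm_zw {op : ℕ → ℕ → ℕ} {bo : Bool → Bool → Bool}
    (e : ∀ a b y, (op a b).testBit y = bo (a.testBit y) (b.testBit y)) (h : ℕ) :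
    ∀ a b x, tm h (zw op h a b) x = bo (tm h a x) (tm h b x) := by
  induction h with
  | zero => exact fun a b x => e _ _ x
  | succ h ih =>
    intro a b x
    change tm (h + 1) (.n (zw op h (lf a) (lf b)) (zw op h (rt a) (rt b))) x = _
    rw [tm_n, ih, ih, tm, tm]; split_ifs <;> rfl

theorem tm_xor (h : ℕ) (a b : Tr) (x : ℕ) : tm h (zw Nat.xor h a b) x = (tm h a x ^^ tm h b x) :=
  tm_zw Nat.testBit_xor h a b x

theorem tm_or (h : ℕ) (a b : Tr) (x : ℕ) : tm h (zw Nat.lor h a b) x = (tm h a x || tm h b x) :=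
  tm_zw Nat.testBit_or h a b x

/-- descend `k` levels, then apply `B` -/
noncomputable def desc {α : Type} (L R : α → α) (B : α → ℕ → ℕ → ℕ → Tr) (k : ℕ) :
    α → ℕ → ℕ → ℕ → Tr :=
  Nat.rec (motive := fun _ => α → ℕ → ℕ → ℕ → Tr) B (fun _ ih T f P Q => (fun g =>
    .n (ih (L T) g P Q) (Bool.rec (motive := fun _ => Tr) (ih (R T) g P Q) (ih (R T) g Q P)
      (Nat.beq (Nat.land f 1) 1))) (Nat.shiftRight f 1)) k

theorem desc_succ {α : Type} (L R : α → α) (B : α → ℕ → ℕ → ℕ → Tr) (k : ℕ) (T : α) (f P Q : ℕ) :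
    desc L R B (k + 1) T f P Q = .n (desc L R B k (L T) (f / 2) P Q)
      (if f.testBit 0 then desc L R B k (R T) (f / 2) Q P else desc L R B k (R T) (f / 2) P Q) := by
  change Tr.n _ (Bool.rec (motive := fun _ => Tr) _ _ (H4.tb f 0)) = _
  rw [H4.tb_eq]; cases f.testBit 0 <;> rfl

theorem desc_spec {α : Type} {L R : α → α} {B : α → ℕ → ℕ → ℕ → Tr} {n i h : ℕ}
    (F : ℕ → α → ℕ → ZMod 2 → ℕ → Bool) (C : ℕ → ℕ → Prop) (hC : ∀ k f, C (k + 1) f → C k (f / 2))
    (hF : ∀ k T f c x, F (k + 1) T f c x = if x % 2 = 1 then F k (R T) (f / 2) (c + bt f 0) (x / 2)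
      else F k (L T) (f / 2) c (x / 2))
    (hB : ∀ T f P Q c, C 0 f → MK n i (fun y => par n (f / 2 ^ h) y + c) P Q →
      ∀ x < 2 ^ (n + h), tm h (B T f P Q) x = F 0 T f c x) (k : ℕ) :
    ∀ T f P Q c, C k f → MK n i (fun y => par n (f / 2 ^ (h + k)) y + c) P Q →
      ∀ x < 2 ^ (n + (h + k)), tm (h + k) (desc L R B k T f P Q) x = F k T f c x := by
  induction k with
  | zero => exact hB
  | succ k ih =>
    intro T f P Q c hf hm x hx
    have e : f / 2 ^ (h + (k + 1)) = f / 2 / 2 ^ (h + k) := by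
      rw [Nat.div_div_eq_div_mul, ← pow_succ']; rfl
    have hx' : x / 2 < 2 ^ (n + (h + k)) := by
      have : 2 ^ (n + (h + (k + 1))) = 2 ^ (n + (h + k)) * 2 := pow_succ _ _
      omega
    rw [e] at hm
    rw [desc_succ, hF, show h + (k + 1) = h + k + 1 from rfl, tm_n, ih _ _ _ _ c (hC k f hf) hm _ hx']
    congr 1
    cases h0 : f.testBit 0
    · rw [if_neg Bool.false_ne_true, bt_of h0]
      exact ih _ _ _ _ _ (hC k f hf) (hm.congr fun y => by simp) _ hx'
    · rw [if_pos rfl, bt_of h0]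
      exact ih _ _ _ _ _ (hC k f hf) (hm.swap.congr fun y => by simp [add_assoc]) _ hx'

theorem bt_zero (x : ℕ) : bt x 0 = if x % 2 = 1 then 1 else 0 := by
  rw [bt, H5.bit, Nat.testBit_zero]; simp

theorem tm_ph (n h j : ℕ) (T : Tr) (f : ℕ) (c : ZMod 2) (x : ℕ) :
    tm (h + 1) T (ph (n + 1) (j + 1) f c x) = if x % 2 = 1 then
      tm h (rt T) (ph n j (f / 2) (c + bt f 0) (x / 2)) else tm h (lf T) (ph n j (f / 2) c (x / 2)) := by
  have h1 : (x ^^^ 2 ^ (j + 1)) / 2 = x / 2 ^^^ 2 ^ j := by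
    rw [Nat.xor_div_two, pow_succ, Nat.mul_div_cancel _ two_pos]
  have h2 : (x ^^^ 2 ^ (j + 1)) % 2 = 1 ↔ x % 2 = 1 := by
    rw [Nat.xor_mod_two_eq_one, pow_succ]; omega
  rw [ph, ph, ph, par_succ', bt_zero x]
  by_cases hx : x % 2 = 1
  · simp only [hx, if_true, mul_one, add_assoc, add_comm (bt f 0)]
    split_ifs <;> simp only [tm, h1, h2, hx, if_true]
  · simp only [hx, if_false, mul_zero, add_zero]
    split_ifs <;> simp only [tm, h1, h2, hx, if_false]

def swp (s X m : ℕ) : ℕ := (fun t => Nat.xor (Nat.xor X t) (Nat.shiftLeft t s))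
  (Nat.land (Nat.xor (Nat.shiftRight X s) X) m)

theorem swp_spec {n i f P Q : ℕ} {c : ZMod 2} (hf : f.testBit i = false)
    (hm : MK n i (fun y => par n f y + c) P Q) (X : ℕ) {y : ℕ} (hy : y < 2 ^ n) :
    (swp (2 ^ i) X P).testBit y = X.testBit (ph n i f c y) := by
  change (X ^^^ (X >>> 2 ^ i ^^^ X) &&& P ^^^ ((X >>> 2 ^ i ^^^ X) &&& P) <<< 2 ^ i).testBit y = _
  simp only [Nat.testBit_xor, Nat.testBit_and, Nat.testBit_shiftLeft, Nat.testBit_shiftRight, ph]
  cases hb : y.testBit i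
  · have h1 : (decide (y ≥ 2 ^ i) && P.testBit (y - 2 ^ i)) = false := by
      rw [Bool.and_eq_false_imp, decide_eq_true_iff, ← Bool.not_eq_true, (hm _).1]
      rintro h ⟨-, h2, -⟩
      have := Nat.testBit_two_pow_add_eq (y - 2 ^ i) i
      rw [Nat.add_sub_cancel' h, hb, h2] at this
      exact absurd this (by decide)
    rw [Bool.and_left_comm, h1, xor_pow_eq i y hb, add_comm y]
    have h2 := (hm y).1
    simp only [hy, hb, true_and] at h2
    split_ifs with h3
    · rw [h2.2 h3]; cases X.testBit y <;> simp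
    · rw [Bool.eq_false_iff.2 (mt h2.1 h3)]; simp
  · have h0 : (y ^^^ 2 ^ i).testBit i = false := by simp [hb]
    have h1 := xor_pow_eq i _ h0
    rw [Nat.xor_assoc, Nat.xor_self, Nat.xor_zero] at h1
    have h3 := (hm (y ^^^ 2 ^ i)).1
    simp only [h0, true_and, par_xor, par_pow hf, add_zero] at h3
    have h4 : P.testBit y = false := by
      rw [← Bool.not_eq_true, (hm _).1, hb]; simp
    generalize y ^^^ 2 ^ i = z at h1 h3 ⊢
    rw [h4, show y - 2 ^ i = z by omega, show 2 ^ i + z = y by omega,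
      decide_eq_true (show y ≥ 2 ^ i by omega)]
    rw [and_iff_right (by have := Nat.two_pow_pos i; omega)] at h3
    split_ifs with h5
    · rw [h3.2 h5]; cases X.testBit y <;> simp
    · rw [Bool.eq_false_iff.2 (mt h3.1 h5)]; simp

noncomputable def lowS (H s : ℕ) : Tr → ℕ → ℕ → ℕ → Tr :=
  desc lf rt (fun T _ P _ => .l (swp s (val T) P)) H

theorem lowS_spec {n i H f P Q : ℕ} (hf : f.testBit (i + H) = false)
    (hm : MK n i (par n (f / 2 ^ H)) P Q) (T : Tr) {x : ℕ} (hx : x < 2 ^ (n + H)) :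
    tm H (lowS H (2 ^ i) T f P Q) x = tm H T (ph (n + H) (i + H) f 0 x) := by
  have := desc_spec (L := lf) (R := rt) (B := fun T _ P _ => .l (swp (2 ^ i) (val T) P))
    (n := n) (i := i) (h := 0) (fun k T f c x => tm k T (ph (n + k) (i + k) f c x))
    (fun k f => f.testBit (i + k) = false) (fun k f h => by rwa [← Nat.testBit_add_one])
    (fun k T f c x => tm_ph (n + k) k (i + k) T f c x)
    (fun T f P Q c hf hm x hx => swp_spec hf (by simpa using hm) _ hx) H T f P Q 0 hf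
  rw [zero_add] at this
  exact this (hm.congr fun y => by simp) x hx

noncomputable def zp (h : ℕ) : Tr × Tr → ℕ → ℕ → ℕ → Tr :=
  desc (fun p => (lf p.1, lf p.2)) (fun p => (rt p.1, rt p.2))
    (fun p _ P _ => .l (Nat.land (Nat.xor (val p.1) (val p.2)) P)) h

theorem zp_spec {n h f P Q : ℕ} {c : ZMod 2} (hm : MK n n (fun y => par n (f / 2 ^ h) y + c) P Q)
    (a b : Tr) {x : ℕ} (hx : x < 2 ^ (n + h)) : tm h (zp h (a, b) f P Q) x =
      ((tm h a x ^^ tm h b x) && decide (par (n + h) f x + c = 1)) := by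
  have := desc_spec (L := fun p : Tr × Tr => (lf p.1, lf p.2)) (R := fun p => (rt p.1, rt p.2))
    (B := fun p _ P _ => .l (Nat.land (Nat.xor (val p.1) (val p.2)) P)) (n := n) (i := n) (h := 0)
    (fun k p f c x => (tm k p.1 x ^^ tm k p.2 x) && decide (par (n + k) f x + c = 1))
    (fun _ _ => True) (fun _ _ h => h) (fun k p f c x => by
      rw [tm, tm, show n + (k + 1) = n + k + 1 from rfl, par_succ', bt_zero x]
      split_ifs
      · rw [mul_one, add_assoc, add_comm (bt f 0)]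
      · rw [mul_zero, add_zero])
    (fun p f P Q c _ hm x hx => by
      change ((val p.1 ^^^ val p.2) &&& P).testBit x = _
      rw [Nat.testBit_and, Nat.testBit_xor]
      congr 1
      have := (hm x).1
      rw [pow_zero, Nat.div_one] at this
      rw [Bool.eq_iff_iff, this, decide_eq_true_iff]
      exact ⟨fun h => h.2.2, fun h => ⟨hx, Nat.testBit_lt_two_pow hx, h⟩⟩) h (a, b) f P Q c trivial
  rw [zero_add] at this
  exact this hm x hx

noncomputable def hiS (h k : ℕ) : Tr → ℕ → ℕ → ℕ → Tr :=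
  desc lf rt (fun T f P Q => (fun D => .n (zw Nat.xor h (lf T) D) (zw Nat.xor h (rt T) D))
    (zp h (lf T, rt T) (Nat.shiftRight f 1) P Q)) k

theorem hiS_spec {n h k f P Q : ℕ} (hf : f.testBit k = false)
    (hm : MK n n (par n (f / 2 ^ (h + 1 + k))) P Q) (T : Tr) {x : ℕ} (hx : x < 2 ^ (n + (h + 1 + k))) :
    tm (h + 1 + k) (hiS h k T f P Q) x = tm (h + 1 + k) T (ph (n + (h + 1 + k)) k f 0 x) := by
  refine desc_spec (n := n) (i := n) (h := h + 1)
    (fun k T f c x => tm (h + 1 + k) T (ph (n + (h + 1 + k)) k f c x))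
    (fun k f => f.testBit k = false) (fun k f h => by rwa [← Nat.testBit_add_one])
    (fun k T f c x => tm_ph (n + (h + 1 + k)) (h + 1 + k) k T f c x)
    (fun T f P Q c hf hm x hx => ?_) k T f P Q 0 hf (hm.congr fun y => by simp) x hx
  have hx' : x / 2 < 2 ^ (n + h) := by
    have : 2 ^ (n + (h + 1)) = 2 ^ (n + h) * 2 := pow_succ _ _
    omega
  rw [pow_succ', ← Nat.div_div_eq_div_mul] at hm
  have h1 : (x ^^^ 2 ^ 0) / 2 = x / 2 := by rw [Nat.xor_div_two]; simp
  have h2 : (x ^^^ 2 ^ 0) % 2 = 1 ↔ ¬ x % 2 = 1 := by rw [Nat.xor_mod_two_eq_one]; simp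
  change tm (h + 1) (.n (zw Nat.xor h (lf T) (zp h (lf T, rt T) (f / 2) P Q))
    (zw Nat.xor h (rt T) (zp h (lf T, rt T) (f / 2) P Q))) x = tm (h + 1) T (ph (n + h + 1) 0 f c x)
  rw [tm_n, tm_xor, tm_xor, zp_spec hm _ _ hx', ph, par_succ', bt_of hf]
  simp only [Bool.false_eq_true, if_false, zero_mul, add_zero]
  by_cases h3 : par (n + h) (f / 2) (x / 2) + c = 1
  · simp only [h3, if_true, tm, h1, h2, decide_true, Bool.and_true]
    by_cases hx : x % 2 = 1 <;> cases tm h (rt T) (x / 2) <;> simp [hx]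
  · simp only [h3, if_false, tm, decide_false, Bool.and_false, Bool.xor_false]

end Cfsg.Agent.Mo.Bf
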