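import Cfsg.Agent.Mo.Defs

/-! INTERFACE (part F): orbits of linear maps on `2 ^ 24`-bit bitmaps. -/

set_option autoImplicit false

namespace Cfsg.Agent.Mo

/-- the linear map over `F2` with columns `ys` -/
def ap : List ℕ → ℕ → ℕ
  | [], _ => 0
  | y :: ys, x => (if x % 2 = 1 then y else 0) ^^^ ap ys (x / 2)

inductive Reach (gs : List (List ℕ)) (seeds : List ℕ) : ℕ → Prop
  | seed {c : ℕ} : c ∈ seeds → Reach gs seeds c
  | step {g : List ℕ} {c : ℕ} : g ∈ gs → Reach gs seeds c → Reach gs seeds (ap g c)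

/-- what the computation delivers for generators `gs` and four groups of seeds -/
def BfsOK (gs : List (List ℕ)) (seeds : Fin 4 → List ℕ) (cnt : Fin 4 → ℕ) : Prop :=
  ∃ R : Fin 4 → Set ℕ, (∀ g, ∀ c ∈ R g, Reach gs (seeds g) c) ∧
    (∀ c < 2 ^ 24, c ≠ 0 → sg (c / 4096) (c % 4096) = 1 → ∃ g, c ∈ R g) ∧
    ∀ g, g ≠ 0 → (R g).ncard = cnt g

end Cfsg.Agent.Mo
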