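import Cfsg.Agent.Mo.BfA
import Cfsg.Agent.Mo.Bfs
import Cfsg.Agent.H4.SS

/-! Orbit enumeration on bitmaps: the checker and its soundness. -/

set_option autoImplicit false

namespace Cfsg.Agent.Mo.Bf

open Finset H5
open H4 (allL allLt allL_iff allLt_iff band band_eq memL memL_iff getL getL_mem)

/-! ### linear maps -/

noncomputable def apk (g : List ℕ) : ℕ → ℕ :=
  List.rec (motive := fun _ => ℕ → ℕ) (fun _ => 0)
    (fun y _ ih x => Nat.xor (Nat.mul (Nat.land x 1) y) (ih (Nat.shiftRight x 1))) g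

theorem ap_cons' (y : ℕ) (ys : List ℕ) (x : ℕ) :
    ap (y :: ys) x = (if x % 2 = 1 then y else 0) ^^^ ap ys (x / 2) := rfl

theorem apk_eq (g : List ℕ) : ∀ x, apk g x = ap g x := by
  induction g with
  | nil => exact fun _ => rfl
  | cons y g ih =>
    intro x
    change ((x &&& 1) * y) ^^^ apk g (x / 2) = _
    rw [ih, ap_cons', Nat.and_one_is_mod]
    rcases Nat.mod_two_eq_zero_or_one x with h | h <;> simp [h]

theorem ap_xor (g : List ℕ) : ∀ x y, ap g (x ^^^ y) = ap g x ^^^ ap g y := by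
  induction g with
  | nil => exact fun _ _ => (Nat.xor_self 0).symm
  | cons a g ih =>
    intro x y
    simp only [ap_cons', Nat.xor_div_two, ih, Nat.xor_mod_two_eq_one]
    by_cases hx : x % 2 = 1 <;> by_cases hy : y % 2 = 1 <;>
      simp [hx, hy, Nat.xor_left_comm (ap g (x / 2)), Nat.xor_assoc]

theorem eq_zero_of_add {F : ℕ → ℕ} (h : ∀ x y, F (x ^^^ y) = F x ^^^ F y) : F 0 = 0 := by
  simpa using h 0 0

theorem ap_zero (g : List ℕ) : ap g 0 = 0 := eq_zero_of_add (ap_xor g)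

theorem ap_map (a b : List ℕ) : ∀ x, ap (b.map (ap a)) x = ap a (ap b x) := by
  induction b with
  | nil => exact fun _ => (ap_zero a).symm
  | cons y b ih =>
    intro x
    rw [List.map_cons, ap_cons', ap_cons', ap_xor, ih]
    split_ifs
    · rfl
    · rw [ap_zero]

theorem id_of_basis {F : ℕ → ℕ} (h : ∀ x y, F (x ^^^ y) = F x ^^^ F y) (n : ℕ)
    (hb : ∀ j < n, F (2 ^ j) = 2 ^ j) : ∀ x < 2 ^ n, F x = x := by
  induction n with
  | zero => intro x hx; obtain rfl : x = 0 := by omega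
            exact eq_zero_of_add h
  | succ n ih =>
    intro x hx
    have ih' := ih fun j hj => hb j (by omega)
    by_cases h1 : x < 2 ^ n
    · exact ih' x h1
    · have h2 : x - 2 ^ n < 2 ^ n := by rw [pow_succ] at hx; omega
      have h3 := xor_pow_eq n _ (Nat.testBit_lt_two_pow h2)
      rw [Nat.sub_add_cancel (not_lt.1 h1)] at h3
      rw [← h3, h, ih' _ h2, hb n (by omega)]

theorem ph_xor (n j f x y : ℕ) : ph n j f 0 (x ^^^ y) = ph n j f 0 x ^^^ ph n j f 0 y := by
  simp only [ph, par_xor, add_zero]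
  rcases z2 (par n f x) with h | h <;> rcases z2 (par n f y) with h' | h' <;>
    simp [h, h', show (1 : ZMod 2) + 1 = 0 from rfl, Nat.xor_assoc, Nat.xor_comm (2 ^ j),
      Nat.xor_left_comm (2 ^ j)]

theorem ph_lt {n j f x : ℕ} (hj : j < n) (hx : x < 2 ^ n) : ph n j f 0 x < 2 ^ n := by
  unfold ph; split_ifs
  · exact Nat.xor_lt_two_pow hx (Nat.pow_lt_pow_right one_lt_two hj)
  · exact hx

def phk (st : ℕ × ℕ) (x : ℕ) : ℕ :=
  Nat.xor x (Nat.shiftLeft (Nat.land (H4.pc24 (Nat.land st.2 x)) 1) st.1)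

theorem phk_eq (st : ℕ × ℕ) {x : ℕ} (hx : x < 2 ^ 24) : phk st x = ph 24 st.1 st.2 0 x := by
  have h : par 24 st.2 x = (H4.pc 24 (st.2 &&& x) : ℕ) := by
    rw [H4.pc_eq_sum, Nat.cast_sum]
    refine sum_congr rfl fun j _ => ?_
    rw [H4.bit_eq, Nat.testBit_and, bt_of rfl, bt_of rfl]
    cases st.2.testBit j <;> cases x.testBit j <;> simp
  change x ^^^ (H4.pc24 (st.2 &&& x) &&& 1) <<< st.1 = _
  rw [H4.pc24_eq (lt_of_le_of_lt Nat.and_le_right hx), ph, h, add_zero, Nat.and_one_is_mod]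
  simp only [ZMod.natCast_eq_one_iff_odd, Nat.odd_iff]
  rcases Nat.mod_two_eq_zero_or_one (H4.pc 24 (st.2 &&& x)) with e | e <;>
    simp [e, Nat.one_shiftLeft]

def psi : List (ℕ × ℕ) → ℕ → ℕ
  | [], x => x
  | st :: l, x => psi l (ph 24 st.1 st.2 0 x)

noncomputable def psik (l : List (ℕ × ℕ)) : ℕ → ℕ :=
  List.rec (motive := fun _ => ℕ → ℕ) (fun x => x) (fun st _ ih x => force (phk st x) ih) l

def okP (l : List (ℕ × ℕ)) : Bool :=
  allL l fun st => band (Nat.blt st.1 24) (H4.bnot (H4.tb st.2 st.1))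

theorem okP_cons {st : ℕ × ℕ} {l : List (ℕ × ℕ)} (h : okP (st :: l) = true) :
    st.1 < 24 ∧ st.2.testBit st.1 = false ∧ okP l = true := by
  simpa [okP, H4.allL_cons, H4.tb_eq, and_assoc] using h

theorem psi_spec {l : List (ℕ × ℕ)} (h : okP l = true) :
    ∀ x < 2 ^ 24, psik l x = psi l x ∧ psi l x < 2 ^ 24 := by
  induction l with
  | nil => exact fun x hx => ⟨rfl, hx⟩
  | cons st l ih =>
    intro x hx
    obtain ⟨h1, -, h2⟩ := okP_cons h
    change psik l (phk st x) = _ ∧ _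
    rw [phk_eq st hx]
    exact ih h2 _ (ph_lt h1 hx)

theorem psi_xor (l : List (ℕ × ℕ)) : ∀ x y, psi l (x ^^^ y) = psi l x ^^^ psi l y := by
  induction l with
  | nil => exact fun _ _ => rfl
  | cons st l ih => intro x y; rw [psi, ph_xor, ih]; rfl

/-! ### images of bitmaps -/

noncomputable def stage (st : ℕ × ℕ) (T : Tr) : Tr :=
  Bool.rec (motive := fun _ => Tr)
    (Prod.rec (motive := fun _ => Tr) (lowS 7 (Nat.shiftLeft 1 (Nat.sub st.1 7)) T st.2)
      (pq (Nat.shiftRight st.2 7) (Nat.sub st.1 7) 17))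
    (Prod.rec (motive := fun _ => Tr) (hiS (Nat.sub 6 st.1) st.1 T st.2)
      (pq (Nat.shiftRight st.2 7) 17 17)) (Nat.blt st.1 7)

theorem stage_spec {i f : ℕ} (hf : f.testBit i = false) (T : Tr) {x : ℕ} (hx : x < 2 ^ 24) :
    tm 7 (stage (i, f) T) x = tm 7 T (ph 24 i f 0 x) := by
  have e : Nat.shiftRight f 7 = f / 2 ^ 7 := Nat.shiftRight_eq_div_pow f 7
  by_cases h : i < 7
  · have h1 : stage (i, f) T = hiS (6 - i) i T f (pq (f / 2 ^ 7) 17 17).1 (pq (f / 2 ^ 7) 17 17).2 := by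
      rw [stage, Nat.blt_eq.mpr h, e]; rfl
    have h2 : 6 - i + 1 + i = 7 := by omega
    have := @hiS_spec 17 (6 - i) i f (pq (f / 2 ^ 7) 17 17).1 (pq (f / 2 ^ 7) 17 17).2 hf
    rw [h2] at this
    rw [h1]
    exact this (pq_spec _ _ _) T hx
  · obtain ⟨j, rfl⟩ : ∃ j, i = j + 7 := ⟨i - 7, by omega⟩
    have h1 : stage (j + 7, f) T = lowS 7 (2 ^ j) T f (pq (f / 2 ^ 7) j 17).1 (pq (f / 2 ^ 7) j 17).2 := by
      rw [stage, Bool.eq_false_iff.2 (mt Nat.blt_eq.mp h), e, ← Nat.one_shiftLeft j,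
        show Nat.sub (j + 7, f).1 7 = j from Nat.add_sub_cancel _ _]; rfl
    rw [h1]
    exact lowS_spec (n := 17) hf (pq_spec _ _ _) T hx

noncomputable def run (l : List (ℕ × ℕ)) (T : Tr) : Tr :=
  List.rec (motive := fun _ => Tr) T (fun st _ ih => stage st ih) l

theorem run_spec {l : List (ℕ × ℕ)} (h : okP l = true) (T : Tr) :
    ∀ x < 2 ^ 24, tm 7 (run l T) x = tm 7 T (psi l x) := by
  induction l with
  | nil => exact fun _ _ => rfl
  | cons st l ih =>
    intro x hx
    obtain ⟨h1, h2, h3⟩ := okP_cons h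
    exact (stage_spec h2 _ hx).trans (ih h3 _ (ph_lt h1 hx))

/-! ### the pool of group elements -/

section reach

variable {S : ℕ → Prop}

def Good (S : ℕ → Prop) (w : List ℕ) : Prop := ∀ y, S y → S (ap w y)

noncomputable def eqM (f : ℕ → ℕ) (b : List ℕ) : List ℕ → Bool :=
  List.rec (motive := fun _ => List ℕ → Bool)
    (fun w => List.rec (motive := fun _ => Bool) true (fun _ _ _ => false) w)
    (fun y _ ih w => List.rec (motive := fun _ => Bool) false
      (fun z w' _ => band (Nat.beq (f y) z) (ih w')) w) b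

theorem eqM_spec {f : ℕ → ℕ} {b : List ℕ} : ∀ {w}, eqM f b w = true → w = b.map f := by
  induction b with
  | nil => intro w h; cases w; exacts [rfl, absurd h Bool.false_ne_true]
  | cons y b ih =>
    intro w h
    cases w with
    | nil => exact absurd h Bool.false_ne_true
    | cons z w =>
      have h1 : band (Nat.beq (f y) z) (eqM f b w) = true := h
      rw [band_eq, Bool.and_eq_true, Nat.beq_eq] at h1
      rw [List.map_cons, h1.1, ih h1.2]

abbrev Prg := List (ℕ × ℕ × List ℕ)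

noncomputable def ext (L : Prg) : List (List ℕ) → List (List ℕ) :=
  List.rec (motive := fun _ => List (List ℕ) → List (List ℕ)) (fun p => p)
    (fun e _ ih p => ih (e.2.2 :: p)) L

noncomputable def chkP (L : Prg) : List (List ℕ) → Bool :=
  List.rec (motive := fun _ => List (List ℕ) → Bool) (fun _ => true)
    (fun e _ ih p => band (eqM (apk (getL [] p e.1)) (getL [] p e.2.1) e.2.2) (ih (e.2.2 :: p))) L

theorem good_getL (h0 : S 0) {p : List (List ℕ)} (h : ∀ w ∈ p, Good S w) (i : ℕ) :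
    Good S (getL [] p i) := by
  rcases getL_mem [] p i with e | e
  · rw [e]; exact fun _ _ => h0
  · exact h _ e

theorem ext_good (h0 : S 0) {L : Prg} : ∀ {p}, chkP L p = true → (∀ w ∈ p, Good S w) →
    ∀ w ∈ ext L p, Good S w := by
  induction L with
  | nil => exact fun _ h => h
  | cons e L ih =>
    intro p h hp
    have h1 : band (eqM (apk (getL [] p e.1)) (getL [] p e.2.1) e.2.2) (chkP L (e.2.2 :: p)) = true := h
    rw [band_eq, Bool.and_eq_true] at h1
    refine ih h1.2 (List.forall_mem_cons.2 ⟨fun y hy => ?_, hp⟩)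
    rw [eqM_spec h1.1, funext (apk_eq _), ap_map]
    exact good_getL h0 hp _ _ (good_getL h0 hp _ _ hy)

/-! ### the list phase -/

noncomputable def dbl (w l : List ℕ) : List ℕ :=
  List.rec (motive := fun _ => List ℕ) [] (fun x _ ih => x :: apk w x :: ih) l

noncomputable def app (a b : List ℕ) : List ℕ :=
  List.rec (motive := fun _ => List ℕ) b (fun x _ ih => x :: ih) a

noncomputable def pts (p : List (List ℕ)) (L : List (ℕ × List ℕ)) : List ℕ :=
  List.rec (motive := fun _ => List ℕ) [] (fun e _ ih => app e.2 (dbl (getL [] p e.1) ih)) L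

theorem dbl_ok {w l : List ℕ} (hw : Good S w) (h : ∀ x ∈ l, S x) : ∀ x ∈ dbl w l, S x := by
  induction l with
  | nil => exact h
  | cons a l ih =>
    rw [List.forall_mem_cons] at h
    exact List.forall_mem_cons.2 ⟨h.1, List.forall_mem_cons.2 ⟨apk_eq w a ▸ hw _ h.1, ih h.2⟩⟩

theorem app_ok {a b : List ℕ} (ha : ∀ x ∈ a, S x) (hb : ∀ x ∈ b, S x) : ∀ x ∈ app a b, S x := by
  induction a with
  | nil => exact hb
  | cons x a ih =>
    rw [List.forall_mem_cons] at ha
    exact List.forall_mem_cons.2 ⟨ha.1, ih ha.2⟩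

theorem pts_ok (h0 : S 0) {p : List (List ℕ)} (hp : ∀ w ∈ p, Good S w) {L : List (ℕ × List ℕ)}
    (h : ∀ e ∈ L, ∀ x ∈ e.2, S x) : ∀ x ∈ pts p L, S x := by
  induction L with
  | nil => exact fun _ h => absurd h List.not_mem_nil
  | cons e L ih =>
    rw [List.forall_mem_cons] at h
    exact app_ok h.1 (dbl_ok (good_getL h0 hp _) (ih h.2))

noncomputable def orL (l : List ℕ) : ℕ :=
  List.rec (motive := fun _ => ℕ) 0 (fun x _ ih => Nat.lor ih (Nat.shiftLeft 1 x)) l

noncomputable def sel (b : ℕ) (l : List ℕ) : List ℕ :=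
  List.rec (motive := fun _ => List ℕ) [] (fun x _ ih => Bool.rec (motive := fun _ => List ℕ) ih
    (force (Nat.shiftRight x 1) id :: ih) (Nat.beq (Nat.land x 1) b)) l

noncomputable def bld (h : ℕ) : List ℕ → Tr :=
  Nat.rec (motive := fun _ => List ℕ → Tr) (fun l => .l (orL l))
    (fun _ ih l => .n (ih (sel 0 l)) (ih (sel 1 l))) h

theorem orL_spec {l : List ℕ} {y : ℕ} (h : (orL l).testBit y = true) : y ∈ l := by
  induction l with
  | nil => exact absurd h (by simp [orL])
  | cons x l ih =>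
    have h1 : (orL l ||| 1 <<< x).testBit y = true := h
    rw [Nat.testBit_or, Bool.or_eq_true, Nat.one_shiftLeft, Nat.testBit_two_pow,
      decide_eq_true_iff] at h1
    exact List.mem_cons.2 (h1.symm.imp Eq.symm ih)

theorem sel_spec {b x : ℕ} {l : List ℕ} (hb : x % 2 = b) (h : x / 2 ∈ sel b l) : x ∈ l := by
  induction l with
  | nil => exact absurd h List.not_mem_nil
  | cons a l ih =>
    have h1 : x / 2 ∈ Bool.rec (motive := fun _ => List ℕ) (sel b l) (a / 2 :: sel b l)
      (Nat.beq (a &&& 1) b) := h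
    cases e : Nat.beq (a &&& 1) b <;> rw [e] at h1
    · exact List.mem_cons_of_mem _ (ih h1)
    · have := Nat.eq_of_beq_eq_true e
      rw [Nat.and_one_is_mod] at this
      exact List.mem_cons.2 ((List.mem_cons.1 h1).imp (by omega) ih)

theorem bld_spec (h : ℕ) : ∀ l x, tm h (bld h l) x = true → x ∈ l := by
  induction h with
  | zero => exact fun _ _ => orL_spec
  | succ h ih =>
    intro l x hx
    change tm (h + 1) (.n (bld h (sel 0 l)) (bld h (sel 1 l))) x = true at hx
    rw [tm_n] at hx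
    split_ifs at hx with e
    · exact sel_spec e (ih _ _ hx)
    · exact sel_spec (by omega) (ih _ _ hx)

/-! ### the dense phase -/

noncomputable def fT (h : ℕ) : Tr → ℕ :=
  Nat.rec (motive := fun _ => Tr → ℕ) (fun T => Nat.land (val T) 1)
    (fun _ ih T => Nat.add (ih (lf T)) (ih (rt T))) h

noncomputable def seq {α : Type} (n : ℕ) (a : α) : α := Nat.rec (motive := fun _ => α) a (fun _ _ => a) n

theorem seq_eq {α : Type} (n : ℕ) (a : α) : seq n a = a := by cases n <;> rfl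

abbrev Stp := List (ℕ × List (ℕ × ℕ))

noncomputable def bfs (St : Stp) (n : List ℕ) : Tr → Tr :=
  List.rec (motive := fun _ => Tr → Tr) (fun T => T) (fun j _ ih T => seq (fT 7 T)
    (ih (zw Nat.lor 7 T (run (getL (0, []) St j).2 T)))) n

noncomputable def chkS (p : List (List ℕ)) (St : Stp) : Bool :=
  allL St fun e => band (okP e.2) (allLt 24 fun j =>
    Nat.beq (apk (getL [] p e.1) (psik e.2 (Nat.shiftLeft 1 j))) (Nat.shiftLeft 1 j))

def Inv (S : ℕ → Prop) (T : Tr) : Prop := ∀ x < 2 ^ 24, tm 7 T x = true → S x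

theorem bfs_inv (h0 : S 0) {p : List (List ℕ)} (hp : ∀ w ∈ p, Good S w) {St : Stp}
    (h : chkS p St = true) (n : List ℕ) : ∀ T, Inv S T → Inv S (bfs St n T) := by
  induction n with
  | nil => exact fun _ h => h
  | cons j n ih =>
    intro T hT
    change Inv S (seq _ (bfs St n _))
    rw [seq_eq]
    refine ih _ fun x hx h1 => ?_
    rw [tm_or, Bool.or_eq_true] at h1
    refine h1.elim (hT x hx) fun h1 => ?_
    rcases getL_mem (0, []) St j with e | e
    · rw [e] at h1; exact hT x hx h1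
    · have h2 := allL_iff.1 h _ e
      generalize getL (0, []) St j = e at h1 h2
      rw [band_eq, Bool.and_eq_true, allLt_iff] at h2
      rw [run_spec h2.1 T x hx] at h1
      have h3 := good_getL h0 hp e.1 _ (hT _ (psi_spec h2.1 x hx).2 h1)
      rwa [id_of_basis (F := fun x => ap (getL [] p e.1) (psi e.2 x))
        (fun x y => by rw [psi_xor, ap_xor]) 24 (fun j hj => ?_) x hx] at h3
      have h4 : apk (getL [] p e.1) (psik e.2 (1 <<< j)) = 1 <<< j := Nat.eq_of_beq_eq_true (h2.2 j hj)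
      rwa [Nat.one_shiftLeft, apk_eq,
        (psi_spec h2.1 _ (Nat.pow_lt_pow_right one_lt_two hj)).1] at h4

end reach

/-! ### counting -/

def M16 : ℕ := Nat.div (Nat.sub (Nat.shiftLeft 1 131072) 1) 65535

theorem geo (B n : ℕ) (h : 2 ≤ B) : pack B (fun _ => 1) n = (B ^ n - 1) / (B - 1) := by
  rw [← Nat.geomSum_eq h, pack]; simp

theorem M16_eq : M16 = pack (2 ^ 16) (fun _ => 1) 8192 := by
  rw [geo _ _ (by norm_num), ← pow_mul, ← Nat.one_shiftLeft]; rfl

noncomputable def pc16 (X : ℕ) : ℕ :=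
  sumTo (fun r => Nat.mod (Nat.land (Nat.shiftRight X r) M16) 65535) 16

theorem pc16_eq (X : ℕ) : pc16 X = ∑ y ∈ range (2 ^ 17), if X.testBit y then 1 else 0 := by
  have h := Blk.sum (g := fun a => ∑ i ∈ range 16, if X.testBit (a * 16 + i) then 1 else 0)
    (f := fun y => if X.testBit y then 1 else 0) (N := 16) (fun _ => rfl) 8192
  rw [show 2 ^ 17 = 8192 * 16 from rfl, ← h, sum_comm, pc16, sumTo_eq]
  refine sum_congr rfl fun r _ => ?_
  change (X >>> r &&& M16) % 65535 = _
  rw [M16_eq, land_pack _ _ _ _ (fun _ _ => by norm_num), pack_modEq _ _ _ _ 1 (by decide), pack_one,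
    Nat.mod_eq_of_lt]
  · refine sum_congr rfl fun a _ => ?_
    have : X.testBit (a * 16 + r) = (X >>> r / (2 ^ 16) ^ a % 2 ^ 16).testBit 0 := by
      rw [← pow_mul, Nat.testBit_mod_two_pow, Nat.testBit_div_two_pow, Nat.testBit_shiftRight]
      simp [mul_comm, add_comm]
    rw [this, Nat.and_one_is_mod, Nat.testBit_zero]
    generalize X >>> r / (2 ^ 16) ^ a % 2 ^ 16 = z
    rcases Nat.mod_two_eq_zero_or_one z with e | e <;> simp [e]
  · refine lt_of_le_of_lt (sum_le_card_nsmul _ _ 1 fun _ _ => Nat.and_le_right) ?_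
    rw [card_range]; norm_num

noncomputable def pcT (h : ℕ) : Tr → ℕ :=
  Nat.rec (motive := fun _ => Tr → ℕ) (fun T => ifz (val T) 0 (pc16 (val T)))
    (fun _ ih T => Nat.add (ih (lf T)) (ih (rt T))) h

theorem pcT_eq (h : ℕ) : ∀ T, pcT h T = ∑ x ∈ range (2 ^ (17 + h)), if tm h T x then 1 else 0 := by
  induction h with
  | zero =>
    intro T
    change ifz (val T) 0 (pc16 (val T)) = ∑ x ∈ range (2 ^ 17), if (val T).testBit x then 1 else 0
    rw [ifz_eq, ← pc16_eq]
    split_ifs with e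
    · rw [e, pc16_eq]; simp
    · rfl
  | succ h ih =>
    intro T
    have h1 := Blk.sum (g := fun a => ∑ i ∈ range 2, if tm (h + 1) T (a * 2 + i) then 1 else 0)
      (f := fun y => if tm (h + 1) T y then 1 else 0) (N := 2) (fun _ => rfl) (2 ^ (17 + h))
    change pcT h (lf T) + pcT h (rt T) = ∑ x ∈ range (2 ^ (17 + h) * 2), _
    rw [← h1, ih, ih, ← sum_add_distrib]
    refine sum_congr rfl fun a _ => ?_
    rw [sum_range_succ, sum_range_one, tm, tm, if_neg (show ¬ (a * 2 + 0) % 2 = 1 by omega),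
      if_pos (show (a * 2 + 1) % 2 = 1 by omega),
      show (a * 2 + 0) / 2 = a by omega, show (a * 2 + 1) / 2 = a by omega]

theorem ncard_tm {T : Tr} (h0 : tm 7 T 0 = false) :
    {x | x < 2 ^ 24 ∧ x ≠ 0 ∧ tm 7 T x = true}.ncard = pcT 7 T := by
  rw [pcT_eq, ← card_filter, ← Set.ncard_coe_finset]
  congr 1; ext x
  simp only [Set.mem_ofPred_eq, coe_filter, mem_range]
  exact and_congr_right fun _ => and_iff_right_of_imp fun h e => by simp [e, h0] at h

/-! ### covering the singular vectors -/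

noncomputable def bp (k : ℕ) : ℕ := (pq (Nat.shiftLeft 1 k) 17 17).1

def Ind (M : ℕ) (μ : ℕ → ZMod 2) : Prop := ∀ y < 2 ^ 17, bt M y = μ y

theorem bp_spec {k : ℕ} (hk : k < 17) : Ind (bp k) fun y => bt y k := fun y hy => by
  have h := (pq_spec (1 <<< k) 17 17 y).1
  have e : par 17 (1 <<< k) y = bt y k := by
    rw [par, sum_eq_single_of_mem k (mem_range.2 hk) fun j _ hj => by
      rw [Nat.one_shiftLeft, bt_of (Nat.testBit_two_pow_of_ne hj.symm)]; simp,
      Nat.one_shiftLeft, bt_of Nat.testBit_two_pow_self]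
    simp
  rw [e] at h
  simp only [hy, Nat.testBit_lt_two_pow hy, true_and] at h
  change bt (pq (1 <<< k) 17 17).1 y = bt y k
  rcases z2 (bt y k) with h1 | h1 <;> rw [h1] at h ⊢
  · rw [bt_of (Bool.eq_false_iff.2 (mt h.1 (by decide)))]; rfl
  · rw [bt_of (h.2 rfl)]; rfl

def ONES : ℕ := Nat.sub (Nat.shiftLeft 1 131072) 1

noncomputable def cov (h : ℕ) : Tr → ℕ → Bool :=
  Nat.rec (motive := fun _ => Tr → ℕ → Bool) (fun T M => Nat.beq (Nat.lor (val T) M) ONES)
    (fun j ih T M => band (ih (lf T) M) (ih (rt T) (Nat.xor M (bp (Nat.sub 11 j))))) h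

theorem cov_spec (h : ℕ) (hh : h ≤ 12) : ∀ T M μ, cov h T M = true → Ind M μ → ∀ x < 2 ^ (17 + h),
    μ (x / 2 ^ h) + ∑ k ∈ range h, bt x k * bt (x / 2 ^ h) (12 - h + k) = 0 → tm h T x = true := by
  induction h with
  | zero =>
    intro T M μ h1 h2 x hx h3
    have h4 : val T ||| M = 1 <<< (2 ^ 17) - 1 := Nat.eq_of_beq_eq_true h1
    have h5 := congrArg (fun a => Nat.testBit a x) h4
    simp only [Nat.testBit_or, Nat.one_shiftLeft, Nat.testBit_two_pow_sub_one] at h5
    rw [pow_zero, Nat.div_one, sum_range_zero, add_zero, ← h2 x hx] at h3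
    rw [decide_eq_true (show x < 2 ^ 17 from hx)] at h5
    change (val T).testBit x = true
    cases h6 : M.testBit x
    · simpa [h6] using h5
    · rw [bt_of h6] at h3; exact absurd h3 (by decide)
  | succ h ih =>
    intro T M μ h1 h2 x hx h3
    have h4 : band (cov h (lf T) M) (cov h (rt T) (M ^^^ bp (11 - h))) = true := h1
    rw [band_eq, Bool.and_eq_true] at h4
    have hx' : x / 2 < 2 ^ (17 + h) := by
      have : 2 ^ (17 + (h + 1)) = 2 ^ (17 + h) * 2 := pow_succ _ _
      omega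
    rw [pow_succ', ← Nat.div_div_eq_div_mul, sum_range_succ', bt_zero x,
      sum_congr rfl fun k _ => by rw [bt_succ, show 12 - (h + 1) + (k + 1) = 12 - h + k by omega],
      show 12 - (h + 1) + 0 = 11 - h by omega] at h3
    rw [tm]
    split_ifs at h3 ⊢
    · refine ih (by omega) _ _ (fun y => μ y + bt y (11 - h)) h4.2 (fun y hy => ?_) _ hx' ?_
      · exact (bit_xor _ _ _ _).trans
          (congrArg₂ (· + ·) (h2 y hy) (bp_spec (k := 11 - h) (by omega) y hy))
      · rw [← h3]; ring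
    · exact ih (by omega) _ _ μ h4.1 h2 _ hx' (by rw [← h3]; ring)

noncomputable def Q0 : ℕ := xorTo (fun k => Nat.land (bp k) (bp (Nat.add 12 k))) 5

theorem Q0_spec : Ind Q0 fun y => ∑ k ∈ range 5, bt y k * bt y (12 + k) := fun y hy => by
  rw [Q0, bt, bit_xorTo]
  refine sum_congr rfl fun k hk => ?_
  have := mem_range.1 hk
  refine Eq.trans ?_ (congrArg₂ (· * ·) (bp_spec (k := k) (by omega) y hy)
    (bp_spec (k := 12 + k) (by omega) y hy))
  change bt (bp k &&& bp (12 + k)) y = bt (bp k) y * bt (bp (12 + k)) y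
  rw [bt_of (Nat.testBit_and _ _ _), bt_of rfl, bt_of rfl]
  cases (bp k).testBit y <;> cases (bp (12 + k)).testBit y <;> simp

theorem prod_sign (p : ℕ → Bool) (n : ℕ) : (∏ k ∈ range n, if p k then (-1 : ℝ) else 1) =
    if (∑ k ∈ range n, if p k then (1 : ZMod 2) else 0) = 0 then 1 else -1 := by
  induction n with
  | zero => simp
  | succ n ih =>
    rw [prod_range_succ, sum_range_succ, ih]
    rcases z2 (∑ k ∈ range n, if p k then (1 : ZMod 2) else 0) with h | h <;> cases p n <;>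
      simp [h, show (1 : ZMod 2) + 1 = 0 from rfl]

theorem cov_sing {T : Tr} (h : cov 7 T Q0 = true) {c : ℕ} (hc : c < 2 ^ 24)
    (hs : sg (c / 4096) (c % 4096) = 1) : tm 7 T c = true := by
  refine cov_spec 7 (by norm_num) T Q0 _ h Q0_spec c hc ?_
  delta sg at hs
  rw [prod_sign fun k => (c / 4096).testBit k && (c % 4096).testBit k] at hs
  split_ifs at hs with h1
  · rw [← h1, show 12 = 7 + 5 from rfl, sum_range_add, add_comm]
    have e : ∀ k < 12, (if (c / 4096).testBit k && (c % 4096).testBit k then (1 : ZMod 2) else 0) =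
        bt c k * bt c (12 + k) := fun k hk => by
      rw [show 4096 = 2 ^ 12 from rfl, Nat.testBit_div_two_pow, Nat.testBit_mod_two_pow,
        decide_eq_true hk, bt_of rfl, bt_of rfl, add_comm k]
      cases c.testBit k <;> cases c.testBit (12 + k) <;> simp
    have e2 : ∀ k, bt (c / 2 ^ 7) k = bt c (7 + k) := fun k => by
      rw [bt_of (Nat.testBit_div_two_pow _ _), add_comm]; rfl
    congr 1 <;> refine sum_congr rfl fun k hk => ?_ <;> have := mem_range.1 hk
    · rw [e k (by omega), e2]; congr 2; omega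
    · rw [e _ (by omega), e2, e2]; congr 2; omega
  · norm_num at hs

/-! ### the checker -/

/-- list program and dense steps of one group -/
abbrev Grp := List (ℕ × List ℕ) × List ℕ

noncomputable def tree (p : List (List ℕ)) (St : Stp) (g : Grp) : Tr := bfs St g.2 (bld 7 (pts p g.1))

def okG (s : List ℕ) (g : Grp) : Bool := allL g.1 fun e => allL e.2 (memL (0 :: s))

theorem tree_inv {gs : List (List ℕ)} {L : Prg} {St : Stp} (h1 : chkP L gs = true)
    (h2 : chkS (ext L gs) St = true) {s : List ℕ} {g : Grp} (h3 : okG s g = true) :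
    Inv (fun y => y = 0 ∨ Reach gs s y) (tree (ext L gs) St g) := by
  have hp := ext_good (S := fun y => y = 0 ∨ Reach gs s y) (Or.inl rfl) h1 fun w hw y hy =>
    hy.imp (fun e => by rw [e, ap_zero]) (Reach.step hw)
  refine bfs_inv (Or.inl rfl) hp h2 _ _ fun x _ hx => pts_ok (Or.inl rfl) hp (fun e he x hx => ?_) x
    (bld_spec _ _ _ hx)
  exact (List.mem_cons.1 (memL_iff.1 (allL_iff.1 (allL_iff.1 h3 e he) x hx))).imp id Reach.seed

noncomputable def z0 (h : ℕ) : Tr → ℕ :=
  Nat.rec (motive := fun _ => Tr → ℕ) (fun T => Nat.land (val T) 1) (fun _ ih T => ih (lf T)) h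

theorem z0_spec (h : ℕ) : ∀ T, z0 h T = 0 → tm h T 0 = false := by
  induction h with
  | zero =>
    intro T e
    have : val T &&& 1 = 0 := e
    rw [Nat.and_one_is_mod] at this
    simp [tm, this]
  | succ h ih => exact fun T e => ih (lf T) e

noncomputable def cntOK (T : Tr) (c : ℕ) : Bool := band (Nat.beq (z0 7 T) 0) (Nat.beq (pcT 7 T) c)

theorem and_of {a b : Bool} (h : band a b = true) : a = true ∧ b = true := by simpa using h

noncomputable def eqT (h : ℕ) : Tr → Tr → Bool :=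
  Nat.rec (motive := fun _ => Tr → Tr → Bool) (fun a b => Nat.beq (val a) (val b))
    (fun _ ih a b => band (ih (lf a) (lf b)) (ih (rt a) (rt b))) h

theorem eqT_spec (h : ℕ) : ∀ a b, eqT h a b = true → ∀ x, tm h a x = tm h b x := by
  induction h with
  | zero => intro a b e x; rw [tm, tm, Nat.eq_of_beq_eq_true e]
  | succ h ih => intro a b e x; rw [tm, tm, ih _ _ (and_of e).1, ih _ _ (and_of e).2]

/-- a number given in pieces of 16384 bits -/
noncomputable def cat (l : List ℕ) : Tr :=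
  .l (List.rec (motive := fun _ => ℕ) 0 (fun a _ ih => Nat.lor a (Nat.shiftLeft ih 16384)) l)

theorem Inv.eq {S : ℕ → Prop} {A B : Tr} (hA : Inv S A) (h : eqT 7 A B = true) : Inv S B :=
  fun x hx e => hA x hx ((eqT_spec 7 A B h x).trans e)

theorem Inv.or {S : ℕ → Prop} {A B : Tr} (hA : Inv S A) (hB : Inv S B) : Inv S (zw Nat.lor 7 A B) :=
  fun x hx e => by
    rw [tm_or, Bool.or_eq_true] at e
    exact e.elim (hA x hx) (hB x hx)

abbrev SS (gs : List (List ℕ)) (s : List ℕ) : ℕ → Prop := fun y => y = 0 ∨ Reach gs s y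

theorem Inv.bfs {gs : List (List ℕ)} {L : Prg} {St : Stp} {s : List ℕ} {T : Tr} (h : Inv (SS gs s) T)
    (h1 : chkP L gs = true) (h2 : chkS (ext L gs) St = true) (n : List ℕ) :
    Inv (SS gs s) (bfs St n T) :=
  bfs_inv (Or.inl rfl) (ext_good (S := SS gs s) (Or.inl rfl) h1 fun _ hw _ hy =>
    hy.imp (fun e => by rw [e, ap_zero]) (Reach.step hw)) h2 _ _ h

def U3 (T1 T2 T3 : Tr) : ℕ → Prop := fun x => tm 7 T1 x = true ∨ tm 7 T2 x = true ∨ tm 7 T3 x = true

theorem u1 (T1 T2 T3 : Tr) : Inv (U3 T1 T2 T3) T1 := fun _ _ h => Or.inl h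
theorem u2 (T1 T2 T3 : Tr) : Inv (U3 T1 T2 T3) T2 := fun _ _ h => Or.inr (Or.inl h)
theorem u3 (T1 T2 T3 : Tr) : Inv (U3 T1 T2 T3) T3 := fun _ _ h => Or.inr (Or.inr h)

theorem bfsOK {gs : List (List ℕ)} {s0 s1 s2 s3 : List ℕ} {c0 c1 c2 c3 : ℕ} {T0 T1 T2 T3 U : Tr}
    (i0 : Inv (SS gs s0) T0) (i1 : Inv (SS gs s1) T1) (i2 : Inv (SS gs s2) T2) (i3 : Inv (SS gs s3) T3)
    (k1 : cntOK T1 c1 = true) (k2 : cntOK T2 c2 = true) (k3 : cntOK T3 c3 = true)
    (hU : Inv (U3 T1 T2 T3) U) (h : cov 7 (zw Nat.lor 7 U T0) Q0 = true) :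
    BfsOK gs ![s0, s1, s2, s3] ![c0, c1, c2, c3] := by
  simp only [cntOK, band_eq, Bool.and_eq_true, Nat.beq_eq] at k1 k2 k3
  refine ⟨fun g => {x | x < 2 ^ 24 ∧ x ≠ 0 ∧ tm 7 (![T0, T1, T2, T3] g) x = true}, fun g c hc => ?_,
    fun c hc h0 hs => ?_, fun g hg => ?_⟩
  · fin_cases g
    exacts [(i0 c hc.1 hc.2.2).resolve_left hc.2.1, (i1 c hc.1 hc.2.2).resolve_left hc.2.1,
      (i2 c hc.1 hc.2.2).resolve_left hc.2.1, (i3 c hc.1 hc.2.2).resolve_left hc.2.1]
  · have := cov_sing h hc hs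
    rw [tm_or, Bool.or_eq_true] at this
    rcases this.imp_left (hU c hc) with (e | e | e) | e
    exacts [⟨1, hc, h0, e⟩, ⟨2, hc, h0, e⟩, ⟨3, hc, h0, e⟩, ⟨0, hc, h0, e⟩]
  · fin_cases g
    exacts [absurd rfl hg, (ncard_tm (z0_spec _ _ k1.1)).trans k1.2,
      (ncard_tm (z0_spec _ _ k2.1)).trans k2.2, (ncard_tm (z0_spec _ _ k3.1)).trans k3.2]

end Cfsg.Agent.Mo.Bf
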