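import Cfsg.Agent.Mo.Tau0

/-! Kernel checks of operator identities for the triality element. -/

set_option Elab.async false

namespace Cfsg.Agent.Mo

theorem tp_tr : btT (TRP ++ TP) (TP ++ TRP) = true := by decide +kernel
theorem al_2 : alOK 2 [27] = true := by decide +kernel
theorem al_6 : alOK 6 [31] = true := by decide +kernel
theorem al_10 : alOK 10 [35] = true := by decide +kernel
theorem al_15 : alOK 15 [15] = true := by decide +kernel
theorem al_19 : alOK 19 [19] = true := by decide +kernel
theorem al_23 : alOK 23 [23, 24] = true := by decide +kernel
theorem al_27 : alOK 27 [27, 2, 13] = true := by decide +kernel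
theorem al_31 : alOK 31 [31, 6, 16] = true := by decide +kernel
theorem al_35 : alOK 35 [35, 10, 20] = true := by decide +kernel
theorem al_39 : alOK 39 [39] = true := by decide +kernel

end Cfsg.Agent.Mo
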