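import Cfsg.Agent.Mo.Tau0

/-! Kernel checks of operator identities for the triality element. -/

set_option Elab.async false

namespace Cfsg.Agent.Mo

theorem tp_hn : btT (HNP ++ TP) (TP ++ HNP) = true := by decide +kernel
theorem al_3 : alOK 3 [28] = true := by decide +kernel
theorem al_7 : alOK 7 [32] = true := by decide +kernel
theorem al_12 : alOK 12 [12] = true := by decide +kernel
theorem al_16 : alOK 16 [16] = true := by decide +kernel
theorem al_20 : alOK 20 [20] = true := by decide +kernel
theorem al_24 : alOK 24 [23] = true := by decide +kernel
theorem al_28 : alOK 28 [28, 3] = true := by decide +kernel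
theorem al_32 : alOK 32 [32, 7] = true := by decide +kernel
theorem al_36 : alOK 36 [36] = true := by decide +kernel
theorem al_40 : alOK 40 [40] = true := by decide +kernel

end Cfsg.Agent.Mo
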