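import Cfsg.Agent.Mo.Tau0

/-! Kernel checks of operator identities for the triality element. -/

set_option Elab.async false

namespace Cfsg.Agent.Mo

theorem al_0 : alOK 0 [25] = true := by decide +kernel
theorem al_4 : alOK 4 [29] = true := by decide +kernel
theorem al_8 : alOK 8 [33] = true := by decide +kernel
theorem al_13 : alOK 13 [13] = true := by decide +kernel
theorem al_17 : alOK 17 [17] = true := by decide +kernel
theorem al_21 : alOK 21 [21] = true := by decide +kernel
theorem al_25 : alOK 25 [25, 0] = true := by decide +kernel
theorem al_29 : alOK 29 [29, 4] = true := by decide +kernel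
theorem al_33 : alOK 33 [33, 8] = true := by decide +kernel
theorem al_37 : alOK 37 [37] = true := by decide +kernel
theorem al_41 : alOK 41 [41] = true := by decide +kernel

end Cfsg.Agent.Mo
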