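import Cfsg.Agent.Mo.TauC0
import Cfsg.Agent.Mo.TauC1
import Cfsg.Agent.Mo.TauC2
import Cfsg.Agent.Mo.TauC3

/-! Part T: the triality element. -/

set_option autoImplicit false

namespace Cfsg.Agent.Mo

open H4 H5 H5.Lee Finset

theorem Impl.ext {g h : GG} {P Q : Prog} {e : ℕ} (hg : Impl g P e) (hh : Impl h Q e)
    (E : ∀ f : ℕ → ℝ, Good f → sem P f = sem Q f) : g = h := by
  refine Units.ext (LinearMap.ext fun v => crd_inj fun p _ => ?_)
  have := congrFun (E _ (good_crd v)) p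
  rw [hg.2, hh.2] at this
  exact mul_left_cancel₀ (by positivity) this
theorem TRP_chk : (wf 1024 TRP = true ∧ mono TRP = true) ∧ wf 197184 TP = true ∧
    allLt 1024 (fun p => and (Nat.beq (src TRP p) (if p < 576 then p % 24 * 24 + p / 24 else p))
      (!sb TRP p)) = true := by decide +kernel
theorem sem_TRP (f : ℕ → ℝ) (p : ℕ) :
    sem TRP f p = f (if p < 576 then p % 24 * 24 + p / 24 else p) := by
  by_cases a : p < 1024
  · have := allLt_iff.1 TRP_chk.2.2 p a
    rw [Bool.and_eq_true, Bool.not_eq_true'] at this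
    rw [sem_mono TRP_chk.1.2, this.2, Nat.eq_of_beq_eq_true this.1]; simp
  · rw [sem_out TRP_chk.1.1 f (not_lt.1 a), if_neg (by omega)]
theorem sem_HNP (f : ℕ → ℝ) (p : ℕ) : sem HNP f p =
    if 576 ≤ p ∧ (VM.testBit (p - 576) ^^ decide (p - 576 < 98304)) = true then -f p else f p := by
  simp [HNP, sem, semS, Sg.lo]
theorem good_iff {f : ℕ → ℝ} :
    Good f ↔ sem TRP f = f ∧ sem HNP f = f ∧ ∀ p, 197184 ≤ p → f p = 0 := by
  refine ⟨fun h => ⟨funext fun p => ?_, funext fun p => ?_, h.out⟩, fun ⟨a, b, c⟩ =>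
    ⟨fun i hi j hj => ?_, fun q hq e => ?_, c⟩⟩
  · rw [sem_TRP]
    split_ifs with a
    · rw [h.symm _ (by omega) _ (by omega), Nat.div_add_mod']
    · rfl
  · rw [sem_HNP]
    split_ifs with a
    · obtain ⟨q, rfl⟩ := Nat.exists_eq_add_of_le a.1
      rw [Nat.add_sub_cancel_left] at a
      cases b : VM.testBit q
      · rw [h.hole q (by simpa [b] using a.2) b, neg_zero]
      · simp [b, VM_lt b] at a
    · rfl
  · rw [← congrFun a (i * 24 + j), sem_TRP, if_pos (by omega)]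
    exact congrArg f (by omega)
  · have := congrFun b (576 + q)
    rw [sem_HNP, if_pos (by simp [e, hq])] at this
    linarith
theorem good_TP {f : ℕ → ℝ} (h : Good f) : Good (sem TP f) := by
  obtain ⟨a, b, c⟩ := good_iff.1 h
  refine good_iff.2 ⟨?_, ?_, fun p hp => by rw [sem_out TRP_chk.2.1 f hp, c p hp]⟩
  · rw [← sem_append, ← btT_spec tp_tr c, sem_append, a]
  · rw [← sem_append, ← btT_spec tp_hn c, sem_append, b]
theorem Good.smul {f : ℕ → ℝ} (h : Good f) (c : ℝ) : Good (c • f) :=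
  ⟨fun i hi j hj => by simp [h.symm i hi j hj], fun q hq e => by simp [h.hole q hq e],
    fun p hp => by simp [h.out p hp]⟩
theorem TP_rev {f : ℕ → ℝ} (h : ∀ p, 197184 ≤ p → f p = 0) (p : ℕ) :
    sem TP.reverse (sem TP f) p = 64 * f p := by
  rw [← sem_append, btT_spec tp_inv h]
  by_cases a : p < 197184
  · rw [sem_dbs _ _ _ a]; norm_num
  · rw [sem_out (Bool.and_eq_true_iff.1 (Bool.and_eq_true_iff.1 tp_inv).1).2 f (not_lt.1 a),
      h p (not_lt.1 a), mul_zero]
/-- coordinates as a linear map -/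
noncomputable def crdL : VV →ₗ[ℝ] (ℕ → ℝ) where
  toFun v := crd v
  map_add' u v := funext (crd_add _ _)
  map_smul' c v := funext (crd_smul c _)
noncomputable def tau0 : Module.End ℝ VV := inc ∘ₗ ((8 : ℝ)⁻¹ • semL TP) ∘ₗ crdL
theorem sem_TP (v : VV) (p : ℕ) : sem TP (crd v) p = 2 ^ 3 * crd (tau0 v) p := by
  have : crd (tau0 v) = (8 : ℝ)⁻¹ • sem TP (crd v) := by
    rw [← crd_inc ((good_TP (good_crd v)).smul _), ← semL_apply]; rfl
  rw [this, Pi.smul_apply, smul_eq_mul]; ring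
theorem sem_TPr (v : VV) (p : ℕ) : sem TP.reverse (crd (tau0 v)) p = 2 ^ 3 * crd v p := by
  have := TP_rev (good_crd v).out p
  rw [funext (sem_TP v), sem_smul] at this
  linarith
theorem tau0_inj : Function.Injective tau0 := fun u v h => crd_inj fun p _ => by
  have := sem_TPr u p
  rw [h, sem_TPr] at this
  linarith

theorem exists_tau : ∃ τ : GG, Impl τ TP 3 ∧ Impl τ⁻¹ TP.reverse 3 := by
  obtain ⟨τ, h⟩ := (Module.End.isUnit_iff tau0).2
    ⟨tau0_inj, LinearMap.injective_iff_surjective.1 tau0_inj⟩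
  have e : ∀ v : VV, τ • v = tau0 v := fun v => by rw [← h]; rfl
  refine ⟨τ, ⟨TRP_chk.2.1, fun v p => by rw [e, sem_TP]⟩, wf_reverse TRP_chk.2.1, fun v p => ?_⟩
  rw [← sem_TPr, ← e, smul_inv_smul]
noncomputable def tau : GG := exists_tau.choose
theorem tau_impl : Impl tau TP 3 := exists_tau.choose_spec.1
theorem tau_impl' : Impl tau⁻¹ TP.reverse 3 := exists_tau.choose_spec.2
theorem tau_ip (u v : VV) : ip (tau • u : VV) (tau • v : VV) = ip u v := by
  have := sem_adj tau_impl.1 (crd u) (crd (tau • v : VV))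
  simp only [tau_impl.2, tau_impl'.2, inv_smul_smul, mul_assoc, mul_left_comm _ ((2 : ℝ) ^ 3),
    ← mul_sum] at this
  rw [ip_crd, ip_crd]
  exact mul_left_cancel₀ (by positivity) this

theorem vz_out {xs : List ℕ} {n p : ℕ} (h : ∀ x ∈ xs, x < 2 ^ n) (hp : n ≤ p) : vz xs p = 0 := by
  have := vz_map0 id xs
  induction xs with
  | nil => rfl
  | cons x t ih =>
    have a : x.testBit p = false :=
      Nat.testBit_lt_two_pow ((h x (by simp)).trans_le (Nat.pow_le_pow_right (by omega) hp))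
    cases t with
    | nil => simp [a]
    | cons y t => rw [vz_cons2, a, ih (fun z hz => h z (by simp [hz])) (vz_map0 id _)]; simp
def oneS : List ℕ := [0, Nat.div (ones 600) (ones 25), 0]
def ax1S : List ℕ := [0, 0, 0x3000003, Nat.lor 0x1000002 (Nat.shiftLeft 1 577)]
theorem fix_chk : eqL (app TP 3 oneS) oneS = true ∧ eqL (app TP 3 ax1S) ax1S = true ∧
    (∀ x ∈ oneS.tail, x < 2 ^ 576) ∧ (∀ x ∈ ax1S.tail, x < 2 ^ 578) ∧ VM.testBit 1 = true ∧
    (∀ i < 24, ∀ j < 24, vz oneS.tail (i * 24 + j) = if i = j then 1 else 0) ∧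
    (∀ p < 578, 8 * vz ax1S.tail p = if p < 576 then xc 1 (p / 24) * xc 1 (p % 24)
      else if p = 576 + 1 then -32 else 0) := by decide +kernel
theorem rp_one : Rp oneS one0 := by
  have e : ∀ p, 576 ≤ p → val oneS p = 0 := fun p hp => by
    rw [val, vz_out fix_chk.2.2.1 hp]; simp
  refine Cr.cases (fun i hi j hj => ?_) (fun q hq => ?_) (fun i hi j => ?_) fun p hp => ?_
  · rw [crd_A _ hi hj, val, fix_chk.2.2.2.2.2.1 i hi j hj]
    change (1 : Matrix ι ι ℝ) _ _ = _ / 2 ^ 0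
    rw [Matrix.one_apply, if_congr (show gE.pt i = gE.pt j ↔ i = j from
      ⟨fun a => by rw [← gE.ix_pt i hi, a, gE.ix_pt j hj], fun a => by rw [a]⟩) rfl rfl]
    split_ifs <;> simp
  · rw [crd_M _ hq, e _ (by omega)]
    exact ite_eq_right_iff.2 fun _ => Cr.mc_zero _
  · rw [crd_W _ hi, e _ (by omega)]; rfl
  · rw [Cr.crd_out _ hp, e _ (by omega)]
theorem rp_ax1 : Rp ax1S (ax (rq 1) false) := fun p => by
  rw [crd_ax fix_chk.2.2.2.2.1, val, sgn_false]
  change _ = _ / 2 ^ 0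
  by_cases a : p < 578
  · have := congrArg (fun t : ℤ => (t : ℝ)) (fix_chk.2.2.2.2.2.2 p a)
    split_ifs at this ⊢ <;> push_cast at this ⊢ <;> linarith
  · rw [vz_out fix_chk.2.2.2.1 (not_lt.1 a), if_neg (by omega), if_neg (by omega)]; simp
theorem tau_one0 : tau • one0 = one0 :=
  (tau_impl.app rp_one).eq ((eqL_spec fix_chk.1).symm ▸ rp_one)
theorem tau_ax : tau • ax (rq 1) false = ax (rq 1) false :=
  (tau_impl.app rp_ax1).eq ((eqL_spec fix_chk.2.1).symm ▸ rp_ax1)

/-- generators and their conjugates under `tau` -/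
def AL : List (ℕ × List ℕ) := [(0, [25]), (1, [26]), (2, [27]), (3, [28]), (4, [29]), (5, [30]), (6, [31]), (7, [32]), (8, [33]), (9, [34]), (10, [35]), (12, [12]), (13, [13]), (14, [14]), (15, [15]), (16, [16]), (17, [17]), (18, [18]), (19, [19]), (20, [20]), (21, [21]), (22, [22]), (23, [23, 24]), (24, [23]), (25, [25, 0]), (26, [26, 1]), (27, [27, 2, 13]), (28, [28, 3]), (29, [29, 4]), (30, [30, 5, 15]), (31, [31, 6, 16]), (32, [32, 7]), (33, [33, 8]), (34, [34, 9, 12]), (35, [35, 10, 20]), (36, [36]), (37, [37]), (38, [38]), (39, [39]), (40, [40]), (41, [41])]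
theorem alOK_spec {a : ℕ} {w : List ℕ} (h : alOK a w = true) :
    tau * rho (hT a) = rho (wd w) * tau := by
  simp only [alOK, Bool.and_eq_true] at h
  have h1 := tau_impl.mul (hT_impl (Nat.lt_succ_of_le (Nat.le_of_ble_eq_true h.1.1)))
  rw [Nat.eq_of_beq_eq_true h.2.1, add_comm] at h1
  exact h1.ext ((impl_wd h.1.2).mul tau_impl) fun f hf => by
    rw [← btT_spec h.2.2 hf.out, sem_append (DP _), sem_DP _ hf]
theorem AL_ok : ∀ x ∈ AL, alOK x.1 x.2 = true := by
  simp only [AL, List.forall_mem_cons, List.not_mem_nil, false_imp_iff, implies_true, and_true]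
  exact ⟨al_0, al_1, al_2, al_3, al_4, al_5, al_6, al_7, al_8, al_9, al_10, al_12, al_13, al_14, al_15, al_16, al_17, al_18, al_19, al_20, al_21, al_22, al_23, al_24, al_25, al_26, al_27, al_28, al_29, al_30, al_31, al_32, al_33, al_34, al_35, al_36, al_37, al_38, al_39, al_40, al_41⟩
theorem tau_conj : ∀ x ∈ AL, tau * rho (hT x.1) = rho (wd x.2) * tau :=
  fun x hx => alOK_spec (AL_ok x hx)

end Cfsg.Agent.Mo
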