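import Cfsg.Agent.Mo.Ns
import Cfsg.Agent.Mo.Tau

/-! INTERFACE (part K): checkers for the fields of `Hyp2`. -/

set_option autoImplicit false

namespace Cfsg.Agent.Mo

open H4 H5 H5.Lee

/-- the state holds a coordinate function (symmetric matrix part, zero holes, nothing beyond 197184) -/
noncomputable def goodC (S : List ℕ) : Bool :=
  cnd (eqL (app TRP 0 S) (app [] 0 S)) (cnd (eqL (app HNP 0 S) (app [] 0 S))
    (allL S.tail fun x => Nat.beq (Nat.shiftRight x 197184) 0) false) false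
theorem HNP_wf : wf 197184 HNP = true := by decide +kernel
theorem lt_of_shr {x n : ℕ} (h : Nat.beq (Nat.shiftRight x n) 0 = true) : x < 2 ^ n := by
  have a : x >>> n = 0 := Nat.eq_of_beq_eq_true h
  rw [Nat.shiftRight_eq_div_pow] at a
  exact (Nat.div_eq_zero_iff_lt (Nat.two_pow_pos _)).1 a
theorem goodC_spec {S : List ℕ} (h : goodC S = true) : Rp S (inc (val S)) := by
  simp only [goodC, cnd_false_iff] at h
  obtain ⟨h1, h2, h3⟩ := h
  have e : ∀ {N P}, wf N P = true → eqL (app P 0 S) (app [] 0 S) = true → sem P (val S) = val S :=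
    fun a b => funext fun p => by
      have := val_app a 0 S p
      rw [eqL_spec b, val_app (N := 0) rfl, pow_zero, div_one, div_one] at this
      exact this.symm
  refine fun p => congrFun (crd_inc (good_iff.2 ⟨e TRP_chk.1.1 h1, e HNP_wf h2, fun p hp => ?_⟩)) p
  rw [val, vz_out (n := 197184) (fun x hx => ?_) hp, Int.cast_zero, zero_div]
  exact lt_of_shr (allL_iff.1 h3 x hx)

/-- the class state (one address) of `± P c` -/
def cst (c : ℕ) (f : Bool) : List ℕ := f.toNat :: (List.range 24).map fun k => (c.testBit k).toNat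

theorem vn_bitsL (n c : ℕ) : vn ((List.range n).map fun k => (c.testBit k).toNat) 0 = c % 2 ^ n := by
  induction n generalizing c with
  | zero => simp [Nat.mod_one]
  | succ n ih =>
    rw [List.range_succ_eq_map, List.map_cons, List.map_map, vn_cons]
    have e : ((fun k => (c.testBit k).toNat) ∘ Nat.succ) = fun k => ((c / 2).testBit k).toNat :=
      funext fun k => by simp [Nat.testBit_succ]
    have e2 : c % 2 = (c.testBit 0).toNat := by rw [Nat.toNat_testBit]; simp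
    rw [e, ih, pow_succ', Nat.mod_mul, e2]
    cases c.testBit 0 <;> simp
theorem cst_vn {c : ℕ} (h : c < 2 ^ 24) (f : Bool) : vn (cst c f).tail 0 = c :=
  (vn_bitsL 24 c).trans (Nat.mod_eq_of_lt h)
theorem cst_hd (c : ℕ) (f : Bool) : ((cst c f).headD 0).testBit 0 = f := by
  cases f <;> simp [cst]
theorem cst_len (c : ℕ) (f : Bool) : (cst c f).length = 25 := by simp [cst]

/-- `h` carries the class state `S` to `S'` -/
def Im (h : Ht) (S S' : List ℕ) : Prop := S'.length = 25 ∧ ∀ (p : ℕ) (x : Λ), cl x = vn S.tail p →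
  cl (h.1.1 • x) = vn S'.tail p ∧
    Cj h x ((S.headD 0).testBit p) (h.1.1 • x) ((S'.headD 0).testBit p)
theorem Im.mul {h k : Ht} {S S' S'' : List ℕ} (a : Im h S S') (b : Im k S' S'') : Im (k * h) S S'' :=
  ⟨b.1, fun p x hx => by
    obtain ⟨a3, a4⟩ := a.2 p x hx
    obtain ⟨b3, b4⟩ := b.2 p _ a3
    rw [← mul_smul] at b3 b4
    exact ⟨b3, a4.mul b4⟩⟩
theorem Im.wd {h : Ht} {S S' w : List ℕ} (a : Im h S S') (hw : okW w = true) :
    Im (wd w * h) S (imgW w S') := a.mul (imgW_spec hw a.1)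
theorem Im.ax {h : Ht} {q q' : ℕ} {f f' : Bool} (hq : VM.testBit q = true) (hq' : VM.testBit q' = true)
    (a : Im h (cst (cp q) f) (cst (cp q') f')) : rho h • ax (rq q) f = ax (rq q') f' := by
  obtain ⟨a1, a2⟩ := a.2 0 (rq q) ((cl_rq hq).trans (cst_vn (cl_rq hq ▸ cl_lt _) f).symm)
  rw [cst_vn (cl_rq hq' ▸ cl_lt _), ← cl_rq hq'] at a1
  rw [cst_hd, cst_hd] at a2
  exact (a2.smul_ax (rq_mem hq) (smul_mem_L2 _ (rq_mem hq))).trans
    ((ax_inj (smul_mem_L2 _ (rq_mem hq)) (rq_mem hq')).2 ⟨a1, rfl⟩)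

/-! ### stabilisers -/

/-- `t = (ys, ss)` is the table of an element fixing `v` -/
def StOK (v : VV) (t : List ℕ × ℕ) : Prop := ∃ s : Ht, rho s • v = v ∧ Tr s t.1 t.2
noncomputable def stabC (S w : List ℕ) (t : List ℕ × ℕ) : Bool :=
  okW w && eqL (appW w S) S && eqL (cols (imgW w S0)) t.1 && Nat.beq ((imgW w S0).headD 0) t.2
theorem stabC_spec {S w : List ℕ} {t : List ℕ × ℕ} {v : VV} (r : Rp S v) (h : stabC S w t = true) :
    StOK v t := by
  simp only [stabC, Bool.and_eq_true] at h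
  obtain ⟨⟨⟨h1, h2⟩, h3⟩, h4⟩ := h
  refine ⟨wd w, (r.appW h1).eq ((eqL_spec h2).symm ▸ r), ?_⟩
  rw [← eqL_spec h3, ← Nat.eq_of_beq_eq_true h4]
  exact tr_wd h1
/-- action of a word in the tables `T` on a class state -/
noncomputable def imgT (T : List (List ℕ × ℕ)) (w : List ℕ) : List ℕ → List ℕ :=
  List.rec (fun S => S) (fun a _ ih S => ih (imgS (T.getD a ([], 0)).1 (T.getD a ([], 0)).2 S)) w
def okT (T : List (List ℕ × ℕ)) (w : List ℕ) : Bool := allL w fun a => Nat.blt a T.length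
theorem imgT_spec {v : VV} {T : List (List ℕ × ℕ)} (hT : ∀ t ∈ T, StOK v t) {w : List ℕ}
    (h : okT T w = true) {S : List ℕ} (hS : S.length = 25) :
    ∃ s : Ht, rho s • v = v ∧ Im s S (imgT T w S) := by
  replace h := allL_iff.1 h
  induction w generalizing S with
  | nil => exact ⟨1, by rw [map_one, one_smul], imgW_spec (w := []) rfl hS⟩
  | cons a w ih =>
    have a1 : a < T.length := Nat.blt_eq.to_iff.1 (h a (by simp))
    obtain ⟨s, s1, s2⟩ := hT (T.getD a ([], 0)) (by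
      rw [List.getD_eq_getElem _ _ a1]; exact List.getElem_mem _)
    have b : Im s S _ := imgS_spec s2 hS
    obtain ⟨t, t1, t2⟩ := ih b.1 fun x hx => h x (by simp [hx])
    exact ⟨t * s, by rw [map_mul, mul_smul, s1, t1], b.mul t2⟩

/-! ### frame seeds -/

structure Sd where
  c : ℕ
  d : List ℕ
  k0 : Fin 12
  h0 : List ℕ
  k1 : Fin 12
  h1 : List ℕ
structure SdOK (v : Fin 12 → VV) (i : Fin 12) (s : Sd) : Prop where
  ok : okW s.d = true ∧ okW s.h0 = true ∧ okW s.h1 = true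
  lt : s.c < 2 ^ 24
  cls : ∀ x, cl x = s.c → cl ((wd s.d).1.1 • x) = 2 ^ 23
  e0 : tau • rho (wd s.d) • v i = rho (wd s.h0) • v s.k0
  e1 : tau • rho (wd (s.d ++ [11])) • v i = rho (wd s.h1) • v s.k1
noncomputable def sdC2 (SV : Fin 12 → List ℕ) (s : Sd) (X : List ℕ) : Bool :=
  eqL (app TP 3 X) (appW s.h0 (SV s.k0)) && eqL (app TP 3 (appW [11] X)) (appW s.h1 (SV s.k1))
noncomputable def sdC (SV : Fin 12 → List ℕ) (i : Fin 12) (s : Sd) : Bool :=
  okW s.d && okW s.h0 && okW s.h1 && Nat.blt s.c 16777216 &&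
    eqL (imgW s.d (cst s.c false)).tail (cst 8388608 false).tail && sdC2 SV s (appW s.d (SV i))
theorem sdC_spec {SV : Fin 12 → List ℕ} {v : Fin 12 → VV} (r : ∀ i, Rp (SV i) (v i)) {i : Fin 12} {s : Sd}
    (h : sdC SV i s = true) : SdOK v i s := by
  simp only [sdC, sdC2, Bool.and_eq_true] at h
  obtain ⟨⟨⟨⟨⟨h1, h2⟩, h3⟩, h4⟩, h5⟩, h6, h7⟩ := h
  have lt : s.c < 2 ^ 24 := Nat.blt_eq.to_iff.1 h4
  refine ⟨⟨h1, h2, h3⟩, lt, fun x hx => ?_, (tau_impl.app ((r i).appW h1)).eq ?_, ?_⟩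
  · rw [((imgW_spec h1 (cst_len s.c false)).2 0 x (hx.trans (cst_vn lt _).symm)).1, eqL_spec h5,
      cst_vn (by norm_num)]
    norm_num
  · rw [eqL_spec h6]; exact (r _).appW h2
  · rw [wd_append, map_mul, mul_smul]
    refine (tau_impl.app (((r i).appW h1).appW (w := [11]) rfl)).eq ?_
    rw [eqL_spec h7]; exact (r _).appW h3
theorem SdOK.tg {v : Fin 12 → VV} {i : Fin 12} {s : Sd} (h : SdOK v i s) :
    ∃ x, cl x = s.c ∧ Tg tau (ug 11) v i x s.k0 s.k1 := by
  obtain ⟨x, hx⟩ := cl_surj h.lt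
  refine ⟨x, hx, wd s.d, h.cls x hx, ⟨_, h.e0⟩, wd s.h1, ?_⟩
  rw [← h.e1, wd_append, map_mul, mul_smul, wd, wd, one_mul, hT_q (by norm_num)]

def feq (a b : Fin 12) : Bool := Nat.beq a.val b.val
theorem feq_iff {a b : Fin 12} : feq a b = true ↔ a = b := Nat.beq_eq.to_iff.trans Fin.val_inj
/-- labels differ as unordered pairs -/
def labNe (A B : List Sd) : Bool := allL A fun s => allL B fun t =>
  and (!(and (feq s.k0 t.k0) (feq s.k1 t.k1))) (!(and (feq s.k0 t.k1) (feq s.k1 t.k0)))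
theorem labNe_spec {A B : List Sd} (h : labNe A B = true) :
    (∀ kk ∈ A.map fun s => (s.k0, s.k1), ∀ ll ∈ B.map fun s => (s.k0, s.k1), kk ≠ ll ∧ kk ≠ ll.swap) ∧
    ∀ kk ∈ B.map fun s => (s.k0, s.k1), ∀ ll ∈ A.map fun s => (s.k0, s.k1), kk ≠ ll ∧ kk ≠ ll.swap := by
  have e : ∀ s ∈ A, ∀ t ∈ B, ¬ (s.k0 = t.k0 ∧ s.k1 = t.k1) ∧ ¬ (s.k0 = t.k1 ∧ s.k1 = t.k0) := fun s a t b => by
    simpa only [Bool.and_eq_true, Bool.not_eq_true', ← Bool.not_eq_true, feq_iff] using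
      allL_iff.1 (allL_iff.1 h s a) t b
  simp only [List.forall_mem_map, Ne, Prod.swap_prod_mk, Prod.mk.injEq]
  exact ⟨e, fun t b s a => ⟨fun c => (e s a t b).1 ⟨c.1.symm, c.2.symm⟩,
    fun c => (e s a t b).2 ⟨c.2.symm, c.1.symm⟩⟩⟩
def subL (A B : List ℕ) : Bool := allL A (memL B)
theorem subL_spec {A B : List ℕ} (h : subL A B = true) : ∀ x ∈ A, x ∈ B :=
  fun x hx => memL_iff.1 (allL_iff.1 h x hx)
/-- seeds in four groups, short seeds (positions), tables: compatible with the input of the search -/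
noncomputable def colC (T : List (List ℕ × ℕ)) (sds : Fin 4 → List Sd) (qs : List ℕ) (gs : List (List ℕ))
    (seeds : Fin 4 → List ℕ) : Bool :=
  allL gs (fun g => anyL T fun t => eqL g t.1) && allL qs (fun q => VM.testBit q) &&
    (subL (seeds 0) ((sds 0).map Sd.c ++ qs.map cp) && subL (seeds 1) ((sds 1).map Sd.c) &&
      subL (seeds 2) ((sds 2).map Sd.c) && subL (seeds 3) ((sds 3).map Sd.c)) &&
    (labNe (sds 0) (sds 1) && labNe (sds 0) (sds 2) && labNe (sds 0) (sds 3) &&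
      labNe (sds 1) (sds 2) && labNe (sds 1) (sds 3) && labNe (sds 2) (sds 3))
theorem colC_spec {v : Fin 12 → VV} {i : Fin 12} {T : List (List ℕ × ℕ)} {sds : Fin 4 → List Sd}
    {qs : List ℕ} {gs : List (List ℕ)} {seeds : Fin 4 → List ℕ} {cnt : Fin 4 → ℕ}
    (hT : ∀ t ∈ T, StOK (v i) t) (hS : ∀ g, ∀ s ∈ sds g, SdOK v i s) (hB : BfsOK gs seeds cnt)
    (h : colC T sds qs gs seeds = true) :
    (∃ R, Col tau (ug 11) v i R (fun g => (sds g).map fun s => (s.k0, s.k1)) ∧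
      ∀ g, g ≠ 0 → (R g).ncard = cnt g) ∧
    ∀ r ∈ L2, ∀ f, ∃ q ∈ qs, VM.testBit q = true ∧ ∃ (f' : Bool) (s : Ht), rho s • v i = v i ∧
      rho s • ax (rq q) f' = ax r f := by
  simp only [colC, Bool.and_eq_true] at h
  obtain ⟨⟨⟨h1, h2⟩, ⟨⟨s0, s1⟩, s2⟩, s3⟩, ⟨⟨⟨⟨l1, l2⟩, l3⟩, l4⟩, l5⟩, l6⟩ := h
  obtain ⟨R, R1, R2, R3⟩ := hB
  replace h2 := allL_iff.1 h2
  have hs : ∀ g, ∀ c ∈ seeds g, c ∈ (sds g).map Sd.c ∨ (g = 0 ∧ c ∈ qs.map cp) := fun g c hc => by
    fin_cases g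
    exacts [(List.mem_append.1 (subL_spec s0 c hc)).imp id fun a => ⟨rfl, a⟩,
      Or.inl (subL_spec s1 c hc), Or.inl (subL_spec s2 c hc), Or.inl (subL_spec s3 c hc)]
  have key : ∀ g c, Reach gs (seeds g) c →
      (∃ x, cl x = c ∧ ∃ kk ∈ (sds g).map fun s => (s.k0, s.k1), Tg tau (ug 11) v i x kk.1 kk.2) ∨
        (g = 0 ∧ ∃ q ∈ qs, ∃ s : Ht, rho s • v i = v i ∧ cl (s.1.1 • rq q) = c) := fun g c hc => by
    induction hc with
    | seed hc =>
      rcases hs g _ hc with a | ⟨a, b⟩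
      · obtain ⟨s, a', e⟩ := List.mem_map.1 a
        obtain ⟨x, b, d⟩ := (hS g s a').tg
        exact Or.inl ⟨x, b.trans e, _, List.mem_map.2 ⟨s, a', rfl⟩, d⟩
      · obtain ⟨q, b', e⟩ := List.mem_map.1 b
        exact Or.inr ⟨a, q, b', 1, by rw [map_one, one_smul],
          (congrArg cl (one_smul Co0 _)).trans ((cl_rq (h2 q b')).trans e)⟩
    | step hg _ ih =>
      obtain ⟨t, ht, e⟩ := anyL_iff.1 (allL_iff.1 h1 _ hg)
      obtain ⟨s, a1, a2⟩ := hT t ht
      rw [← eqL_spec e] at a2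
      rcases ih with ⟨x, rfl, kk, b, d⟩ | ⟨a, q, b, u, d, rfl⟩
      · exact Or.inl ⟨_, a2.ap x, kk, b, d.stab s a1 rfl⟩
      · exact Or.inr ⟨a, q, b, s * u, by rw [map_mul, mul_smul, d, a1], by
          rw [Ht_mul_fst, mul_smul, a2.ap]⟩
  refine ⟨⟨R, ⟨fun g c hc => (key g c (R1 g c hc)).imp id fun ⟨a, q, b, s, _, d⟩ =>
    ⟨a, _, smul_mem_L2 _ (rq_mem (h2 q b)), d⟩, R2, fun g g' a => ?_⟩, R3⟩, fun r hr f => ?_⟩
  · fin_cases g <;> fin_cases g' <;> first
      | exact absurd rfl a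
      | exact (labNe_spec (by assumption)).1
      | exact (labNe_spec (by assumption)).2
  · obtain ⟨g, hg⟩ := R2 _ (cl_lt r) (short_ne_zero hr) (by rw [sg_cl, hb_short hr, ch_zero])
    obtain ⟨x, a, kk, -, d, b, -⟩ | ⟨-, q, a, s, b, d⟩ := key g _ (R1 g _ hg)
    · exact absurd a.symm (not_short b hr)
    · obtain ⟨f', c⟩ := exists_Cj s⁻¹ r f
      refine ⟨q, a, h2 q a, f', s, b, ?_⟩
      rw [← smul_inv_smul (rho s) (ax r f), ← map_inv, c.smul_ax hr (smul_mem_L2 _ hr)]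
      refine congrArg _ ((ax_inj (rq_mem (h2 q a)) (smul_mem_L2 _ hr)).2 ⟨?_, rfl⟩)
      rw [← cl_smul _ d, Ht_inv_fst, inv_smul_smul]

/-! ### the graph of pairs -/

/-- a node `(i, q, f)` is the pair `(ax (rq q) f, v i)` -/
abbrev Nd := Fin 12 × ℕ × Bool
def CanN (v : Fin 12 → VV) (wc : Fin 9 → VV) (n : Nd) : Prop :=
  VM.testBit n.2.1 = true ∧ Can tau (rq 1) wc (ax (rq n.2.1) n.2.2) (v n.1)
/-- an edge uses the seed number `j` of type `a.1` with `ε = e`; `s1`, `s2` are words in the tables of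
`a.1`, `b.1`; `n` is a word in the letters of `AL` and `alW n` its conjugate under `tau`.  Tracking `a` through
`s1`, `d (++ [11])`, `n` and `b` through `s2`, `h0` (`h1`), `alW n` gives `cst (cp 1) false` in both cases, and
`b.1 = k0` (`k1`).  If `lk` then the edge is only a link: `a.1 = b.1` and `s1` carries `a` to `b`. -/
structure Ed where
  lk : Bool
  a : Nd
  b : Nd
  j : ℕ
  e : Bool
  s1 : List ℕ
  s2 : List ℕ
  n : List ℕ
def Nd.st (n : Nd) : List ℕ := cst (cp n.2.1) n.2.2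
def alF (L : List (ℕ × List ℕ)) (a : ℕ) : List ℕ :=
  List.rec [] (fun x _ ih => cnd (Nat.beq x.1 a) x.2 ih) L
def alW (n : List ℕ) : List ℕ := List.rec [] (fun a _ ih => appL (alF AL a) ih) n
def okA (n : List ℕ) : Bool := allL n fun a => anyL AL fun x => Nat.beq x.1 a
theorem alF_mem {L : List (ℕ × List ℕ)} {a : ℕ} (h : anyL L (fun x => Nat.beq x.1 a) = true) :
    (a, alF L a) ∈ L := by
  induction L with
  | nil => exact absurd h Bool.false_ne_true
  | cons x L ih =>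
    change (a, cnd (Nat.beq x.1 a) x.2 (alF L a)) ∈ _
    change Bool.rec (anyL L _) true (Nat.beq x.1 a) = true at h
    cases b : Nat.beq x.1 a
    · rw [b] at h; exact List.mem_cons_of_mem _ (ih h)
    · rw [← Nat.eq_of_beq_eq_true b]; exact List.mem_cons_self
theorem appL_app (a b : List ℕ) : appL a b = a ++ b := by
  induction a with
  | nil => rfl
  | cons x t ih => exact congrArg (x :: ·) ih
theorem tau_alW {n : List ℕ} (h : okA n = true) : tau * rho (wd n) = rho (wd (alW n)) * tau := by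
  replace h := allL_iff.1 h
  induction n with
  | nil => rw [show alW [] = [] from rfl, wd, map_one, mul_one, one_mul]
  | cons a n ih =>
    rw [show alW (a :: n) = appL (alF AL a) (alW n) from rfl, appL_app, wd_append, wd, map_mul, map_mul,
      ← mul_assoc, ih fun x hx => h x (by simp [hx]), mul_assoc, mul_assoc,
      tau_conj _ (alF_mem (h a (by simp)))]
noncomputable def edC2 (ST : Fin 12 → List (List ℕ × ℕ)) (x : Ed) (d h : List ℕ) (k : Fin 12) : Bool :=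
  feq x.b.1 k && okT (ST x.b.1) x.s2 && (okA x.n && okW x.n && okW (alW x.n)) &&
    eqL (imgW x.n (imgW d (imgT (ST x.a.1) x.s1 x.a.st))) (cst (cp 1) false) &&
    eqL (imgW (alW x.n) (imgW h (imgT (ST x.b.1) x.s2 x.b.st))) (cst (cp 1) false)
noncomputable def edC (ST : Fin 12 → List (List ℕ × ℕ)) (SD : Fin 12 → List Sd) (x : Ed) : Bool :=
  VM.testBit x.a.2.1 && VM.testBit x.b.2.1 && okT (ST x.a.1) x.s1 &&
    cnd x.lk (feq x.a.1 x.b.1 && eqL (imgT (ST x.a.1) x.s1 x.a.st) x.b.st)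
      (Option.rec false (fun s => cnd x.e (edC2 ST x (s.d ++ [11]) s.h1 s.k1) (edC2 ST x s.d s.h0 s.k0))
        (SD x.a.1)[x.j]?)
theorem okW_append {u w : List ℕ} (hu : okW u = true) (hw : okW w = true) : okW (u ++ w) = true := by
  induction u with
  | nil => exact hw
  | cons a u ih => exact okW_cons.2 ⟨(okW_cons.1 hu).1, ih (okW_cons.1 hu).2⟩
theorem edC_spec {v : Fin 12 → VV} {wc : Fin 9 → VV} {ST : Fin 12 → List (List ℕ × ℕ)}
    {SD : Fin 12 → List Sd} (hT : ∀ i, ∀ t ∈ ST i, StOK (v i) t) (hS : ∀ i, ∀ s ∈ SD i, SdOK v i s)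
    {x : Ed} (h : edC ST SD x = true) : CanN v wc x.a ↔ CanN v wc x.b := by
  simp only [edC, Bool.and_eq_true] at h
  obtain ⟨⟨⟨qa, qb⟩, h1⟩, h2⟩ := h
  simp only [CanN, qa, qb, true_and]
  obtain ⟨s, s1, s2⟩ := imgT_spec (hT _) h1 (cst_len (cp x.a.2.1) x.a.2.2)
  have key : ∀ d h k, okW d = true → okW h = true → tau • rho (wd d) • v x.a.1 = rho (wd h) • v k →
      edC2 ST x d h k = true → (Can tau (rq 1) wc (ax (rq x.a.2.1) x.a.2.2) (v x.a.1) ↔
        Can tau (rq 1) wc (ax (rq x.b.2.1) x.b.2.2) (v x.b.1)) := fun d h k hd hh e c => by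
    simp only [edC2, Bool.and_eq_true, feq_iff] at c
    obtain ⟨⟨⟨⟨rfl, c1⟩, ⟨c2, n1⟩, n2⟩, c3⟩, c4⟩ := c
    obtain ⟨t, t1, t2⟩ := imgT_spec (hT _) c1 (cst_len (cp x.b.2.1) x.b.2.2)
    have a := Im.ax qa N3.vm1 (eqL_spec c3 ▸ (s2.wd hd).wd n1)
    have b := Im.ax qb N3.vm1 (eqL_spec c4 ▸ (t2.wd hh).wd n2)
    rw [← Can.smul (wd x.n * (wd d * s)), ← Can.smul (a := ax (rq x.b.2.1) _) (wd (alW x.n) * (wd h * t)),
      a, b, ← Can.tau 1 (by rw [map_one, mul_one, one_mul]) (by rw [map_one, one_smul])]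
    simp only [map_mul, mul_smul]
    rw [s1, t1, ← e, ← mul_smul tau, tau_alW c2, mul_smul]
  cases l : x.lk
  · rw [l, cnd_false] at h2
    cases m : (SD x.a.1)[x.j]? with
    | none => rw [m] at h2; exact absurd h2 Bool.false_ne_true
    | some t =>
      have a := hS _ t (List.mem_of_getElem? m)
      rw [m] at h2
      cases l' : x.e
      · exact key _ _ _ a.ok.1 a.ok.2.1 a.e0 (by rwa [l'] at h2)
      · exact key _ _ _ (okW_append a.ok.1 rfl) a.ok.2.2 a.e1 (by rwa [l'] at h2)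
  · rw [l, cnd_true, Bool.and_eq_true, feq_iff] at h2
    rw [← Can.smul s, s1, Im.ax qa qb (eqL_spec h2.2 ▸ s2), h2.1]
def ndE (a b : Nd) : Bool :=
  cnd (Nat.beq a.2.1 b.2.1) (cnd (feq a.1 b.1) (cnd a.2.2 b.2.2 (!b.2.2)) false) false
def memN (K : List Nd) (n : Nd) : Bool := anyL K (ndE n)
theorem memN_spec {K : List Nd} {n : Nd} (h : memN K n = true) : n ∈ K := by
  obtain ⟨⟨i, q, f⟩, a, b⟩ := anyL_iff.1 h
  obtain ⟨i', q', f'⟩ := n
  simp only [ndE, cnd_false_iff, Nat.beq_eq, feq_iff] at b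
  obtain ⟨rfl, rfl, b⟩ := b
  cases f <;> cases f' <;> first | exact a | exact absurd b Bool.false_ne_true
/-- the nodes reached from `K` along the edges, in order (each edge has a known end) -/
noncomputable def grow (K : List Nd) (E : List Ed) : List Nd :=
  List.rec (motive := fun _ => List Nd → List Nd) (fun K => K)
    (fun x _ ih K => cnd (memN K x.a) (ih (x.b :: K)) (cnd (memN K x.b) (ih (x.a :: K)) (ih K))) E K
theorem grow_spec {P : Nd → Prop} {K : List Nd} {E : List Ed} (hK : ∀ n ∈ K, P n)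
    (hE : ∀ x ∈ E, P x.a ↔ P x.b) : ∀ n ∈ grow K E, P n := by
  induction E generalizing K with
  | nil => exact hK
  | cons x E ih =>
    have e := hE x (by simp)
    replace ih := fun K (hK : ∀ n ∈ K, P n) => ih hK fun y hy => hE y (by simp [hy])
    change ∀ n ∈ cnd (memN K x.a) (grow (x.b :: K) E)
      (cnd (memN K x.b) (grow (x.a :: K) E) (grow K E)), P n
    cases a : memN K x.a
    · cases b : memN K x.b
      · exact ih K hK
      · exact ih _ (List.forall_mem_cons.2 ⟨e.2 (hK _ (memN_spec b)), hK⟩)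
    · exact ih _ (List.forall_mem_cons.2 ⟨e.1 (hK _ (memN_spec a)), hK⟩)

end Cfsg.Agent.Mo
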