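import Cfsg.Agent.Mo.Chk

/-! Checkers for canonical pairs and nodes; the fields of `Hyp2` that involve only `tau`. -/

set_option autoImplicit false

namespace Cfsg.Agent.Mo

open H4 H5 H5.Lee

namespace K2

theorem vn_bits (c n : ℕ) :
    vn ((List.range n).map fun k => (c.testBit k).toNat) 0 = c % 2 ^ n := by
  induction n generalizing c with
  | zero => simp [Nat.mod_one]
  | succ n ih =>
    rw [List.range_succ_eq_map, List.map_cons, List.map_map, vn_cons]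
    have e : ((fun k => (c.testBit k).toNat) ∘ Nat.succ) = fun k => ((c / 2).testBit k).toNat :=
      funext fun k => congrArg Bool.toNat (Nat.testBit_succ c k)
    rw [e, ih, pow_succ', Nat.mod_mul]
    congr 1
    rw [Nat.testBit_zero, Nat.testBit_zero]
    rcases Nat.mod_two_eq_zero_or_one c with h | h <;> simp [h]
theorem cst_spec {c : ℕ} (hc : c < 2 ^ 24) (f : Bool) : (cst c f).length = 25 ∧
    vn (cst c f).tail 0 = c ∧ ((cst c f).headD 0).testBit 0 = f :=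
  ⟨by simp [cst], (vn_bits c 24).trans (Nat.mod_eq_of_lt hc), by cases f <;> simp [cst]⟩

/-- the word `w` carries `± P c` to `± P c'` -/
noncomputable def car (w : List ℕ) (c : ℕ) (f : Bool) (c' : ℕ) (f' : Bool) : Bool :=
  cnd (okW w) (eqL (imgW w (cst c f)) (cst c' f')) false
theorem car_ok {w : List ℕ} {c c' : ℕ} {f f' : Bool} (h : car w c f c' f' = true) : okW w = true :=
  (cnd_false_iff.1 h).1
theorem car_Cj {w : List ℕ} {x y : Λ} {f f' : Bool} (h : car w (cl x) f (cl y) f' = true) :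
    Cj (wd w) x f y f' := by
  obtain ⟨h1, h2⟩ := cnd_false_iff.1 h
  obtain ⟨a1, a2, a3⟩ := cst_spec (cl_lt x) f
  obtain ⟨-, b2, b3⟩ := cst_spec (cl_lt y) f'
  obtain ⟨c1, c2⟩ := (imgW_spec h1 a1).2 0 x a2.symm
  rw [eqL_spec h2, b2] at c1
  rw [eqL_spec h2, a3, b3] at c2
  exact ⟨c1.symm, c2.2.trans (by rw [PL_congr c1])⟩
theorem carry {w : List ℕ} {q q' : ℕ} {f f' : Bool} (hq : VM.testBit q = true)
    (hq' : VM.testBit q' = true) (h : car w (cp q) f (cp q') f' = true) :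
    rho (wd w) • ax (rq q) f = ax (rq q') f' := by
  rw [← cl_rq hq, ← cl_rq hq'] at h
  exact (car_Cj h).smul_ax (rq_mem hq) (rq_mem hq')
theorem carry1 {w : List ℕ} {q : ℕ} {f : Bool} (hq : VM.testBit q = true)
    (h : car w (cp q) f 958464 false = true) : rho (wd w) • ax (rq q) f = ax (rq 1) false :=
  carry hq N3.vm1 (by rw [N3.cp1]; exact h)

def rpt (w : List ℕ) (n : ℕ) : List ℕ := Nat.rec [] (fun _ ih => appL w ih) n
theorem appL_eq (a b : List ℕ) : appL a b = a ++ b := by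
  induction a with
  | nil => rfl
  | cons x t ih => exact congrArg (x :: ·) ih
theorem wd_rpt (w : List ℕ) (n : ℕ) : wd (rpt w n) = wd w ^ n := by
  induction n with
  | zero => rfl
  | succ n ih => rw [show rpt w (n + 1) = appL w (rpt w n) from rfl, appL_eq, wd_append, ih, pow_succ]

/-- the inner product with the axis at `(q, f)` is `c / 8` -/
noncomputable def ipE (S : List ℕ) (q : ℕ) (f : Bool) (c : ℤ) : Bool :=
  decide (ipC S q f = Int.mul c (Int.ofNat (Nat.shiftLeft 1 (S.headD 0))))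
theorem ipE_iff {S : List ℕ} {v : VV} (r : Rp S v) {q : ℕ} (h : VM.testBit q = true) (f : Bool)
    (c : ℤ) : ipE S q f c = true ↔ ip (ax (rq q) f) v = c / 8 := by
  rw [ipE, decide_eq_true_eq, ipC_spec r h, show Nat.shiftLeft 1 (S.headD 0) = 2 ^ S.headD 0 from
    Nat.one_shiftLeft _, div_eq_div_iff (by positivity) (by norm_num), ← Int.cast_inj (α := ℝ)]
  change _ = ((c * ((2 ^ S.headD 0 : ℕ) : ℤ) : ℤ) : ℝ) ↔ _
  push_cast
  constructor <;> intro e <;> linarith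

noncomputable def th (t : Bool) : GG := cnd t tau 1
noncomputable def thA (t : Bool) (S : List ℕ) : List ℕ := cnd t (app TP 3 S) S
noncomputable def thB (t : Bool) (S : List ℕ) : List ℕ := cnd t (app TP.reverse 3 S) S
theorem rp_thA (t : Bool) {S : List ℕ} {v : VV} (r : Rp S v) : Rp (thA t S) (th t • v) := by
  cases t
  exacts [(one_smul GG v).symm ▸ r, tau_impl.app r]
theorem rp_thB (t : Bool) {S : List ℕ} {v : VV} (r : Rp S v) : Rp (thB t S) ((th t)⁻¹ • v) := by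
  cases t
  exacts [by rw [th, cnd_false, inv_one, one_smul]; exact r, tau_impl'.app r]
theorem th_mem (t : Bool) : th t ∈ GM tau := by
  cases t
  exacts [one_mem _, tau_mem]
theorem th_conj (t : Bool) : th t * xq (ug 0) false * (th t)⁻¹ = rho (wd [cnd t 25 0]) := by
  rw [← hT_q (by norm_num), mul_inv_eq_iff_eq_mul]
  cases t
  · simp [th, wd]
  · exact tau_conj (0, [25]) (by decide)

end K2

/-! ### canonical pairs -/

/-- `θ = tau` if `t` else `1`; `y = 25` if `t` else `0`; `h0` carries `ax (ug 0) false = ax (rq q0) false` to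
`ax (rq 1) false`.  The vector is `rho h0 • θ⁻¹ • rho hc • θ • ax (ug 0) false = rho h • v i`, and `h` carries
node `(i, q, f)` to `ax (rq 1) false`; `u` is a word for `hc y hc⁻¹` and `(y u) ^ n = 1`. -/
structure Cn where
  t : Bool
  hc : List ℕ
  u : List ℕ
  n : ℕ
  ip8 : ℤ
  nd : Nd
  h : List ℕ
noncomputable def Cn.vec (v : Fin 12 → VV) (c : Cn) : VV := rho (wd c.h) • v c.nd.1
/-- the tests on words -/
noncomputable def cnA (q0 : ℕ) (h0 : List ℕ) (c : Cn) : Bool :=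
  cnd (VM.testBit q0) (cnd (Nat.beq (cp q0) 1) (cnd (K2.car h0 1 false 958464 false)
    (cnd (VM.testBit c.nd.2.1) (cnd (K2.car c.h (cp c.nd.2.1) c.nd.2.2 958464 false)
      (cnd (eqW (appL c.hc c.u) (cnd c.t 25 0 :: c.hc)) (cnd (neW c.u [cnd c.t 25 0])
        (eqW (K2.rpt (appL c.u [cnd c.t 25 0]) c.n) []) false) false) false) false) false) false) false
noncomputable def cnB2 (q0 : ℕ) (h0 : List ℕ) (c : Cn) (X : List ℕ) : Bool :=
  cnd (K2.ipE X 1 false c.ip8)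
    (eqL (appW h0 (K2.thB c.t (appW c.hc (K2.thA c.t (axS q0 false))))) X) false
/-- the tests on vectors -/
noncomputable def cnB (SV : Fin 12 → List ℕ) (q0 : ℕ) (h0 : List ℕ) (c : Cn) : Bool :=
  cnB2 q0 h0 c (appW c.h (SV c.nd.1))
noncomputable def cnC (SV : Fin 12 → List ℕ) (q0 : ℕ) (h0 : List ℕ) (c : Cn) : Bool :=
  cnd (cnA q0 h0 c) (cnB SV q0 h0 c) false
theorem cnC_of {SV : Fin 12 → List ℕ} {q0 : ℕ} {h0 : List ℕ} {c : Cn} (h1 : cnA q0 h0 c = true)
    (h2 : cnB SV q0 h0 c = true) : cnC SV q0 h0 c = true := cnd_false_iff.2 ⟨h1, h2⟩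
theorem cnC_spec {SV : Fin 12 → List ℕ} {v : Fin 12 → VV} (r : ∀ i, Rp (SV i) (v i)) {q0 : ℕ}
    {h0 : List ℕ} {c : Cn} (h : cnC SV q0 h0 c = true) :
    ip (ax (rq 1) false) (c.vec v) = c.ip8 / 8 ∧
    (VM.testBit c.nd.2.1 = true ∧ rho (wd c.h) • ax (rq c.nd.2.1) c.nd.2.2 = ax (rq 1) false) ∧
    ∃ g ∈ GM tau, g • ax (rq 1) false = c.vec v ∧ g * xq (rq 1) false * g⁻¹ ≠ xq (rq 1) false ∧
      (xq (rq 1) false * (g * xq (rq 1) false * g⁻¹)) ^ c.n = 1 := by
  simp only [cnC, cnA, cnB, cnB2, cnd_false_iff] at h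
  obtain ⟨⟨a1, a2, a3, a4, a5, a6, a7, a8⟩, b1, b2⟩ := h
  have a2 := Nat.eq_of_beq_eq_true a2
  have rX : Rp (appW c.h (SV c.nd.1)) (c.vec v) := (r _).appW (K2.car_ok a5)
  have hc : okW c.hc = true := (okW_cons.1 (cnd_false_iff.1 (cnd_false_iff.1 a6).2).1).2
  have e0 : rho (wd h0) • ax (rq q0) false = ax (rq 1) false := K2.carry1 a1 (by rw [a2]; exact a3)
  have e1 := (smul_ax_iff (rho_mem _) (rq_mem a1) (rq_mem N3.vm1)).1 e0
  rw [xq_cl ((cl_rq a1).trans (a2.trans (cl_ug (k := 0) (by norm_num)).symm))] at e1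
  have e2 := eqW_spec a6
  have e3 := neW_spec a7
  have e4 := eqW_spec a8
  have e5 := K2.th_conj c.t
  rw [K2.appL_eq, wd_append, wd, map_mul, map_mul] at e2
  rw [K2.wd_rpt, K2.appL_eq, wd_append, map_pow, map_mul, show wd [] = 1 from rfl, map_one] at e4
  have e6 : rho (wd [cnd c.t 25 0]) = rho (hT (cnd c.t 25 0)) := by simp [wd]
  rw [e6] at e3 e4 e5
  have mv := ((K2.rp_thB c.t ((K2.rp_thA c.t (axS_spec a1 false)).appW hc)).appW (K2.car_ok a3)).eq
    (eqL_spec b2 ▸ rX)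
  have mm : rho (wd h0) * (K2.th c.t)⁻¹ * rho (wd c.hc) * K2.th c.t * (rho (wd h0))⁻¹ ∈ GM tau :=
    mul_mem (mul_mem (mul_mem (mul_mem (HH_le_GM (rho_mem _)) (inv_mem (K2.th_mem _)))
      (HH_le_GM (rho_mem _))) (K2.th_mem _)) (inv_mem (HH_le_GM (rho_mem _)))
  refine ⟨(K2.ipE_iff rX N3.vm1 false _).1 b1, ⟨a4, K2.carry1 a4 a5⟩, _, mm, ?_, ?_⟩
  · rw [← mv, ← e0]
    simp only [mul_smul, inv_smul_smul]
  generalize rho (wd h0) = A, K2.th c.t = T, rho (wd c.hc) = C, rho (wd c.u) = U,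
    rho (hT (cnd c.t 25 0)) = Y, xq (ug 0) false = X, xq (rq 1) false = B at e1 e2 e3 e4 e5 ⊢
  subst e1 e5
  obtain rfl := eq_mul_inv_of_mul_eq e2
  constructor
  · intro e
    apply e3
    calc _ = T * A⁻¹ * (A * T⁻¹ * C * T * A⁻¹ * (A * X * A⁻¹) * (A * T⁻¹ * C * T * A⁻¹)⁻¹) * A * T⁻¹ := by
          group
      _ = _ := by rw [e]; group
  · rw [show A * X * A⁻¹ * (A * T⁻¹ * C * T * A⁻¹ * (A * X * A⁻¹) * (A * T⁻¹ * C * T * A⁻¹)⁻¹) =
      A * T⁻¹ * (T * X * T⁻¹ * (C * (T * X * T⁻¹) * C⁻¹)) * (A * T⁻¹)⁻¹ by group, conj_pow, e4]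
    group

/-! ### nodes with inner product 4 -/

/-- either the inner product at the node is not 4, or `h` carries the axis to `ax (rq 1) false` and `n66C` holds -/
noncomputable def ndC (SV : Fin 12 → List ℕ) (nd : Nd) (h : List ℕ) : Bool :=
  cnd (K2.ipE (SV nd.1) nd.2.1 nd.2.2 32)
    (cnd (K2.car h (cp nd.2.1) nd.2.2 958464 false) (n66C (appW h (SV nd.1))) false) true
theorem ndC_spec {SV : Fin 12 → List ℕ} {v : Fin 12 → VV} (r : ∀ i, Rp (SV i) (v i)) {nd : Nd}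
    {h : List ℕ} (hc : ndC SV nd h = true) (hq : VM.testBit nd.2.1 = true)
    (h4 : ip (ax (rq nd.2.1) nd.2.2) (v nd.1) = 4) : N66 (rq 1) (ax (rq nd.2.1) nd.2.2) (v nd.1) := by
  rw [ndC, (K2.ipE_iff (r _) hq _ 32).2 (h4.trans (by norm_num)), cnd_true, cnd_false_iff] at hc
  exact ⟨wd h, K2.carry1 hq hc.1, n66C_spec ((r _).appW (K2.car_ok hc.1)) hc.2⟩

/-! ### the fields of `Hyp2` that involve only `tau`; `γ = rq 2`, `γ' = rq 26` -/

theorem tau_tz : tau * zz * tau⁻¹ = xq (ug 23) false := by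
  rw [mul_inv_eq_iff_eq_mul, ← hT_z, ← hT_q (by norm_num)]
  simpa [wd] using tau_conj (24, [23]) (by decide)
theorem tau_tx : tau * xq (ug 23) false * tau⁻¹ = zz * xq (ug 23) false := by
  rw [mul_inv_eq_iff_eq_mul, ← hT_z, ← hT_q (by norm_num)]
  simpa [wd] using tau_conj (23, [23, 24]) (by decide)
theorem delta_odd : dotInt (ug 23 : V) (ug 11 : V) / 8 % 2 = 1 :=
  (cast2_eq_one _).1 (bz_uu_uu (k := 11) (l := 23) (by norm_num) (by norm_num))
theorem K2.tri_chk : VM.testBit 2 = true ∧ VM.testBit 26 = true ∧ cp 1 ^^^ cp 2 = cp 26 ∧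
    VM.testBit 24 = true ∧ cp 24 = cp 1 ^^^ 2 ^ 23 := by decide +kernel
theorem exists_tri' : ∃ e', xq (rq 1) false * xq (rq 2) false = xq (rq 26) e' := by
  obtain ⟨g, hg⟩ := exists_sgn_mul (rq 1) (rq 2) false false
  exact ⟨g, (xq_mul hg).trans (xq_cl (by
    rw [cl_add, cl_rq N3.vm1, cl_rq K2.tri_chk.1, cl_rq K2.tri_chk.2.1, K2.tri_chk.2.2.1]) g)⟩
theorem short_beta : ∃ r ∈ L2, cl r = cl (rq 1) ^^^ 2 ^ 23 :=
  ⟨rq 24, rq_mem K2.tri_chk.2.2.2.1, by
    rw [cl_rq K2.tri_chk.2.2.2.1, cl_rq N3.vm1, K2.tri_chk.2.2.2.2]⟩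
theorem K2.out_chk : ∃ k < 24, (gt 25).ys.getD k 0 ≠ 2 ^ k := by decide +kernel
theorem tau_out : ∃ (x : Λ) (f : Bool) (h : Ht), dotInt (rq 1 : V) (x : V) / 8 % 2 = 0 ∧
    tau * xq x f * tau⁻¹ = rho h ∧ h.1.1 ∉ Subgroup.center Co0 := by
  refine ⟨ug 0, false, hT 25, ?_, by simpa [wd, K2.th] using K2.th_conj true, fun h => ?_⟩
  · have := testBit_cl (rq 1) (k := 12) (by norm_num)
    rw [cl_rq N3.vm1, N3.cp1, pb, dot_comm, show Nat.testBit 958464 12 = false by decide, eq_comm,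
      decide_eq_false_iff_not] at this
    exact (Int.emod_two_eq_zero_or_one _).resolve_right this
  · obtain ⟨k, hk, a⟩ := K2.out_chk
    apply a
    rw [← ((hT_tr (by norm_num)).2 k hk).1, ← cl_ug hk]
    rcases central_cases h with e | e <;> rw [e]
    exacts [congrArg cl (one_smul _ _), cl_neg _]

end Cfsg.Agent.Mo
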