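import Cfsg.Agent.Mo.Dat

/-! Kernel checks of the certificate. -/

set_option Elab.async false
set_option maxRecDepth 100000

namespace Cfsg.Agent.Mo

theorem sd3_0_21 : ((sg3_0.drop 21).take 3).all (sdC dSV 3) = true := by decide +kernel
theorem sd7_0_12 : ((sg7_0.drop 12).take 3).all (sdC dSV 7) = true := by decide +kernel
theorem sd10_0_0 : ((sg10_0.drop 0).take 3).all (sdC dSV 10) = true := by decide +kernel
theorem sd10_0_48 : ((sg10_0.drop 48).take 3).all (sdC dSV 10) = true := by decide +kernel
theorem sd8_0_3 : ((sg8_0.drop 3).take 3).all (sdC dSV 8) = true := by decide +kernel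
theorem sd2_1_0 : ((sg2_1.drop 0).take 3).all (sdC dSV 2) = true := by decide +kernel

end Cfsg.Agent.Mo
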