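import Cfsg.Agent.Mo.Dat

/-! Kernel checks of the certificate. -/

set_option Elab.async false
set_option maxRecDepth 100000

namespace Cfsg.Agent.Mo

theorem sd2_0_6 : ((sg2_0.drop 6).take 3).all (sdC dSV 2) = true := by decide +kernel
theorem sd6_0_0 : ((sg6_0.drop 0).take 3).all (sdC dSV 6) = true := by decide +kernel
theorem sd9_0_12 : ((sg9_0.drop 12).take 3).all (sdC dSV 9) = true := by decide +kernel
theorem sd10_0_24 : ((sg10_0.drop 24).take 3).all (sdC dSV 10) = true := by decide +kernel
theorem sd11_0_9 : ((sg11_0.drop 9).take 3).all (sdC dSV 11) = true := by decide +kernel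
theorem sd5_3_0 : ((sg5_3.drop 0).take 3).all (sdC dSV 5) = true := by decide +kernel

end Cfsg.Agent.Mo
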