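import Cfsg.Agent.Mo.Dat

/-! Kernel checks of the certificate. -/

set_option Elab.async false
set_option maxRecDepth 100000

namespace Cfsg.Agent.Mo

theorem sd3_0_9 : ((sg3_0.drop 9).take 3).all (sdC dSV 3) = true := by decide +kernel
theorem sd7_0_0 : ((sg7_0.drop 0).take 3).all (sdC dSV 7) = true := by decide +kernel
theorem sd9_0_24 : ((sg9_0.drop 24).take 3).all (sdC dSV 9) = true := by decide +kernel
theorem sd10_0_36 : ((sg10_0.drop 36).take 3).all (sdC dSV 10) = true := by decide +kernel
theorem sd0_0_0 : ((sg0_0.drop 0).take 3).all (sdC dSV 0) = true := by decide +kernel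
theorem sd0_1_0 : ((sg0_1.drop 0).take 3).all (sdC dSV 0) = true := by decide +kernel
theorem sd7_1_0 : ((sg7_1.drop 0).take 3).all (sdC dSV 7) = true := by decide +kernel

end Cfsg.Agent.Mo
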