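import Cfsg.Agent.Mo.Dat

/-! Kernel checks of the certificate. -/

set_option Elab.async false
set_option maxRecDepth 100000

namespace Cfsg.Agent.Mo

theorem cnc0 : ((dCN.drop 0).take 1).all (cnC dSV dat.q0 dat.h0) = true := by decide +kernel
theorem cnc1 : ((dCN.drop 1).take 1).all (cnC dSV dat.q0 dat.h0) = true := by decide +kernel
theorem cnc2 : ((dCN.drop 2).take 1).all (cnC dSV dat.q0 dat.h0) = true := by decide +kernel
theorem cnc3 : ((dCN.drop 3).take 1).all (cnC dSV dat.q0 dat.h0) = true := by decide +kernel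
theorem cnc4 : ((dCN.drop 4).take 1).all (cnC dSV dat.q0 dat.h0) = true := by decide +kernel
theorem cnc5 : ((dCN.drop 5).take 1).all (cnC dSV dat.q0 dat.h0) = true := by decide +kernel
theorem cnc6 : ((dCN.drop 6).take 1).all (cnC dSV dat.q0 dat.h0) = true := by decide +kernel
theorem cnc7 : ((dCN.drop 7).take 1).all (cnC dSV dat.q0 dat.h0) = true := by decide +kernel

end Cfsg.Agent.Mo
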