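import Cfsg.Agent.Mo.Dat

/-! Kernel checks of the certificate. -/

set_option Elab.async false
set_option maxRecDepth 100000

namespace Cfsg.Agent.Mo

theorem edc120 : ((dE.drop 120).take 40).all (edC dat.ST dat.SD) = true := by decide +kernel
theorem edc160 : ((dE.drop 160).take 40).all (edC dat.ST dat.SD) = true := by decide +kernel
theorem edc200 : ((dE.drop 200).take 40).all (edC dat.ST dat.SD) = true := by decide +kernel

end Cfsg.Agent.Mo
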