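import Cfsg.Agent.Mo.Dat

/-! Kernel checks of the certificate. -/

set_option Elab.async false
set_option maxRecDepth 100000

namespace Cfsg.Agent.Mo

theorem ndc : dHN.all (fun p => ndC dSV p.1 p.2) = true := by decide +kernel
theorem finc : dat.fin = true :=
  Dat.fin_of (by decide +kernel) (by decide +kernel) (by decide +kernel)

end Cfsg.Agent.Mo
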