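import Cfsg.Agent.Mo.Dat

/-! Kernel checks of the certificate. -/

set_option Elab.async false
set_option maxRecDepth 100000

namespace Cfsg.Agent.Mo

theorem stc0 : (stW0.all (fun x => stabC sv0 x.1 x.2) && decide (stW0.map (·.2) = st0)) = true := by
  decide +kernel
theorem nsc0 : (goodC sv0 && Nat.beq (nsC sv0 0) (dat.n0 0) && Nat.beq (nsC sv0 32) (dat.n4 0) &&
    Nat.beq (nsC sv0 dat.c1) (dat.n1 0)) = true := by decide +kernel
theorem stc1 : (stW1.all (fun x => stabC sv1 x.1 x.2) && decide (stW1.map (·.2) = st1)) = true := by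
  decide +kernel
theorem nsc1 : (goodC sv1 && Nat.beq (nsC sv1 0) (dat.n0 1) && Nat.beq (nsC sv1 32) (dat.n4 1) &&
    Nat.beq (nsC sv1 dat.c1) (dat.n1 1)) = true := by decide +kernel
theorem stc2 : (stW2.all (fun x => stabC sv2 x.1 x.2) && decide (stW2.map (·.2) = st2)) = true := by
  decide +kernel
theorem nsc2 : (goodC sv2 && Nat.beq (nsC sv2 0) (dat.n0 2) && Nat.beq (nsC sv2 32) (dat.n4 2) &&
    Nat.beq (nsC sv2 dat.c1) (dat.n1 2)) = true := by decide +kernel
theorem stc3 : (stW3.all (fun x => stabC sv3 x.1 x.2) && decide (stW3.map (·.2) = st3)) = true := by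
  decide +kernel
theorem nsc3 : (goodC sv3 && Nat.beq (nsC sv3 0) (dat.n0 3) && Nat.beq (nsC sv3 32) (dat.n4 3) &&
    Nat.beq (nsC sv3 dat.c1) (dat.n1 3)) = true := by decide +kernel
theorem stc4 : (stW4.all (fun x => stabC sv4 x.1 x.2) && decide (stW4.map (·.2) = st4)) = true := by
  decide +kernel
theorem nsc4 : (goodC sv4 && Nat.beq (nsC sv4 0) (dat.n0 4) && Nat.beq (nsC sv4 32) (dat.n4 4) &&
    Nat.beq (nsC sv4 dat.c1) (dat.n1 4)) = true := by decide +kernel
theorem stc5 : (stW5.all (fun x => stabC sv5 x.1 x.2) && decide (stW5.map (·.2) = st5)) = true := by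
  decide +kernel
theorem nsc5 : (goodC sv5 && Nat.beq (nsC sv5 0) (dat.n0 5) && Nat.beq (nsC sv5 32) (dat.n4 5) &&
    Nat.beq (nsC sv5 dat.c1) (dat.n1 5)) = true := by decide +kernel

end Cfsg.Agent.Mo
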