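import Cfsg.Agent.Mo.Dat

/-! Kernel checks of the certificate. -/

set_option Elab.async false
set_option maxRecDepth 100000

namespace Cfsg.Agent.Mo

theorem stc6 : (stW6.all (fun x => stabC sv6 x.1 x.2) && decide (stW6.map (·.2) = st6)) = true := by
  decide +kernel
theorem nsc6 : (goodC sv6 && Nat.beq (nsC sv6 0) (dat.n0 6) && Nat.beq (nsC sv6 32) (dat.n4 6) &&
    Nat.beq (nsC sv6 dat.c1) (dat.n1 6)) = true := by decide +kernel
theorem stc7 : (stW7.all (fun x => stabC sv7 x.1 x.2) && decide (stW7.map (·.2) = st7)) = true := by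
  decide +kernel
theorem nsc7 : (goodC sv7 && Nat.beq (nsC sv7 0) (dat.n0 7) && Nat.beq (nsC sv7 32) (dat.n4 7) &&
    Nat.beq (nsC sv7 dat.c1) (dat.n1 7)) = true := by decide +kernel
theorem stc8 : (stW8.all (fun x => stabC sv8 x.1 x.2) && decide (stW8.map (·.2) = st8)) = true := by
  decide +kernel
theorem nsc8 : (goodC sv8 && Nat.beq (nsC sv8 0) (dat.n0 8) && Nat.beq (nsC sv8 32) (dat.n4 8) &&
    Nat.beq (nsC sv8 dat.c1) (dat.n1 8)) = true := by decide +kernel
theorem stc9 : (stW9.all (fun x => stabC sv9 x.1 x.2) && decide (stW9.map (·.2) = st9)) = true := by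
  decide +kernel
theorem nsc9 : (goodC sv9 && Nat.beq (nsC sv9 0) (dat.n0 9) && Nat.beq (nsC sv9 32) (dat.n4 9) &&
    Nat.beq (nsC sv9 dat.c1) (dat.n1 9)) = true := by decide +kernel
theorem stc10 : (stW10.all (fun x => stabC sv10 x.1 x.2) && decide (stW10.map (·.2) = st10)) = true := by
  decide +kernel
theorem nsc10 : (goodC sv10 && Nat.beq (nsC sv10 0) (dat.n0 10) && Nat.beq (nsC sv10 32) (dat.n4 10) &&
    Nat.beq (nsC sv10 dat.c1) (dat.n1 10)) = true := by decide +kernel
theorem stc11 : (stW11.all (fun x => stabC sv11 x.1 x.2) && decide (stW11.map (·.2) = st11)) = true := by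
  decide +kernel
theorem nsc11 : (goodC sv11 && Nat.beq (nsC sv11 0) (dat.n0 11) && Nat.beq (nsC sv11 32) (dat.n4 11) &&
    Nat.beq (nsC sv11 dat.c1) (dat.n1 11)) = true := by decide +kernel

end Cfsg.Agent.Mo
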