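import Cfsg.Agent.Mo.Cnt1
import Cfsg.Agent.Mo.Dat

/-! The orders of the stabilisers of pairs of axes of the types `3A`, `5A`, `3C`. -/

set_option autoImplicit false

namespace Cfsg.Agent.Mo

open H4 H5 H5.Lee MulAction

namespace Ct

def tn : Fin 12 → ℕ × ℕ × ℕ := ![(0, 0, 0), (0, 0, 0), (0, 61440, 2048), (24, 59008, 0), (0, 65472, 264),
  (4096, 0, 0), (512, 57344, 0), (36, 59904, 0), (892, 41472, 0), (0, 62120, 160), (2, 61520, 240),
  (100, 53576, 0)]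
theorem tr_chk : all12 (fun i => trC (dat.SV i) (tn i)) = true := by decide +kernel
noncomputable def vC (j : Fin 8) : Bool :=
  Option.rec false (fun x => okW x.h && decide (x.ip8 = al j.succ) &&
    gaC (appW x.h (dat.SV x.nd.1)) (ga j.succ)) dat.CN[j.val]?
theorem v_chk : ∀ j, vC j = true := by decide +kernel
theorem sums : sum12 (fun i => dat.sz i * (tn i).1) = 196560 * 2031941058560000 ∧
    sum12 (fun i => dat.sz i * (tn i).2.1) = 196560 * 30434513446055706624 ∧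
    sum12 (fun i => dat.sz i * (tn i).2.2) = 196560 * 91569524834304000 := by decide +kernel

theorem valK (H : dat.OK) : Val (rq 1) dat.wc := fun c => by
  refine Fin.cases ?_ (fun j => ?_) c
  · have a := ip_ax_self (rq_mem N3.vm1) false
    have b : xq (rq 1) false • ax (rq 1) false = ax (rq 1) false := H.hyp2.hyp.tK.2
    refine ⟨a.trans (by norm_num [al]), ?_⟩
    change ip (xq (rq 1) false • ax (rq 1) false : VV) (ax (rq 1) false) = _
    rw [b, a]; norm_num [ga]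
  · have a := v_chk j
    rw [Dat.wc, Fin.cases_succ]
    rw [vC] at a
    cases m : dat.CN[j.val]? with
    | none => rw [m] at a; exact absurd a Bool.false_ne_true
    | some x =>
      rw [m] at a
      simp only [Bool.and_eq_true, decide_eq_true_eq] at a
      exact ⟨a.1.2 ▸ (cnC_spec H.rp (H.cn x (List.mem_of_getElem? m))).1,
        gaC_spec ((H.rp _).appW a.1.1) a.2⟩
theorem uniq {f : Fin 9 → ℤ} {n : ℤ} {c0 : Fin 9} (h : ∀ c, f c = n → c = c0) {x : ℝ} {c : Fin 9}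
    (a : x = f c / 8) (b : x = n / 8) : c = c0 :=
  h c (Int.cast_injective (α := ℝ) (by linarith))
theorem ipK (H : dat.OK) (x : ℝ) : ∀ k ∈ KK tau (rq 1), ∀ w : VV, ip (ax (rq 1) false) w = x →
    ip (ax (rq 1) false) (k • w : VV) = x := fun k hk w a => by
  rw [← a, ← H.hyp2.hyp.ip_smul hk.1 (ax (rq 1) false) w, show k • _ = ax (rq 1) false from hk.2]
theorem gaK (H : dat.OK) : ∀ k ∈ KK tau (rq 1), ∀ w : VV, ip (xq (rq 1) false • w : VV) w = 1 / 2 →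
    ip (xq (rq 1) false • k • w : VV) (k • w : VV) = 1 / 2 := fun _ hk w a =>
  (ip_conj (H.hyp2.le_Aut hk.1) (H.hyp2.hyp.conjK hk) w).trans a
theorem u5 (H : dat.OK) (c : Fin 9) (a : ip (ax (rq 1) false) (dat.wc c) = 3 / 4) : c = 6 :=
  uniq (n := 6) (by decide) (valK H c).1 (a.trans (by norm_num))
theorem uA (H : dat.OK) (c : Fin 9) (a : ip (ax (rq 1) false) (dat.wc c) = 13 / 8) : c = 8 :=
  uniq (n := 13) (by decide) (valK H c).1 (a.trans (by norm_num))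
theorem uC (H : dat.OK) (c : Fin 9) (a : ip (xq (rq 1) false • dat.wc c : VV) (dat.wc c) = 1 / 2) :
    c = 7 := uniq (n := 4) (by decide) (valK H c).2 (a.trans (by norm_num))
theorem cnts (H : dat.OK) (i : Fin 12) : NS (dat.v i) (13 / 8) = (tn i).1 ∧
    NS (dat.v i) (3 / 4) = (tn i).2.1 ∧ N3 (dat.v i) = (tn i).2.2 :=
  trC_spec H.hyp2 (valK H) (H.rp i) (all12_spec tr_chk i)
theorem ip_inv (H : dat.OK) {g : GG} (hg : g ∈ GM tau) (w : VV) :
    ip (ax (rq 1) false) (g⁻¹ • w : VV) = ip (g • ax (rq 1) false : VV) w := by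
  rw [← H.hyp2.hyp.ip_smul hg, smul_inv_smul]
theorem ga_inv (H : dat.OK) {g : GG} (hg : g ∈ GM tau) (w : VV) :
    ip (xq (rq 1) false • g⁻¹ • w : VV) (g⁻¹ • w : VV) =
      ip ((g * xq (rq 1) false * g⁻¹) • w : VV) w :=
  ip_conj (inv_mem (H.hyp2.le_Aut hg)) (by group) w
theorem XX_smul {g : GG} (hg : g ∈ GM tau) {a w : VV} (hw : w ∈ XX tau a) : g • w ∈ XX tau a := by
  obtain ⟨k, hk, rfl⟩ := hw
  exact ⟨g * k, mul_mem hg hk, mul_smul _ _ _⟩
theorem trans_aux (H : dat.OK) {Q : VV → Prop} (hQ : ∀ k ∈ KK tau (rq 1), ∀ w, Q w → Q (k • w))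
    {c0 : Fin 9} (hc : ∀ c, Q (dat.wc c) → c = c0) {g g' : GG} (hg : g ∈ GM tau) (hg' : g' ∈ GM tau)
    {w w' : VV} (hw : w ∈ XX tau (ax (rq 1) false)) (hw' : w' ∈ XX tau (ax (rq 1) false))
    (h : Q (g⁻¹ • w)) (h' : Q (g'⁻¹ • w')) :
    ∃ k ∈ GM tau, k • g • ax (rq 1) false = g' • ax (rq 1) false ∧ k • w = w' := by
  obtain ⟨k, hk, a⟩ := trans_K H.hyp2 hQ hc (XX_smul (inv_mem hg) hw) (XX_smul (inv_mem hg') hw') h h'
  exact ⟨g' * k * g⁻¹, mul_mem (mul_mem hg' hk.1) (inv_mem hg), by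
    rw [mul_smul, mul_smul, inv_smul_smul, show k • _ = ax (rq 1) false from hk.2], by
    rw [mul_smul, mul_smul, a, smul_inv_smul]⟩

end Ct

open Ct

section
variable (H : dat.OK) {g g' : GG} (hg : g ∈ GM tau) {w w' : VV} (hw : w ∈ XX tau (ax (rq 1) false))
include H hg hw

theorem card_pair5 (h : ip (g • ax (rq 1) false : VV) w = 3 / 4) :
    Nat.card ↥(GM tau ⊓ stabilizer GG (g • ax (rq 1) false) ⊓ stabilizer GG w) = 273030912000000 := by
  have a := card_stab H.hyp2 (ipK H _) (u5 H) hg hw ((ip_inv H hg w).trans h)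
  have b := H.hyp2.card_ip (3 / 4)
  simp only [(cnts H _).2.1, ← sum12_eq, sums.2.1] at b
  rw [Nat.eq_of_mul_eq_mul_left (by norm_num) b] at a
  omega
theorem card_pair3A (h : ip (g • ax (rq 1) false : VV) w = 13 / 8) :
    Nat.card ↥(GM tau ⊓ stabilizer GG (g • ax (rq 1) false) ⊓ stabilizer GG w) =
      4089470473293004800 := by
  have a := card_stab H.hyp2 (ipK H _) (uA H) hg hw ((ip_inv H hg w).trans h)
  have b := H.hyp2.card_ip (13 / 8)
  simp only [(cnts H _).1, ← sum12_eq, sums.1] at b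
  rw [Nat.eq_of_mul_eq_mul_left (by norm_num) b] at a
  omega
theorem card_pair3C (h : ip ((g * xq (rq 1) false * g⁻¹) • w : VV) w = 1 / 2) :
    Nat.card ↥(GM tau ⊓ stabilizer GG (g • ax (rq 1) false) ⊓ stabilizer GG w) =
      90745943887872000 := by
  have a := card_stab H.hyp2 (gaK H) (uC H) hg hw ((ga_inv H hg w).trans h)
  have b := card_3C H.hyp2
  simp only [(cnts H _).2.2, ← sum12_eq, sums.2.2] at b
  rw [Nat.eq_of_mul_eq_mul_left (by norm_num) b] at a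
  omega

variable (hg' : g' ∈ GM tau) (hw' : w' ∈ XX tau (ax (rq 1) false))
include hg' hw'

theorem trans_pair5 (h : ip (g • ax (rq 1) false : VV) w = 3 / 4)
    (h' : ip (g' • ax (rq 1) false : VV) w' = 3 / 4) :
    ∃ k ∈ GM tau, k • g • ax (rq 1) false = g' • ax (rq 1) false ∧ k • w = w' :=
  trans_aux H (ipK H _) (u5 H) hg hg' hw hw' ((ip_inv H hg w).trans h) ((ip_inv H hg' w').trans h')
theorem trans_pair3A (h : ip (g • ax (rq 1) false : VV) w = 13 / 8)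
    (h' : ip (g' • ax (rq 1) false : VV) w' = 13 / 8) :
    ∃ k ∈ GM tau, k • g • ax (rq 1) false = g' • ax (rq 1) false ∧ k • w = w' :=
  trans_aux H (ipK H _) (uA H) hg hg' hw hw' ((ip_inv H hg w).trans h) ((ip_inv H hg' w').trans h')
theorem trans_pair3C (h : ip ((g * xq (rq 1) false * g⁻¹) • w : VV) w = 1 / 2)
    (h' : ip ((g' * xq (rq 1) false * g'⁻¹) • w' : VV) w' = 1 / 2) :
    ∃ k ∈ GM tau, k • g • ax (rq 1) false = g' • ax (rq 1) false ∧ k • w = w' :=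
  trans_aux H (gaK H) (uC H) hg hg' hw hw' ((ga_inv H hg w).trans h) ((ga_inv H hg' w').trans h')
end

/-- a pair whose involutions have a product of order 3 has type `3A` or `3C` -/
theorem type_of_val (H : dat.OK) {g : GG} (hg : g ∈ GM tau) {w : VV}
    (hw : w ∈ XX tau (ax (rq 1) false)) : ∃ c, ip (g • ax (rq 1) false : VV) w = al c / 8 ∧
      ip ((g * xq (rq 1) false * g⁻¹) • w : VV) w = ga c / 8 := by
  obtain ⟨k, hk, c, a, b⟩ := H.hyp2.canon (XX_smul (inv_mem hg) hw)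
  have k1 : k ∈ KK tau (rq 1) := H.hyp2.K0_le hk
  exact ⟨c, by rw [← ip_inv H hg, ← b, (valK H c).1], by
    rw [← ga_inv H hg, ← (valK H c).2, ← a, ip_conj (H.hyp2.le_Aut k1.1) (H.hyp2.hyp.conjK k1)]⟩

theorem Ct.ga_half (H : dat.OK) {g t2 : GG} (hg : g ∈ GM tau) {w : VV} (h2 : Inv tau (rq 1) w t2)
    (h : ip (g • ax (rq 1) false : VV) w = 1 / 2) (h3 : (g * xq (rq 1) false * g⁻¹ * t2) ^ 3 = 1) :
    ip ((g * xq (rq 1) false * g⁻¹) • w : VV) w = 1 / 2 := by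
  obtain ⟨k, hk, c, a, b⟩ := H.hyp2.canon (XX_smul (inv_mem hg) h2.mem)
  have k1 : k ∈ KK tau (rq 1) := H.hyp2.K0_le hk
  rw [← ga_inv H hg, ← ip_conj (H.hyp2.le_Aut k1.1) (H.hyp2.hyp.conjK k1), a, (valK H c).2]
  rw [ip_inv H hg, h, (valK H c).1] at b
  have b' : al c = 4 := Int.cast_injective (α := ℝ) (by push_cast; linarith)
  obtain rfl | rfl := (by decide : ∀ c, al c = 4 → c = 4 ∨ c = 7) c b'
  · exfalso
    obtain ⟨x, hx, n4, e⟩ : ∃ x ∈ dat.CN, x.n = 4 ∧ dat.wc 4 = x.vec dat.v :=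
      ⟨_, List.mem_of_getElem? (i := 3) rfl, rfl, rfl⟩
    obtain ⟨-, -, g', g1, g2, g3, g4⟩ := cnC_spec H.rp (H.cn x hx)
    have i1 := (h2.smul (inv_mem hg)).smul k1.1
    rw [a, e] at i1
    have i2 := (H.hyp2.hyp.inv_iff i1 ⟨g', g1, g2, rfl⟩).1 rfl
    have c1 := H.hyp2.hyp.conjK k1
    have s1 := xq_sq (rq_mem N3.vm1) false
    rw [n4, ← i2] at g4
    rw [← i2] at g3
    generalize xq (rq 1) false = t at *
    have e3 : (t * (k * (g⁻¹ * t2 * g⁻¹⁻¹) * k⁻¹)) ^ 3 = 1 := by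
      rw [show t * (k * (g⁻¹ * t2 * g⁻¹⁻¹) * k⁻¹) = (k * g⁻¹) * (g * t * g⁻¹ * t2) * (k * g⁻¹)⁻¹ by
        conv_lhs => rw [← c1]
        group, conj_pow, h3, mul_one, mul_inv_cancel]
    rw [pow_succ, e3, one_mul] at g4
    exact g3 (by rw [← inv_eq_of_mul_eq_one_right g4, inv_eq_of_mul_eq_one_right s1])
  · exact b
theorem ordHN (H : dat.OK) {a1 a2 : VV} {t1 t2 : GG} (h1 : Inv tau (rq 1) a1 t1)
    (h2 : Inv tau (rq 1) a2 t2) (h : ip a1 a2 = 3 / 4) :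
    Nat.card (GM tau ⊓ stabilizer GG a1 ⊓ stabilizer GG a2 : Subgroup GG) = 273030912000000 := by
  obtain ⟨g, hg, rfl, -⟩ := h1
  exact card_pair5 H hg h2.mem h
theorem ordFi (H : dat.OK) {a1 a2 : VV} {t1 t2 : GG} (h1 : Inv tau (rq 1) a1 t1)
    (h2 : Inv tau (rq 1) a2 t2) (h : ip a1 a2 = 13 / 8) :
    Nat.card (GM tau ⊓ stabilizer GG a1 ⊓ stabilizer GG a2 : Subgroup GG) = 4089470473293004800 := by
  obtain ⟨g, hg, rfl, -⟩ := h1
  exact card_pair3A H hg h2.mem h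
theorem ordTh (H : dat.OK) {a1 a2 : VV} {t1 t2 : GG} (h1 : Inv tau (rq 1) a1 t1)
    (h2 : Inv tau (rq 1) a2 t2) (h : ip a1 a2 = 1 / 2) (h3 : (t1 * t2) ^ 3 = 1) :
    Nat.card (GM tau ⊓ stabilizer GG a1 ⊓ stabilizer GG a2 : Subgroup GG) = 90745943887872000 := by
  obtain ⟨g, hg, rfl, rfl⟩ := h1
  exact card_pair3C H hg h2.mem (Ct.ga_half H hg h2 h h3)
/-- all pairs of type `3C` are conjugate -/
theorem transTh (H : dat.OK) {a1 a2 b1 b2 : VV} {t1 t2 s1 s2 : GG} (h1 : Inv tau (rq 1) a1 t1)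
    (h2 : Inv tau (rq 1) a2 t2) (h : ip a1 a2 = 1 / 2) (h3 : (t1 * t2) ^ 3 = 1)
    (k1 : Inv tau (rq 1) b1 s1) (k2 : Inv tau (rq 1) b2 s2) (k : ip b1 b2 = 1 / 2)
    (k3 : (s1 * s2) ^ 3 = 1) : ∃ g ∈ GM tau, g • a1 = b1 ∧ g • a2 = b2 := by
  obtain ⟨g, hg, rfl, rfl⟩ := h1
  obtain ⟨g', hg', rfl, rfl⟩ := k1
  exact trans_pair3C H hg h2.mem hg' k2.mem (Ct.ga_half H hg h2 h h3) (Ct.ga_half H hg' k2 k k3)

end Cfsg.Agent.Mo
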