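import Cfsg.Agent.Mo.Asm

/-! Counting pairs of axes: the trace identity and orbits. -/

set_option autoImplicit false

namespace Cfsg.Agent.Mo

open H4 H5 H5.Lee Finset Matrix MulAction

namespace Ct

theorem sum_L2F {F : Λ → ℝ} (hF : ∀ r s, cl r = cl s → F r = F s) :
    ∑ r ∈ L2F, F r = 2 * ∑ q ∈ Cr.VP, F (rq q) := by
  have e : ∀ r ∈ L2F, F r = ∑ q ∈ Cr.VP, mc (PL (rq q)) r • F r := fun r hr => by
    obtain ⟨q, hq, e⟩ := rq_surj (mem_L2F.1 hr)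
    rw [sum_eq_single q (fun q' h' hne => ?_) fun h => absurd (Cr.mem_VP.2 hq) h,
      mc_PL (mem_L2F.1 hr), if_pos ((cl_rq hq).trans e).symm, one_smul]
    rw [mc_PL (mem_L2F.1 hr), if_neg, zero_smul]
    rw [← e, cl_rq (Cr.mem_VP.1 h')]
    exact fun a => hne (cp_inj hq (Cr.mem_VP.1 h') a).symm
  rw [sum_congr rfl e, sum_comm, mul_sum]
  exact sum_congr rfl fun q hq => sum_mc_PL (rq_mem (Cr.mem_VP.1 hq)) F (hF _ _ (cl_neg _))
theorem card_L2F : #L2F = 196560 := by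
  rw [← ncard_L2, ← Set.ncard_coe_finset]
  congr 1; ext r; exact mem_L2F
theorem card_VP : (#Cr.VP : ℝ) = 98280 := by
  have := sum_L2F (F := fun _ => 1) fun _ _ _ => rfl
  rw [sum_const, sum_const, card_L2F, nsmul_eq_mul, nsmul_eq_mul] at this
  push_cast at this
  linarith
theorem ncard_odd {v : Λ} (hv : v ∈ L2) :
    {y | y ∈ L2 ∧ dotInt (v : V) (y : V) / 8 % 2 = 1}.ncard = 94208 := by
  obtain ⟨g, rfl⟩ := trans2 hv
  rw [show 94208 = ∑ k ∈ range 19, if dt (bc1 0) (bc1 k) / 8 % 2 = 1 then d20 TOT1 k else 0 by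
    decide +kernel, ← orb1.ncard (fun y => dotInt (bL 0 : V) (y : V) / 8 % 2 = 1) _ fun h hh k hk => by
    rw [dot_smul_fix hh.1, dot_bL (by norm_num) hk]; omega]
  exact (ncard_smul g _ _ fun y => by simp only [dot_smul, L2, Set.mem_ofPred_eq, norm_smul']).symm
theorem sum_ch {s : Λ} (hs : s ∈ L2) : ∑ q ∈ Cr.VP, ch (bz s (rq q)) = 4072 := by
  classical
  have h1 := sum_L2F (F := fun r => ch (bz s r)) fun r t e => by
    rw [bz_comm s, bz_congr e, bz_comm]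
  have h2 : ∀ r, ch (bz s r) = 1 - 2 * if dotInt (s : V) (r : V) / 8 % 2 = 1 then 1 else 0 := fun r => by
    rw [bz_apply, ch_cast]
    split_ifs <;> first | omega | norm_num
  have h3 : #(L2F.filter fun r : Λ => dotInt (s : V) (r : V) / 8 % 2 = 1) = 94208 := by
    rw [← ncard_odd hs, ← Set.ncard_coe_finset]
    congr 1; ext r
    simp only [coe_filter, mem_L2F, Set.mem_ofPred_eq]
  conv_lhs at h1 => simp only [h2]
  rw [sum_sub_distrib, ← mul_sum, sum_boole, h3, sum_const, card_L2F] at h1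
  norm_num at h1
  linarith

theorem xq_smul (r : Λ) (e : Bool) (w : VV) : ((xq r e • w : VV) : Amb) =
    (w.1.1, PL r * w.1.2.1 * (PL r)ᵀ, sgn e • (w.1.2.2 * (PL r)ᵀ)) := by
  rw [xq, rho_smul, act_apply, qe_fst, qe_snd, mat_one, transpose_one, transpose_smul]
  simp only [Matrix.one_mul, Matrix.mul_one, Matrix.smul_mul, Matrix.mul_smul, smul_smul, sgn_mul_self,
    one_smul]
theorem mc_conj (r s : Λ) (M : Matrix κ κ ℝ) : mc (PL r * M * (PL r)ᵀ) s = ch (bz s r) * mc M s := by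
  rw [mc, mc, ← Matrix.mul_assoc, trace_mul_comm, ← Matrix.mul_assoc (PL s), PL_comm, Matrix.smul_mul,
    Matrix.mul_smul, trace_smul, ← Matrix.mul_assoc, ← Matrix.mul_assoc, PL_tr_mul, Matrix.one_mul,
    smul_eq_mul, mul_div_assoc]

noncomputable def A2 (w : VV) : ℝ := ∑ i ∈ range 24, ∑ j ∈ range 24, crd w (i * 24 + j) ^ 2
noncomputable def M2 (w : VV) : ℝ := ∑ q ∈ range 98304, crd w (576 + q) ^ 2
theorem pair_sum (r : Λ) (w : VV) : ip (xq r false • w : VV) w + ip (xq r true • w : VV) w =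
    2 * A2 w + 2 * ∑ q ∈ range 98304, ch (bz (rq q) r) * crd w (576 + q) ^ 2 := by
  rw [ip_crd, ip_crd, ← sum_add_distrib, Cr.sum_split, A2, mul_sum, mul_sum,
    sum_eq_zero (s := range 24) (f := fun i => ∑ j : κ, _) fun i hi => sum_eq_zero fun j _ => ?_,
    add_zero]
  · refine congrArg₂ _ (sum_congr rfl fun i hi => ?_) (sum_congr rfl fun q hq => ?_)
    · rw [mul_sum]
      refine sum_congr rfl fun j hj => ?_
      simp only [crd_A _ (mem_range.1 hi) (mem_range.1 hj), xq_smul]; ring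
    · simp only [crd_M _ (mem_range.1 hq), xq_smul, mc_conj]
      split_ifs <;> ring
  · simp only [crd_W _ (mem_range.1 hi), xq_smul, Matrix.smul_apply, sgn_true, sgn_false, smul_eq_mul]
    ring
theorem trace_id (w : VV) : ∑ q ∈ Cr.VP, (ip (xq (rq q) false • w : VV) w +
    ip (xq (rq q) true • w : VV) w) = 196560 * A2 w + 8144 * M2 w := by
  simp only [pair_sum]
  rw [sum_add_distrib, sum_const, nsmul_eq_mul, card_VP, ← mul_sum, sum_comm, M2, mul_sum (a := 8144),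
    mul_sum]
  refine congrArg₂ _ (by ring) (sum_congr rfl fun q hq => ?_)
  rw [← sum_mul]
  cases h : VM.testBit q
  · rw [crd_M _ (mem_range.1 hq), h]; simp
  · rw [sum_ch (rq_mem h)]; ring

open Classical in
theorem ncard_ax (P : VV → Prop) : ({a | (∃ r ∈ L2, ∃ f, a = ax r f) ∧ P a}.ncard : ℝ) =
    ∑ q ∈ Cr.VP, ((if P (ax (rq q) false) then 1 else 0) + if P (ax (rq q) true) then 1 else 0) := by
  have hU := @Cr.mem_VP
  generalize Cr.VP = U at hU ⊢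
  have e : {a | (∃ r ∈ L2, ∃ f, a = ax r f) ∧ P a} = (fun x : ℕ × Bool => ax (rq x.1) x.2) ''
      ((U ×ˢ univ).filter fun x : ℕ × Bool => P (ax (rq x.1) x.2) : Finset _) := by
    ext a
    constructor
    · rintro ⟨⟨r, hr, f, rfl⟩, h⟩
      obtain ⟨q, hq, e⟩ := rq_surj hr
      have e1 : ax (rq q) f = ax r f := (ax_inj (rq_mem hq) hr).2 ⟨(cl_rq hq).trans e, rfl⟩
      exact ⟨(q, f), mem_coe.2 (mem_filter.2 ⟨mem_product.2 ⟨hU.2 hq, mem_univ _⟩, e1 ▸ h⟩), e1⟩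
    · rintro ⟨x, hx, rfl⟩
      obtain ⟨h1, h2⟩ := mem_filter.1 (mem_coe.1 hx)
      exact ⟨⟨_, rq_mem (hU.1 (mem_product.1 h1).1), _, rfl⟩, h2⟩
  rw [e, Set.InjOn.ncard_image fun x hx y hy a => ?_, Set.ncard_coe_finset, card_filter, sum_product]
  · push_cast
    exact sum_congr rfl fun q _ => by rw [Fintype.sum_bool, add_comm]
  · have h1 := hU.1 (mem_product.1 (mem_filter.1 (mem_coe.1 hx)).1).1
    have h2 := hU.1 (mem_product.1 (mem_filter.1 (mem_coe.1 hy)).1).1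
    obtain ⟨b, c⟩ := (ax_inj (rq_mem h1) (rq_mem h2)).1 a
    rw [cl_rq h1, cl_rq h2] at b
    exact Prod.ext (cp_inj h1 h2 b) c

/-- pairs of type `3C` -/
def P3 (a w : VV) : Prop := ∃ r ∈ L2, ∃ f, a = ax r f ∧ ip (xq r f • w : VV) w = 1 / 2
theorem P3_ax {r : Λ} (hr : r ∈ L2) {f : Bool} {w : VV} :
    P3 (ax r f) w ↔ ip (xq r f • w : VV) w = 1 / 2 :=
  ⟨fun ⟨s, hs, g, a, b⟩ => by rwa [xq_eq_iff.2 ((ax_inj hr hs).1 a)], fun h => ⟨r, hr, f, rfl, h⟩⟩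
theorem ip_conj {k t s : GG} (hk : k ∈ Aut) (h : k * t * k⁻¹ = s) (w : VV) :
    ip (s • k • w : VV) (k • w : VV) = ip (t • w : VV) w := by
  rw [← h, mul_smul, mul_smul, inv_smul_smul, hk.1]
theorem P3.smul {g : GG} (hg : g ∈ HH) {a w : VV} (h : P3 a w) : P3 (g • a) (g • w) := by
  obtain ⟨r, hr, f, rfl, h⟩ := h
  obtain ⟨p, rfl⟩ := hg
  obtain ⟨f', c⟩ := exists_Cj p r f
  exact ⟨_, smul_mem_L2 _ hr, f', c.smul_ax hr (smul_mem_L2 _ hr),
    (ip_conj (rho_mem_Aut p) c.conj w).trans h⟩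
noncomputable def N3 (w : VV) : ℕ := {a | (∃ r ∈ L2, ∃ f, a = ax r f) ∧ P3 a w}.ncard

def al : Fin 9 → ℤ := ![256, 0, 8, 32, 4, 5, 6, 4, 13]
def ga : Fin 9 → ℤ := ![256, 256, 0, 256, 32, 13, 6, 4, 13]
/-- the two invariants of the canonical pairs -/
def Val (β : Λ) (wc : Fin 9 → VV) : Prop := ∀ c, ip (ax β false) (wc c) = al c / 8 ∧
  ip (xq β false • wc c : VV) (wc c) = ga c / 8

open Classical in
theorem ind_eq {x y : ℝ} {c : Fin 9} (h1 : x = al c / 8) (h2 : y = ga c / 8) :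
    y = 32 * (if x = (256 : ℤ) / 8 then 1 else 0) + 32 * (if x = (0 : ℤ) / 8 then 1 else 0) +
      32 * (if x = (32 : ℤ) / 8 then 1 else 0) + 4 * (if x = (4 : ℤ) / 8 then 1 else 0) +
      13 / 8 * (if x = (5 : ℤ) / 8 then 1 else 0) + 3 / 4 * (if x = (6 : ℤ) / 8 then 1 else 0) +
      13 / 8 * (if x = (13 : ℤ) / 8 then 1 else 0) - 7 / 2 * if y = 1 / 2 then 1 else 0 := by
  subst h1 h2
  fin_cases c <;> norm_num [al, ga]

section
variable {τ : GG} {β γ γ' Ω δ : Λ} {e e' η : Bool} {v : Fin 12 → VV} {sz : Fin 12 → ℕ}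
  {wc : Fin 9 → VV}

theorem can_val (h : Hyp2 τ β γ γ' Ω δ e e' η v sz wc) (hv : Val β wc) {r : Λ} (hr : r ∈ L2) {f : Bool}
    {w : VV} (c : Can τ β wc (ax r f) w) :
    ∃ c, ip (ax r f) w = al c / 8 ∧ ip (xq r f • w : VV) w = ga c / 8 := by
  obtain ⟨p, h1, k, hk, c, h2⟩ := c
  obtain ⟨k1, k2⟩ := h.K0_le hk
  refine ⟨c, ?_, ?_⟩
  · rw [← (hv c).1, ← h2, ← (rho_mem_Aut p).1, h1, ← (h.le_Aut k1).1, k2]
  · rw [← (hv c).2, ← h2, ip_conj (h.le_Aut k1) (h.hyp.conjK ⟨k1, k2⟩),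
      ip_conj (rho_mem_Aut p) ((smul_ax_iff (rho_mem p) hr h.hβ).1 h1)]
theorem N3_eq (h : Hyp2 τ β γ γ' Ω δ e e' η v sz wc) (hv : Val β wc) (i : Fin 12) :
    196560 * A2 (v i) + 8144 * M2 (v i) = 32 * NS (v i) ((256 : ℤ) / 8) + 32 * NS (v i) ((0 : ℤ) / 8) +
      32 * NS (v i) ((32 : ℤ) / 8) + 4 * NS (v i) ((4 : ℤ) / 8) + 13 / 8 * NS (v i) ((5 : ℤ) / 8) +
      3 / 4 * NS (v i) ((6 : ℤ) / 8) + 13 / 8 * NS (v i) ((13 : ℤ) / 8) - 7 / 2 * N3 (v i) := by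
  classical
  simp only [NS, N3, ncard_ax, mul_sum, ← sum_add_distrib, ← sum_sub_distrib, ← trace_id]
  refine sum_congr rfl fun q hq => ?_
  have hr := rq_mem (Cr.mem_VP.1 hq)
  obtain ⟨c, a1, a2⟩ := can_val h hv hr (h.can i _ hr false)
  obtain ⟨d, b1, b2⟩ := can_val h hv hr (h.can i _ hr true)
  have a := ind_eq a1 a2
  have b := ind_eq b1 b2
  simp only [P3_ax hr]
  linarith
theorem card_3C (h : Hyp2 τ β γ γ' Ω δ e e' η v sz wc) : 196560 * {w | w ∈ XX τ (ax β false) ∧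
    ip (xq β false • w : VV) w = 1 / 2}.ncard = ∑ i, sz i * N3 (v i) := by
  rw [h.card_filter, Finset.mul_sum]
  refine Finset.sum_congr rfl fun i _ => ?_
  rw [← ncard_orbit_HH h.hβ false, ← (h.card_O i).1, N3]
  simp only [← OO.short h.hβ, ← P3_ax h.hβ]
  exact dc HH (ax β false) (v i) P3 fun g hg x y e => e.smul hg
theorem trans_K (h : Hyp2 τ β γ γ' Ω δ e e' η v sz wc) {Q : VV → Prop}
    (hQ : ∀ k ∈ KK τ β, ∀ w, Q w → Q (k • w)) {c0 : Fin 9} (hc : ∀ c, Q (wc c) → c = c0) {w u : VV}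
    (hw : w ∈ XX τ (ax β false)) (hu : u ∈ XX τ (ax β false)) (qw : Q w) (qu : Q u) :
    ∃ k ∈ KK τ β, k • w = u := by
  obtain ⟨k, hk, c, a, -⟩ := h.canon hw
  obtain ⟨l, hl, d, b, -⟩ := h.canon hu
  have k1 : k ∈ KK τ β := h.K0_le hk
  have l1 : l ∈ KK τ β := h.K0_le hl
  rw [hc c (a ▸ hQ k k1 w qw), ← hc d (b ▸ hQ l l1 u qu), ← b] at a
  exact ⟨l⁻¹ * k, mul_mem (inv_mem l1) k1, by rw [mul_smul, a, inv_smul_smul]⟩
theorem card_stab (h : Hyp2 τ β γ γ' Ω δ e e' η v sz wc) {Q : VV → Prop}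
    (hQ : ∀ k ∈ KK τ β, ∀ w, Q w → Q (k • w)) {c0 : Fin 9} (hc : ∀ c, Q (wc c) → c = c0) {g : GG}
    (hg : g ∈ GM τ) {w : VV} (hw : w ∈ XX τ (ax β false)) (qw : Q (g⁻¹ • w)) :
    {u | u ∈ XX τ (ax β false) ∧ Q u}.ncard *
      Nat.card ↥(GM τ ⊓ stabilizer GG (g • ax β false) ⊓ stabilizer GG w) =
      8309562962452852382355161088000000 := by
  have hw' : g⁻¹ • w ∈ XX τ (ax β false) := by
    obtain ⟨a, ha, rfl⟩ := hw
    exact ⟨g⁻¹ * a, mul_mem (inv_mem hg) ha, mul_smul _ _ _⟩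
  rw [← h.hyp.cardK, card_eq_orbit (KK τ β) (g⁻¹ • w)]
  congr 1
  · congr 1
    ext u
    refine ⟨fun a => trans_K h hQ hc hw' a.1 qw a.2, ?_⟩
    rintro ⟨k, hk, rfl⟩
    obtain ⟨a, ha, b⟩ := hw'
    exact ⟨⟨k * a, mul_mem hk.1 ha, by rw [mul_smul, b]⟩, hQ k hk _ qw⟩
  · refine Nat.card_congr ((MulAut.conj g⁻¹).toEquiv.subtypeEquiv fun x => ?_)
    simp only [KK, Subgroup.mem_inf, mem_stabilizer_iff, MulEquiv.toEquiv_eq_coe, EquivLike.coe_coe,
      MulAut.conj_apply, inv_inv, mul_smul, smul_inv_smul, smul_left_cancel_iff, inv_smul_eq_iff]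
    rw [Subgroup.mul_mem_cancel_right _ hg, Subgroup.mul_mem_cancel_left _ (inv_mem hg)]
end

/-! ### computation -/

open N1 in
/-- `2 ^ (e + e')` times the inner product -/
noncomputable def ipS2 (M : List ℕ) : ℤ :=
  Int.add (sm M) (sm (lmap (fun x => Nat.shiftRight x 131072) M))
noncomputable def ipS (S S' : List ℕ) : ℤ := ipS2 (Cr.frL (N1.mulX S'.tail S.tail))
theorem ipS_spec {S S' : List ℕ} {u w : VV} (r : Rp S u) (r' : Rp S' w) :
    ip u w = ipS S S' / 2 ^ (S.headD 0 + S'.headD 0) := by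
  have e : ∀ n m : ℕ, n = 2 ^ 17 → m = 197184 → ipS S S' = ∑ p ∈ range (n + n), vz S.tail p * vz S'.tail p := by
    rintro n m hn hm
    rw [sum_range_add, hn]
    change N1.sm _ + N1.sm _ = _
    rw [N1.sm_eq, N1.sm_eq, N1.frL_eq]
    refine congrArg₂ _ (sum_congr rfl fun p _ => N1.vz_mulX _ _ _) (sum_congr rfl fun p _ => ?_)
    rw [vz_map _ _ p (2 ^ 17 + p) fun x => by rw [tb_shr, add_comm]; rfl, N1.vz_mulX]
  rw [e _ _ rfl rfl, N1.sum_cut _ (show 197184 ≤ 2 ^ 17 + 2 ^ 17 by norm_num) fun p hp => ?_, ip_crd,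
    Int.cast_sum, sum_div]
  · refine sum_congr rfl fun p _ => ?_
    rw [r, r', val, val, pow_add]; push_cast; field_simp
  · have := r p
    rw [Cr.crd_out _ hp, val, eq_comm, div_eq_zero_iff, or_iff_left (by positivity),
      Int.cast_eq_zero] at this
    rw [this, zero_mul]
def tW : List ℕ := [13, 15, 17, 18, 19]
theorem xq_ug {k : ℕ} (h : 12 ≤ k) (h' : k < 24) (x : Λ) :
    xq x false * xq (ug k) false = xq (x + ug k) false := xq_mul (by
  rw [cl_ug h', show 2 ^ k % 4096 = 0 by interval_cases k <;> rfl, sg_comm, sg_zero, sgn_false]; ring)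
theorem rho_tW : rho (wd tW) = xq (rq 1) false := by
  simp only [tW, wd, map_mul, map_one]
  rw [← xq_zero]
  repeat rw [hT_q (by norm_num), xq_ug (by norm_num) (by norm_num)]
  refine xq_cl ?_ _
  simp only [cl_add, cl_zero]
  repeat rw [cl_ug (by norm_num)]
  rw [cl_rq N3.vm1, N3.cp1]; rfl
noncomputable def gaC2 (X Y : List ℕ) (c : ℤ) : Bool :=
  decide (Int.mul 8 (ipS Y X) = Int.mul c (Int.ofNat (Nat.shiftLeft 1 (Nat.add (Y.headD 0) (X.headD 0)))))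
noncomputable def gaC (X : List ℕ) (c : ℤ) : Bool := gaC2 X (appW tW X) c
theorem gaC_spec {X : List ℕ} {w : VV} (r : Rp X w) {c : ℤ} (h : gaC X c = true) :
    ip (xq (rq 1) false • w : VV) w = c / 8 := by
  have r' := r.appW (w := tW) rfl
  rw [rho_tW] at r'
  rw [ipS_spec r' r, div_eq_div_iff (by positivity) (by norm_num)]
  have e : 8 * ipS (appW tW X) X = c * ((1 <<< ((appW tW X).headD 0 + X.headD 0) : ℕ) : ℤ) :=
    of_decide_eq_true h
  rw [Nat.one_shiftLeft] at e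
  have := congrArg (fun t : ℤ => (t : ℝ)) e
  push_cast at this
  linarith
noncomputable def sqS (xs : List ℕ) : ℤ := N1.sm (Cr.frL (N1.mulX xs xs))
theorem sqS_eq {S : List ℕ} {w : VV} (r : Rp S w) (a n : ℕ) (hn : n ≤ 2 ^ 17) :
    (sqS (Cr.frL (lmap (fun x => Nat.land (ones n) (Nat.shiftRight x a)) S.tail)) : ℝ) =
      (2 ^ S.headD 0) ^ 2 * ∑ p ∈ range n, crd w (a + p) ^ 2 := by
  rw [sqS, N1.sm_eq, N1.frL_eq, N1.frL_eq, N1.sum_cut _ hn fun p hp => by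
    rw [N1.vz_mulX, vz_map0 _ _ p fun x => by rw [tb_and, tb_ones, decide_eq_false (by omega)]; rfl,
      zero_mul], Int.cast_sum, mul_sum]
  refine sum_congr rfl fun p hp => ?_
  rw [N1.vz_mulX, vz_map _ _ p (a + p) fun x => by
    rw [tb_and, tb_ones, decide_eq_true (mem_range.1 hp), tb_shr, add_comm]; rfl, r, val]
  push_cast; field_simp
noncomputable def trL (S : List ℕ) : ℤ :=
  8 * (196560 * sqS (Cr.frL (lmap (fun x => Nat.land (ones 576) (Nat.shiftRight x 0)) S.tail)) +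
    8144 * sqS (Cr.frL (lmap (fun x => Nat.land (ones 98304) (Nat.shiftRight x 576)) S.tail)))
/-- the counts for the inner products `13 / 8`, `6 / 8` and for the type `3C` -/
noncomputable def trC (S : List ℕ) (n : ℕ × ℕ × ℕ) : Bool :=
  Nat.beq (nsC S 13) n.1 && Nat.beq (nsC S 6) n.2.1 &&
    decide (trL S + ((4 ^ S.headD 0 * (28 * n.2.2) : ℕ) : ℤ) = ((4 ^ S.headD 0 * (256 * nsC S 256 +
      256 * nsC S 0 + 256 * nsC S 32 + 32 * nsC S 4 + 13 * nsC S 5 + 6 * n.2.1 + 13 * n.1) : ℕ) : ℤ))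
theorem trC_spec {τ : GG} {β γ γ' Ω δ : Λ} {e e' η : Bool} {v : Fin 12 → VV} {sz : Fin 12 → ℕ}
    {wc : Fin 9 → VV} (h : Hyp2 τ β γ γ' Ω δ e e' η v sz wc) (hv : Val β wc) {i : Fin 12} {S : List ℕ}
    (r : Rp S (v i)) {n : ℕ × ℕ × ℕ} (c : trC S n = true) :
    NS (v i) (13 / 8) = n.1 ∧ NS (v i) (3 / 4) = n.2.1 ∧ N3 (v i) = n.2.2 := by
  simp only [trC, Bool.and_eq_true, Nat.beq_eq, decide_eq_true_eq] at c
  obtain ⟨⟨c1, c2⟩, c3⟩ := c
  refine ⟨by rw [← c1, ← nsC_spec r]; norm_num, by rw [← c2, ← nsC_spec r]; norm_num, ?_⟩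
  have a := N3_eq h hv i
  simp only [nsC_spec r, c1, c2] at a
  have b := congrArg (fun t : ℤ => (t : ℝ)) c3
  have e1 : ∑ p ∈ range 576, crd (v i) (0 + p) ^ 2 = A2 (v i) := by
    simp only [zero_add]; exact Cr.sum_mul _ 24 24
  simp only [trL, Int.cast_add, Int.cast_mul, sqS_eq r 0 576 (by norm_num),
    sqS_eq r 576 98304 (by norm_num), e1, ← M2.eq_1] at b
  push_cast at b
  rw [← pow_mul, mul_comm _ 2, pow_mul, show (2 : ℝ) ^ 2 = 4 by norm_num] at b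
  have p : (0 : ℝ) < 4 ^ S.headD 0 := by positivity
  refine Nat.cast_injective (R := ℝ) (mul_left_cancel₀ p.ne' ?_)
  linear_combination (8 / 28 * 4 ^ S.headD 0) * a - (1 / 28) * b

end Ct

end Cfsg.Agent.Mo
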