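import Cfsg.Agent.Mo.CoB

/-! Normal subgroups of the automorphism group of the rank-24 lattice. -/

set_option autoImplicit false
set_option maxRecDepth 100000

namespace Cfsg.Agent.Mo.CoG

open H4 H5 H5.Lee H9.PR MulAction Finset

/-- plus or minus the identity -/
def PM : Subgroup Co0 where
  carrier := {g | (∀ x : Λ, g • x = x) ∨ ∀ x : Λ, g • x = -x}
  one_mem' := Or.inl fun x => one_smul _ x
  mul_mem' := by
    rintro a b (ha | ha) (hb | hb)
    · exact Or.inl fun x => by rw [mul_smul, hb, ha]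
    · exact Or.inr fun x => by rw [mul_smul, hb, ha]
    · exact Or.inr fun x => by rw [mul_smul, hb, ha]
    · exact Or.inl fun x => by rw [mul_smul, hb, ha, neg_neg]
  inv_mem' := by
    rintro a (ha | ha)
    · exact Or.inl fun x => by rw [inv_smul_eq_iff, ha]
    · exact Or.inr fun x => by rw [inv_smul_eq_iff, ha, neg_neg]

theorem ng_mem : ng ∈ PM := Or.inr ng_smul

theorem co_ext' {g h : Co0} (e : ∀ x : Λ, g • x = h • x) : g = h := co_ext fun x i => by rw [e]

theorem card_PM : Nat.card PM = 2 := by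
  refine (Nat.card_eq_two_iff' (1 : PM)).2 ⟨⟨ng, ng_mem⟩, fun h => ?_, fun g hg => ?_⟩
  · have h1 := ng_smul (bL 0)
    rw [show ng = 1 from congrArg Subtype.val h, one_smul] at h1
    have h2 := congrFun (congrArg Subtype.val h1) (gE.pt 0)
    rw [AddSubgroup.coe_neg, Pi.neg_apply, bL0_apply, if_pos (Or.inl rfl)] at h2
    omega
  · rcases g.2 with h | h
    · exact absurd (Subtype.ext (co_ext' fun x => (h x).trans (one_smul _ x).symm)) hg
    · exact Subtype.ext (co_ext' fun x => (h x).trans (ng_smul x).symm)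

theorem PM_le : PM ≤ Subgroup.center Co0 := fun g hg => Subgroup.mem_center_iff.2 fun h =>
  co_ext' fun x => by
    rcases hg with e | e
    · rw [mul_smul, mul_smul, e, e]
    · rw [mul_smul, mul_smul, e, e, smul_neg']

theorem link_chk : ∀ k < 19, ∃ j < 19, dt (bc1 j) (bc1 0) = dt (bc1 j) (bc1 k) ∧
    (dt (bc1 j) (bc1 0) = 2048 ∨ dt (bc1 j) (bc1 0) = 2040) := by decide +kernel

theorem eq_top_of_S {N : Subgroup Co0} (hN : N.Normal) (h : St (bL 0) ≤ N) : N = ⊤ := by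
  refine eq_top_iff.2 fun g _ => ?_
  obtain ⟨k, hk, a, ha, e⟩ := orb1.exists (smul_mem_L2 g (bL_mem (k := 0) (by norm_num)))
  obtain ⟨j, hj, h1, h2⟩ := link_chk k hk
  obtain ⟨n, n1, n2⟩ : ∃ n : Co0, n • bL j = bL j ∧ n • bL 0 = bL k := by
    rcases h2 with h2 | h2
    · exact of_base2 (trans_0 (bL_mem hj) (bL_mem (by norm_num)) (by
        rw [dot_bL hj (by norm_num), h2]; rfl)) (trans_0 (bL_mem hj) (bL_mem hk) (by
        rw [dot_bL hj hk, ← h1, h2]; rfl))
    · exact of_base2 (trans_m8 (bL_mem hj) (bL_mem (by norm_num)) (by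
        rw [dot_bL hj (by norm_num), h2]; rfl)) (trans_m8 (bL_mem hj) (bL_mem hk) (by
        rw [dot_bL hj hk, ← h1, h2]; rfl))
  obtain ⟨u, hu⟩ := trans2 (bL_mem hj)
  have h3 : n ∈ N := by
    refine (hN.mem_comm_iff (a := u⁻¹) (b := n * u)).1 (h ?_) |> fun h4 => by simpa using h4
    rw [mem_stabilizer_iff, mul_smul, mul_smul, hu, n1, inv_smul_eq_iff, hu]
  have h4 : a * n ∈ N := N.mul_mem (h ha.1) h3
  refine (N.mul_mem_cancel_left (N.inv_mem h4)).1 (h ?_)
  rw [mem_stabilizer_iff, mul_smul, inv_smul_eq_iff, mul_smul, n2, e]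

theorem dv4_chk : (∀ k < 19, (∀ i, 4 ∣ vec (bc1 k) i) → k = 0 ∨ vec (bc1 k) = -vec (bc1 0) ∨
    dt (bc1 0) (bc1 k) = 2048 ∨ dt (bc1 0) (bc1 k) = 2032 ∨ dt (bc1 0) (bc1 k) = 2064) ∧
    (¬ ∀ i, 4 ∣ vec (bc1 7) i) ∧ ¬ ∀ i, 4 ∣ vec (bc1 4) i := by decide +kernel

theorem pm_of_dv {w : Λ} (hw : w ∈ L2) (h : ∀ g ∈ St (bL 0), dv 4 (g • w)) :
    w = bL 0 ∨ w = -bL 0 := by
  obtain ⟨c1, c2, c3⟩ := dv4_chk
  have m0 := bL_mem (k := 0) (by norm_num)
  obtain ⟨k, hk, a, ha, rfl⟩ := orb1.exists hw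
  have a0 : a • bL 0 = bL 0 := ha.1
  have h1 := h 1 (Subgroup.one_mem _)
  rw [one_smul, dv_smul ha.2, dv_bL hk] at h1
  have h2 := dot_smul_fix a0 (bL k)
  rw [dot_bL (by norm_num) hk] at h2
  rcases c1 k hk h1 with rfl | e | e | e | e
  · exact Or.inl a0
  · rw [← bL_val hk, ← bL_val (by norm_num)] at e
    exact Or.inr (by rw [show bL k = -bL 0 from Subtype.ext e, smul_neg', a0])
  · obtain ⟨g, g1, g2⟩ := of_base2 (trans_0 m0 hw (by rw [h2, e]; rfl))
      (trans_0 m0 (bL_mem (k := 7) (by norm_num)) (by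
        rw [dot_bL (by norm_num) (by norm_num), bL7_chk.2.2.1]; rfl))
    exact absurd ((dv_bL (by norm_num) _).1 (g2 ▸ h g g1)) c2
  · obtain ⟨g, g1, g2⟩ := trans_m16 m0 hw (by rw [h2, e]; rfl)
    have := h g⁻¹ ((St (bL 0)).inv_mem g1)
    rw [← g2, inv_smul_smul] at this
    exact absurd ((dv_bL (by norm_num) _).1 this) c3
  · obtain ⟨g, g1, g2⟩ := trans_m16 (w := -(a • bL k)) m0 ((norm_neg _).trans hw) (by
      rw [AddSubgroup.coe_neg, dot_neg_right, h2, e]; rfl)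
    have := h g⁻¹ ((St (bL 0)).inv_mem g1)
    rw [← neg_neg (a • bL k), ← g2, smul_neg', inv_smul_smul] at this
    exact absurd ((dv_bL (k := 4) (by norm_num) _).1 fun i => (dvd_neg.1 (this i))) c3

theorem le_PM {N : Subgroup Co0} (hN : N.Normal) (h1 : PM ≤ N) (h : N ⊓ St (bL 0) = ⊥) : N ≤ PM := by
  by_cases h2 : N ≤ NN
  · intro n hn
    have d0 : dv 4 (bL 0) := (dv_bL (by norm_num) _).2 dv_chk.1
    rcases pm_of_dv (smul_mem_L2 n (bL_mem (k := 0) (by norm_num))) (fun g hg => by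
      have := (dv_smul (h2 (hN.conj_mem n hn g)) 4 _).2 d0
      rwa [mul_smul, mul_smul, show g⁻¹ • bL 0 = bL 0 from (St (bL 0)).inv_mem hg] at this)
      with e | e
    · rw [Subgroup.mem_bot.1 (h.le ⟨hn, e⟩)]; exact PM.one_mem
    · refine (PM.mul_mem_cancel_left ng_mem).1 ?_
      rw [Subgroup.mem_bot.1 (h.le ⟨N.mul_mem (h1 ng_mem) hn, show (ng * n) • bL 0 = bL 0 by
        rw [mul_smul, e, ng_smul, neg_neg]⟩)]
      exact PM.one_mem
  · exfalso
    have h3 : NN ⊔ N = ⊤ := coatom_NN.2 _ (left_lt_sup.2 h2)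
    have h4 := Subgroup.relIndex_sup_right NN N
    rw [h3, Subgroup.relIndex_top_right] at h4
    have h5 : N.index ≤ 4096 * 244823040 := by
      rw [h4, ← card_NN]; exact Nat.le_of_dvd Nat.card_pos (Subgroup.relIndex_dvd_card _ _)
    have h6 := card_le_of_orbit_subset N (bL 0) L2 (finite_normL 32)
      fun g _ => smul_mem_L2 g (bL_mem (by norm_num))
    rw [h, Subgroup.card_bot, ncard_L2] at h6
    have h7 := Nat.mul_le_mul h6 h5
    rw [N.card_mul_index, card_G] at h7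
    omega

theorem dich_G (N : Subgroup Co0) (hN : N.Normal) (h : PM ≤ N) : N = PM ∨ N = ⊤ := by
  have := simple_S
  rcases IsSimpleGroup.eq_bot_or_eq_top_of_normal (N.subgroupOf (St (bL 0))) inferInstance
    with h1 | h1
  · exact Or.inl (le_antisymm (le_PM hN h (disjoint_iff.1 (Subgroup.subgroupOf_eq_bot.1 h1))) h)
  · exact Or.inr (eq_top_of_S hN (Subgroup.subgroupOf_eq_top.1 h1))

theorem center_eq : Subgroup.center Co0 = PM := by
  refine (dich_G _ inferInstance PM_le).resolve_right fun h => ?_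
  have h1 : (St (bL 0)).Normal := ⟨fun n hn g => by
    rwa [Subgroup.mem_center_iff.1 (h.ge (Subgroup.mem_top n)) g, mul_inv_cancel_right]⟩
  have h2 := card_S
  rw [eq_top_of_S h1 le_rfl, Subgroup.card_top, card_G] at h2
  omega

theorem simple_quot {G : Type*} [Group G] {Z : Subgroup G} [Z.Normal] (h1 : Z ≠ ⊤)
    (h : ∀ N : Subgroup G, N.Normal → Z ≤ N → N = Z ∨ N = ⊤) : IsSimpleGroup (G ⧸ Z) := by
  have : Nontrivial (G ⧸ Z) := QuotientGroup.nontrivial_iff.2 h1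
  refine ⟨fun N hN => (h _ (hN.comap (QuotientGroup.mk' Z))
    (QuotientGroup.le_comap_mk' Z N)).imp (fun h => ?_) fun h => ?_⟩
  · rw [eq_bot_iff]; intro x hx
    obtain ⟨y, rfl⟩ := QuotientGroup.mk'_surjective Z x
    exact (QuotientGroup.eq_one_iff y).2 (h.le hx)
  · rw [eq_top_iff]; intro x _
    obtain ⟨y, rfl⟩ := QuotientGroup.mk'_surjective Z x
    exact (h.ge (Subgroup.mem_top y) :)

end Cfsg.Agent.Mo.CoG
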