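import Cfsg.Agent.H5.LeeK
import Cfsg.Agent.Mo.CoC
import Cfsg.Prelude.Def_Sporadic

/-! INTERFACE (part B1): the Conway groups. -/

set_option autoImplicit false

namespace Cfsg.Agent.Mo

open H5 H5.Lee

theorem card_Co0 : Nat.card Co0 = 8315553613086720000 := CoG.card_G
theorem mem_center_Co0 {g : Co0} :
    g ∈ Subgroup.center Co0 ↔ (∀ x : Λ, g • x = x) ∨ ∀ x : Λ, g • x = -x := by
  rw [CoG.center_eq]; rfl
theorem isCo1 : IsCo1 (Co0 ⧸ Subgroup.center Co0) := by
  have h1 : Nat.card (Subgroup.center Co0) = 2 := by rw [CoG.center_eq, CoG.card_PM]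
  have h2 := (Subgroup.center Co0).card_eq_card_quotient_mul_card_subgroup
  rw [h1, card_Co0] at h2
  refine ⟨CoG.simple_quot (fun h => ?_) fun N hN h => ?_, by omega⟩
  · rw [h, Subgroup.card_top, card_Co0] at h1; omega
  · rw [CoG.center_eq] at h ⊢; exact CoG.dich_G N hN h
theorem isCo2 {v : Λ} (hv : v ∈ L2) : IsCo2 (MulAction.stabilizer Co0 v) := by
  obtain ⟨g, rfl⟩ := trans2 hv
  obtain ⟨e⟩ := H9.PR.equiv_of_conj (H := St (bL 0)) (K := St (g • bL 0)) g
    fun x => H9.PR.conj_mem_stab g x _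
  have := CoG.simple_S
  exact ⟨e.isSimpleGroup, (Nat.card_congr e.toEquiv).trans CoG.card_S⟩

end Cfsg.Agent.Mo
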