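import Cfsg.Agent.H9.PRepU6
import Cfsg.Agent.H4.DCX
import Cfsg.Agent.H4.Conj

/-! Orders of the Conway groups; monomial elements. -/

set_option autoImplicit false
set_option maxRecDepth 100000

namespace Cfsg.Agent.Mo.CoG

open H4 H5 H5.Lee H9.PR MulAction
open scoped Pointwise

/-! ### orders -/

theorem card_U6' : Nat.card ↥(St (bL 0) ⊓ St (bL 4)) = 9196830720 := by
  obtain ⟨a, -, c⟩ := permChk_spec (n := 891) (w := 10) (by norm_num) U6.h1
  obtain ⟨e⟩ := lee_equiv _ U6.h2 (St (bL 0) ⊓ St (bL 4))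
    (fun g h => ⟨h _ (by simp), h _ (by simp)⟩) U6.h3 a (card_U6.trans c)
  exact le_antisymm card_U6 (c.trans (Nat.card_congr e.toEquiv).ge)

theorem card_S : Nat.card (St (bL 0)) = 42305421312000 := by
  have h1 := card_St_of (K := St (bL 0)) le_rfl (bL_mem (k := 4) (by norm_num)) (d := -16)
    (by rw [dot_bL (by norm_num) (by norm_num)]; decide +kernel) fun y hy h =>
      trans_m16 (bL_mem (by norm_num)) hy h
  rwa [show (SD (bL 0) (-16)).ncard = 4600 from (ncard_dots (bL_mem (by norm_num))).1,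
    card_U6'] at h1

theorem card_G : Nat.card Co0 = 8315553613086720000 := by
  have h1 := card_top_eq
  rwa [Subgroup.card_top, card_S] at h1

theorem dot01 : dotInt (bL 0 : V) (bL 1 : V) = 0 := by
  rw [dot_bL (by norm_num) (by norm_num)]; decide +kernel

theorem card_S01 : Nat.card ↥(St (bL 0) ⊓ St (bL 1)) = 454164480 := by
  have h1 := card_St_of (K := St (bL 0)) le_rfl (bL_mem (k := 1) (by norm_num)) dot01
    fun y hy h => trans_0 (bL_mem (by norm_num)) hy h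
  rw [show (SD (bL 0) 0).ncard = 93150 from (ncard_dots (bL_mem (by norm_num))).2.2, card_S] at h1
  omega

/-! ### elements of the Mathieu group -/

noncomputable def pwc (p n : ℕ) : ℕ :=
  Nat.rec (motive := fun _ => ℕ) (idc 24 5) (fun _ ih => force ih (comp 24 5 p)) n

theorem rep_pwc {g : Equiv.Perm GolayPt} {p : ℕ} (h : gE.Rep g p) (n : ℕ) :
    gE.Rep (g ^ n) (pwc p n) := by
  induction n with
  | zero => exact Enc.rep_one
  | succ n ih => rw [pow_succ']; exact h.mul ih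

theorem pow_eq_one_of {g : M24} {p n : ℕ} (h : gE.Rep (g : Equiv.Perm GolayPt) p)
    (e : pwc p n = idc 24 5) : g ^ n = 1 :=
  Subtype.ext ((rep_pwc h n).eq_one e)

def pb : ℕ := 0xbc2245be80ad833414c2635c352647
def pd : ℕ := 0xba043051d62b4869558f5cd470c530
def l1 : ℕ := 0x3297681069ac8b443622bbe6763820
def l2 : ℕ := 0x23ecda8e17344aa64962a25c899c20

theorem chk23 : ∀ p ∈ [ga, pb, pd], isM24 p = true ∧ img 5 p 23 = 23 ∧ pwc p 23 = idc 24 5 := by
  decide +kernel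

theorem chk11 : ∀ p ∈ [l1, l2], memCfg [1, 0] [] p = true ∧ pwc p 11 = idc 24 5 := by
  decide +kernel

theorem chkab : pwc (comp 24 5 ga pb) 11 = idc 24 5 ∧ img 5 (comp 24 5 ga pb) 0 ≠ 0 ∧
    img 5 (comp 24 5 ga pd) 7 = 12 ∧ img 5 (comp 24 5 ga pd) 12 = 7 ∧
    ∀ i < 24, img 5 l1 i = i → i = 0 ∨ i = 1 := by decide +kernel

theorem exists23 : ∃ a b d : M24, (∀ x ∈ [a, b, d], (x : Equiv.Perm GolayPt) none = none ∧ x ^ 23 = 1) ∧
    (a * b) ^ 11 = 1 ∧ a * b ≠ 1 ∧ (a * d : M24).1 (gE.pt 7) = gE.pt 12 ∧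
      (a * d : M24).1 (gE.pt 12) = gE.pt 7 := by
  have key : ∀ p ∈ [ga, pb, pd], ∃ x : M24, gE.Rep (x : Equiv.Perm GolayPt) p ∧
      (x : Equiv.Perm GolayPt) none = none ∧ x ^ 23 = 1 := fun p hp => by
    obtain ⟨h1, h2, h3⟩ := chk23 p hp
    have h4 := rep_mkM24 p h1
    exact ⟨_, h4, by rw [← gE_pt_23, h4.apply_pt (by norm_num), h2], pow_eq_one_of h4 h3⟩
  obtain ⟨a, a1, a2⟩ := key ga (by simp)
  obtain ⟨b, b1, b2⟩ := key pb (by simp)
  obtain ⟨d, d1, d2⟩ := key pd (by simp)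
  obtain ⟨c1, c2, c3, c4, -⟩ := chkab
  refine ⟨a, b, d, by simp only [List.forall_mem_cons]; exact ⟨a2, b2, d2, by simp⟩,
    pow_eq_one_of (g := a * b) (a1.mul b1) c1, fun e => c2 ?_, ?_, ?_⟩
  · have := (a1.mul b1).img_eq (i := 0) (by norm_num)
    rw [← Subgroup.coe_mul, e] at this
    exact this
  · rw [Subgroup.coe_mul, (a1.mul d1).apply_pt (by norm_num), c3]
  · rw [Subgroup.coe_mul, (a1.mul d1).apply_pt (by norm_num), c4]

theorem card_cfg10 : Nat.card (cfg [1, 0] []) = 443520 := by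
  have h1 := card_cfg_step [] [] [0x5ba470115110ee17cdb464116aa4a6, 0x49225408ed349c3a066a02e177b2b6]
    5 0 0xffffff (by decide +kernel) fun g hg => apply_mem_compl_of_cfg hg 0 0 (by decide +kernel)
  have h2 := card_cfg_step [0] [] [0xa5ec180de8ac92e2b14d8926711960, 0x8ba892d5136c8620a8c465cf682de0]
    5 1 0xfffffe (by decide +kernel) fun g hg => apply_mem_compl_of_cfg hg 1 1 (by decide +kernel)
  rw [cfg_nil, card_M24, h2, show pc 24 0xffffff = 24 by decide +kernel,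
    show pc 24 0xfffffe = 23 by decide +kernel] at h1
  omega

/-- the stabiliser of two points is generated by elements of order 11 -/
theorem gen11 {D : Subgroup M24}
    (h : ∀ x : M24, (x : Equiv.Perm GolayPt) ∈ cfg [1, 0] [] → x ^ 11 = 1 → x ∈ D) {x : M24}
    (hx : (x : Equiv.Perm GolayPt) ∈ cfg [1, 0] []) : x ∈ D := by
  let H : Subgroup M24 := (cfg [1, 0] []).subgroupOf M24
  have h1 : mcg.In (D ⊓ H) [l1, l2] := fun p hp => by
    have h4 := rep_mkM24 p (isM24_of_memCfg (chk11 p hp).1)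
    have h5 := mem_cfg_of_rep h4 (chk11 p hp).1
    exact ⟨_, ⟨h _ h5 (pow_eq_one_of h4 (chk11 p hp).2), h5⟩, h4⟩
  have h2 : Nat.card H = 443520 := (card_eq_card_cfg fun _ => Iff.rfl).trans card_cfg10
  have h3 : 443520 ≤ Nat.card ↥(D ⊓ H) := le_trans (by decide +kernel) (Enc.chainLB_le 6
    [(2, [0x3297681069ac8b443622bbe6763820, 0x23ecda8e17344aa64962a25c899c20]),
   (3, [0x4124dbd60e8be96524e55b26618820, 0x88d0b4b0c522af6a3eb33b60e90820]),
   (4, [0x4124dbd60e8be96524e55b26618820, 0x25913a3d8d91e11595357195718820, 0xa5c87332a95c9538c0b6439af18820]),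
   (5, [0x94dd1b5e89354ac42a0b3bda418820, 0x7d6c971a11bcd6c6aa853c90418820, 0xabee5339abb4a2c829093ce8418820, 0xaad102ce91735e73313755a4418820]),
   (6, [0x7520f4cee6b450a69e4b654a418820])] (D ⊓ H) _
    (sound_memL (h1.slp mcg [(1, 1), (1, 1), (2, 3), (4, 1), (0, 0), (0, 4), (6, 8), (8, 1), (8, 6), (0, 0), (0, 3), (5, 1), (6, 1), (2, 0), (0, 2), (4, 5), (10, 1), (0, 0), (0, 5), (4, 14), (14, 0), (0, 2), (16, 17), (8, 1), (18, 6), (0, 0), (0, 3), (8, 22), (9, 1), (14, 11), (0, 0), (0, 3), (26, 5), (14, 0), (0, 2), (8, 14), (4, 1), (2, 6), (0, 0), (0, 3)])))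
  have h4 : D ⊓ H = H := Subgroup.eq_of_le_of_card_ge inf_le_right (h2 ▸ h3)
  exact (h4.ge hx).1

theorem exists11 : ∃ l : M24, (l : Equiv.Perm GolayPt) ∈ cfg [1, 0] [] ∧ l ^ 11 = 1 ∧
    ∀ i, (l : Equiv.Perm GolayPt) i = i → i = gE.pt 0 ∨ i = gE.pt 1 := by
  obtain ⟨h1, h2⟩ := chk11 l1 (by simp)
  have h4 := rep_mkM24 _ (isM24_of_memCfg h1)
  refine ⟨_, mem_cfg_of_rep h4 h1, pow_eq_one_of h4 h2, fun i hi => ?_⟩
  have h5 := h4 i
  rw [hi] at h5
  rcases chkab.2.2.2.2 _ (gE.ix_lt i) h5.symm with h | h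
  · left; rw [← h, gE.pt_ix]
  · right; rw [← h, gE.pt_ix]

/-! ### monomial elements -/

theorem co_ext {g h : Co0} (e : ∀ (x : Λ) i, ((g • x : Λ) : V) i = ((h • x : Λ) : V) i) : g = h :=
  Subtype.ext (Equiv.ext fun x => Subtype.ext (funext (e x)))

/-- coordinate permutations -/
noncomputable def mh : M24 →* Co0 := MonoidHom.mk' (fun σ => mono σ ⟨∅, empty_mem_code⟩)
  fun σ τ => co_ext fun x i => by
    simp only [mul_smul, mono_smul, signedPerm, Finset.notMem_empty, if_false]; rfl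

theorem mh_apply (σ : M24) (x : Λ) (i : GolayPt) :
    ((mh σ • x : Λ) : V) i = (x : V) ((σ : Equiv.Perm GolayPt).symm i) := by
  change ((mono σ _ • x : Λ) : V) i = _
  rw [mono_smul, signedPerm, if_neg (Finset.notMem_empty _)]

/-- sign changes -/
noncomputable def sg (c : Code) : Co0 := mono 1 c

theorem sg_apply (c : Code) (x : Λ) (i : GolayPt) :
    ((sg c • x : Λ) : V) i = if i ∈ (c : Finset GolayPt) then -(x : V) i else (x : V) i := rfl

theorem mono_eq (σ : M24) (c : Code) : mono σ c = sg c * mh σ := co_ext fun x i => by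
  rw [mul_smul, sg_apply, mh_apply]; rfl

theorem sg_mul_self (c : Code) : sg c * sg c = 1 := co_ext fun x i => by
  rw [mul_smul, sg_apply, sg_apply, one_smul]; split_ifs <;> simp

theorem sg_comm (σ : M24) (d : Code) : sg d * mh σ * (sg d)⁻¹ * (mh σ)⁻¹ =
    sg ⟨_, symmDiff_mem_code d.2 (smul_mem_code σ.2 d.2)⟩ := by
  rw [inv_eq_of_mul_eq_one_right (sg_mul_self d), mul_inv_eq_iff_eq_mul]
  refine co_ext fun x i => ?_
  have h : i ∈ (σ : Equiv.Perm GolayPt) • (d : Finset GolayPt) ↔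
      (σ : Equiv.Perm GolayPt).symm i ∈ (d : Finset GolayPt) := Finset.inv_smul_mem_iff.symm
  simp only [mul_smul, sg_apply, mh_apply, Finset.mem_symmDiff, h]
  by_cases h1 : i ∈ (d : Finset GolayPt) <;>
    by_cases h2 : (σ : Equiv.Perm GolayPt).symm i ∈ (d : Finset GolayPt) <;> simp [h1, h2]

theorem mh_inj {σ : M24} (h : mh σ = 1) : σ = 1 :=
  (mono_inj (τ := 1) (h.trans (map_one mh).symm)).1

/-- the central involution -/
noncomputable def ng : Co0 := sg ⟨_, univ_mem_code⟩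

theorem ng_smul (x : Λ) : ng • x = -x := Subtype.ext (funext fun i => by
  rw [ng, sg_apply, if_pos (Finset.mem_univ i)]; rfl)

theorem bL01 : vec (bc1 0) = Pi.single (gE.pt 0) 4 + Pi.single (gE.pt 1) 4 ∧
    vec (bc1 1) = Pi.single (gE.pt 0) 4 + Pi.single (gE.pt 1) (-4) := by decide +kernel

theorem bL0_apply (i : GolayPt) : (bL 0 : V) i = if i = gE.pt 0 ∨ i = gE.pt 1 then 4 else 0 := by
  rw [bL_val (by norm_num)]; revert i; decide +kernel

theorem bL1_apply (i : GolayPt) :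
    (bL 1 : V) i = if i = gE.pt 0 then 4 else if i = gE.pt 1 then -4 else 0 := by
  rw [bL_val (by norm_num)]; revert i; decide +kernel

theorem pt01 : gE.pt 0 ≠ gE.pt 1 := by decide

theorem add01 : bL 0 + bL 1 = e8 (gE.pt 0) := Subtype.ext (funext fun i => by
  rw [AddSubgroup.coe_add, Pi.add_apply, bL0_apply, bL1_apply]; revert i; decide +kernel)

theorem sub01 : bL 0 - bL 1 = e8 (gE.pt 1) := Subtype.ext (funext fun i => by
  rw [AddSubgroup.coe_sub, Pi.sub_apply, bL0_apply, bL1_apply]; revert i; decide +kernel)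

theorem sg_mem_S {c : Code} (h0 : gE.pt 0 ∉ (c : Finset GolayPt)) (h1 : gE.pt 1 ∉ (c : Finset GolayPt)) :
    sg c ∈ St (bL 0) := Subtype.ext (funext fun i => by
  rw [sg_apply, bL0_apply]
  split_ifs with h2 h3
  · rcases h3 with rfl | rfl <;> contradiction
  all_goals rfl)

theorem mh_mem_S {σ : M24} (h : (σ : Equiv.Perm GolayPt) ∈ cfg [1, 0] []) : mh σ ∈ St (bL 0) :=
  Subtype.ext (funext fun i => by
    rw [mh_apply, bL0_apply, bL0_apply]
    simp only [Equiv.symm_apply_eq, h.2.1 0 (by simp), h.2.1 1 (by simp)])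

theorem fix_e8 {σ : M24} {c : Code} {i : GolayPt} (h : mono σ c • e8 i = e8 i) :
    (σ : Equiv.Perm GolayPt) i = i ∧ i ∉ (c : Finset GolayPt) := by
  have h1 := congrFun (congrArg Subtype.val h) i
  rw [mono_smul, e8, signedPerm_single] at h1
  simp only [Pi.single_eq_same] at h1
  rw [Pi.single_apply] at h1
  by_cases h2 : i = (σ : Equiv.Perm GolayPt) i
  · rw [if_pos h2, ← h2] at h1
    exact ⟨h2.symm, fun h3 => by rw [if_pos h3] at h1; omega⟩
  · rw [if_neg h2] at h1; omega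

theorem S01_le : St (bL 0) ⊓ St (bL 1) ≤ K1 := fun g hg => ⟨hg.1, isN_of_one (x := e8 (gE.pt 0))
  ⟨_, 8, Or.inl rfl, rfl⟩ (by
    rw [← add01, smul_add', hg.1, hg.2, add01]; exact ⟨_, 8, Or.inl rfl, rfl⟩)⟩

theorem K1_smul {k : Co0} (hk : k ∈ K1) : k • bL 1 = bL 1 ∨ k • bL 1 = -bL 1 := by
  obtain ⟨i, s, hs, e⟩ := hk.2 (e8 (gE.pt 0)) ⟨_, 8, Or.inl rfl, rfl⟩
  have h0 : k • bL 0 = bL 0 := hk.1
  have h1 := dot_smul_fix h0 (e8 (gE.pt 0))
  rw [e, dot_comm, dot_single, dot_comm, e8, dot_single, bL0_apply, bL0_apply,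
    if_pos (Or.inl rfl)] at h1
  rw [← add01, smul_add', h0] at e
  have h2 : s = 8 ∧ (i = gE.pt 0 ∨ i = gE.pt 1) := by
    split_ifs at h1 with h3
    · exact ⟨by omega, h3⟩
    · omega
  obtain ⟨rfl, rfl | rfl⟩ := h2
  · left; exact add_left_cancel ((Subtype.ext e).trans add01.symm)
  · right; exact add_left_cancel ((Subtype.ext e).trans (sub01.symm.trans (sub_eq_add_neg _ _)))

end Cfsg.Agent.Mo.CoG
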