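import Cfsg.Agent.Mo.CoA

/-! The stabiliser of a minimal vector is simple. -/

set_option autoImplicit false
set_option maxRecDepth 100000

namespace Cfsg.Agent.Mo.CoG

open H4 H5 H5.Lee H9.PR MulAction Finset
open scoped Pointwise

theorem K1_le : K1 ≤ St (bL 0) := inf_le_left

theorem max_K1 (M : Subgroup Co0) (h1 : K1 ≤ M) (h2 : M ≤ St (bL 0)) : M = K1 ∨ M = St (bL 0) := by
  classical
  let Q : Λ → Prop := fun y => ∃ g ∈ M, g • bL 1 = y
  have a1 := orb1.ncard Q (fun k => Q (bL k)) fun g hg k _ =>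
    ⟨fun ⟨m, hm, e⟩ => ⟨g⁻¹ * m, M.mul_mem (M.inv_mem (h1 hg)) hm, by rw [mul_smul, e, inv_smul_smul]⟩,
      fun ⟨m, hm, e⟩ => ⟨g * m, M.mul_mem (h1 hg) hm, by rw [mul_smul, e]⟩⟩
  have a2 := card_eq_of_orbit_eq M (bL 1) {y | y ∈ L2 ∧ Q y}
    (fun g hg => ⟨smul_mem_L2 g (bL_mem (by norm_num)), g, hg, rfl⟩) fun y hy => hy.2
  have a3 : M ⊓ stabilizer Co0 (bL 1) = St (bL 0) ⊓ St (bL 1) :=
    le_antisymm (inf_le_inf_right _ h2) (le_inf (S01_le.trans h1) inf_le_right)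
  have h3 : ∀ k < 19, k ∉ [1, 7, 12, 14, 18] → ¬ Q (bL k) := fun k hk hk' ⟨g, hg, e⟩ =>
    hk' (k0_chk k hk (by
      have := dot_smul_fix (h2 hg) (bL 1)
      rw [e, dot01, dot_bL (by norm_num) hk] at this; omega))
  have h4 : Q (bL 1) := ⟨1, M.one_mem, one_smul _ _⟩
  have c : d20 TOT1 1 = 2 ∧ d20 TOT1 7 = 45056 ∧ d20 TOT1 12 = 4928 ∧ d20 TOT1 14 = 42240 ∧
    d20 TOT1 18 = 924 := by decide +kernel
  rw [a3, card_S01, a1, ← sum_subset (s₁ := {1, 7, 12, 14, 18}) (by decide) fun k hk hk' =>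
    if_neg (h3 k (mem_range.1 hk) (by simpa using hk')), sum_insert (by decide), sum_insert (by decide),
    sum_insert (by decide), sum_insert (by decide), sum_singleton, if_pos h4, c.1, c.2.1, c.2.2.1,
    c.2.2.2.1, c.2.2.2.2] at a2
  have a4 := Subgroup.card_dvd_of_le h2
  rw [card_S, a2] at a4
  have a5 : Nat.card M = 908328960 ∨ Nat.card M = 42305421312000 := by
    rw [a2]
    split_ifs at a4 ⊢ <;> first | exact Or.inl rfl | exact Or.inr rfl | exact absurd a4 (by norm_num)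
  rcases a5 with a5 | a5
  · exact Or.inl (Subgroup.eq_of_le_of_card_ge h1 (by rw [a5, card_K1])).symm
  · exact Or.inr (Subgroup.eq_of_le_of_card_ge h2 (by rw [a5, card_S]))

theorem sign_dot {n : Co0} {o y : Λ} {ε : ℤ} (ho : n • o = ε • o) (hy : n • y = y ∨ n • y = -y)
    (he : ε = 1 ∨ ε = -1) (hd : dotInt (o : V) (y : V) ≠ 0) (x : Λ) :
    dotInt (y : V) ((n • x - ε • x : Λ) : V) = 0 := by
  have h1 := dot_smul n o y
  have h2 := dot_smul n y x
  rw [ho, AddSubgroup.coe_zsmul, dot_smul_left] at h1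
  rw [AddSubgroup.coe_sub, AddSubgroup.coe_zsmul, dot_sub_right, dot_smul_right]
  rcases hy with e | e <;> rw [e] at h1 h2
  · rcases he with rfl | rfl <;> omega
  · rw [AddSubgroup.coe_neg, dot_neg_right] at h1
    rw [AddSubgroup.coe_neg, dot_neg_left] at h2
    rcases he with rfl | rfl <;> omega

/-- the vector with two entries `±4` -/
def f4 (i j : GolayPt) (t : ℤ) (ht : t = 4 ∨ t = -4) : Λ := ⟨_, four_mem i j (Or.inl rfl) ht⟩

theorem f4_mem {i j : GolayPt} (h : i ≠ j) (t : ℤ) (ht : t = 4 ∨ t = -4) : f4 i j t ht ∈ L2 := by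
  change sqNorm (_ + _) = _
  rw [norm_add, norm_single, norm_single, dot_single, Pi.single_eq_of_ne h]
  rcases ht with rfl | rfl <;> rfl

theorem dot_f4 (i j : GolayPt) (t : ℤ) (ht : t = 4 ∨ t = -4) (x : V) :
    dotInt (f4 i j t ht : V) x = 4 * x i + t * x j := by
  rw [f4, dot_add_left, dot_single, dot_single]

theorem bL7_chk : vec (bc1 7) (gE.pt 2) = -3 ∧ (∀ i, i ≠ gE.pt 2 → vec (bc1 7) i = 1 ∨ vec (bc1 7) i = -1) ∧
    dt (bc1 0) (bc1 7) = 2048 ∧ dt (bc1 7) (bc1 1) = 2040 ∧ dt (bc1 0) (bc1 2) = 2040 := by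
  decide +kernel

theorem dot_bL0 (x : V) : dotInt (bL 0 : V) x = 4 * x (gE.pt 0) + 4 * x (gE.pt 1) := by
  rw [bL_val (by norm_num), bL01.1, dot_add_left, dot_single, dot_single]

theorem dot_bL1 (x : V) : dotInt (bL 1 : V) x = 4 * x (gE.pt 0) + -4 * x (gE.pt 1) := by
  rw [bL_val (by norm_num), bL01.2, dot_add_left, dot_single, dot_single]

theorem eq_one_of_pm {n : Co0} (h0 : n • bL 0 = bL 0)
    (h : ∀ y ∈ L2, dotInt (bL 0 : V) (y : V) = 0 → n • y = y ∨ n • y = -y) : n = 1 := by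
  obtain ⟨c1, c2, c3, c4, c5⟩ := bL7_chk
  obtain ⟨ε, he, ho⟩ : ∃ ε : ℤ, (ε = 1 ∨ ε = -1) ∧ n • bL 7 = ε • bL 7 := by
    rcases h (bL 7) (bL_mem (by norm_num)) (by rw [dot_bL (by norm_num) (by norm_num), c3]; rfl)
      with e | e
    · exact ⟨1, Or.inl rfl, by rw [e, one_smul]⟩
    · exact ⟨-1, Or.inr rfl, by rw [e, neg_smul, one_smul]⟩
  have key : ∀ x : Λ, (∀ i, i ≠ gE.pt 0 → i ≠ gE.pt 1 → ((n • x - ε • x : Λ) : V) i = 0) ∧
      ((n • x - ε • x : Λ) : V) (gE.pt 0) = ((n • x - ε • x : Λ) : V) (gE.pt 1) ∧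
      8 * ((n • x - ε • x : Λ) : V) (gE.pt 0) = (1 - ε) * dotInt (bL 0 : V) (x : V) := fun x => by
    have a1 : ∀ i, i ≠ gE.pt 0 → i ≠ gE.pt 1 → i ≠ gE.pt 2 → ∀ t : ℤ, (t = 4 ∨ t = -4) →
        4 * ((n • x - ε • x : Λ) : V) (gE.pt 2) + t * ((n • x - ε • x : Λ) : V) i = 0 :=
      fun i i0 i1 i2 t ht => by
        rw [← dot_f4 _ _ t ht]
        refine sign_dot ho (h _ (f4_mem i2.symm t ht) ?_) he ?_ x
        · rw [dot_comm, dot_f4, bL0_apply, bL0_apply, if_neg (by decide), if_neg (by simp [i0, i1])]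
          simp
        · rw [dot_comm, dot_f4, bL_val (by norm_num), c1]
          rcases c2 i i2 with e | e <;> rw [e] <;> omega
    have a2 := sign_dot ho (h _ (bL_mem (k := 1) (by norm_num)) dot01) he
      (by rw [dot_bL (by norm_num) (by norm_num), c4]; decide) x
    have a3 : dotInt (bL 0 : V) ((n • x - ε • x : Λ) : V) = (1 - ε) * dotInt (bL 0 : V) (x : V) := by
      rw [AddSubgroup.coe_sub, AddSubgroup.coe_zsmul, dot_sub_right, dot_smul_right, dot_smul_fix h0]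
      ring
    rw [dot_bL1] at a2
    rw [dot_bL0] at a3
    have a4 := a1 (gE.pt 3) (by decide) (by decide) (by decide)
    have a5 := a4 4 (Or.inl rfl)
    have a6 := a4 (-4) (Or.inr rfl)
    refine ⟨fun i i0 i1 => ?_, by omega, by omega⟩
    by_cases i2 : i = gE.pt 2
    · rw [i2]; omega
    · have := a1 i i0 i1 i2 4 (Or.inl rfl); omega
  rcases he with rfl | rfl
  · refine co_ext fun x i => ?_
    obtain ⟨a1, a2, a3⟩ := key x
    rw [one_smul] at a1 a2 a3 ⊢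
    have : ((n • x - x : Λ) : V) i = 0 := by
      by_cases i0 : i = gE.pt 0
      · rw [i0]; omega
      · by_cases i1 : i = gE.pt 1
        · rw [i1]; omega
        · exact a1 i i0 i1
    exact sub_eq_zero.1 this
  · exfalso
    obtain ⟨a1, a2, a3⟩ := key (bL 2)
    rw [dot_bL (by norm_num) (by norm_num), c5] at a3
    generalize n • bL 2 - (-1 : ℤ) • bL 2 = z at a1 a2 a3
    have a4 : (z : V) = Pi.single (gE.pt 0) (-2) + Pi.single (gE.pt 1) (-2) := funext fun i => by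
      by_cases i0 : i = gE.pt 0
      · rw [i0, Pi.add_apply, Pi.single_eq_same, Pi.single_eq_of_ne pt01]; omega
      · by_cases i1 : i = gE.pt 1
        · rw [i1, Pi.add_apply, Pi.single_eq_same, Pi.single_eq_of_ne pt01.symm]; omega
        · rw [a1 i i0 i1, Pi.add_apply, Pi.single_eq_of_ne i0, Pi.single_eq_of_ne i1]; rfl
    have a5 := norm_ge z.2 fun e => by rw [e] at a3; simp at a3
    rw [a4, norm_add, norm_single, norm_single, dot_single, Pi.single_eq_of_ne pt01] at a5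
    omega

theorem core_K1 (N : Subgroup Co0) (hN : Nm (St (bL 0)) N) (h : N ≤ K1) : N ≤ ⊥ := by
  intro n hn
  refine eq_one_of_pm (h hn).1 fun y hy hd => ?_
  obtain ⟨g, hg, rfl⟩ := trans_0 (bL_mem (k := 0) (by norm_num)) hy hd
  have h1 := K1_smul (h (hN g⁻¹ ((St (bL 0)).inv_mem hg) n hn))
  rw [inv_inv, mul_smul, mul_smul, inv_smul_eq_iff, inv_smul_eq_iff, smul_neg'] at h1
  exact h1

theorem od_mem : od ∈ L2 := by change _ = _; decide +kernel

theorem exists_mt {N : Subgroup Co0} (h : ∀ x ∈ St (bL 0), x ^ 23 = 1 → x ∈ N) :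
    (∃ μ ∈ N ⊓ St (bL 0), μ ≠ 1 ∧ μ ^ 11 = 1) ∧ ∃ t ∈ N ⊓ St (bL 0), t • bL 1 = -bL 1 := by
  obtain ⟨a, b, d, h1, h2, h3, h4, h5⟩ := exists23
  obtain ⟨g, g0, g1⟩ := trans_0 od_mem (f4_mem (i := gE.pt 7) (j := gE.pt 12) (by decide) (-4)
    (Or.inr rfl)) (by rw [dot_comm, dot_f4]; decide)
  let φ : M24 →* Co0 := (MulAut.conj g⁻¹).toMonoidHom.comp mh
  have e : ∀ x, φ x = g⁻¹ * mh x * g := fun x => by simp [φ]
  have key : ∀ x ∈ [a, b, d], φ x ∈ N ⊓ St (bL 0) := fun x hx => by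
    have h6 : φ x ∈ St (bL 0) := by
      rw [mem_stabilizer_iff, e, mul_smul, mul_smul, g0, inv_smul_eq_iff, g0]
      refine Subtype.ext (funext fun i => ?_)
      rw [mh_apply]
      simp only [od, odd0, Equiv.symm_apply_eq, (h1 x hx).1]
    exact ⟨h _ h6 (by rw [← map_pow, (h1 x hx).2, map_one]), h6⟩
  refine ⟨⟨φ (a * b), ?_, fun h6 => h3 (mh_inj ?_), by rw [← map_pow, h2, map_one]⟩, φ (a * d), ?_, ?_⟩
  · rw [map_mul]; exact Subgroup.mul_mem _ (key a (by simp)) (key b (by simp))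
  · exact (MulAut.conj g⁻¹).injective (h6.trans (map_one _).symm)
  · rw [map_mul]; exact Subgroup.mul_mem _ (key a (by simp)) (key d (by simp))
  · rw [e, mul_smul, mul_smul, inv_smul_eq_iff, smul_neg', g1]
    refine Subtype.ext (funext fun i => ?_)
    rw [mh_apply]
    simp only [f4, AddSubgroup.coe_neg, Pi.neg_apply, Pi.add_apply, Pi.single_apply,
      Equiv.symm_apply_eq, h4, h5]
    split_ifs <;> rfl

theorem mem_of_11 {N : Subgroup Co0} (hN : Nm (St (bL 0)) N) {μ : Co0} (h1 : μ ∈ N ⊓ St (bL 0))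
    (h2 : μ ≠ 1) (h3 : μ ^ 11 = 1) {x : Co0} (hx : x ∈ St (bL 0)) (e : x ^ 11 = 1) : x ∈ N := by
  have : (N.subgroupOf (St (bL 0))).Normal := ⟨fun x hx g => hN g g.2 x hx⟩
  have h4 := prime_dvd_card (K := N.subgroupOf (St (bL 0))) (g := ⟨μ, h1.2⟩) h1.1
    (fun h => h2 (congrArg Subtype.val h)) (p := 11) (by norm_num) (Subtype.ext h3)
  have h5 := (N.subgroupOf (St (bL 0))).card_mul_index
  rw [card_S] at h5
  refine mem_of_coprime_index (N.subgroupOf (St (bL 0))) (x := ⟨x, hx⟩) (n := 11) (Subtype.ext e)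
    ((Nat.Prime.coprime_iff_not_dvd (by norm_num)).2 fun h6 => ?_)
  exact absurd (h5 ▸ Nat.mul_dvd_mul h4 h6) (by norm_num)

theorem sg_mem {N : Subgroup Co0} (hN : Nm (St (bL 0)) N)
    (h : ∀ x ∈ St (bL 0), x ^ 11 = 1 → x ∈ N) {c : Code} (h0 : gE.pt 0 ∉ (c : Finset GolayPt))
    (h1 : gE.pt 1 ∉ (c : Finset GolayPt)) : sg c ∈ N := by
  obtain ⟨l, l1, l2, l3⟩ := exists11
  have hl : mh l ∈ N := h _ (mh_mem_S l1) (by rw [← map_pow, l2, map_one])
  have fx : ∀ k ∈ [1, 0], ∀ s : Finset GolayPt,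
      gE.pt k ∈ (l : Equiv.Perm GolayPt) • s ↔ gE.pt k ∈ s := fun k hk s => by
    conv_lhs => rw [← l1.2.1 k hk, apply_mem_smul_iff]
  let T := {d : Code // gE.pt 0 ∉ (d : Finset GolayPt) ∧ gE.pt 1 ∉ (d : Finset GolayPt)}
  let f : T → T := fun d => ⟨⟨_, symmDiff_mem_code d.1.2 (smul_mem_code l.2 d.1.2)⟩, by
    simp only [mem_symmDiff, fx 0 (by simp), fx 1 (by simp)]; tauto⟩
  have hf : Function.Injective f := fun d d' e => by
    have e1 : ∀ i, i ∈ symmDiff (d.1 : Finset GolayPt) ((l : Equiv.Perm GolayPt) • (d.1 : Finset GolayPt)) ↔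
        i ∈ symmDiff (d'.1 : Finset GolayPt) ((l : Equiv.Perm GolayPt) • (d'.1 : Finset GolayPt)) :=
      Finset.ext_iff.1 (congrArg (fun x : T => (x.1 : Finset GolayPt)) e)
    have : Fact (Nat.Prime 11) := ⟨by norm_num⟩
    have e2 := dvd_ncard_of_free (l : Equiv.Perm GolayPt) 11 (congrArg Subtype.val l2)
      (finite_toSet (symmDiff (d.1 : Finset GolayPt) d'.1)) (fun x hx => by
        have := e1 ((l : Equiv.Perm GolayPt) x)
        rw [mem_coe, mem_symmDiff] at hx ⊢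
        rw [mem_symmDiff, mem_symmDiff, apply_mem_smul_iff, apply_mem_smul_iff] at this
        rw [Equiv.Perm.smul_def]
        tauto) fun x hx e => by
        have h2 := d.2
        have h3 := d'.2
        rw [mem_coe, mem_symmDiff] at hx
        rcases l3 x e with rfl | rfl <;> tauto
    have e3 := card_of_mem_code (symmDiff_mem_code d.1.2 d'.1.2)
    rw [Set.ncard_coe_finset] at e2
    exact Subtype.ext (Subtype.ext (symmDiff_eq_bot.1 (card_eq_zero.1 (by omega))))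
  obtain ⟨d, e⟩ := Finite.surjective_of_injective hf ⟨c, h0, h1⟩
  rw [← show (f d).1 = c from congrArg Subtype.val e, ← sg_comm]
  exact N.mul_mem (hN _ (sg_mem_S d.2.1 d.2.2) _ hl) (N.inv_mem hl)

theorem S01_le_of {N : Subgroup Co0} (hN : Nm (St (bL 0)) N)
    (h : ∀ x ∈ St (bL 0), x ^ 11 = 1 → x ∈ N) : St (bL 0) ⊓ St (bL 1) ≤ N := by
  intro k hk
  obtain ⟨σ, c, rfl⟩ := IsN.exists_mono (S01_le hk).2
  have h0 := fix_e8 (σ := σ) (c := c) (i := gE.pt 0) (by rw [← add01, smul_add', hk.1, hk.2])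
  have h1 := fix_e8 (σ := σ) (c := c) (i := gE.pt 1) (by rw [← sub01, smul_sub', hk.1, hk.2])
  rw [mono_eq]
  refine N.mul_mem (sg_mem hN h h0.2 h1.2) (gen11 (D := N.comap mh) (fun x hx e =>
    h _ (mh_mem_S hx) (by rw [← map_pow, e, map_one])) ⟨σ.2, ?_, by simp⟩)
  simp only [List.forall_mem_cons]
  exact ⟨h1.1, h0.1, by simp⟩

theorem gen_S (N : Subgroup Co0) (hN : Nm (St (bL 0)) N)
    (h : ∀ x ∈ St (bL 0), x ^ 23 = 1 → x ∈ N) : St (bL 0) ≤ N := by
  obtain ⟨⟨μ, h1, h2, h3⟩, t, t1, t2⟩ := exists_mt h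
  have h4 := S01_le_of hN fun x hx e => mem_of_11 hN h1 h2 h3 hx e
  have h5 : K1 ≤ N := fun k hk => by
    rcases K1_smul hk with e | e
    · exact h4 ⟨hk.1, e⟩
    · refine (N.mul_mem_cancel_left t1.1).1 (h4 ⟨(St (bL 0)).mul_mem t1.2 hk.1, ?_⟩)
      change (t * k) • bL 1 = bL 1
      rw [mul_smul, e, smul_neg', t2, neg_neg]
  rcases max_K1 (N ⊓ St (bL 0)) (le_inf h5 K1_le) inf_le_right with h6 | h6
  · exact absurd (core_K1 (N ⊓ St (bL 0)) (fun g hg x hx => ⟨hN g hg x hx.1, (St (bL 0)).mul_mem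
      ((St (bL 0)).mul_mem hg hx.2) ((St (bL 0)).inv_mem hg)⟩) h6.le h1) h2
  · exact h6.ge.trans inf_le_left

theorem simple_S : IsSimpleGroup (St (bL 0)) :=
  simple_rel (by rw [card_S]; norm_num) (dich_rel K1_le 23 (by rw [card_K1]; norm_num) max_K1
    core_K1 gen_S)

end Cfsg.Agent.Mo.CoG
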