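import Cfsg.Agent.Mo.Crd0
import Cfsg.Agent.Mo.Alg

/-! The table of short classes and coordinates on the algebra. -/

set_option autoImplicit false

namespace Cfsg.Agent.Mo

open H4 H5 H5.Lee Matrix Finset

open Classical in
/-- the short vector at position `q` -/
noncomputable def rq (q : ℕ) : Λ :=
  if h : (fun p => xc q (gE.ix p)) ∈ Λ then ⟨_, h⟩ else 0

theorem VM_lt {q : ℕ} (h : VM.testBit q = true) : q < 98304 := by
  by_contra hn
  have := congrArg (·.testBit (q - 98304)) (Nat.eq_of_beq_eq_true Cr.chk_m)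
  simp only [tb_shr, Nat.zero_testBit, Nat.sub_add_cancel (not_lt.1 hn)] at this
  exact Bool.false_ne_true (this.symm.trans h)

theorem Cr.dot_vec (X q : ℕ) : dotInt (Lee.vec X) (fun p => xc q (gE.ix p)) =
    ∑ i ∈ range 24, ((dg X i : ℤ) - 8) * xc q i := by
  rw [dotInt, sum_pt]
  exact sum_congr rfl fun i hi => by rw [Lee.vec, gE.ix_pt i (mem_range.1 hi)]

theorem Cr.mem {q : ℕ} (h : VM.testBit q = true) : (fun p => xc q (gE.ix p)) ∈ Λ :=
  mem_of_dots fun k hk => by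
    have h1 := Cr.low0_spec (allLt_iff.1 Cr.chk_b k hk) h
    have h2 := Cr.lin_v (bs k) q 24 le_rfl
    rw [bb_val hk, Cr.dot_vec]
    omega

theorem Cr.rq_val0 {q : ℕ} (h : VM.testBit q = true) : (rq q : V) = fun p => xc q (gE.ix p) := by
  rw [rq, dif_pos (Cr.mem h)]
theorem rq_val {q : ℕ} (h : VM.testBit q = true) (p : ι) : (rq q : V) p = xc q (gE.ix p) :=
  congrFun (Cr.rq_val0 h) p
theorem rq_mem {q : ℕ} (h : VM.testBit q = true) : rq q ∈ L2 := by
  change sqNorm _ = 32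
  have h1 := congrArg (vz · q) (eqL_spec Cr.chk_n)
  simp only [vz_trimP, vz_cons2, vz_one, Nat.zero_testBit, h, bzi_true, bzi_false] at h1
  rw [vz_map _ _ q q (fun x => by rw [tb_and, h, Bool.true_and]), Cr.nrm2_v q 24 le_rfl] at h1
  rw [Cr.rq_val0 h, sqNorm, sum_pt, sum_congr rfl fun i hi => by rw [gE.ix_pt i (mem_range.1 hi)], h1]
  rfl

theorem Cr.vn_bits (xs : List ℕ) (p : ℕ) :
    vn xs p < 2 ^ xs.length ∧ ∀ k, (vn xs p).testBit k = (xs.getD k 0).testBit p := by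
  induction xs with
  | nil => simp
  | cons x t ih =>
    have hb : (x.testBit p).toNat ≤ 1 := Bool.toNat_le _
    refine ⟨by rw [vn_cons, List.length_cons, pow_succ]; omega, fun k => ?_⟩
    cases k with
    | zero =>
      rw [vn_cons, Nat.testBit_zero, List.getD_cons_zero]
      cases x.testBit p <;> simp
    | succ k =>
      rw [vn_cons, Nat.testBit_succ, List.getD_cons_succ, ← ih.2]
      congr 1; omega

theorem cl_rq {q : ℕ} (h : VM.testBit q = true) : cl (rq q) = cp q := by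
  have hb := Cr.vn_bits CPL q
  rw [Cr.len_CPL] at hb
  refine eq_of_bits (cl_lt _) hb.1 fun k hk => ?_
  have h1 := Cr.low_spec (allLt_iff.1 Cr.chk_u k hk) h
  have h2 := Cr.lin_v (us k) q 24 le_rfl
  rw [testBit_cl _ hk, cp, hb.2, pb, uu, lv_val (us_chk k hk).1, Cr.rq_val0 h, Cr.dot_vec]
  revert h1
  cases (CPL.getD k 0).testBit q <;> simp <;> omega

theorem Cr.src_valid {p : ℕ} : VM.testBit (src SORT p) = true ↔ p < 98280 := by
  rw [← tb_runB Cr.chk_w, Nat.eq_of_beq_eq_true Cr.chk_v, tb_ones, decide_eq_true_eq]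
theorem Cr.cp_lt {p : ℕ} (hp : p + 1 < 98280) : cp (src SORT p) < cp (src SORT (p + 1)) := by
  have h1 := congrArg (·.testBit p) (Nat.eq_of_beq_eq_true Cr.chk_s)
  simp only [tb_and, tb_ones, decide_eq_true (show p < 98279 by omega), Bool.and_true] at h1
  have h2 := Cr.ltA_spec _ _ _ h1
  rw [vn_map _ _ p _ fun x _ => tb_runB Cr.chk_w x p,
    vn_map _ _ (p + 1) _ fun x _ => tb_runB Cr.chk_w x (p + 1)] at h2
  simpa [cp] using h2
theorem Cr.cp_mono {p : ℕ} : ∀ {p' : ℕ}, p < p' → p' < 98280 → cp (src SORT p) < cp (src SORT p')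
  | 0, h, _ => absurd h (Nat.not_lt_zero _)
  | n + 1, h, h' => by
    rcases Nat.lt_succ_iff_lt_or_eq.1 h with e | e
    · exact (Cr.cp_mono e (by omega)).trans (Cr.cp_lt h')
    · rw [e]; exact Cr.cp_lt h'
theorem Cr.cp_src_inj {p p' : ℕ} (h : p < 98280) (h' : p' < 98280)
    (e : cp (src SORT p) = cp (src SORT p')) : p = p' := by
  rcases lt_trichotomy p p' with a | a | a
  exacts [absurd e (Cr.cp_mono a h').ne, a, absurd e (Cr.cp_mono a h).ne']
theorem cp_inj {q q' : ℕ} (h : VM.testBit q = true) (h' : VM.testBit q' = true) (e : cp q = cp q') :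
    q = q' := by
  rw [← src_rev Cr.chk_w q] at h e ⊢
  rw [← src_rev Cr.chk_w q'] at h' e ⊢
  rw [Cr.cp_src_inj (Cr.src_valid.1 h) (Cr.src_valid.1 h') e]
theorem rq_surj {r : Λ} (hr : r ∈ L2) : ∃ q, VM.testBit q = true ∧ cp q = cl r := by
  classical
  obtain ⟨S, hS, hc'⟩ : ∃ S : Finset ℕ, (∀ p, p ∈ S ↔ p < 98280) ∧ #S = 98280 :=
    ⟨range 98280, fun _ => mem_range, card_range _⟩
  let F : ℕ × Bool → Λ := fun t => if t.2 then -rq (src SORT t.1) else rq (src SORT t.1)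
  have hF : ∀ t : ℕ × Bool, t.1 < 98280 → F t ∈ L2 ∧ cl (F t) = cp (src SORT t.1) := fun t ht => by
    have h1 := Cr.src_valid.2 ht
    simp only [F]
    split_ifs
    · exact ⟨(norm_neg _).trans (rq_mem h1), (cl_neg _).trans (cl_rq h1)⟩
    · exact ⟨rq_mem h1, cl_rq h1⟩
  have hi : Set.InjOn F (S ×ˢ (univ : Finset Bool) : Finset (ℕ × Bool)) := by
    rintro ⟨p, e⟩ h1 ⟨p', e'⟩ h2 h
    have h1 := (hS _).1 (mem_product.1 (mem_coe.1 h1)).1
    have h2 := (hS _).1 (mem_product.1 (mem_coe.1 h2)).1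
    obtain rfl : p = p' := Cr.cp_src_inj h1 h2 (by rw [← (hF (p, e) h1).2, h, (hF (p', e') h2).2])
    have h3 : -rq (src SORT p) ≠ rq (src SORT p) := fun h4 => by
      have h5 : sqNorm (rq (src SORT p) : V) = 32 := rq_mem (Cr.src_valid.2 h1)
      have h6 := congrArg (fun y : Λ => dotInt (y : V) (rq (src SORT p) : V)) h4
      simp only [AddSubgroup.coe_neg, dot_neg_left, dot_self, h5] at h6
      omega
    cases e <;> cases e'
    · rfl
    · exact absurd h.symm h3
    · exact absurd h h3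
    · rfl
  have hc : #L2F = 196560 := by
    rw [← ncard_L2, L2F, ← Set.ncard_eq_toFinset_card _ (finite_normL 32)]; rfl
  have he : (S ×ˢ (univ : Finset Bool)).image F = L2F := by
    refine eq_of_subset_of_card_le (fun y hy => ?_) ?_
    · obtain ⟨t, ht, rfl⟩ := mem_image.1 hy
      exact mem_L2F.2 (hF t ((hS _).1 (mem_product.1 ht).1)).1
    · rw [card_image_of_injOn hi, hc, card_product, hc', card_univ, Fintype.card_bool]
  obtain ⟨t, ht, rfl⟩ := mem_image.1 (he ▸ mem_L2F.2 hr)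
  have h1 := (hS _).1 (mem_product.1 ht).1
  exact ⟨_, Cr.src_valid.2 h1, (hF t h1).2.symm⟩

/-- coordinates: 576 matrix entries, 98304 positions of short classes, `24 * 4096` matrix entries -/
noncomputable def crd (v : Amb) (p : ℕ) : ℝ :=
  if p < 576 then v.1 (gE.pt (p / 24)) (gE.pt (p % 24))
  else if p < 98880 then (if VM.testBit (p - 576) then mc v.2.1 (rq (p - 576)) else 0)
  else if p < 197184 then
    v.2.2 (gE.pt ((p - 98880) / 4096)) ⟨(p - 98880) % 4096, Nat.mod_lt _ (by norm_num)⟩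
  else 0

theorem crd_A (v : Amb) {i j : ℕ} (hi : i < 24) (hj : j < 24) :
    crd v (i * 24 + j) = v.1 (gE.pt i) (gE.pt j) := by
  rw [crd, if_pos (by omega), show (i * 24 + j) / 24 = i by omega, show (i * 24 + j) % 24 = j by omega]
theorem crd_M (v : Amb) {q : ℕ} (hq : q < 98304) :
    crd v (576 + q) = if VM.testBit q then mc v.2.1 (rq q) else 0 := by
  rw [crd, if_neg (by omega), if_pos (by omega), Nat.add_sub_cancel_left]
theorem crd_W (v : Amb) {i : ℕ} (hi : i < 24) (j : κ) :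
    crd v (576 + (98304 + (i * 4096 + j))) = v.2.2 (gE.pt i) j := by
  have hj := j.2
  rw [crd, if_neg (by omega), if_neg (by omega), if_pos (by omega)]
  refine congrArg₂ v.2.2 (congrArg gE.pt (by omega)) (Fin.ext ?_)
  change (576 + (98304 + (i * 4096 + j)) - 98880) % 4096 = j
  omega
theorem Cr.crd_out (v : Amb) {p : ℕ} (hp : 197184 ≤ p) : crd v p = 0 := by
  rw [crd, if_neg (by omega), if_neg (by omega), if_neg (by omega)]
theorem Cr.mc_add (M N : Matrix κ κ ℝ) (r : Λ) : mc (M + N) r = mc M r + mc N r := by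
  rw [mc, Matrix.mul_add, trace_add, add_div, mc, mc]
theorem Cr.mc_smul (c : ℝ) (M : Matrix κ κ ℝ) (r : Λ) : mc (c • M) r = c * mc M r := by
  rw [mc, Matrix.mul_smul, trace_smul, smul_eq_mul, mul_div_assoc, mc]
theorem Cr.mc_zero (r : Λ) : mc 0 r = 0 := by rw [mc, Matrix.mul_zero, trace_zero, zero_div]
theorem Cr.mc_sum (S : Finset ℕ) (c : ℕ → ℝ) (M : ℕ → Matrix κ κ ℝ) (r : Λ) :
    mc (∑ q ∈ S, c q • M q) r = ∑ q ∈ S, c q * mc (M q) r := by
  induction S using Finset.cons_induction with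
  | empty => exact Cr.mc_zero r
  | cons a S h ih => rw [sum_cons, sum_cons, Cr.mc_add, Cr.mc_smul, ih]
theorem crd_add (u v : Amb) (p : ℕ) : crd (u + v) p = crd u p + crd v p := by
  unfold crd
  split_ifs
  exacts [rfl, Cr.mc_add _ _ _, (add_zero _).symm, rfl, (add_zero _).symm]
theorem crd_smul (c : ℝ) (v : Amb) (p : ℕ) : crd (c • v) p = c * crd v p := by
  unfold crd
  split_ifs
  exacts [rfl, Cr.mc_smul _ _ _, (mul_zero _).symm, rfl, (mul_zero _).symm]

theorem Cr.cases {Q : ℕ → Prop} (h1 : ∀ i < 24, ∀ j < 24, Q (i * 24 + j))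
    (h2 : ∀ q < 98304, Q (576 + q)) (h3 : ∀ i < 24, ∀ j : κ, Q (576 + (98304 + (i * 4096 + j))))
    (h4 : ∀ p, 197184 ≤ p → Q p) (p : ℕ) : Q p := by
  by_cases a : p < 576
  · have := h1 (p / 24) (by omega) (p % 24) (by omega)
    rwa [show p / 24 * 24 + p % 24 = p by omega] at this
  by_cases b : p < 98880
  · have := h2 (p - 576) (by omega)
    rwa [show 576 + (p - 576) = p by omega] at this
  by_cases c : p < 197184
  · have := h3 ((p - 98880) / 4096) (by omega) ⟨(p - 98880) % 4096, by omega⟩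
    rwa [show 576 + (98304 + ((p - 98880) / 4096 * 4096 +
      ((⟨(p - 98880) % 4096, by omega⟩ : κ) : ℕ))) = p by dsimp only; omega] at this
  exact h4 p (by omega)
theorem Cr.sum_mul (F : ℕ → ℝ) (m n : ℕ) :
    ∑ p ∈ range (m * n), F p = ∑ i ∈ range m, ∑ j ∈ range n, F (i * n + j) := by
  induction m with
  | zero => simp
  | succ m ih => rw [Nat.succ_mul, sum_range_add, ih, sum_range_succ]
theorem Cr.sum_split (F : ℕ → ℝ) : ∑ p ∈ range 197184, F p =
    ∑ i ∈ range 24, ∑ j ∈ range 24, F (i * 24 + j) + (∑ q ∈ range 98304, F (576 + q) +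
      ∑ i ∈ range 24, ∑ j : κ, F (576 + (98304 + (i * 4096 + j)))) := by
  have e : ∀ a b c n m : ℕ, n = a * a + (b + a * c) → m = a * a → ∑ p ∈ range n, F p =
      ∑ i ∈ range a, ∑ j ∈ range a, F (i * a + j) + (∑ q ∈ range b, F (m + q) +
      ∑ i ∈ range a, ∑ j : Fin c, F (m + (b + (i * c + j)))) := by
    rintro a b c n m rfl rfl
    rw [sum_range_add, sum_range_add, Cr.sum_mul, Cr.sum_mul]
    congr 2
    exact sum_congr rfl fun i _ =>
      (Fin.sum_univ_eq_sum_range (fun j => F (a * a + (b + (i * c + j)))) c).symm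
  exact e 24 98304 4096 197184 576 (by norm_num) (by norm_num)

/-- the valid positions -/
abbrev Cr.VP : Finset ℕ := (range 98304).filter (fun q => VM.testBit q)
theorem Cr.mem_VP {q : ℕ} : q ∈ Cr.VP ↔ VM.testBit q = true :=
  ⟨fun h => (mem_filter.1 h).2, fun h => mem_filter.2 ⟨mem_range.2 (VM_lt h), h⟩⟩
theorem Cr.mc_rq {q q' : ℕ} (h : VM.testBit q = true) (h' : VM.testBit q' = true) :
    mc (PL (rq q')) (rq q) = if q = q' then 1 else 0 := by
  rw [mc_PL (rq_mem h), cl_rq h, cl_rq h']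
  exact if_congr ⟨cp_inj h h', fun e => e ▸ rfl⟩ rfl rfl
theorem Cr.expand {M : Matrix κ κ ℝ} (hM : M ∈ US) : ∑ q ∈ Cr.VP, mc M (rq q) • PL (rq q) = M := by
  refine Submodule.span_induction (p := fun M _ => ∑ q ∈ Cr.VP, mc M (rq q) • PL (rq q) = M) ?_
    (sum_eq_zero fun q _ => by rw [Cr.mc_zero, zero_smul])
    (fun x y _ _ a b => by simp only [Cr.mc_add, add_smul, sum_add_distrib, a, b])
    (fun a x _ b => by simp only [Cr.mc_smul, mul_smul, ← smul_sum, b]) hM
  rintro _ ⟨r, hr, rfl⟩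
  obtain ⟨q, hq, e⟩ := rq_surj hr
  rw [← PL_congr ((cl_rq hq).trans e), sum_eq_single q (fun q' h' hne => by
      rw [Cr.mc_rq (Cr.mem_VP.1 h') hq, if_neg hne, zero_smul]) fun h => absurd (Cr.mem_VP.2 hq) h,
    Cr.mc_rq hq hq, if_pos rfl, one_smul]

/-- coordinate functions -/
structure Good (f : ℕ → ℝ) : Prop where
  symm : ∀ i < 24, ∀ j < 24, f (i * 24 + j) = f (j * 24 + i)
  hole : ∀ q < 98304, VM.testBit q = false → f (576 + q) = 0
  out : ∀ p, 197184 ≤ p → f p = 0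
theorem Cr.symm (v : VV) (a b : ι) : (v : Amb).1 a b = (v : Amb).1 b a := congrFun (congrFun v.2.1 b) a
theorem good_crd (v : VV) : Good (crd v) :=
  ⟨fun i hi j hj => by rw [crd_A _ hi hj, crd_A _ hj hi, Cr.symm],
    fun q hq h => by rw [crd_M _ hq, if_neg (by rw [h]; exact Bool.false_ne_true)],
    fun _ hp => Cr.crd_out _ hp⟩

theorem Cr.mem_V0 {A : Matrix ι ι ℝ} {M : Matrix κ κ ℝ} {W : Matrix ι κ ℝ} (hA : Aᵀ = A) (hM : M ∈ US) :
    (A, M, W) ∈ V0 := ⟨hA, hM, trivial⟩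
theorem Cr.sum_mem (f : ℕ → ℝ) {S : Finset ℕ} :
    ∑ q ∈ S.filter (fun q => VM.testBit q), f q • PL (rq q) ∈ US :=
  US.sum_mem fun _ hq => US.smul_mem _ (Submodule.subset_span ⟨_, rq_mem (mem_filter.1 hq).2, rfl⟩)
/-- the ambient vector with given coordinates -/
noncomputable abbrev Cr.tup (S : Finset ℕ) (a b c : ℕ) (f : ℕ → ℝ) : Amb :=
  (fun i j => (f (gE.ix i * 24 + gE.ix j) + f (gE.ix j * 24 + gE.ix i)) / 2,
    ∑ q ∈ S, f (a + q) • PL (rq q), fun i j => f (a + (b + (gE.ix i * c + j))))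
theorem Cr.tup_add (S : Finset ℕ) (a b c : ℕ) (f g : ℕ → ℝ) :
    Cr.tup S a b c (f + g) = Cr.tup S a b c f + Cr.tup S a b c g := by
  refine Prod.ext (Matrix.ext fun i j => ?_) (Prod.ext ?_ rfl)
  · change (f _ + g _ + (f _ + g _)) / 2 = (f _ + f _) / 2 + (g _ + g _) / 2
    ring
  · exact (sum_congr rfl fun q _ => add_smul (f (a + q)) (g (a + q)) (PL (rq q))).trans sum_add_distrib
theorem Cr.tup_smul (S : Finset ℕ) (a b c : ℕ) (t : ℝ) (f : ℕ → ℝ) :
    Cr.tup S a b c (t • f) = t • Cr.tup S a b c f := by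
  refine Prod.ext (Matrix.ext fun i j => ?_) (Prod.ext ?_ rfl)
  · change (t * f _ + t * f _) / 2 = t * ((f _ + f _) / 2)
    ring
  · exact (sum_congr rfl fun _ _ => mul_smul _ _ _).trans smul_sum.symm
theorem Cr.tup_mem (S : Finset ℕ) (a b c : ℕ) (f : ℕ → ℝ) :
    Cr.tup (S.filter fun q => VM.testBit q) a b c f ∈ V0 :=
  Cr.mem_V0 (Matrix.ext fun i j => by change (_ + _) / (2 : ℝ) = _; rw [add_comm]) (Cr.sum_mem fun q => f (a + q))

/-- the vector with given coordinates (matrix part symmetrised) -/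
noncomputable def inc : (ℕ → ℝ) →ₗ[ℝ] VV where
  toFun f := ⟨(fun i j => (f (gE.ix i * 24 + gE.ix j) + f (gE.ix j * 24 + gE.ix i)) / 2,
      ∑ q ∈ (range 98304).filter (fun q => VM.testBit q), f (576 + q) • PL (rq q),
      fun i j => f (576 + (98304 + (gE.ix i * 4096 + j)))), Cr.tup_mem _ 576 98304 4096 f⟩
  map_add' f g := Subtype.ext (Cr.tup_add _ 576 98304 4096 f g)
  map_smul' c f := Subtype.ext (Cr.tup_smul _ 576 98304 4096 c f)
theorem Cr.inc_A (f : ℕ → ℝ) (a b : ι) :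
    (inc f : Amb).1 a b = (f (gE.ix a * 24 + gE.ix b) + f (gE.ix b * 24 + gE.ix a)) / 2 := by
  simp only [inc, LinearMap.coe_mk, AddHom.coe_mk]
theorem Cr.inc_M (f : ℕ → ℝ) : (inc f : Amb).2.1 = ∑ q ∈ Cr.VP, f (576 + q) • PL (rq q) := by
  simp only [inc, LinearMap.coe_mk, AddHom.coe_mk]
theorem Cr.inc_W (f : ℕ → ℝ) (a : ι) (b : κ) :
    (inc f : Amb).2.2 a b = f (576 + (98304 + (gE.ix a * 4096 + b))) := by
  simp only [inc, LinearMap.coe_mk, AddHom.coe_mk]
theorem crd_inc {f : ℕ → ℝ} (h : Good f) : crd (inc f) = f := by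
  refine funext (Cr.cases (fun i hi j hj => ?_) (fun q hq => ?_) (fun i hi j => ?_) fun p hp => ?_)
  · rw [crd_A _ hi hj, Cr.inc_A, gE.ix_pt i hi, gE.ix_pt j hj, h.symm j hj i hi, add_self_div_two]
  · rw [crd_M _ hq]
    split_ifs with a
    · rw [Cr.inc_M, Cr.mc_sum, sum_eq_single q (fun q' h' hne => by
        rw [Cr.mc_rq a (Cr.mem_VP.1 h'), if_neg hne.symm, mul_zero]) fun h => absurd (Cr.mem_VP.2 a) h,
        Cr.mc_rq a a, if_pos rfl, mul_one]
    · exact (h.hole q hq (Bool.eq_false_iff.2 a)).symm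
  · rw [crd_W _ hi, Cr.inc_W, gE.ix_pt i hi]
  · rw [Cr.crd_out _ hp, h.out p hp]
theorem inc_crd (v : VV) : inc (crd v) = v := by
  refine Subtype.ext (Prod.ext (Matrix.ext fun a b => ?_) (Prod.ext ?_ (Matrix.ext fun a b => ?_)))
  · rw [Cr.inc_A, crd_A _ (gE.ix_lt a) (gE.ix_lt b), crd_A _ (gE.ix_lt b) (gE.ix_lt a), gE.pt_ix, gE.pt_ix,
      Cr.symm v b a, add_self_div_two]
  · rw [Cr.inc_M]
    refine (sum_congr rfl fun q hq => ?_).trans (Cr.expand v.2.2.1)
    rw [crd_M _ (VM_lt (Cr.mem_VP.1 hq)), if_pos (Cr.mem_VP.1 hq)]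
  · rw [Cr.inc_W, crd_W _ (gE.ix_lt a), gE.pt_ix]
noncomputable def dual (p : ℕ) : VV := inc (Pi.single p 1)
theorem ip_inc (f : ℕ → ℝ) (v : VV) : ip (inc f) v = ∑ p ∈ range 197184, f p * crd v p := by
  rw [Cr.sum_split, ip, add_assoc]
  refine congrArg₂ (· + ·) ?_ (congrArg₂ (· + ·) ?_ ?_)
  · have e : ∀ g : ι → ι → ℝ, ∑ a, ∑ b, g a b = ∑ i ∈ range 24, ∑ j ∈ range 24, g (gE.pt i) (gE.pt j) :=
      fun g => by rw [sum_pt]; exact sum_congr rfl fun i _ => sum_pt _
    have e1 : ∑ a : ι, ∑ b : ι, f (gE.ix a * 24 + gE.ix b) * (v : Amb).1 a b =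
        ∑ i ∈ range 24, ∑ j ∈ range 24, f (i * 24 + j) * crd v (i * 24 + j) := by
      rw [e]
      exact sum_congr rfl fun i hi => sum_congr rfl fun j hj => by
        rw [gE.ix_pt i (mem_range.1 hi), gE.ix_pt j (mem_range.1 hj),
          crd_A _ (mem_range.1 hi) (mem_range.1 hj)]
    have e2 : ∑ a : ι, ∑ b : ι, f (gE.ix b * 24 + gE.ix a) * (v : Amb).1 a b =
        ∑ a : ι, ∑ b : ι, f (gE.ix a * 24 + gE.ix b) * (v : Amb).1 a b := by
      rw [sum_comm]
      exact sum_congr rfl fun a _ => sum_congr rfl fun b _ => by rw [Cr.symm]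
    rw [← e1, ← add_self_div_two (∑ a : ι, ∑ b : ι, f (gE.ix a * 24 + gE.ix b) * (v : Amb).1 a b)]
    nth_rewrite 2 [← e2]
    simp only [trace, diag_apply, Matrix.mul_apply, Cr.inc_A, ← sum_add_distrib, sum_div]
    exact sum_congr rfl fun a _ => sum_congr rfl fun b _ => by rw [Cr.symm v b a]; ring
  · rw [Cr.inc_M, Matrix.sum_mul, trace_sum, sum_div, sum_filter]
    refine sum_congr rfl fun q hq => ?_
    rw [crd_M _ (mem_range.1 hq)]
    split_ifs
    · rw [Matrix.smul_mul, trace_smul, smul_eq_mul, mul_div_assoc, mc]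
    · rw [mul_zero]
  · simp only [trace, diag_apply, Matrix.mul_apply, transpose_apply, Cr.inc_W]
    rw [sum_pt]
    exact sum_congr rfl fun i hi => sum_congr rfl fun j _ => by
      rw [gE.ix_pt i (mem_range.1 hi), crd_W _ (mem_range.1 hi)]
theorem ip_crd (u v : VV) : ip u v = ∑ p ∈ range 197184, crd u p * crd v p := by
  rw [← ip_inc, inc_crd]
theorem crd_inj {u v : VV} (h : ∀ p < 197184, crd u p = crd v p) : u = v := by
  rw [← inc_crd u, ← inc_crd v]
  refine congrArg inc (funext fun p => ?_)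
  by_cases hp : p < 197184
  · exact h p hp
  · rw [Cr.crd_out _ (not_lt.1 hp), Cr.crd_out _ (not_lt.1 hp)]
theorem ip_dual (p : ℕ) (v : VV) : ip (dual p) v = crd v p := by
  rw [dual, ip_inc, sum_eq_single p (fun q _ h => by rw [Pi.single_eq_of_ne h, zero_mul]) fun h => by
    rw [Cr.crd_out _ (not_lt.1 fun a => h (mem_range.2 a)), mul_zero], Pi.single_eq_same, one_mul]
theorem eq_sum_dual (v : VV) : v = ∑ p ∈ range 197184, crd v p • dual p := by
  have : crd v = ∑ p ∈ range 197184, crd v p • (Pi.single p 1 : ℕ → ℝ) := funext fun q => by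
    rw [Finset.sum_apply, sum_eq_single q (fun p _ h => by
      rw [Pi.smul_apply, Pi.single_eq_of_ne h.symm, smul_zero]) fun h => by
      rw [Cr.crd_out _ (not_lt.1 fun a => h (mem_range.2 a)), zero_smul, Pi.zero_apply],
      Pi.smul_apply, Pi.single_eq_same, smul_eq_mul, mul_one]
  conv_lhs => rw [← inc_crd v, this, map_sum]
  exact sum_congr rfl fun p _ => map_smul _ _ _
theorem Cr.R_rq {q : ℕ} (h : VM.testBit q = true) {i j : ℕ} (hi : i < 24) (hj : j < 24) :
    R (rq q) (gE.pt i) (gE.pt j) = ((xc q i * xc q j : ℤ) : ℝ) / 8 := by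
  rw [R, rq_val h, rq_val h, gE.ix_pt i hi, gE.ix_pt j hj, Int.cast_mul]
theorem crd_ax {q : ℕ} (h : VM.testBit q = true) (e : Bool) (p : ℕ) : crd (ax (rq q) e) p =
    if p < 576 then ((xc q (p / 24) * xc q (p % 24) : ℤ) : ℝ) / 8
    else if p = 576 + q then -4 * sgn e else 0 := by
  have hq := VM_lt h
  rw [ax_val (rq_mem h)]
  induction p using Cr.cases with
  | h1 i hi j hj =>
    rw [crd_A _ hi hj, if_pos (by omega), show (i * 24 + j) / 24 = i by omega,
      show (i * 24 + j) % 24 = j by omega]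
    exact Cr.R_rq h hi hj
  | h2 q' hq' =>
    rw [crd_M _ hq', if_neg (show ¬576 + q' < 576 by omega)]
    by_cases a : VM.testBit q' = true
    · rw [if_pos a, Cr.mc_smul, Cr.mc_rq a h]
      by_cases b : q' = q
      · rw [if_pos b, if_pos (by omega), mul_one]
      · rw [if_neg b, if_neg (by omega), mul_zero]
    · rw [if_neg a, if_neg fun b => a (by rwa [show q' = q by omega])]
  | h3 i hi j => rw [crd_W _ hi, if_neg (by omega), if_neg (by omega)]; rfl
  | h4 p hp => rw [Cr.crd_out _ hp, if_neg (by omega), if_neg (by omega)]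
theorem ip_ax_crd {q : ℕ} (h : VM.testBit q = true) (e : Bool) (v : Amb) : ip (ax (rq q) e) v =
    (∑ i ∈ range 24, ∑ j ∈ range 24, ((xc q i * xc q j : ℤ) : ℝ) * crd v (i * 24 + j)) / 8 -
      4 * sgn e * crd v (576 + q) := by
  rw [ip_ax (rq_mem h), crd_M _ (VM_lt h), if_pos h]
  congr 1
  rw [trace_mul_comm]
  simp only [trace, diag_apply, Matrix.mul_apply, sum_div]
  rw [sum_pt]
  refine sum_congr rfl fun i hi => (sum_pt _).trans (sum_congr rfl fun j hj => ?_)
  rw [Cr.R_rq h (mem_range.1 hj) (mem_range.1 hi), crd_A _ (mem_range.1 hi) (mem_range.1 hj)]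
  push_cast; ring

/-- the program `P` computes `2 ^ e` times the action of `g` -/
def Impl (g : GG) (P : Prog) (e : ℕ) : Prop :=
  wf 197184 P = true ∧ ∀ (v : VV) (p : ℕ), sem P (crd v) p = 2 ^ e * crd (g • v : VV) p
/-- the state `S` holds the coordinates of `v` -/
def Rp (S : List ℕ) (v : VV) : Prop := ∀ p, crd v p = val S p

theorem Impl.app {g : GG} {P : Prog} {e : ℕ} (h : Impl g P e) {S : List ℕ} {v : VV} (r : Rp S v) :
    Rp (app P e S) (g • v) := fun p => by
  rw [val_app h.1, ← funext r, h.2]; field_simp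
theorem Rp.eq {S : List ℕ} {v w : VV} (h : Rp S v) (h' : Rp S w) : v = w :=
  crd_inj fun p _ => (h p).trans (h' p).symm
theorem Impl.mul {g h : GG} {P Q : Prog} {e d : ℕ} (hg : Impl g P e) (hh : Impl h Q d) :
    Impl (g * h) (Q ++ P) (d + e) := ⟨wf_append.2 ⟨hh.1, hg.1⟩, fun v p => by
  rw [sem_append, funext (hh.2 v), sem_smul, hg.2, mul_smul, pow_add, mul_assoc]⟩
theorem Impl.one : Impl 1 [] 0 := ⟨rfl, fun v p => by simp [sem]⟩

end Cfsg.Agent.Mo
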