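import Cfsg.Agent.Mo.Defs

/-! Classes of lattice vectors modulo 2. -/

set_option autoImplicit false

namespace Cfsg.Agent.Mo

open H5 H5.Lee Matrix Finset H4

/-- the bilinear form modulo 2 -/
noncomputable def bz (x : Λ) : Λ →+ ZMod 2 :=
  AddMonoidHom.mk' (fun y => ((dotInt (x : V) (y : V) / 8 : ℤ) : ZMod 2)) fun y y' => by
    rw [AddSubgroup.coe_add, dot_add_right, Int.add_ediv_of_dvd_left (dot8 x.2 y.2), Int.cast_add]

theorem bz_apply (x y : Λ) : bz x y = ((dotInt (x : V) (y : V) / 8 : ℤ) : ZMod 2) := rfl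
theorem bz_comm (x y : Λ) : bz x y = bz y x := by rw [bz_apply, bz_apply, dot_comm]
theorem cast2_eq_one (a : ℤ) : ((a : ℤ) : ZMod 2) = 1 ↔ a % 2 = 1 := by
  have := cast2_eq a 1
  simpa using this
theorem pb_eq (k : ℕ) (x : Λ) : pb k x = decide (bz (uu k) x = 1) := by
  rw [pb, bz_apply, decide_eq_decide, cast2_eq_one]

noncomputable def ub (k l : ℕ) : ℕ := Nat.land (Nat.shiftRight (dt (us k) l) (nat_lit 3)) (nat_lit 1)

theorem us_chk : ∀ k < 24, inL (us k) = 0 ∧ inL (bs k) = 0 ∧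
    (∀ l < 24, ub k (us l) = if l = (k + 12) % 24 then 1 else 0) ∧
    ∀ p : GolayPt, vec (us k) p % 2 = if k = 23 then 1 else 0 := by decide +kernel

noncomputable def cb (i : ℕ) : ℕ := sumTo (fun k => Nat.shiftLeft (ub k (bs i)) k) (nat_lit 24)
noncomputable def CB : ℕ := sumTo (fun i => Nat.shiftLeft (cb i) (Nat.mul (nat_lit 24) i)) (nat_lit 24)
def cbit (T i k : ℕ) : ℕ := Nat.land (Nat.shiftRight T (Nat.add (Nat.mul (nat_lit 24) i) k)) (nat_lit 1)

noncomputable def forceB (n : ℕ) (k : ℕ → Bool) : Bool :=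
  Nat.rec (motive := fun _ => Bool) false (fun m _ => k m) (Nat.succ n)

theorem forceB_eq (n : ℕ) (k : ℕ → Bool) : forceB n k = k n := rfl

theorem cb_chk : forceB CB (fun T => allLt 24 fun i =>
    band (allLt 24 fun k => Nat.beq (cbit T i k) (ub k (bs i)))
    (band (Nat.beq (Nat.mod (sumTo (fun k => Nat.mul (cbit T i (Nat.add k 12)) (cbit T i k)) 12) 2) 0)
    (allLt 24 fun j => Nat.beq (Nat.mod (sumTo (fun k => Nat.add
      (Nat.mul (cbit T i (Nat.add k 12)) (cbit T j k))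
      (Nat.mul (cbit T j (Nat.add k 12)) (cbit T i k))) 12) 2)
      (Nat.land (Nat.shiftRight (dt (bs i) (bs j)) 3) 1)))) = true := by decide +kernel

theorem bz_lv {X Y : ℕ} (hX : inL X = 0) (hY : inL Y = 0) :
    bz (lv X) (lv Y) = (Nat.land (Nat.shiftRight (dt X Y) 3) 1 : ℕ) := by
  rw [bz_apply, dot_lv hX hY, ← Int.cast_natCast (Nat.land _ _), cast2_eq]
  change _ = (((dt X Y >>> 3) &&& 1 : ℕ) : ℤ) % 2
  rw [Nat.and_one_is_mod, Nat.shiftRight_eq_div_pow]
  omega

theorem bb_eq {i : ℕ} (hi : i < 24) : bb i = lv (bs i) :=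
  Subtype.ext (by rw [bb_val hi, lv_val (us_chk i hi).2.1])

theorem bz_uu_bb {k i : ℕ} (hk : k < 24) (hi : i < 24) : bz (uu k) (bb i) = (ub k (bs i) : ℕ) := by
  rw [bb_eq hi, uu, bz_lv (us_chk k hk).1 (us_chk i hi).2.1]; rfl

theorem bz_uu_uu {k l : ℕ} (hk : k < 24) (hl : l < 24) :
    bz (uu k) (uu l) = if l = (k + 12) % 24 then 1 else 0 := by
  rw [uu, uu, bz_lv (us_chk k hk).1 (us_chk l hl).1]
  have := (us_chk k hk).2.2.1 l hl
  change ((ub k (us l) : ℕ) : ZMod 2) = _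
  rw [this]; split_ifs <;> simp

/-- half of the form -/
noncomputable def hb (x y : Λ) : ZMod 2 := ∑ k ∈ range 12, bz (uu (k + 12)) x * bz (uu k) y

theorem hb_add_left (x x' y : Λ) : hb (x + x') y = hb x y + hb x' y := by
  simp only [hb, map_add, add_mul, sum_add_distrib]
theorem hb_add_right (x y y' : Λ) : hb x (y + y') = hb x y + hb x y' := by
  simp only [hb, map_add, mul_add, sum_add_distrib]
theorem hb_neg_left (x y : Λ) : hb (-x) y = -hb x y := by
  simp only [hb, map_neg, neg_mul, sum_neg_distrib]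
theorem hb_neg_right (x y : Λ) : hb x (-y) = -hb x y := by
  simp only [hb, map_neg, mul_neg, sum_neg_distrib]

theorem hb_bb {i : ℕ} (hi : i < 24) : hb (bb i) (bb i) = 0 ∧
    ∀ j < 24, hb (bb i) (bb j) + hb (bb j) (bb i) = bz (bb i) (bb j) := by
  have h := cb_chk
  rw [forceB_eq] at h
  simp only [allLt_iff, band_eq, Bool.and_eq_true, Nat.beq_eq, sumTo_eq] at h
  have e : ∀ i < 24, ∀ k < 24, bz (uu k) (bb i) = (cbit CB i k : ℕ) := fun i hi k hk => by
    rw [bz_uu_bb hk hi, (h i hi).1 k hk]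
  have e2 : ∀ i < 24, ∀ j < 24, hb (bb i) (bb j) =
      ((∑ k ∈ range 12, cbit CB i (k + 12) * cbit CB j k : ℕ) : ZMod 2) := fun i hi j hj => by
    rw [hb, Nat.cast_sum]
    refine sum_congr rfl fun k hk => ?_
    have := mem_range.1 hk
    rw [e i hi _ (by omega), e j hj _ (by omega), Nat.cast_mul]
  refine ⟨?_, fun j hj => ?_⟩
  · rw [e2 i hi i hi, ZMod.natCast_eq_zero_iff]
    exact Nat.dvd_of_mod_eq_zero (h i hi).2.1
  · rw [e2 i hi j hj, e2 j hj i hi, ← Nat.cast_add, ← sum_add_distrib, bb_eq hi, bb_eq hj,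
      bz_lv (us_chk i hi).2.1 (us_chk j hj).2.1, ← (h i hi).2.2 j hj]
    exact (ZMod.natCast_mod _ 2).symm

theorem hb_add_hb (x y : Λ) : hb x y + hb y x = bz x y := by
  induction x using basis_ind with
  | h0 => simp [hb, bz_comm 0 y]
  | hb i hi =>
    induction y using basis_ind with
    | h0 => simp [hb]
    | hb j hj => exact (hb_bb hi).2 j hj
    | ha y y' h1 h2 => rw [hb_add_left, hb_add_right, map_add, ← h1, ← h2]; ring
    | hn y h => rw [hb_neg_left, hb_neg_right, map_neg, ← h]; ring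
  | ha x x' h1 h2 =>
    rw [hb_add_left, hb_add_right, bz_comm, map_add, bz_comm y, bz_comm y, ← h1, ← h2]; ring
  | hn x h => rw [hb_neg_left, hb_neg_right, bz_comm, map_neg, bz_comm y, ← h]; ring

theorem hb_self (x : Λ) : hb x x = ((sqNorm (x : V) / 16 : ℤ) : ZMod 2) := by
  induction x using basis_ind with
  | h0 => simp [hb, sqNorm]
  | hb i hi => rw [(hb_bb hi).1, norm_bb hi]; rfl
  | ha x y h1 h2 =>
    have e : sqNorm ((x + y : Λ) : V) / 16 =
        sqNorm (x : V) / 16 + sqNorm (y : V) / 16 + dotInt (x : V) (y : V) / 8 := by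
      have := norm16 x
      have := norm16 y
      have := dot8 x.2 y.2
      rw [AddSubgroup.coe_add, norm_add]; omega
    rw [e, Int.cast_add, Int.cast_add, ← h1, ← h2, ← bz_apply, ← hb_add_hb, hb_add_left,
      hb_add_right, hb_add_right]; ring
  | hn x h => rw [hb_neg_left, hb_neg_right, neg_neg, h, AddSubgroup.coe_neg, norm_neg]

theorem cl_lt (x : Λ) : cl x < 2 ^ 24 := Nat.ofBits_lt_two_pow _
theorem testBit_cl (x : Λ) {k : ℕ} (hk : k < 24) : (cl x).testBit k = pb k x :=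
  Nat.testBit_ofBits_lt _ _ hk

theorem eq_of_bits {n a b : ℕ} (ha : a < 2 ^ n) (hb : b < 2 ^ n)
    (h : ∀ k < n, a.testBit k = b.testBit k) : a = b :=
  Nat.eq_of_testBit_eq fun k => by
    by_cases hk : k < n
    · exact h k hk
    · have := Nat.pow_le_pow_right (show 0 < 2 by omega) (not_lt.1 hk)
      rw [Nat.testBit_lt_two_pow (by omega), Nat.testBit_lt_two_pow (by omega)]

theorem cl_eq_iff_bz {x y : Λ} : cl x = cl y ↔ ∀ k < 24, bz (uu k) x = bz (uu k) y := by
  refine ⟨fun h k hk => ?_, fun h => eq_of_bits (cl_lt x) (cl_lt y) fun k hk => by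
    rw [testBit_cl x hk, testBit_cl y hk, pb_eq, pb_eq, h k hk]⟩
  have := testBit_cl x hk
  rw [h, testBit_cl y hk, pb_eq, pb_eq] at this
  revert this
  generalize bz (uu k) x = a
  generalize bz (uu k) y = b
  revert a b; decide

theorem cl_add (x y : Λ) : cl (x + y) = cl x ^^^ cl y :=
  eq_of_bits (cl_lt _) (Nat.xor_lt_two_pow (cl_lt _) (cl_lt _)) fun k hk => by
    rw [Nat.testBit_xor, testBit_cl _ hk, testBit_cl _ hk, testBit_cl _ hk, pb_eq, pb_eq, pb_eq,
      map_add]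
    generalize bz (uu k) x = a
    generalize bz (uu k) y = b
    revert a b; decide
theorem cl_zero : cl 0 = 0 :=
  eq_of_bits (cl_lt _) (by norm_num) fun k hk => by rw [testBit_cl _ hk, pb_eq]; simp
theorem cl_neg (x : Λ) : cl (-x) = cl x :=
  cl_eq_iff_bz.2 fun k _ => by rw [map_neg, ZMod.neg_eq_self_mod_two]
theorem cl_sub (x y : Λ) : cl (x - y) = cl x ^^^ cl y := by rw [sub_eq_add_neg, cl_add, cl_neg]
theorem cl_ug {k : ℕ} (hk : k < 24) : cl (ug k) = 2 ^ k :=
  eq_of_bits (cl_lt _) (Nat.pow_lt_pow_right (by omega) hk) fun l hl => by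
    rw [testBit_cl _ hl, pb_eq, ug, bz_uu_uu hl (Nat.mod_lt _ (by omega)), Nat.testBit_two_pow,
      decide_eq_decide]
    split_ifs with h
    · simp only [true_iff]; omega
    · simp only [zero_ne_one, false_iff]; omega
theorem cl_e8 (i : ι) : cl (e8 i) = 2 ^ 23 :=
  eq_of_bits (cl_lt _) (by norm_num) fun l hl => by
    rw [testBit_cl _ hl, pb, Nat.testBit_two_pow, decide_eq_decide, dot_comm, e8, dot_single, uu,
      lv_val (us_chk l hl).1, Int.mul_ediv_cancel_left _ (by norm_num), (us_chk l hl).2.2.2]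
    split_ifs with h <;> simp [h, eq_comm]

theorem xor_ind {Q : ℕ → Prop} (n : ℕ) (h0 : Q 0) (h1 : ∀ k < n, Q (2 ^ k))
    (h2 : ∀ x < 2 ^ n, ∀ y < 2 ^ n, Q x → Q y → Q (x ^^^ y)) : ∀ x < 2 ^ n, Q x := by
  suffices ∀ m ≤ n, ∀ x < 2 ^ m, Q x from this n le_rfl
  intro m
  induction m with
  | zero => intro _ x hx; obtain rfl : x = 0 := by omega
            exact h0
  | succ m ih =>
    intro hm x hx
    have p1 := Nat.pow_le_pow_right (show 0 < 2 by omega) hm
    by_cases hb : x.testBit m = true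
    · have h3 : x ^^^ 2 ^ m < 2 ^ m := Nat.lt_pow_two_of_testBit _ fun i hi => by
        rw [Nat.testBit_xor, Nat.testBit_two_pow]
        rcases hi.eq_or_lt with rfl | hi
        · simp [hb]
        · have := Nat.pow_le_pow_right (show 0 < 2 by omega) (Nat.succ_le_of_lt hi)
          rw [Nat.testBit_lt_two_pow (by omega)]; simp; omega
      have := h2 _ (by omega) _ (by omega) (ih (by omega) _ h3) (h1 m (by omega))
      rwa [Nat.xor_assoc, Nat.xor_self, Nat.xor_zero] at this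
    · refine ih (by omega) x (Nat.lt_pow_two_of_testBit _ fun i hi => ?_)
      rcases hi.eq_or_lt with rfl | hi
      · simpa using hb
      · have := Nat.pow_le_pow_right (show 0 < 2 by omega) (Nat.succ_le_of_lt hi)
        exact Nat.testBit_lt_two_pow (by omega)

theorem cl_surj {n : ℕ} (hn : n < 2 ^ 24) : ∃ x : Λ, cl x = n :=
  xor_ind (Q := fun n => ∃ x : Λ, cl x = n) 24 ⟨0, cl_zero⟩ (fun _ hk => ⟨_, cl_ug hk⟩)
    (fun _ _ _ _ ⟨x, hx⟩ ⟨y, hy⟩ => ⟨x + y, by rw [cl_add, hx, hy]⟩) n hn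

theorem bz_congr {x y : Λ} (h : cl x = cl y) (w : Λ) : bz x w = bz y w := by
  have h' := cl_eq_iff_bz.1 h
  rw [← hb_add_hb, ← hb_add_hb, hb, hb, hb, hb]
  congr 1 <;> refine sum_congr rfl fun k hk => ?_ <;> have := mem_range.1 hk <;>
    rw [h' _ (by omega)]

theorem cl_eq_iff {x y : Λ} : cl x = cl y ↔ ∃ w : Λ, x - y = 2 • w := by
  constructor
  · intro h
    refine ⟨∑ k ∈ range 24, (co k (x - y) / 2) • bb k, ?_⟩
    rw [smul_sum]
    conv_lhs => rw [← expand (x - y)]
    refine sum_congr rfl fun k _ => ?_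
    have h1 : bz (dd k) (x - y) = 0 := by
      rw [map_sub, bz_comm _ x, bz_congr h, bz_comm, sub_self]
    have h2 : co k (x - y) % 2 = 0 := (cast2_eq_zero _).1 h1
    rw [← natCast_zsmul, smul_smul]
    congr 1
    push_cast
    omega
  · rintro ⟨w, hw⟩
    refine cl_eq_iff_bz.2 fun k _ => ?_
    rw [← sub_eq_zero, ← map_sub, hw, map_nsmul, two_nsmul, CharTwo.add_self_eq_zero]
theorem cl_smul (g : Co0) {x y : Λ} (h : cl x = cl y) : cl (g • x) = cl (g • y) := by
  obtain ⟨w, hw⟩ := cl_eq_iff.1 h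
  exact cl_eq_iff.2 ⟨g • w, by rw [← smul_sub', hw, smul_nsmul]⟩

theorem norm_of_cl {x y : Λ} (h : cl x = cl y) :
    x = y ∨ 128 ≤ sqNorm (x : V) + sqNorm (y : V) - 2 * dotInt (x : V) (y : V) := by
  obtain ⟨w, hw⟩ := cl_eq_iff.1 h
  by_cases h0 : w = 0
  · left; rw [← sub_eq_zero, hw, h0, smul_zero]
  · right
    have := norm_ge w.2 fun e => h0 (Subtype.ext e)
    rw [← norm_sub, ← AddSubgroup.coe_sub, hw, AddSubgroup.coe_nsmul, ← natCast_zsmul, norm_smul]
    push_cast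
    omega

theorem norm_of_cl' {x y : Λ} (h : cl x = cl y) :
    x = -y ∨ 128 ≤ sqNorm (x : V) + sqNorm (y : V) + 2 * dotInt (x : V) (y : V) := by
  have := norm_of_cl (h.trans (cl_neg y).symm)
  rw [AddSubgroup.coe_neg, norm_neg, dot_neg_right] at this
  simpa using this

theorem short_eq {r s : Λ} (hr : r ∈ L2) (hs : s ∈ L2) (h : cl r = cl s) : s = r ∨ s = -r := by
  have h1 : sqNorm (r : V) = 32 := hr
  have h2 : sqNorm (s : V) = 32 := hs
  refine (norm_of_cl h.symm).imp_right fun h3 => Subtype.ext ?_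
  have := Lee.norm_nonneg ((s : V) + r)
  have h4 := eq_zero_of_norm (x := (s : V) + r) (by rw [norm_add] at this ⊢; omega)
  exact eq_neg_of_add_eq_zero_left h4
theorem short_ne_zero {r : Λ} (hr : r ∈ L2) : cl r ≠ 0 := fun h => by
  have h1 : sqNorm (r : V) = 32 := hr
  rcases norm_of_cl (h.trans cl_zero.symm) with rfl | h2
  · simp [sqNorm] at h1
  · rw [h1] at h2; simp [sqNorm, dotInt] at h2
theorem short_ne_e8 {r : Λ} (hr : r ∈ L2) : cl r ≠ 2 ^ 23 := fun h => by
  have h1 : sqNorm (r : V) = 32 := hr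
  have h2 := norm_e8 none
  rcases norm_of_cl (h.trans (cl_e8 none).symm) with rfl | h3
  · omega
  rcases norm_of_cl' (h.trans (cl_e8 none).symm) with rfl | h4
  · rw [AddSubgroup.coe_neg, norm_neg] at h1; omega
  omega
/-- the sum of two short classes is short only for inner product `± 2` -/
theorem short_add {r s t : Λ} (hr : r ∈ L2) (hs : s ∈ L2) (ht : t ∈ L2) (h : cl r ^^^ cl s = cl t) :
    dotInt (r : V) (s : V) = 16 ∨ dotInt (r : V) (s : V) = -16 := by
  have h1 : sqNorm (r : V) = 32 := hr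
  have h2 : sqNorm (s : V) = 32 := hs
  have h3 : sqNorm (t : V) = 32 := ht
  have h4 : sqNorm ((r + s : Λ) : V) = 64 + 2 * dotInt (r : V) (s : V) := by
    rw [AddSubgroup.coe_add, norm_add]; omega
  rw [← cl_add] at h
  rcases norm_of_cl h with e | h5
  · rw [e] at h4; omega
  rcases norm_of_cl' h with e | h6
  · rw [e, AddSubgroup.coe_neg, norm_neg] at h4; omega
  have h7 := dot8 r.2 s.2
  have h8 := norm_ne_16 (r - s).2
  have h9 := Lee.norm_nonneg ((r - s : Λ) : V)
  have h10 : sqNorm ((r - s : Λ) : V) ≠ 0 := fun e => by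
    obtain rfl : r = s := sub_eq_zero.1 (Subtype.ext (eq_zero_of_norm e))
    rw [cl_add, Nat.xor_self] at h
    exact short_ne_zero ht h.symm
  rw [AddSubgroup.coe_sub, norm_sub] at h8 h9 h10
  omega

end Cfsg.Agent.Mo
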