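import Cfsg.Agent.Mo.Tab
import Cfsg.Agent.Mo.Pa1

/-! Vectorised checks of the table of short classes. -/

set_option autoImplicit false

namespace Cfsg.Agent.Mo

open H4 H5 H5.Lee Finset

/-- planes of the `i`-th coordinate -/
def XP (i : ℕ) : List ℕ := XPL.getD i []
def xc (q i : ℕ) : ℤ := vz (XP i) q
/-- the class at position `q` -/
def cp (q : ℕ) : ℕ := vn CPL q

namespace Cr

def frN {α : Type} (n : ℕ) (k : ℕ → α) : α :=
  Nat.rec (motive := fun _ => α) (k 0) (fun m _ => k m) (Nat.succ n)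
theorem frN_eq {α : Type} (n : ℕ) (k : ℕ → α) : frN n k = k n := rfl

/-- four planes: integers modulo 16 -/
structure Q where
  a : ℕ
  b : ℕ
  c : ℕ
  d : ℕ

def v4 (a b c d : Bool) : ℤ := bzi a + 2 * bzi b + 4 * bzi c + 8 * bzi d
def Q.v (x : Q) (p : ℕ) : ℤ := v4 (x.a.testBit p) (x.b.testBit p) (x.c.testBit p) (x.d.testBit p)
def fq (x : Q) : Q := frN x.a fun a => frN x.b fun b => frN x.c fun c => frN x.d fun d => ⟨a, b, c, d⟩
theorem fq_eq (x : Q) : fq x = x := rfl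
def add3 (x y : Q) (c1 c2 : ℕ) : Q :=
  ⟨Nat.xor x.a y.a, Nat.xor (Nat.xor x.b y.b) c1, Nat.xor (Nat.xor x.c y.c) c2,
    Nat.xor (Nat.xor x.d y.d) (maj x.c y.c c2)⟩
def add (x y : Q) : Q := frN (Nat.land x.a y.a) fun c1 => frN (maj x.b y.b c1) fun c2 => fq (add3 x y c1 c2)
theorem add_v (x y : Q) (p : ℕ) : (add x y).v p % 16 = (x.v p + y.v p) % 16 := by
  simp only [add, frN_eq, fq_eq, add3, Q.v, maj, tb_xor, tb_and, tb_or]
  generalize x.a.testBit p = a, x.b.testBit p = b, x.c.testBit p = c, x.d.testBit p = d,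
    y.a.testBit p = a', y.b.testBit p = b', y.c.testBit p = c', y.d.testBit p = d'
  revert a b c d a' b' c' d'
  decide
def sh (x : Q) : Q := ⟨0, x.a, x.b, x.c⟩
theorem sh_v (x : Q) (p : ℕ) : (sh x).v p % 16 = 2 * x.v p % 16 := by
  simp only [sh, Q.v, Nat.zero_testBit]
  generalize x.a.testBit p = a, x.b.testBit p = b, x.c.testBit p = c, x.d.testBit p = d
  revert a b c d
  decide
def cadd (t : ℕ) (x y : Q) : Q := cnd (Nat.beq (Nat.land t 1) 0) y (add x y)
theorem cadd_v (t : ℕ) (x y : Q) (p : ℕ) :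
    (cadd t x y).v p % 16 = ((t % 2 : ℕ) * x.v p + y.v p) % 16 := by
  unfold cadd
  rw [show Nat.land t 1 = t % 2 from Nat.and_one_is_mod t]
  rcases Nat.mod_two_eq_zero_or_one t with h | h <;> rw [h]
  · simp [Nat.beq]
  · simp [Nat.beq, add_v]
/-- `y + t * x` -/
def stp (t : ℕ) (x y : Q) : Q :=
  cadd (Nat.shiftRight t 3) (sh (sh (sh x))) (cadd (Nat.shiftRight t 2) (sh (sh x))
    (cadd (Nat.shiftRight t 1) (sh x) (cadd t x y)))
theorem stp_v (t : ℕ) (x y : Q) (p : ℕ) : (stp t x y).v p % 16 = (t * x.v p + y.v p) % 16 := by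
  have e1 := sh_v x p
  have e2 := sh_v (sh x) p
  have e3 := sh_v (sh (sh x)) p
  have h0 := cadd_v t x y p
  have h1 := cadd_v (t / 2) (sh x) (cadd t x y) p
  have h2 := cadd_v (t / 4) (sh (sh x)) (cadd (t / 2) (sh x) (cadd t x y)) p
  have h3 := cadd_v (t / 8) (sh (sh (sh x))) (cadd (t / 4) (sh (sh x)) (cadd (t / 2) (sh x) (cadd t x y))) p
  have e : stp t x y = cadd (t / 8) (sh (sh (sh x))) (cadd (t / 4) (sh (sh x))
      (cadd (t / 2) (sh x) (cadd t x y))) := by
    unfold stp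
    rw [show Nat.shiftRight t 3 = t / 8 from Nat.shiftRight_eq_div_pow t 3,
      show Nat.shiftRight t 2 = t / 4 from Nat.shiftRight_eq_div_pow t 2,
      show Nat.shiftRight t 1 = t / 2 from Nat.shiftRight_eq_div_pow t 1]
  rw [e, h3]
  have ht : (t : ℤ) * x.v p = ((t % 2 : ℕ) + 2 * (t / 2 % 2 : ℕ) + 4 * (t / 4 % 2 : ℕ) + 8 * (t / 8 % 2 : ℕ)) *
      x.v p + 16 * ((t / 16 : ℕ) * x.v p) := by
    have : (t : ℤ) = ((t % 2 : ℕ) + 2 * (t / 2 % 2 : ℕ) + 4 * (t / 4 % 2 : ℕ) + 8 * (t / 8 % 2 : ℕ)) +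
      16 * (t / 16 : ℕ) := by omega
    conv_lhs => rw [this]
    ring
  rw [ht]
  rcases Nat.mod_two_eq_zero_or_one t with a0 | a0 <;>
  rcases Nat.mod_two_eq_zero_or_one (t / 2) with a1 | a1 <;>
  rcases Nat.mod_two_eq_zero_or_one (t / 4) with a2 | a2 <;>
  rcases Nat.mod_two_eq_zero_or_one (t / 8) with a3 | a3 <;>
  simp only [a0, a1, a2, a3, Nat.cast_zero, Nat.cast_one] at * <;> omega

def toQ (xs : List ℕ) : Q := ⟨xs.getD 0 0, xs.getD 1 0, xs.getD 2 0, xs.getD 3 0⟩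
theorem len_XP : ∀ i < 24, (XP i).length = 4 := by decide +kernel
theorem XP_eq {i : ℕ} (hi : i < 24) : ∃ a b c d, XP i = [a, b, c, d] := by
  have := len_XP i hi
  generalize XP i = l at this
  rcases l with _ | ⟨a, _ | ⟨b, _ | ⟨c, _ | ⟨d, _ | _⟩⟩⟩⟩ <;> simp at this
  exact ⟨a, b, c, d, rfl⟩
theorem toQ_v {i : ℕ} (hi : i < 24) (p : ℕ) : (toQ (XP i)).v p % 16 = xc p i % 16 := by
  obtain ⟨a, b, c, d, h⟩ := XP_eq hi
  rw [xc, h]
  change v4 (a.testBit p) (b.testBit p) (c.testBit p) (d.testBit p) % 16 = _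
  simp only [vz_cons2, vz_one, v4]
  omega

/-- the inner products with the vector of code `X`, modulo 16 -/
def lin (X n : ℕ) : Q :=
  Nat.rec ⟨0, 0, 0, 0⟩ (fun i ih => stp (Nat.add (dg X i) 8) (toQ (XP i)) ih) n
theorem lin_v (X p : ℕ) : ∀ n ≤ 24,
    (lin X n).v p % 16 = (∑ i ∈ range n, ((dg X i : ℤ) - 8) * xc p i) % 16
  | 0, _ => by simp [lin, Q.v, v4]
  | n + 1, h => by
    have h1 := lin_v X p n (by omega)
    have h2 := toQ_v (i := n) (by omega) p
    rw [show lin X (n + 1) = stp (dg X n + 8) (toQ (XP n)) (lin X n) from rfl, stp_v, sum_range_succ,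
      Int.add_emod, h1, Int.mul_emod, h2, ← Int.mul_emod, ← Int.add_emod,
      show (((dg X n + 8 : ℕ) : ℤ)) * xc p n = ((dg X n : ℤ) - 8) * xc p n + 16 * xc p n by push_cast; ring]
    omega

def low (x : Q) (t : ℕ) : Bool :=
  Nat.beq (Nat.land (Nat.lor (Nat.lor x.a x.b) (Nat.lor x.c (Nat.xor x.d t))) VM) 0
def low0 (x : Q) : Bool := Nat.beq (Nat.land (Nat.lor (Nat.lor x.a x.b) x.c) VM) 0
theorem low_spec {x : Q} {t p : ℕ} (h : low x t = true) (hp : VM.testBit p = true) :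
    x.v p = 8 * bzi (t.testBit p) := by
  have := congrArg (·.testBit p) (Nat.eq_of_beq_eq_true h)
  simp only [tb_and, tb_or, tb_xor, hp, Nat.zero_testBit] at this
  unfold Q.v
  revert this
  generalize x.a.testBit p = a, x.b.testBit p = b, x.c.testBit p = c, x.d.testBit p = d,
    t.testBit p = e
  revert a b c d e
  decide
theorem low0_spec {x : Q} {p : ℕ} (h : low0 x = true) (hp : VM.testBit p = true) :
    x.v p % 8 = 0 := by
  have := congrArg (·.testBit p) (Nat.eq_of_beq_eq_true h)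
  simp only [tb_and, tb_or, hp, Nat.zero_testBit] at this
  unfold Q.v
  revert this
  generalize x.a.testBit p = a, x.b.testBit p = b, x.c.testBit p = c, x.d.testBit p = d
  revert a b c d
  decide

theorem chk_b : allLt 24 (fun k => low0 (lin (bs k) 24)) = true := by decide +kernel
theorem chk_u : allLt 24 (fun k => low (lin (us k) 24) (CPL.getD k 0)) = true := by decide +kernel

/-- planes of the square -/
def sq (x : Q) : List ℕ :=
  [x.a, 0, Nat.xor x.b (Nat.land x.a x.b), Nat.land x.a (Nat.xor x.b x.c),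
    Nat.xor (Nat.xor x.c (Nat.land x.b x.c)) (Nat.land x.a (Nat.xor (Nat.land x.b x.c) x.d)),
    Nat.xor (Nat.land x.b (Nat.xor x.c x.d)) (Nat.land (Nat.land x.a x.d) (Nat.xor x.c x.d)),
    Nat.xor x.d (Nat.land x.d (Nat.lor (Nat.lor x.a x.b) x.c)), 0]
theorem sq_v {i : ℕ} (hi : i < 24) (p : ℕ) : vz (sq (toQ (XP i))) p = xc p i ^ 2 := by
  obtain ⟨a, b, c, d, h⟩ := XP_eq hi
  rw [xc, h]
  change vz (sq ⟨a, b, c, d⟩) p = _
  simp only [sq, vz_cons2, vz_one, tb_xor, tb_and, tb_or, Nat.zero_testBit]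
  generalize a.testBit p = a, b.testBit p = b, c.testBit p = c, d.testBit p = d
  revert a b c d
  decide
def frL (xs : List ℕ) : List ℕ := frc xs xs
def nrm2 (n : ℕ) : List ℕ := Nat.rec [0] (fun i ih => frL (addP ih (trimP (sq (toQ (XP i)))))) n
theorem nrm2_v (p : ℕ) : ∀ n ≤ 24, vz (nrm2 n) p = ∑ i ∈ range n, xc p i ^ 2
  | 0, _ => by simp [nrm2]
  | n + 1, h => by
    rw [show nrm2 (n + 1) = frL (addP (nrm2 n) (trimP (sq (toQ (XP n))))) from rfl, frL, frc_eq, vz_addP,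
      vz_trimP, sq_v (by omega), nrm2_v p n (by omega), sum_range_succ]
theorem chk_n : eqL (trimP (lmap (Nat.land VM) (nrm2 24))) [0, 0, 0, 0, 0, VM, 0] = true := by
  decide +kernel

/-- comparison with the next address -/
def ltA (xs : List ℕ) : ℕ → ℕ :=
  List.rec (fun t => t) (fun x _ ih t => frN (Nat.shiftRight x 1) fun y =>
    frN (sel (Nat.xor x y) y t) ih) xs
theorem ltA_spec (xs : List ℕ) (t p : ℕ) (h : (ltA xs t).testBit p = true) :
    vn xs p < vn xs (p + 1) ∨ (vn xs p = vn xs (p + 1) ∧ t.testBit p = true) := by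
  induction xs generalizing t with
  | nil => exact Or.inr ⟨rfl, h⟩
  | cons x xs ih =>
    have := ih _ h
    simp only [tb_sel, tb_xor, tb_shr, vn_cons] at this ⊢
    revert this
    cases x.testBit p <;> cases x.testBit (p + 1) <;> cases t.testBit p <;> simp <;> omega
theorem chk_w : wf 98304 SORT = true := by decide +kernel
theorem chk_v : Nat.beq (runB SORT VM) (ones 98280) = true := by decide +kernel
theorem chk_m : Nat.beq (Nat.shiftRight VM 98304) 0 = true := by decide +kernel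
theorem chk_s : Nat.beq (Nat.land (ltA (lmap (runB SORT) CPL) 0) (ones 98279)) (ones 98279) = true := by
  decide +kernel
theorem len_CPL : CPL.length = 24 := by decide +kernel

end Cr

end Cfsg.Agent.Mo
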