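import Mathlib

/-! Bit planes: vectors of small integers as lists of big naturals, and programs acting on them. -/

set_option autoImplicit false

namespace Cfsg.Agent.Mo

open Finset

@[simp] theorem tb_xor (a b p : ℕ) : (Nat.xor a b).testBit p = (a.testBit p ^^ b.testBit p) :=
  Nat.testBit_xor a b p
@[simp] theorem tb_and (a b p : ℕ) : (Nat.land a b).testBit p = (a.testBit p && b.testBit p) :=
  Nat.testBit_and a b p
@[simp] theorem tb_or (a b p : ℕ) : (Nat.lor a b).testBit p = (a.testBit p || b.testBit p) :=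
  Nat.testBit_or a b p
@[simp] theorem tb_shl (a s p : ℕ) :
    (Nat.shiftLeft a s).testBit p = (decide (s ≤ p) && a.testBit (p - s)) := Nat.testBit_shiftLeft a
@[simp] theorem tb_shr (a s p : ℕ) : (Nat.shiftRight a s).testBit p = a.testBit (p + s) := by
  rw [add_comm]; exact Nat.testBit_shiftRight a

/-- evaluate `x`, continue with `k` -/
def sq1 {α : Type} (x : ℕ) (k : α) : α := Bool.rec k k (Nat.ble x 0)
@[simp] theorem sq1_eq {α : Type} (x : ℕ) (k : α) : sq1 x k = k := by
  unfold sq1; cases Nat.ble x 0 <;> rfl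
def frc {α : Type} (xs : List ℕ) (k : α) : α := List.rec k (fun x _ ih => sq1 x ih) xs
@[simp] theorem frc_eq {α : Type} (xs : List ℕ) (k : α) : frc xs k = k := by
  induction xs with
  | nil => rfl
  | cons x xs ih => exact (sq1_eq _ _).trans ih
def cnd {α : Type} (b : Bool) (x y : α) : α := Bool.rec y x b
@[simp] theorem cnd_true {α : Type} (x y : α) : cnd true x y = x := rfl
@[simp] theorem cnd_false {α : Type} (x y : α) : cnd false x y = y := rfl
def lmap (f : ℕ → ℕ) (xs : List ℕ) : List ℕ := List.rec [] (fun x _ ih => f x :: ih) xs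
theorem lmap_eq (f : ℕ → ℕ) (xs : List ℕ) : lmap f xs = xs.map f := by
  induction xs with
  | nil => rfl
  | cons x xs ih => exact congrArg (f x :: ·) ih

def bzi (b : Bool) : ℤ := Bool.rec 0 1 b
@[simp] theorem bzi_true : bzi true = 1 := rfl
@[simp] theorem bzi_false : bzi false = 0 := rfl

/-- two's complement value at address `p` of the nonempty list `x :: xs` -/
def vz1 (p : ℕ) (xs : List ℕ) : ℕ → ℤ :=
  List.rec (fun x => -bzi (x.testBit p)) (fun y _ ih x => bzi (x.testBit p) + 2 * ih y) xs
/-- two's complement value at address `p`; the last plane is the sign -/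
def vz (xs : List ℕ) (p : ℕ) : ℤ := List.rec 0 (fun x t _ => vz1 p t x) xs
@[simp] theorem vz_nil (p : ℕ) : vz [] p = 0 := rfl
@[simp] theorem vz_one (x p : ℕ) : vz [x] p = -bzi (x.testBit p) := rfl
@[simp] theorem vz_cons2 (x y : ℕ) (t : List ℕ) (p : ℕ) :
    vz (x :: y :: t) p = bzi (x.testBit p) + 2 * vz (y :: t) p := rfl
theorem vz_cons (x : ℕ) {t : List ℕ} (h : t ≠ []) (p : ℕ) :
    vz (x :: t) p = bzi (x.testBit p) + 2 * vz t p := by
  cases t with
  | nil => exact absurd rfl h
  | cons y t => rfl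
theorem vz_zero_cons (t : List ℕ) (p : ℕ) : vz (0 :: t) p = 2 * vz t p := by
  cases t <;> simp

theorem vz_map (f : ℕ → ℕ) (xs : List ℕ) (p q : ℕ) (h : ∀ x, (f x).testBit p = x.testBit q) :
    vz (lmap f xs) p = vz xs q := by
  rw [lmap_eq]
  induction xs with
  | nil => rfl
  | cons x t ih => cases t with
    | nil => simp [h]
    | cons y t => simp only [List.map_cons, vz_cons2, h] at ih ⊢; rw [ih]
theorem vz_map0 (f : ℕ → ℕ) (xs : List ℕ) (p : ℕ) (h : ∀ x, (f x).testBit p = false) :
    vz (lmap f xs) p = 0 := by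
  rw [lmap_eq]
  induction xs with
  | nil => rfl
  | cons x t ih => cases t with
    | nil => simp [h]
    | cons y t => simp only [List.map_cons, vz_cons2, h] at ih ⊢; rw [ih]; simp
theorem vz_map_not (f : ℕ → ℕ) {xs : List ℕ} (hx : xs ≠ []) (p : ℕ)
    (h : ∀ x, (f x).testBit p = !x.testBit p) : vz (lmap f xs) p = -vz xs p - 1 := by
  rw [lmap_eq]
  induction xs with
  | nil => exact absurd rfl hx
  | cons x t ih => cases t with
    | nil => simp only [List.map_cons, List.map_nil, vz_one, h]; cases x.testBit p <;> simp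
    | cons y t =>
      have := ih (by simp)
      simp only [List.map_cons, vz_cons2, h] at this ⊢
      rw [this]; cases x.testBit p <;> simp <;> ring

def fin2 (lo sg : ℕ) : List ℕ := cnd (Nat.beq lo sg) [sg] [lo, sg]
theorem fin2_ne (lo sg : ℕ) : fin2 lo sg ≠ [] := by unfold fin2; cases Nat.beq lo sg <;> simp
theorem vz_fin2 (lo sg p : ℕ) : vz (fin2 lo sg) p = bzi (lo.testBit p) - 2 * bzi (sg.testBit p) := by
  unfold fin2
  cases h : Nat.beq lo sg
  · simp; ring
  · rw [Nat.eq_of_beq_eq_true h]; simp; ring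

/-- add the carry plane `c` to `x :: xs` -/
def inc1 (xs : List ℕ) : ℕ → ℕ → List ℕ :=
  List.rec (fun x c => fin2 (Nat.xor x c) (Nat.land x (Nat.xor x c)))
    (fun y _ ih x c => Nat.xor x c :: ih y (Nat.land x c)) xs
theorem inc1_spec (xs : List ℕ) (x c p : ℕ) :
    inc1 xs x c ≠ [] ∧ vz (inc1 xs x c) p = vz (x :: xs) p + bzi (c.testBit p) := by
  induction xs generalizing x c with
  | nil =>
    refine ⟨fin2_ne _ _, (vz_fin2 _ _ _).trans ?_⟩
    simp only [tb_xor, tb_and, vz_one]
    cases x.testBit p <;> cases c.testBit p <;> simp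
  | cons y t ih =>
    refine ⟨List.cons_ne_nil _ _, (vz_cons _ (ih _ _).1 p).trans ?_⟩
    rw [(ih _ _).2]
    simp only [tb_xor, tb_and, vz_cons2]
    cases x.testBit p <;> cases c.testBit p <;> simp <;> ring

def maj (x y c : ℕ) : ℕ := Nat.lor (Nat.land x y) (Nat.land c (Nat.xor x y))
def add1 (s : ℕ) (ys : List ℕ) : ℕ → ℕ → List ℕ :=
  List.rec (fun y c => fin2 (Nat.xor (Nat.xor s y) c)
      (Nat.lor (Nat.land s y) (Nat.land (Nat.xor s y) (Nat.xor (Nat.xor s y) c))))
    (fun z _ ih y c => Nat.xor (Nat.xor s y) c :: ih z (maj s y c)) ys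
theorem add1_spec (s : ℕ) (ys : List ℕ) (y c p : ℕ) :
    add1 s ys y c ≠ [] ∧ vz (add1 s ys y c) p = vz [s] p + vz (y :: ys) p + bzi (c.testBit p) := by
  induction ys generalizing y c with
  | nil =>
    refine ⟨fin2_ne _ _, (vz_fin2 _ _ _).trans ?_⟩
    simp only [tb_xor, tb_and, tb_or, vz_one]
    cases s.testBit p <;> cases y.testBit p <;> cases c.testBit p <;> simp
  | cons z t ih =>
    refine ⟨List.cons_ne_nil _ _, (vz_cons _ (ih _ _).1 p).trans ?_⟩
    rw [(ih _ _).2]
    simp only [maj, tb_xor, tb_and, tb_or, vz_cons2, vz_one]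
    cases s.testBit p <;> cases y.testBit p <;> cases c.testBit p <;> simp <;> ring
def add2 (xs : List ℕ) : ℕ → ℕ → List ℕ → ℕ → List ℕ :=
  List.rec (fun x y ys c => add1 x ys y c)
    (fun z _ ih x y ys c => Nat.xor (Nat.xor x y) c ::
      List.rec (ih z y [] (maj x y c)) (fun w ws _ => ih z w ws (maj x y c)) ys) xs
theorem add2_spec (xs : List ℕ) (x y : ℕ) (ys : List ℕ) (c p : ℕ) : add2 xs x y ys c ≠ [] ∧
    vz (add2 xs x y ys c) p = vz (x :: xs) p + vz (y :: ys) p + bzi (c.testBit p) := by
  induction xs generalizing x y ys c with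
  | nil => exact add1_spec _ _ _ _ _
  | cons z t ih =>
    refine ⟨List.cons_ne_nil _ _, ?_⟩
    cases ys with
    | nil =>
      refine (vz_cons _ (ih z y [] (maj x y c)).1 p).trans ?_
      rw [(ih _ _ _ _).2]
      simp only [maj, tb_xor, tb_and, tb_or, vz_cons2, vz_one]
      cases x.testBit p <;> cases y.testBit p <;> cases c.testBit p <;> simp <;> ring
    | cons w ws =>
      refine (vz_cons _ (ih z w ws (maj x y c)).1 p).trans ?_
      rw [(ih _ _ _ _).2]
      simp only [maj, tb_xor, tb_and, tb_or, vz_cons2]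
      cases x.testBit p <;> cases y.testBit p <;> cases c.testBit p <;> simp <;> ring

/-- sum of two vectors -/
def addP (xs ys : List ℕ) : List ℕ :=
  List.rec ys (fun x t _ => List.rec (x :: t) (fun y u _ => add2 t x y u 0) ys) xs
theorem vz_addP (xs ys : List ℕ) (p : ℕ) : vz (addP xs ys) p = vz xs p + vz ys p := by
  cases xs with
  | nil => simp [addP]
  | cons x t => cases ys with
    | nil => simp [addP]
    | cons y u => exact (add2_spec t x y u 0 p).2.trans (by simp)

/-- negation on the addresses in `m` -/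
def negP (m : ℕ) (xs : List ℕ) : List ℕ :=
  List.rec [] (fun x t _ => inc1 (lmap (Nat.xor m) t) (Nat.xor m x) m) xs
theorem vz_negP (m : ℕ) (xs : List ℕ) (p : ℕ) :
    vz (negP m xs) p = if m.testBit p then -vz xs p else vz xs p := by
  cases xs with
  | nil => simp [negP]
  | cons x t =>
    refine (inc1_spec _ _ _ p).2.trans ?_
    change vz (lmap (Nat.xor m) (x :: t)) p + _ = _
    cases h : m.testBit p
    · rw [vz_map _ _ p p (by simp [h])]; simp
    · rw [vz_map_not _ (by simp) p (by simp [h])]; simp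

def sel (m a b : ℕ) : ℕ := Nat.xor b (Nat.land (Nat.xor b a) m)
theorem tb_sel (m a b p : ℕ) : (sel m a b).testBit p = if m.testBit p then a.testBit p else b.testBit p := by
  simp only [sel, tb_xor, tb_and]
  cases m.testBit p <;> cases a.testBit p <;> cases b.testBit p <;> rfl
def dbl1 (m : ℕ) (xs : List ℕ) : ℕ → ℕ → List ℕ :=
  List.rec (fun x c => fin2 (sel m c x) x) (fun y _ ih x c => sel m c x :: ih y x) xs
theorem dbl1_spec (m : ℕ) (xs : List ℕ) (x c p : ℕ) : dbl1 m xs x c ≠ [] ∧ vz (dbl1 m xs x c) p =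
    if m.testBit p then bzi (c.testBit p) + 2 * vz (x :: xs) p else vz (x :: xs) p := by
  induction xs generalizing x c with
  | nil =>
    refine ⟨fin2_ne _ _, (vz_fin2 _ _ _).trans ?_⟩
    rw [tb_sel]; cases m.testBit p <;> simp <;> ring
  | cons y t ih =>
    refine ⟨List.cons_ne_nil _ _, (vz_cons _ (ih _ _).1 p).trans ?_⟩
    rw [(ih _ _).2, tb_sel]; cases m.testBit p <;> simp
/-- doubling on the addresses in `m` -/
def dblP (m : ℕ) (xs : List ℕ) : List ℕ := List.rec [] (fun x t _ => dbl1 m t x 0) xs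
theorem vz_dblP (m : ℕ) (xs : List ℕ) (p : ℕ) :
    vz (dblP m xs) p = if m.testBit p then 2 * vz xs p else vz xs p := by
  cases xs with
  | nil => simp [dblP]
  | cons x t => exact (dbl1_spec m t x 0 p).2.trans (by simp)

def trim1 (xs : List ℕ) : ℕ → List ℕ :=
  List.rec (fun x => [x]) (fun y _ ih x =>
    List.rec [x] (fun z u _ => List.rec (fin2 x z) (fun _ _ _ => x :: z :: u) u) (ih y)) xs
theorem trim1_spec (xs : List ℕ) (x p : ℕ) : trim1 xs x ≠ [] ∧ vz (trim1 xs x) p = vz (x :: xs) p := by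
  induction xs generalizing x with
  | nil => exact ⟨List.cons_ne_nil _ _, rfl⟩
  | cons y t ih =>
    obtain ⟨h1, h2⟩ := ih y
    change (List.rec [x] (fun z u _ => List.rec (fin2 x z) (fun _ _ _ => x :: z :: u) u) (trim1 t y) :
      List ℕ) ≠ [] ∧ vz (List.rec [x] (fun z u _ => List.rec (fin2 x z) (fun _ _ _ => x :: z :: u) u)
        (trim1 t y)) p = _
    rw [vz_cons2, ← h2]
    generalize trim1 t y = l at h1
    rcases l with _ | ⟨z, _ | ⟨w, u⟩⟩
    · exact absurd rfl h1
    · exact ⟨fin2_ne _ _, (vz_fin2 _ _ _).trans (by simp; ring)⟩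
    · exact ⟨List.cons_ne_nil _ _, rfl⟩
/-- remove superfluous sign planes -/
def trimP (xs : List ℕ) : List ℕ := List.rec [] (fun x t _ => trim1 t x) xs
theorem vz_trimP (xs : List ℕ) (p : ℕ) : vz (trimP xs) p = vz xs p := by
  cases xs with
  | nil => rfl
  | cons x t => exact (trim1_spec t x p).2

/-- equality test of lists -/
def eqL (xs : List ℕ) : List ℕ → Bool :=
  List.rec (fun ys => List.rec true (fun _ _ _ => false) ys)
    (fun x _ ih ys => List.rec false (fun y u _ => cnd (Nat.beq x y) (ih u) false) ys) xs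
theorem eqL_spec {xs ys : List ℕ} (h : eqL xs ys = true) : xs = ys := by
  induction xs generalizing ys with
  | nil => cases ys with
    | nil => rfl
    | cons _ _ => exact absurd h Bool.false_ne_true
  | cons x t ih => cases ys with
    | nil => exact absurd h Bool.false_ne_true
    | cons y u =>
      change cnd (Nat.beq x y) (eqL t u) false = true at h
      cases e : Nat.beq x y
      · rw [e] at h; exact absurd h Bool.false_ne_true
      · rw [e] at h; rw [Nat.eq_of_beq_eq_true e, ih h]

/-- natural number with binary digits read from the planes -/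
def vn (xs : List ℕ) (p : ℕ) : ℕ := List.rec 0 (fun x _ ih => (x.testBit p).toNat + 2 * ih) xs
@[simp] theorem vn_nil (p : ℕ) : vn [] p = 0 := rfl
@[simp] theorem vn_cons (x : ℕ) (t : List ℕ) (p : ℕ) : vn (x :: t) p = (x.testBit p).toNat + 2 * vn t p := rfl
theorem vn_map (f : ℕ → ℕ) (xs : List ℕ) (p q : ℕ) (h : ∀ x ∈ xs, (f x).testBit p = x.testBit q) :
    vn (lmap f xs) p = vn xs q := by
  rw [lmap_eq]
  induction xs with
  | nil => rfl
  | cons x t ih =>
    simp only [List.map_cons, vn_cons]
    rw [h x (by simp), ih fun y hy => h y (by simp [hy])]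

def ones (n : ℕ) : ℕ := Nat.sub (Nat.shiftLeft 1 n) 1
@[simp] theorem tb_ones (n p : ℕ) : (ones n).testBit p = decide (p < n) := by
  change (1 <<< n - 1).testBit p = _
  rw [Nat.one_shiftLeft, Nat.testBit_two_pow_sub_one]

end Cfsg.Agent.Mo
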