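import Cfsg.Agent.Mo.FiT

/-! Checks for the Fischer group. -/

set_option Elab.async false

namespace Cfsg.Agent.Mo.Fi

theorem u3 : fK wW sU2 [] sU3 = true := by decide +kernel
theorem u4 : fK wW sU3 [] uS = true := by decide +kernel
theorem a3 : fK wW sA2 [] sA3 = true := by decide +kernel
theorem a4 : fK wW sA3 [] (axS 127 true) = true := by decide +kernel
theorem gU : (goodC sU1 && goodC sU2 && goodC sU3) = true := by decide +kernel
theorem ip2 : ipR 2 = true := by decide +kernel
theorem ip8 : ipR 8 = true := by decide +kernel

end Cfsg.Agent.Mo.Fi
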