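import Cfsg.Agent.Mo.FiT

/-! Checks for the Fischer group. -/

set_option Elab.async false

namespace Cfsg.Agent.Mo.Fi

theorem br1 : brK 1 5 = true := by decide +kernel
theorem br6 : brK 6 5 = true := by decide +kernel
theorem br7 : brK 7 4 = true := by decide +kernel
theorem gF : gK sF Gf 3 = true := by decide +kernel
theorem gG : gK sG Gg 9 = true := by decide +kernel
theorem ip3 : ipR 3 = true := by decide +kernel
theorem ip6 : ipR 6 = true := by decide +kernel
theorem ip7 : ipR 7 = true := by decide +kernel

end Cfsg.Agent.Mo.Fi
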