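import Cfsg.Agent.Mo.FiT

/-! Checks for the Fischer group. -/

set_option Elab.async false

namespace Cfsg.Agent.Mo.Fi

theorem zK : agr FT 2 (cw w0) (nw 11) = true := by decide +kernel
theorem r2K : fK [] (SA 11) wU (SA 3) = true := by decide +kernel
theorem ip4 : ipR 4 = true := by decide +kernel
theorem ip5 : ipR 5 = true := by decide +kernel

end Cfsg.Agent.Mo.Fi
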