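import Cfsg.Agent.Mo.Fin

/-! A simplicity criterion from the centraliser of the central involution; embedding into the
baby monster. -/

set_option autoImplicit false

namespace Cfsg.Agent.Mo

open H5 H5.Lee MulAction

variable {τ : GG} {β γ γ' Ω : Λ} {e e' η : Bool}

theorem eq_zz_of_cl {x : Λ} {f : Bool} (h0 : cl x = 0) (h1 : xq x f ≠ 1) : xq x f = zz := by
  rw [xq_cl (h0.trans cl_zero.symm)] at h1 ⊢
  cases f
  exacts [absurd xq_zero h1, rfl]

theorem simple_of_loc (h : Hyp τ β γ γ' Ω e e' η) {T : Subgroup GG} (hT : T ≤ GM τ) (hz : zz ∈ T)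
    (hτ : τ ∈ T)
    (nd : ∀ (x : Λ) (f : Bool), xq x f ∈ T → cl x ≠ 0 →
      ∃ y : Λ, xq y false ∈ T ∧ dotInt (y : V) (x : V) / 8 % 2 = 1)
    (f7 : ∀ p : Ht, rho p ∈ T → (∀ x : Λ, xq x false ∈ T → cl (p.1.1 • x) = cl x) → rho p ∈ QQ)
    (gen : ∀ N : Subgroup GG, N ≤ T → (∀ k ∈ T, ∀ n ∈ N, k * n * k⁻¹ ∈ N) → zz ∈ N → T ⊓ HH ≤ N) :
    IsSimpleGroup T := by
  haveI := h.finite
  haveI : Finite T := Finite.of_injective _ (Subgroup.inclusion_injective hT)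
  let z : T := ⟨zz, hz⟩
  have hz1 : z ≠ 1 := fun e => zz_ne1 (congrArg Subtype.val e)
  haveI : Nontrivial T := ⟨⟨z, 1, hz1⟩⟩
  refine ⟨fun N hN => or_iff_not_imp_left.2 fun h0 => ?_⟩
  have hN' : ∀ k ∈ T, ∀ n ∈ N.map T.subtype, k * n * k⁻¹ ∈ N.map T.subtype := by
    rintro k hk _ ⟨n, hn, rfl⟩
    exact ⟨_, hN.conj_mem n hn ⟨k, hk⟩, rfl⟩
  have hle : N.map T.subtype ≤ T := Subgroup.map_subtype_le N
  have hm : ∀ n : T, n.1 ∈ N.map T.subtype → n ∈ N := by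
    rintro n ⟨m, hm, e1⟩
    rwa [← show m = n from Subtype.ext e1]
  generalize hM : N.map T.subtype = M at hN' hle hm
  have hq : ∀ (x : Λ) (f : Bool), xq x f ∈ M → cl x ≠ 0 → zz ∈ M := fun x f hx h1 => by
    obtain ⟨y, a1, a2⟩ := nd x f (hle hx) h1
    have := hN' _ a1 _ hx
    rw [xq_comm_odd a2] at this
    exact (M.mul_mem_cancel_right hx).1 this
  have hzM : zz ∈ M := by
    by_contra hzM
    refine h0 (eq_bot_of_fpf (z := z) (τ := ⟨τ, hτ⟩) (Subtype.ext zz_sq)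
      (Subtype.ext (by
        change τ * (τ * zz * τ⁻¹) * τ⁻¹ = zz * (τ * zz * τ⁻¹)
        rw [h.tz, h.tx])) fun n hn hc => ?_)
    by_contra a1
    have a2 : n.1 ∈ M := hM ▸ ⟨n, hn, rfl⟩
    have a3 : n.1 ≠ 1 := fun a => a1 (Subtype.ext a)
    obtain ⟨p, hp⟩ := h.memH (hT n.2) (congrArg Subtype.val hc)
    rw [← hp] at a2 a3
    by_cases a4 : ∀ x : Λ, xq x false ∈ T → cl (p.1.1 • x) = cl x
    · obtain ⟨x, f, a5⟩ := f7 p (hle a2) a4
      rw [a5] at a2 a3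
      by_cases a6 : cl x = 0
      · exact hzM (eq_zz_of_cl a6 a3 ▸ a2)
      · exact hzM (hq x f a2 a6)
    · obtain ⟨x, a5⟩ := not_forall.1 a4
      obtain ⟨a5, a6⟩ := Classical.not_imp.1 a5
      obtain ⟨f, hf⟩ := exists_xq_inv x false
      obtain ⟨f', hf'⟩ := conj_xq p x f
      obtain ⟨g, hg⟩ := ex_xq_mul x (p.1.1 • x) false f'
      have b5 := M.mul_mem (hN' _ a5 _ a2) (M.inv_mem a2)
      rw [hf, mul_assoc (xq x false), mul_assoc (xq x false), hf', hg] at b5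
      refine hzM (hq _ g b5 fun a7 => a6 ?_)
      rw [cl_add, Nat.xor_eq_zero_iff] at a7
      exact a7.symm
  have hH := gen M hle hN' hzM
  have hC : ∀ k : T, k * z = z * k → k ∈ N := fun k hk =>
    hm k (hH ⟨k.2, h.memH (hT k.2) (congrArg Subtype.val hk)⟩)
  haveI : Fact (Nat.Prime 2) := ⟨Nat.prime_two⟩
  obtain ⟨P, hP⟩ := ((IsPGroup.of_card card_QQ).comap_subtype (K := T)).exists_le_sylow
  have hzP : z ∈ (P : Subgroup T) := hP (xq_mem 0 true)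
  have key : ∀ w : T, w ≠ 1 → (∀ u ∈ (P : Subgroup T), w * u = u * w) → w = z := fun w h1 h2 => by
    obtain ⟨p, hp⟩ := h.memH (hT w.2) (congrArg Subtype.val (h2 z hzP))
    have h3 : ∀ y : Λ, xq y false ∈ T → rho p * xq y false = xq y false * rho p := fun y hy => by
      rw [hp]; exact congrArg Subtype.val (h2 ⟨_, hy⟩ (hP (xq_mem y false)))
    obtain ⟨x, f, a5⟩ := f7 p (hp ▸ w.2) fun x hx => by
      obtain ⟨f, hf⟩ := conj_xq p x false
      rw [h3 x hx, mul_inv_cancel_right, xq_eq_iff] at hf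
      exact hf.1.symm
    have a3 : xq x f ≠ 1 := fun a => h1 (Subtype.ext (by rw [← hp, a5, a]; rfl))
    by_cases a6 : cl x = 0
    · exact Subtype.ext (by rw [← hp, a5, eq_zz_of_cl a6 a3])
    · obtain ⟨y, a1, a2⟩ := nd x f (a5 ▸ hp ▸ w.2) a6
      have := h3 y a1
      rw [a5] at this
      have := even_of_comm this.symm
      omega
  haveI : Nontrivial (P : Subgroup T) := ⟨⟨⟨z, hzP⟩, 1, fun e => hz1 (congrArg Subtype.val e)⟩⟩
  haveI := P.isPGroup'.center_nontrivial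
  obtain ⟨w, hw⟩ := exists_ne (1 : Subgroup.center (P : Subgroup T))
  have hc : ∀ u ∈ (P : Subgroup T), z * u = u * z := fun u hu => by
    have a1 : ∀ u ∈ (P : Subgroup T), w.1.1 * u = u * w.1.1 := fun u hu =>
      congrArg Subtype.val (Subgroup.mem_center_iff.1 w.2 ⟨u, hu⟩).symm
    rw [← key _ (fun a => hw (Subtype.ext (Subtype.ext a))) a1]
    exact a1 u hu
  have h1 := P.normalizer_sup_eq_top' (N := N) fun u hu => hC u (hc u hu).symm
  rw [← h1]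
  refine (sup_eq_right.2 fun g hg => hC g ?_).symm
  rw [← mul_inv_eq_iff_eq_mul]
  refine key _ (by simpa using hz1) fun u hu => ?_
  have a1 : g⁻¹ * u * g⁻¹⁻¹ ∈ (P : Subgroup T) :=
    (Subgroup.mem_normalizer_iff.1 (inv_mem hg) u).1 hu
  have a2 := hc _ a1
  calc _ = g * (z * (g⁻¹ * u * g⁻¹⁻¹)) * g⁻¹ := by group
    _ = _ := by rw [a2]; group

theorem Hyp.smul_iff (h : Hyp τ β γ γ' Ω e e' η) {a : VV} {t g : GG} (ha : Inv τ β a t)
    (hg : g ∈ GM τ) : g • a = a ↔ g * t = t * g := by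
  rw [h.inv_iff (ha.smul hg) ha, mul_inv_eq_iff_eq_mul]

theorem mem_T_iff (h : Hyp τ β γ γ' Ω e e' η) {a1 a2 : VV} {t1 t2 : GG} (h1 : Inv τ β a1 t1)
    (h2 : Inv τ β a2 t2) (g : GG) : g ∈ GM τ ⊓ stabilizer GG a1 ⊓ stabilizer GG a2 ↔
      g ∈ GM τ ∧ g * t1 = t1 * g ∧ g * t2 = t2 * g :=
  ⟨fun ⟨⟨a, b⟩, c⟩ => ⟨a, (h.smul_iff h1 a).1 b, (h.smul_iff h2 a).1 c⟩,
    fun ⟨a, b, c⟩ => ⟨⟨a, (h.smul_iff h1 a).2 b⟩, (h.smul_iff h2 a).2 c⟩⟩

theorem embed_B (h : Hyp τ β γ γ' Ω e e' η) {a : VV} {t : GG} (ha : Inv τ β a t) {T : Subgroup GG}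
    (hT : T ≤ GM τ ⊓ stabilizer GG a) [IsSimpleGroup T] (h2 : 2 < Nat.card T) :
    ∃ K : Subgroup (KK τ β ⧸ Subgroup.center (KK τ β)), Nonempty (T ≃* K) := by
  obtain ⟨g, hg, rfl, -⟩ := ha
  have hm : ∀ k : T, g⁻¹ * k * g ∈ KK τ β := fun k =>
    ⟨(GM τ).mul_mem ((GM τ).mul_mem ((GM τ).inv_mem hg) (hT k.2).1) hg, by
      change (g⁻¹ * k * g) • _ = _
      rw [mul_smul, mul_smul, show k.1 • g • ax β false = g • ax β false from (hT k.2).2, inv_smul_smul]⟩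
  let ψ : T →* KK τ β :=
    { toFun := fun k => ⟨_, hm k⟩
      map_one' := Subtype.ext (by simp)
      map_mul' := fun a b => Subtype.ext (by simp [mul_assoc]) }
  have hψ : Function.Injective ψ := fun a b e1 => by
    have : g⁻¹ * a * g = g⁻¹ * b * g := congrArg Subtype.val e1
    exact Subtype.ext (by simpa using this)
  let φ := (QuotientGroup.mk' (Subgroup.center (KK τ β))).comp ψ
  refine ⟨φ.range, ⟨MonoidHom.ofInjective ?_⟩⟩
  rw [← MonoidHom.ker_eq_bot_iff]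
  refine (IsSimpleGroup.eq_bot_or_eq_top_of_normal _ inferInstance).resolve_right fun a => ?_
  haveI := h.finiteK
  have := Nat.card_le_card_of_injective (α := T) (β := Subgroup.center (KK τ β))
    (fun k => ⟨ψ k, (QuotientGroup.eq_one_iff _).1 (show k ∈ φ.ker from a ▸ Subgroup.mem_top _)⟩)
    fun k l e1 => hψ (congrArg Subtype.val e1)
  rw [h.cover.2.2.1] at this
  omega

end Cfsg.Agent.Mo
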