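import Cfsg.Agent.Mo.Cnt
import Cfsg.Agent.Mo.LcS

/-! Pairs of axes of types 3C and 5A fixed by `zz` and `tau`. -/

set_option autoImplicit false

namespace Cfsg.Agent.Mo

open H4 H5 H5.Lee MulAction

def t31 : List ℕ := [36, 38, 38, 41, 39, 36, 38, 37, 37, 36, 41, 36, 12, 14, 16]
def t32 : List ℕ := [39, 41, 37, 37, 38, 40, 37, 37, 38, 15, 22]
def t51 : List ℕ := [36, 38, 38, 41, 39, 36, 38, 37, 37, 36, 41, 36, 12, 14, 16]
def t52 : List ℕ := [39, 37, 41, 36, 37, 41, 40, 38, 41, 15, 17, 19, 22]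

theorem Inv.sq {τ : GG} {β γ γ' Ω : Λ} {e e' η : Bool} {a : VV} {t : GG} (h : Inv τ β a t)
    (H : Hyp τ β γ γ' Ω e e' η) : t * t = 1 := by
  obtain ⟨g, -, -, rfl⟩ := h
  calc _ = g * (xq β false * xq β false) * g⁻¹ := by group
    _ = 1 := by rw [xq_sq H.hβ]; group

namespace La

def h1 : List ℕ := [67, 37, 36, 68, 36, 62, 45, 47, 44, 37, 25, 30, 31, 34, 4, 6, 10, 16, 21, 22, 23]
def h3 : List ℕ := [26, 43, 45, 68, 44, 68, 36, 64, 67, 55, 37, 55, 27, 29, 30, 31, 33, 35, 0, 1, 2, 3,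
  5, 10, 11, 13, 14, 17, 18, 19, 21, 22, 23]
def h5 : List ℕ := [34, 47, 60, 34, 68, 61, 68, 40, 58, 67, 53, 62, 50, 25, 26, 28, 29, 30, 31, 33, 0,
  2, 3, 6, 8, 10, 11, 12, 13, 14, 15, 17, 19]

theorem q576 : VM.testBit 576 = true ∧ cp 576 = 1 := by decide +kernel

theorem inv_of {τ : GG} {β γ γ' Ω : Λ} {e e' η : Bool} (H : Hyp τ β γ γ' Ω e e' η) (hτ : τ = tau)
    {h t : List ℕ} (a : eqW (appL h t) (25 :: h) = true) :
    Inv τ β (rho (wd h) • tau • ax (rq 576) false) (rho (wd t)) := by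
  subst hτ
  have e1 := ((H.inv_ax (rq_mem q576.1) false).smul tau_mem).smul (HH_le_GM (rho_mem (wd h)))
  have e2 := eqW_spec a
  have e5 := K2.th_conj true
  rw [K2.appL_eq, wd_append, wd, map_mul, map_mul] at e2
  rw [show rho (wd [cnd true 25 0]) = rho (hT 25) by simp [wd], show K2.th true = tau from rfl] at e5
  rwa [xq_cl ((cl_rq q576.1).trans (q576.2.trans (cl_ug (k := 0) (by norm_num)).symm)), e5, ← e2,
    mul_inv_cancel_right] at e1

/-- the tests on words -/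
noncomputable def wC (t1 t2 h : List ℕ) (n : ℕ) : Bool :=
  cnd (eqW (appL h1 t1) (25 :: h1)) (cnd (eqW (appL (appL h h1) t2) (25 :: appL h h1))
    (cnd (eqW (K2.rpt (appL t2 t1) n) []) (cnd (neW t1 t2) (okW h) false) false) false) false
/-- the test on vectors -/
noncomputable def vC (h : List ℕ) (c : ℤ) : Bool :=
  K2.ipE (K2.thB true (appW h (K2.thA true (axS 576 false)))) 576 false c

theorem axes (H : dat.OK) {t1 t2 h : List ℕ} {n : ℕ} {c : ℤ} (a : wC t1 t2 h n = true)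
    (b : vC h c = true) : ∃ a1 a2, Inv tau (rq 1) a1 (rho (wd t1)) ∧ Inv tau (rq 1) a2 (rho (wd t2)) ∧
      ip a1 a2 = c / 8 ∧ (rho (wd t1) * rho (wd t2)) ^ n = 1 ∧ rho (wd t1) ≠ rho (wd t2) := by
  simp only [wC, cnd_false_iff] at a
  obtain ⟨a1, a2, a3, a4, a5⟩ := a
  have Hy := H.hyp2.hyp
  refine ⟨_, _, inv_of Hy rfl a1, inv_of Hy rfl a2, ?_, ?_, neW_spec a4⟩
  · have e1 := (K2.ipE_iff (K2.rp_thB true ((K2.rp_thA true (axS_spec q576.1 false)).appW a5))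
      q576.1 false c).1 b
    rw [K2.appL_eq, wd_append, map_mul, mul_smul, Hy.ip_smul (HH_le_GM (rho_mem _)), ← e1,
      ← Hy.ip_smul tau_mem (ax (rq 576) false), show K2.th true = tau from rfl, smul_inv_smul]
  · have e4 := eqW_spec a3
    rwa [K2.wd_rpt, K2.appL_eq, wd_append, map_pow, map_mul, show wd [] = 1 from rfl, map_one] at e4

theorem w3 : wC t31 t32 h3 3 = true := by decide +kernel
theorem w5 : wC t51 t52 h5 5 = true := by decide +kernel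
theorem v3 : vC h3 4 = true := by decide +kernel
theorem v5 : vC h5 6 = true := by decide +kernel

theorem al : ∀ t ∈ [t31, t32, t51, t52], okA t = true ∧ alW t = t := by decide +kernel

end La

theorem th_axes (H : dat.OK) : ∃ a1 a2, Inv tau (rq 1) a1 (rho (wd t31)) ∧
    Inv tau (rq 1) a2 (rho (wd t32)) ∧ ip a1 a2 = 1 / 2 ∧ (rho (wd t31) * rho (wd t32)) ^ 3 = 1 ∧
    rho (wd t31) ≠ rho (wd t32) := by
  obtain ⟨a1, a2, b1, b2, b3, b4⟩ := La.axes H La.w3 La.v3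
  exact ⟨a1, a2, b1, b2, b3.trans (by norm_num), b4⟩

theorem hn_axes (H : dat.OK) : ∃ a1 a2, Inv tau (rq 1) a1 (rho (wd t51)) ∧
    Inv tau (rq 1) a2 (rho (wd t52)) ∧ ip a1 a2 = 3 / 4 ∧ (rho (wd t51) * rho (wd t52)) ^ 5 = 1 ∧
    rho (wd t51) ≠ rho (wd t52) := by
  obtain ⟨a1, a2, b1, b2, b3, b4⟩ := La.axes H La.w5 La.v5
  exact ⟨a1, a2, b1, b2, b3.trans (by norm_num), b4⟩

/-- `tau` commutes with the four involutions -/
theorem tau_t {t : List ℕ} (h : t ∈ [t31, t32, t51, t52]) : tau * rho (wd t) = rho (wd t) * tau := by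
  have := tau_alW (La.al t h).1
  rwa [(La.al t h).2] at this

theorem zz_t (t : List ℕ) : zz * rho (wd t) = rho (wd t) * zz := (zz_comm' (rho_mem _)).symm

/-- `T` is the centraliser of the two words -/
def IsCT (t1 t2 : List ℕ) (T : Subgroup GG) : Prop := ∀ g, g ∈ T ↔ g ∈ GM tau ∧
  g * rho (wd t1) = rho (wd t1) * g ∧ g * rho (wd t2) = rho (wd t2) * g

noncomputable def CT (t1 t2 : List ℕ) : Subgroup GG :=
  GM tau ⊓ Subgroup.centralizer {rho (wd t1), rho (wd t2)}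
theorem isCT (t1 t2 : List ℕ) : IsCT t1 t2 (CT t1 t2) := fun g => by
  simp only [CT, Subgroup.mem_inf, Subgroup.mem_centralizer_iff, Set.mem_insert_iff,
    Set.mem_singleton_iff, forall_eq_or_imp, forall_eq]
  exact and_congr_right fun _ => and_congr eq_comm eq_comm

theorem IsCT.le {t1 t2 : List ℕ} {T : Subgroup GG} (h : IsCT t1 t2 T) : T ≤ GM tau :=
  fun g hg => ((h g).1 hg).1
theorem IsCT.zz {t1 t2 : List ℕ} {T : Subgroup GG} (h : IsCT t1 t2 T) : zz ∈ T :=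
  (h _).2 ⟨HH_le_GM zz_mem_HH, zz_t _, zz_t _⟩
theorem IsCT.tau3 {T : Subgroup GG} (h : IsCT t31 t32 T) : tau ∈ T :=
  (h _).2 ⟨tau_mem, tau_t (by simp), tau_t (by simp)⟩
theorem IsCT.tau5 {T : Subgroup GG} (h : IsCT t51 t52 T) : tau ∈ T :=
  (h _).2 ⟨tau_mem, tau_t (by simp), tau_t (by simp)⟩
theorem IsCT.eq (H : dat.OK) {t1 t2 : List ℕ} {T : Subgroup GG} (h : IsCT t1 t2 T) {a1 a2 : VV}
    (h1 : Inv tau (rq 1) a1 (rho (wd t1))) (h2 : Inv tau (rq 1) a2 (rho (wd t2))) :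
    T = GM tau ⊓ stabilizer GG a1 ⊓ stabilizer GG a2 :=
  Subgroup.ext fun g => (h g).trans (mem_T_iff H.hyp2.hyp h1 h2 g).symm

theorem IsCT.card3 (H : dat.OK) {T : Subgroup GG} (h : IsCT t31 t32 T) :
    Nat.card T = 90745943887872000 := by
  obtain ⟨a1, a2, b1, b2, b3, b4, -⟩ := th_axes H
  rw [h.eq H b1 b2]
  exact ordTh H b1 b2 b3 b4
theorem IsCT.card5 (H : dat.OK) {T : Subgroup GG} (h : IsCT t51 t52 T) :
    Nat.card T = 273030912000000 := by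
  obtain ⟨a1, a2, b1, b2, b3, -⟩ := hn_axes H
  rw [h.eq H b1 b2]
  exact ordHN H b1 b2 b3

theorem order_t3 (H : dat.OK) : orderOf (rho (wd t31) * rho (wd t32)) = 3 := by
  obtain ⟨a1, a2, b1, b2, -, b4, b5⟩ := th_axes H
  haveI : Fact (Nat.Prime 3) := ⟨Nat.prime_three⟩
  exact orderOf_eq_prime b4 fun a => b5 ((eq_inv_of_mul_eq_one_left a).trans
    (inv_eq_of_mul_eq_one_right (b2.sq H.hyp2.hyp)))
theorem order_t5 (H : dat.OK) : orderOf (rho (wd t51) * rho (wd t52)) = 5 := by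
  obtain ⟨a1, a2, b1, b2, -, b4, b5⟩ := hn_axes H
  haveI : Fact (Nat.Prime 5) := ⟨Nat.prime_five⟩
  exact orderOf_eq_prime b4 fun a => b5 ((eq_inv_of_mul_eq_one_left a).trans
    (inv_eq_of_mul_eq_one_right (b2.sq H.hyp2.hyp)))

theorem th_in_B (H : dat.OK) {T : Subgroup GG} (h : IsCT t31 t32 T) (hs : IsSimpleGroup T) :
    ∃ K : Subgroup (KK tau (rq 1) ⧸ Subgroup.center (KK tau (rq 1))), IsTh K := by
  obtain ⟨a1, a2, b1, b2, -⟩ := th_axes H
  obtain ⟨K, ⟨f⟩⟩ := embed_B H.hyp2.hyp b1 (T := T) ((h.eq H b1 b2).le.trans inf_le_left)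
    (by rw [h.card3 H]; norm_num)
  exact ⟨K, simple_congr f ⟨hs, h.card3 H⟩⟩
theorem hn_in_B (H : dat.OK) {T : Subgroup GG} (h : IsCT t51 t52 T) (hs : IsSimpleGroup T) :
    ∃ K : Subgroup (KK tau (rq 1) ⧸ Subgroup.center (KK tau (rq 1))), IsHN K := by
  obtain ⟨a1, a2, b1, b2, -⟩ := hn_axes H
  obtain ⟨K, ⟨f⟩⟩ := embed_B H.hyp2.hyp b1 (T := T) ((h.eq H b1 b2).le.trans inf_le_left)
    (by rw [h.card5 H]; norm_num)
  exact ⟨K, simple_congr f ⟨hs, h.card5 H⟩⟩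

end Cfsg.Agent.Mo
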