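import Cfsg.Agent.Mo.FiC0
import Cfsg.Agent.Mo.FiC1
import Cfsg.Agent.Mo.FiC2
import Cfsg.Agent.Mo.FiC3
import Cfsg.Agent.Mo.LcA
import Cfsg.Agent.H4.CoxR
import Cfsg.Agent.H4.F2BS
import Cfsg.Agent.H4.Y23S

/-! The Fischer group `Fi₂₃` in the baby monster. -/

set_option autoImplicit false
set_option maxRecDepth 100000

namespace Cfsg.Agent.Mo

open H4 H4.TC H4.Cx H5 H5.Lee MulAction

namespace Fi

theorem ord_aux (H : dat.OK) {a1 a2 : VV} {t1 t2 : GG} (h1 : Inv tau (rq 1) a1 t1)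
    (h2 : Inv tau (rq 1) a2 t2) {n : ℤ} {c0 : Fin 9} (hc : ∀ c, Ct.al c = n → c = c0) {x : Cn}
    (hx : x ∈ dat.CN) (e : dat.wc c0 = x.vec dat.v) (h : ip a1 a2 = n / 8) : (t1 * t2) ^ x.n = 1 := by
  obtain ⟨g, hg, rfl, rfl⟩ := h1
  obtain ⟨k, hk, c, a, b⟩ := H.hyp2.canon (Ct.XX_smul (inv_mem hg) h2.mem)
  have k1 : k ∈ KK tau (rq 1) := H.hyp2.K0_le hk
  rw [Ct.ip_inv H hg, h, (Ct.valK H c).1] at b
  obtain rfl := hc c (Int.cast_injective (α := ℝ) (by linarith))
  obtain ⟨-, -, g', g1, g2, -, g4⟩ := cnC_spec H.rp (H.cn x hx)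
  have i1 := (h2.smul (inv_mem hg)).smul k1.1
  rw [a, e] at i1
  rw [← (H.hyp2.hyp.inv_iff i1 ⟨g', g1, g2, rfl⟩).1 rfl] at g4
  have c1 := H.hyp2.hyp.conjK k1
  generalize xq (rq 1) false = t at *
  rwa [show t * (k * (g⁻¹ * t2 * g⁻¹⁻¹) * k⁻¹) = (k * g⁻¹) * (g * t * g⁻¹ * t2) * (k * g⁻¹)⁻¹ by
    conv_lhs => rw [← c1]
    group, conj_pow, conj_eq_one_iff] at g4

/-- the state `SA c` holds the axis of `lt c` -/
def Ax (c : ℕ) : Prop := ∃ v, Rp (SA c) v ∧ Inv tau (rq 1) v (lt c)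

variable (H : dat.OK)
include H

theorem ax_s {c : ℕ} (h : shOK c = true) : Inv tau (rq 1) (aV c) (gw fl (sw c)) :=
  (sh_spec h).2.2.1 ▸ H.hyp2.hyp.inv_ax (sh_spec h).1 _
theorem ax_y {c : ℕ} (h : shOK c = true) (h1 : okA (sw c) = true) (h2 : okW (nw c) = true)
    (h3 : alW (sw c) = nw c) : ∃ v, Rp (yS c) v ∧ Inv tau (rq 1) v (gw fl (nw c)) := by
  refine ⟨_, tau_impl.app (sh_spec h).2.1, ?_⟩
  have := (ax_s H h).smul tau_mem
  rwa [(sh_spec h).2.2.1, ← (sh_spec h).2.2.2, tau_alW h1, mul_inv_cancel_right, h3, ← gw_wd h2] at this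
omit H in
theorem ax_x {c n : ℕ} (h : ∃ v, Rp (yS n) v ∧ Inv tau (rq 1) v (gw fl (nw n)))
    (h1 : inH (cw [c, n, c]) = true ∧ inH (cw [n, c, n]) = true) (h2 : brK c n = true) :
    ∃ v, Rp (xS c n) v ∧ Inv tau (rq 1) v (gw fl (nw c)) := by
  obtain ⟨v, r, i⟩ := h
  refine ⟨_, r.runW fl_ok _, ?_⟩
  have e := eqH h1.1 h1.2 h2
  simp only [cw, appL_app, gw_append, gw, mul_one] at e
  have := i.smul (gw_GM (nw c ++ nw n))
  rw [gw_append] at this ⊢
  rwa [mul_assoc (gw fl (nw n)), ← e, mul_inv_cancel_right] at this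
theorem ax_g {S G : List ℕ} {c : ℕ} (h : shOK c = true) (h1 : gK S G c = true) :
    ∃ v, Rp S v ∧ Inv tau (rq 1) v ((gw fl G)⁻¹ * gw fl (sw c) * gw fl G) := by
  obtain ⟨a, b⟩ := Bool.and_eq_true_iff.1 h1
  refine ⟨_, goodC_spec a, ?_⟩
  have := (ax_s H h).smul (inv_mem (gw_GM G))
  have e : gw fl G • inc (val S) = aV c :=
    ((goodC_spec a).runW fl_ok G).eq ((eqL_spec b).symm ▸ (sh_spec h).2.1)
  rwa [inv_inv, ← e, inv_smul_smul] at this
theorem ax_all {c : ℕ} (h1 : 1 ≤ c) (h2 : c ≤ 12) : Ax c := by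
  have s := sh_ok
  simp only [List.forall_mem_cons] at s
  obtain ⟨s2, s3, s4, s5, s8, s9, s10, s11, s12, -⟩ := s
  have y4 := ax_y H s4 (by decide) (by decide) (by decide)
  have y5 := ax_y H s5 (by decide) (by decide) (by decide)
  interval_cases c
  exacts [ax_x y5 (by decide) br1, ax_y H s2 (by decide) (by decide) (by decide), ax_g H s3 gF, y4, y5,
    ax_x y5 (by decide) br6, ax_x y4 (by decide) br7, ax_y H s8 (by decide) (by decide) (by decide),
    ax_g H s9 gG, ⟨_, (sh_spec s10).2.1, ax_s H s10⟩, ax_y H s11 (by decide) (by decide) (by decide),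
    ⟨_, (sh_spec s12).2.1, ax_s H s12⟩]
theorem lt_sq (c : ℕ) : lt c * lt c = 1 := by
  by_cases h : 1 ≤ c ∧ c ≤ 12
  · obtain ⟨v, -, i⟩ := ax_all H h.1 h.2
    exact i.sq H.hyp2.hyp
  · rw [lt, if_neg (by omega), if_neg (by omega)]
    rcases c with _ | c
    · exact mul_one _
    · rw [nw, List.getD_eq_default _ _ (by simp; omega)]; exact mul_one _
theorem pair {a b : ℕ} (h1 : 1 ≤ a) (h2 : a < b) (h3 : b ≤ 10 ∨ (a ≤ 10 ∧ b = 12)) :
    (lt a * lt b) ^ (if br a b then 3 else 2) = 1 := by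
  have e : ipR a = true := by
    have : a ≤ 10 := by omega
    interval_cases a
    exacts [ip1, ip2, ip3, ip4, ip5, ip6, ip7, ip8, ip9, ip10]
  have := allL_iff.1 e b (by simp; omega)
  rw [ble_f (by omega), cnd_false] at this
  obtain ⟨u, r, i⟩ := ax_all H h1 (by omega)
  obtain ⟨w, r', i'⟩ := ax_all H (c := b) (by omega) (by omega)
  have := ipK_spec this r r'
  cases h : br a b <;> rw [h] at this
  · exact ord_aux H i i' (c0 := 3) (by decide) (List.mem_of_getElem? (i := 2) rfl) rfl this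
  · exact ord_aux H i i' (c0 := 8) (by decide) (List.mem_of_getElem? (i := 7) rfl) rfl this
theorem cox : ∀ a < 16, ∀ b < 16, (lt a * lt b) ^ fld Y23.Mx 4 15 (a + 16 * b) = 1 := by
  have e : ∀ a < 16, ∀ b < 16, fld Y23.Mx 4 15 (a + 16 * b) = 0 ∨ (a = b ∧ fld Y23.Mx 4 15 (a + 16 * b) = 1) ∨
      (1 ≤ a ∧ a < b ∧ b ≤ 10 ∧ fld Y23.Mx 4 15 (a + 16 * b) = if br a b then 3 else 2) ∨
      (1 ≤ b ∧ b < a ∧ a ≤ 10 ∧ fld Y23.Mx 4 15 (a + 16 * b) = if br b a then 3 else 2) := by decide +kernel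
  intro a ha b hb
  rcases e a ha b hb with h | ⟨rfl, h⟩ | ⟨h1, h2, h3, h⟩ | ⟨h1, h2, h3, h⟩ <;> rw [h]
  · exact pow_zero _
  · rw [pow_one, lt_sq H]
  · exact pair H h1 h2 (Or.inl h3)
  · rw [show lt a * lt b = (lt b * lt a)⁻¹ by
      rw [mul_inv_rev, inv_eq_of_mul_eq_one_left (lt_sq H a), inv_eq_of_mul_eq_one_left (lt_sq H b)],
      inv_pow, pair H h1 h2 (Or.inl h3), inv_one]
omit H in
theorem lt_GM (c : ℕ) : lt c ∈ GM tau := by
  unfold lt
  split_ifs
  exacts [mul_mem (mul_mem (inv_mem (gw_GM _)) (gw_GM _)) (gw_GM _),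
    mul_mem (mul_mem (inv_mem (gw_GM _)) (gw_GM _)) (gw_GM _), gw_GM _]
theorem le_K : Gk lt 10 ≤ GM tau ⊓ stabilizer GG (aV 12) := Gk_le fun c hc => ⟨lt_GM c, by
  rcases Nat.eq_zero_or_pos c with rfl | h
  · exact one_mem _
  · have := pair H (b := 12) h (by omega) (Or.inr ⟨hc, rfl⟩)
    rw [show br c 12 = false by interval_cases c <;> rfl, if_neg (by decide), pow_two,
      mul_eq_one_iff_eq_inv, mul_inv_rev, inv_eq_of_mul_eq_one_left (lt_sq H c),
      inv_eq_of_mul_eq_one_left (lt_sq H 12)] at this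
    exact (H.hyp2.hyp.smul_iff (ax_s H (sh_ok 12 (by decide))) (lt_GM c)).2 this⟩
theorem spider : (lt 3 * (wW.map lt).prod) ^ 4 = 1 := by
  have k : ∀ {S0 S1 S2 S3 : List ℕ} {v : VV}, Rp S0 v → (goodC S1 && goodC S2 && goodC S3) = true →
      fK wW S0 [] S1 = true → fK wW S1 [] S2 = true → fK wW S2 [] S3 = true → fK wW S3 [] S0 = true →
      (lt 3 * (wW.map lt).prod) ^ 4 • v = v := fun r g a b c d => by
    simp only [Bool.and_eq_true] at g
    have a := fK_spec a (by decide) (by decide) r (goodC_spec g.1.1)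
    have b := fK_spec b (by decide) (by decide) (goodC_spec g.1.1) (goodC_spec g.1.2)
    have c := fK_spec c (by decide) (by decide) (goodC_spec g.1.2) (goodC_spec g.2)
    have d := fK_spec d (by decide) (by decide) (goodC_spec g.2) r
    simp only [List.map_nil, List.prod_nil, one_smul] at a b c d
    generalize lt 3 * (wW.map lt).prod = y at *
    simp only [pow_succ, pow_zero, one_mul, mul_smul, a, b, c, d]
  have m : (lt 3 * (wW.map lt).prod) ^ 4 ∈ GM tau ⊓ stabilizer GG (aV 12) :=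
    le_K H (pow_mem (mul_mem (mem_Gk (by decide)) (list_prod_mem fun x hx => by
      obtain ⟨c, hc, rfl⟩ := List.mem_map.1 hx
      exact mem_Gk ((by decide : ∀ c ∈ wW, c < 10 + 1) c hc))) 4)
  have v : VM.testBit 127 = true := by decide +kernel
  exact fix_u0 (mem_HH_of_fix (GM_le_Aut m.1) (rq_mem v) m.2 (k (axS_spec v true) gA a1 a2 a3 a4))
    (k rp_uS gU u1 u2 u3 u4)
theorem rel : Y23.Rel lt := by
  have q := lt_sq H
  refine ⟨rfl, q, cox H, ?_, ?_⟩
  · have e : red Y23.Mx 100433627766186892221372630692728335115484528615203543187456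
        ((List.replicate 10 [1, 5, 6, 1, 2, 3, 1, 4, 7]).flatten ++
          ([4] ++ (List.replicate 4 (3 :: wW)).flatten ++ [4].reverse ++
          ([5, 1, 2, 3] ++ (List.replicate 4 (3 :: wW)).flatten ++ [5, 1, 2, 3].reverse))) = [] := by
      decide +kernel
    have := congrArg (fun l => (l.map lt).prod) e
    simp only [prod_red q (cox H), List.map_append, List.prod_append, prod_rep, prod_rev q] at this
    rwa [List.map_cons (a := 3), List.prod_cons, spider H, mul_one, mul_one, mul_inv_cancel, mul_inv_cancel,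
      mul_one, mul_one] at this
  · have e : red Y23.Mx 85070591730234615856620279821087277056
        ((List.replicate 9 [8, 6, 5, 1, 2, 3, 4]).flatten ++
          (w0 ++ ([3] ++ (wU ++ [3] ++ wU.reverse) ++ [3])).reverse) = [] := by decide +kernel
    have := congrArg (fun l => (l.map lt).prod) e
    simp only [prod_red q (cox H), List.map_append, List.prod_append, prod_rep, prod_rev q] at this
    obtain ⟨u, r, i⟩ := ax_all H (c := 11) (by decide) (by decide)
    obtain ⟨w, r', i'⟩ := ax_all H (c := 3) (by decide) (by decide)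
    have e1 := fK_spec r2K (by decide) (by decide) r r'
    rw [List.map_nil, List.prod_nil, mul_one] at e1
    have e2 := (H.hyp2.hyp.inv_iff (i.smul (lt_GM 3)) (i'.smul (g := (wU.map lt).prod) (by
      rw [← gw_cw (by decide)]; exact gw_GM _))).1 e1
    have e3 : (w0.map lt).prod = lt 11 := (gw_cw (by decide)).symm.trans (eqH (by decide) (by decide) zK)
    simp only [List.map_singleton, List.prod_singleton] at this
    rwa [← e2, e3, show lt 3 * (lt 3 * lt 11 * (lt 3)⁻¹) * lt 3 = lt 3 * lt 3 * lt 11 by group, q,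
      one_mul, q, inv_one, mul_one] at this

omit H in
theorem prod_pr {A B : Type*} [Group A] [Group B] (a : ℕ → A) (b : ℕ → B) (w : List ℕ) :
    (w.map fun c => (a c, b c)).prod = ((w.map a).prod, (w.map b).prod) := by
  induction w with
  | nil => rfl
  | cons c w ih => rw [List.map_cons, List.prod_cons, ih]; rfl
omit H in
theorem isFi_of {A B : Type*} [Group A] [Group B] {a : ℕ → A} {b : ℕ → B} (ha : Y23.Rel a)
    (hb : Y23.Rel b) {R : Subgroup B} (hR : ∀ S : Subgroup B, (∀ c < 11, b c ∈ S) → R ≤ S)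
    (h : IsFi23 R) (h1 : a 10 ≠ 1) : IsFi23 (Gk a 10) := by
  have hP := Y23.bd10 (lt := fun c => (a c, b c)) ⟨Prod.ext ha.zero hb.zero,
    fun c => Prod.ext (ha.sq c) (hb.sq c), fun x hx y hy => Prod.ext (ha.cox x hx y hy) (hb.cox x hx y hy),
    by rw [prod_pr]; exact Prod.ext ha.r1 hb.r1, by rw [prod_pr]; exact Prod.ext ha.r2 hb.r2⟩
  obtain ⟨e, -⟩ := pair_iso hP (hR _ fun c hc => Subgroup.mem_map_of_mem (MonoidHom.snd A B)
    (mem_Gk (lt := fun c => (a c, b c)) hc)) h.2 h.1 (mem_Gk (c := 10) (by decide)) h1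
  have e1 : (Gk (fun c => (a c, b c)) 10).map (MonoidHom.fst A B) = Gk a 10 := map_Gk _ 10
  rw [← e1]
  exact simple_congr e.symm h
theorem isFi : IsFi23 (Gk lt 10) :=
  have s := sh_spec (sh_ok 10 (by decide))
  isFi_of (rel H) F23.relL (fun _ => F23.rG_le) ⟨F23.simpleG, F23.cardG⟩
    fun e => xq_ne_one (short_ne_zero s.1) _ (s.2.2.1.symm.trans e)

end Fi

theorem fi23_B (H : dat.OK) :
    ∃ K : Subgroup (KK tau (rq 1) ⧸ Subgroup.center (KK tau (rq 1))), IsFi23 K := by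
  have := (Fi.isFi H).1
  obtain ⟨K, ⟨f⟩⟩ := embed_B H.hyp2.hyp (Fi.ax_s H (Fi.sh_ok 12 (by decide))) (Fi.le_K H)
    (by rw [(Fi.isFi H).2]; norm_num)
  exact ⟨K, simple_congr f (Fi.isFi H)⟩

end Cfsg.Agent.Mo
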