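import Cfsg.Agent.Mo.FiT

/-! Checks for the Fischer group. -/

set_option Elab.async false

namespace Cfsg.Agent.Mo.Fi

theorem u1 : fK wW uS [] sU1 = true := by decide +kernel
theorem u2 : fK wW sU1 [] sU2 = true := by decide +kernel
theorem a1 : fK wW (axS 127 true) [] sA1 = true := by decide +kernel
theorem a2 : fK wW sA1 [] sA2 = true := by decide +kernel
theorem gA : (goodC sA1 && goodC sA2 && goodC sA3) = true := by decide +kernel
theorem ip1 : ipR 1 = true := by decide +kernel
theorem ip9 : ipR 9 = true := by decide +kernel
theorem ip10 : ipR 10 = true := by decide +kernel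

end Cfsg.Agent.Mo.Fi
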