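import Cfsg.Agent.Mo.Idw
import Cfsg.Agent.Mo.Cnt1
import Cfsg.Agent.Mo.FiD0
import Cfsg.Agent.Mo.FiD1
import Cfsg.Agent.Mo.FiD2
import Cfsg.Agent.Mo.FiD3

/-! Ten involutions generating the Fischer group: programs, axes and checkers. -/

set_option autoImplicit false

namespace Cfsg.Agent.Mo.Fi

open H4 H5 H5.Lee

noncomputable def en (g : Gen) : Prog × ℕ := (mkP g, g.e)
noncomputable def e71 : Prog × ℕ := en g71
noncomputable def e72 : Prog × ℕ := en g72
noncomputable def e73 : Prog × ℕ := en g73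
noncomputable def e74 : Prog × ℕ := en g74
noncomputable def e75 : Prog × ℕ := en g75
noncomputable def e76 : Prog × ℕ := en g76
noncomputable def FT : Tbl := stdT [e71, e72, e73, e74, e75, e76]

theorem en_spec {g : Gen} (h : g.ok = true) {a : ℕ} (ha : 71 ≤ a) : ∃ k, Impl k (en g).1 (en g).2 ∧
    (a < 71 → k = stdG a) ∧ (71 ≤ a → k ∈ HH) := by
  obtain ⟨p, hp, -⟩ := Gen.spec h
  exact ⟨_, hp, fun b => absurd b (by omega), fun _ => rho_mem' p⟩
theorem exists_fl : ∃ gl, TOK gl FT ∧ ∀ a, (a < 71 → gl a = stdG a) ∧ (71 ≤ a → gl a ∈ HH) := by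
  have e : FT = stdT [] ++ [e71, e72, e73, e74, e75, e76] := by simp [FT, stdT]
  have l : (stdT []).length = 71 := by simp [stdT]
  refine exists_gl (Q := fun a g => (a < 71 → g = stdG a) ∧ (71 ≤ a → g ∈ HH)) (fun a ha => ?_)
    fun a ha => ?_
  · rw [e, List.length_append, l] at ha
    exact ⟨fun b => absurd b (by omega), fun _ => one_mem _⟩
  rw [e, List.length_append, l] at ha
  rw [e]
  rcases lt_or_ge a 71 with h | h
  · rw [List.getD_append _ _ _ _ (l ▸ h)]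
    exact ⟨_, stdG_ok a, fun _ => rfl, fun b => absurd b (by omega)⟩
  · rw [List.getD_append_right _ _ _ _ (l ▸ h), l]
    change a < 77 at ha
    interval_cases a
    exacts [en_spec g71_ok h, en_spec g72_ok h, en_spec g73_ok h, en_spec g74_ok h, en_spec g75_ok h,
      en_spec g76_ok h]
noncomputable def fl : ℕ → GG := exists_fl.choose
theorem fl_ok : TOK fl FT := exists_fl.choose_spec.1
theorem fl_HH {a : ℕ} (h : a ≠ 69) (h' : a ≠ 70) : fl a ∈ HH := by
  rcases lt_or_ge a 71 with b | b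
  · rw [fl, (exists_fl.choose_spec.2 a).1 b, stdG, if_pos (by omega)]; exact rho_mem' _
  · exact (exists_fl.choose_spec.2 a).2 b
theorem fl_mem (a : ℕ) : fl a ∈ GM tau := by
  rcases lt_or_ge a 71 with b | b
  · rw [fl, (exists_fl.choose_spec.2 a).1 b]; exact stdG_mem a
  · exact HH_le_GM ((exists_fl.choose_spec.2 a).2 b)
theorem gw_GM (w : List ℕ) : gw fl w ∈ GM tau := gw_mem fun a _ => fl_mem a
theorem gw_wd {w : List ℕ} (h : okW w = true) : gw fl w = rho (wd w) := by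
  induction w with
  | nil => exact (map_one rho).symm
  | cons a w ih =>
    obtain ⟨h1, h2⟩ := okW_cons.1 h
    rw [gw, ih h2, wd, map_mul, fl, (exists_fl.choose_spec.2 a).1 (by omega), stdG, if_pos h1]
def inH (w : List ℕ) : Bool := w.all fun a => a != 69 && a != 70
theorem gw_HH {w : List ℕ} (h : inH w = true) : gw fl w ∈ HH := gw_mem fun a ha => by
  have := List.all_eq_true.1 h a ha
  simp only [Bool.and_eq_true, bne_iff_ne] at this
  exact fl_HH this.1 this.2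
theorem eqH {w w' : List ℕ} (h : inH w = true) (h' : inH w' = true) (a : agr FT 2 w w' = true) :
    gw fl w = gw fl w' := eq_of_tvecH (gw_HH h) (gw_HH h') (agr_spec fl_ok a)

/-! ### words for short elements -/

def qc : List ℕ → ℕ
  | [] => 0
  | a :: w => qc w ^^^ 2 ^ a
def qok : List ℕ → Bool
  | [] => true
  | a :: w => qok w && decide (a < 24 ∧ (12 ≤ a ∨ qc w < 4096))
theorem q_spec {w : List ℕ} (h : qok w = true) : ∃ x, cl x = qc w ∧ rho (wd w) = xq x false := by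
  induction w with
  | nil => exact ⟨0, cl_zero, by rw [wd, map_one, xq_zero]⟩
  | cons a w ih =>
    simp only [qok, Bool.and_eq_true, decide_eq_true_eq] at h
    obtain ⟨x, a1, a2⟩ := ih h.1
    refine ⟨x + ug a, by rw [cl_add, a1, cl_ug h.2.1, qc], ?_⟩
    rw [wd, map_mul, a2, hT_q h.2.1]
    rcases h.2.2 with b | b
    · exact Ct.xq_ug b h.2.1 x
    · exact xq_mul (by rw [a1, Nat.div_eq_of_lt b, sg_zero, sgn_false]; ring)
def sh (c : ℕ) : ℕ × Bool × List ℕ := [(0, false, []), (0, false, []),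
  (17135, true, [12, 13, 14, 16, 17, 18, 19, 22, 8]),
  (2762, true, [12, 13, 15, 16, 22, 1, 3, 6, 7, 9, 11]), (811, true, [12, 15, 16, 18, 19, 20, 2]),
  (4250, false, [12, 13, 15, 16, 20, 21, 22, 23, 5]), (0, false, []), (0, false, []),
  (1621, false, [12, 13, 15, 17, 18, 20, 21, 22, 23, 0, 1, 4]), (22481, false, [14, 17, 18, 22, 7, 8]),
  (129, false, [13, 16, 18, 19, 22]), (66866, false, [12, 17, 19, 20, 0, 1, 2, 5, 6, 7, 8, 9, 10]),
  (127, false, [12, 13, 15, 19, 21])].getD c (0, false, [])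
def sw (c : ℕ) : List ℕ := cnd (sh c).2.1 (24 :: (sh c).2.2) (sh c).2.2
noncomputable def shOK (c : ℕ) : Bool :=
  VM.testBit (sh c).1 && qok (sh c).2.2 && okW (sw c) && Nat.beq (cp (sh c).1) (qc (sh c).2.2)
noncomputable def aS (c : ℕ) : List ℕ := axS (sh c).1 (sh c).2.1
noncomputable def aV (c : ℕ) : VV := ax (rq (sh c).1) (sh c).2.1
theorem sh_spec {c : ℕ} (h : shOK c = true) : rq (sh c).1 ∈ L2 ∧ Rp (aS c) (aV c) ∧
    gw fl (sw c) = xq (rq (sh c).1) (sh c).2.1 ∧ rho (wd (sw c)) = xq (rq (sh c).1) (sh c).2.1 := by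
  simp only [shOK, Bool.and_eq_true, Nat.beq_eq] at h
  obtain ⟨⟨⟨h1, h2⟩, h3⟩, h4⟩ := h
  obtain ⟨x, a1, a2⟩ := q_spec h2
  rw [xq_cl (a1.trans ((cl_rq h1).trans h4).symm)] at a2
  rw [gw_wd h3, and_self]
  refine ⟨rq_mem h1, axS_spec h1 _, ?_⟩
  unfold sw
  cases (sh c).2.1
  · exact a2
  · rw [cnd_true, wd, map_mul, a2, hT_z, zz_comm' (xq_mem_HH _ _), zz_mul_xq]; rfl
theorem sh_ok : ∀ c ∈ [2, 3, 4, 5, 8, 9, 10, 11, 12], shOK c = true := by decide +kernel

/-! ### the involutions `d e f h c b i a g j` (1-10), an auxiliary one (11), the central one (12) -/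

def nw (c : ℕ) : List ℕ := [[], [71], [23, 12, 13, 14, 16, 17, 18, 19, 22, 33], [],
  [23, 12, 15, 16, 18, 19, 20, 27], [12, 13, 15, 16, 20, 21, 22, 23, 24, 30], [72], [73],
  [12, 13, 15, 17, 18, 20, 21, 22, 23, 24, 25, 26, 29], [], [13, 16, 18, 19, 22],
  [12, 17, 19, 20, 25, 26, 27, 30, 31, 32, 33, 34, 35], [12, 13, 15, 19, 21]].getD c []
def Gf : List ℕ := [70, 74, 75, 76, 70]
def Gg : List ℕ := [38, 38, 26, 68, 69, 34, 26, 68, 44, 68, 69]
noncomputable def lt (c : ℕ) : GG :=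
  if c = 3 then (gw fl Gf)⁻¹ * gw fl (sw 3) * gw fl Gf
  else if c = 9 then (gw fl Gg)⁻¹ * gw fl (sw 9) * gw fl Gg else gw fl (nw c)
noncomputable def yS (c : ℕ) : List ℕ := app TP 3 (aS c)
noncomputable def xS (c n : ℕ) : List ℕ := runW FT (nw c ++ nw n) (yS n)
noncomputable def SA (c : ℕ) : List ℕ :=
  [[], xS 1 5, yS 2, sF, yS 4, yS 5, xS 6 5, xS 7 4, yS 8, sG, aS 10, yS 11, aS 12].getD c []
def cw (l : List ℕ) : List ℕ := List.rec [] (fun a _ ih => appL ih (nw a)) l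
theorem gw_cw {l : List ℕ} (h : ∀ a ∈ l, a ≠ 3 ∧ a ≠ 9) : gw fl (cw l) = (l.map lt).prod := by
  induction l with
  | nil => rfl
  | cons a l ih =>
    have := h a (by simp)
    rw [show cw (a :: l) = appL (cw l) (nw a) from rfl, appL_app, gw_append,
      ih fun b hb => h b (by simp [hb]), List.map_cons, List.prod_cons, lt, if_neg this.1, if_neg this.2]

noncomputable def ipK (a b : ℕ) (n : ℤ) : Bool := Ct.gaC2 (SA b) (SA a) n
theorem ipK_spec {a b : ℕ} {n : ℤ} (h : ipK a b n = true) {u w : VV} (r' : Rp (SA a) u)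
    (r : Rp (SA b) w) : ip u w = n / 8 := by
  rw [Ct.ipS_spec r' r, div_eq_div_iff (by positivity) (by norm_num)]
  have e : 8 * Ct.ipS (SA a) (SA b) = n * ((1 <<< ((SA a).headD 0 + (SA b).headD 0) : ℕ) : ℤ) :=
    of_decide_eq_true h
  rw [Nat.one_shiftLeft] at e
  have := congrArg (fun t : ℤ => (t : ℝ)) e
  push_cast at this
  linarith
def br (a b : ℕ) : Bool :=
  (a, b) ∈ [(1, 2), (2, 3), (1, 4), (1, 5), (5, 6), (4, 7), (6, 8), (3, 9), (9, 10)]
/-- all inner products with the later axes -/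
noncomputable def ipR (a : ℕ) : Bool := allL [2, 3, 4, 5, 6, 7, 8, 9, 10, 12] fun b =>
  cnd (Nat.ble b a) true (ipK a b (cnd (br a b) 13 32))
noncomputable def brK (c n : ℕ) : Bool := agr FT 2 (cw [c, n, c]) (cw [n, c, n])
noncomputable def gK (S G : List ℕ) (c : ℕ) : Bool := goodC S && eqL (runW FT G S) (aS c)
noncomputable def fK (w S w' S' : List ℕ) : Bool :=
  eqL (runW FT (appL (cw w) (appL Gf (sw 3))) S) (runW FT (appL (cw w') Gf) S')
theorem fK_spec {w S w' S' : List ℕ} (h : fK w S w' S' = true) (hw : ∀ a ∈ w, a ≠ 3 ∧ a ≠ 9)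
    (hw' : ∀ a ∈ w', a ≠ 3 ∧ a ≠ 9) {v v' : VV} (r : Rp S v) (r' : Rp S' v') :
    (lt 3 * (w.map lt).prod) • v = (w'.map lt).prod • v' := by
  have := (r.runW fl_ok _).eq (eqL_spec h ▸ r'.runW fl_ok _)
  simp only [appL_app, gw_append, gw_cw hw, gw_cw hw'] at this
  rw [lt, if_pos rfl, mul_assoc, mul_assoc, mul_smul, ← mul_assoc, this, mul_smul, inv_smul_smul]
def wW : List ℕ := [2, 1, 5, 7, 4, 6, 1, 5, 2, 1, 4]
def wU : List ℕ := [2, 1, 5, 6, 8, 4, 1, 5, 6, 2, 1, 5, 4, 1, 2]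
def w0 : List ℕ := [6, 8, 5, 6, 5, 1, 5, 4, 2, 1, 5, 6, 8, 5, 4, 2, 1, 5, 6, 5, 4, 2, 1, 5, 4, 2, 1, 5, 4, 2]

end Cfsg.Agent.Mo.Fi
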