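import Cfsg.Agent.Mo.Fin4

/-! From the computed facts to the statements. -/

set_option autoImplicit false

namespace Cfsg.Agent.Mo

open H5 H5.Lee MulAction

variable {τ : GG} {β γ γ' Ω : Λ} {e e' η : Bool}

theorem Hyp.card (h : Hyp τ β γ γ' Ω e e' η) :
    Nat.card (GM τ) = 808017424794512875886459904961710757005754368000000000 := h.card'
theorem Hyp.simple (h : Hyp τ β γ γ' Ω e e' η) : IsSimpleGroup (GM τ) := h.simple'

theorem orderOf_conj' {G : Type*} [Group G] (a b : G) : orderOf (a * b * a⁻¹) = orderOf b :=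
  (MulAut.conj a).orderOf_eq b

theorem simple_congr {A B : Type*} [Group A] [Group B] {n : ℕ} (f : A ≃* B)
    (h : IsSimpleGroup A ∧ Nat.card A = n) : IsSimpleGroup B ∧ Nat.card B = n :=
  haveI := h.1
  ⟨f.symm.isSimpleGroup, (Nat.card_congr f.toEquiv).symm.trans h.2⟩

theorem Hyp.s0465 (h : Hyp τ β γ γ' Ω e e' η) : ∃ (F : Type) (_ : Field F) (_ : Fintype F), CharP F 2 ∧ ∃ H : Subgroup (GL (Fin 4370) F), Cfsg.IsB H := by
  haveI := h.finiteK
  obtain ⟨U, φ, h1, h2⟩ := h.exists_repK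
  obtain ⟨H, ⟨f⟩⟩ := pad h1 (QuotientGroup.lift _ φ h2.ge)
    ((QuotientGroup.injective_lift_iff _ φ h2.ge).2 h2.symm)
  exact ⟨ZMod 2, inferInstance, inferInstance, inferInstance, H, simple_congr f h.cover.2.1⟩

theorem Hyp.index_s (h : Hyp τ β γ γ' Ω e e' η) : (Subgroup.centralizer
    {((⟨xq γ e, h.sK⟩ : KK τ β) : KK τ β ⧸ Subgroup.center (KK τ β))}).index = 13571955000 := by
  let π := QuotientGroup.mk' (Subgroup.center (KK τ β))
  let s : KK τ β := ⟨xq γ e, h.sK⟩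
  let C := (Subgroup.centralizer {π s}).comap π
  have hC : ∀ k : KK τ β, k ∈ C ↔ k • ax γ e = ax γ e ∨ k • ax γ e = ax γ' e' := fun k => by
    have a1 := (h.inv_ax h.hγ e).smul k.2.1
    rw [Subgroup.smul_def, h.inv_iff a1 (h.inv_ax h.hγ e), h.inv_iff a1 (h.inv_ax h.hγ' e'),
      Subgroup.mem_comap, Subgroup.mem_centralizer_singleton_iff, ← map_mul, ← map_mul,
      ← mul_inv_eq_one, ← map_inv, ← map_mul, QuotientGroup.mk'_apply, QuotientGroup.eq_one_iff,
      h.cover.1, ← h.tri]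
    have a2 : ∀ x : KK τ β, k * s * (s * k)⁻¹ = x ↔ (k : GG) * xq γ e * (k : GG)⁻¹ = x * xq γ e :=
      fun x => by
        rw [Subtype.ext_iff, mul_inv_rev, ← mul_assoc, Subgroup.coe_mul, Subgroup.coe_inv,
          mul_inv_eq_iff_eq_mul]
        rfl
    constructor
    · intro a3
      exact (mem_zpowers_two h.order_tt a3).imp (fun a => by simpa using (a2 _).1 a) (a2 _).1
    · rintro (a | a)
      · rw [(a2 1).2 (by simpa using a)]; exact one_mem _
      · rw [(a2 h.tt).2 a]; exact Subgroup.mem_zpowers _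
  have h1 := card_eq_orbit (⊤ : Subgroup (KK τ β)) (ax γ e)
  have h2 := card_eq_orbit C (ax γ e)
  have h3 : {w | ∃ g ∈ (⊤ : Subgroup (KK τ β)), g • ax γ e = w} =
      {w | ∃ g ∈ KK τ β, g • ax γ e = w} :=
    Set.ext fun w => ⟨fun ⟨g, _, e⟩ => ⟨g, g.2, e⟩, fun ⟨g, hg, e⟩ => ⟨⟨g, hg⟩, trivial, e⟩⟩
  have h4 : {w | ∃ g ∈ C, g • ax γ e = w} = {ax γ e, ax γ' e'} := by
    obtain ⟨k, hk, e1⟩ := h.exists_swap
    ext w
    constructor
    · rintro ⟨g, hg, rfl⟩; exact (hC g).1 hg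
    · rintro (rfl | rfl)
      exacts [⟨1, one_mem _, one_smul _ _⟩, ⟨⟨k, hk⟩, (hC _).2 (Or.inr e1), e1⟩]
  have h5 : ax γ e ≠ ax γ' e' := fun a => by
    have := (tri_facts h.hγ h.hγ' h.hβ h.tri'').1
    rw [← a, ip_ax_self h.hγ] at this
    norm_num at this
  rw [h3, h.orbitW, h.cardW, Subgroup.card_top, h.cardK, top_inf_eq] at h1
  rw [h4, Set.ncard_pair h5, inf_eq_right.2 fun k hk => (hC k).2 (Or.inl hk)] at h2
  have h6 := C.index_mul_card
  rw [h2, h.cardK, show Nat.card (stabilizer (KK τ β) (ax γ e)) = 306129918735099415756800 by omega,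
    Subgroup.index_comap_of_surjective _ (QuotientGroup.mk'_surjective _)] at h6
  change (Subgroup.centralizer {π s}).index = _
  omega

theorem Hyp.s0466 (h : Hyp τ β γ γ' Ω e e' η) : ∃ (G : Type) (_ : Group G) (_ : Finite G), Cfsg.IsB G ∧ ∃ D : Set G, (∃ d ∈ D, D = conjugatesOf d) ∧ Nat.card D = 13571955000 ∧ (∀ d ∈ D, orderOf d = 2) ∧ (∀ d ∈ D, ∀ e ∈ D, orderOf (d * e) ≤ 4) ∧ ∀ d ∈ D, Nat.card (Subgroup.centralizer ({d} : Set G)) = 306129918735099415756800 := by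
  haveI := h.finiteK
  let π := QuotientGroup.mk' (Subgroup.center (KK τ β))
  let s : KK τ β := ⟨xq γ e, h.sK⟩
  have h1 : Nat.card (conjugatesOf (π s)) = 13571955000 := (H4.card_conjugatesOf _).trans h.index_s
  have h2 : orderOf (π s) = 2 := orderOf_eq_prime (by
      rw [← map_pow, show s ^ 2 = 1 from Subtype.ext ((sq _).trans (xq_sq h.hγ e)), map_one]) fun a => by
    rw [QuotientGroup.mk'_apply, QuotientGroup.eq_one_iff, h.cover.1] at a
    rcases mem_zpowers_two h.order_tt a with a | a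
    · exact xq_ne_one (short_ne_zero h.hγ) e (congrArg Subtype.val a)
    · have := h.tri
      rw [show xq γ e = xq β false from congrArg Subtype.val a, xq_sq h.hβ] at this
      exact xq_ne_one (short_ne_zero h.hγ') e' this.symm
  refine ⟨_, inferInstance, inferInstance, h.cover.2.1, conjugatesOf (π s), ⟨_, IsConj.refl _, rfl⟩, h1,
    fun d hd => ?_, fun c hc d hd => ?_, fun d hd => ?_⟩
  · obtain ⟨a, rfl⟩ := isConj_iff.1 hd
    rw [orderOf_conj', h2]
  · obtain ⟨a, rfl⟩ := isConj_iff.1 hc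
    obtain ⟨b, rfl⟩ := isConj_iff.1 hd
    obtain ⟨k, hk⟩ := QuotientGroup.mk'_surjective _ (a⁻¹ * b)
    have a1 : a * π s * a⁻¹ * (b * π s * b⁻¹) = a * π (s * (k * s * k⁻¹)) * a⁻¹ := by
      rw [map_mul, map_mul, map_mul, map_inv, hk]; group
    have a2 : π h.tt = 1 := (QuotientGroup.eq_one_iff _).2 h.tt_center
    obtain ⟨n, b1, b2, b3⟩ := h.order4 k.2
    rw [a1, orderOf_conj']
    refine (orderOf_le_of_pow_eq_one b1 ?_).trans b2
    rcases b3 with b3 | b3
    · rw [← map_pow, show (s * (k * s * k⁻¹)) ^ n = 1 from Subtype.ext b3, map_one]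
    · have a3 := congrArg π (show (h.tt * (s * (k * s * k⁻¹))) ^ n = 1 from Subtype.ext b3)
      rwa [map_pow, map_mul, a2, one_mul, map_one] at a3
  · have a1 := (Subgroup.centralizer {d}).index_mul_card
    rw [← H4.card_conjugatesOf, ← IsConj.conjugatesOf_eq hd, h1, h.cover.2.1.2] at a1
    omega

theorem Hyp.s0467 (h : Hyp τ β γ γ' Ω e e' η) : ∃ H : Subgroup (GL (Fin 196883) ℝ), Cfsg.IsM H := by
  let W : Submodule ℝ VV := ℝ ∙ one0
  have h1 : GM τ ≤ stabilizer GG one0 := (Subgroup.closure_le _).2 (by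
    rintro _ (⟨p, rfl⟩ | rfl)
    exacts [rho_one0 p, h.t1])
  have h2 : ∀ g : GM τ, W ≤ W.comap (g.1 : Module.End ℝ VV) := fun g =>
    (Submodule.span_singleton_le_iff_mem _ _).2 (by
      rw [Submodule.mem_comap, show (g.1 : Module.End ℝ VV) one0 = one0 from h1 g.2]
      exact Submodule.mem_span_singleton_self _)
  let φ : GM τ →* Module.End ℝ (VV ⧸ W) :=
    { toFun := fun g => W.mapQ W _ (h2 g)
      map_one' := Submodule.mapQ_id _ _
      map_mul' := fun a b => Submodule.mapQ_comp _ _ _ _ _ _ _ }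
  have h3 : one0 ≠ 0 := fun a => one_ne_zero (α := Matrix ι ι ℝ) (congrArg (fun u : VV => u.1.1) a)
  have h4 := W.finrank_quotient_add_finrank
  rw [finrank_span_singleton h3] at h4
  have h5 := finrank_VV
  haveI := h.simple
  have h6 : Function.Injective φ := by
    rw [← MonoidHom.ker_eq_bot_iff]
    refine (IsSimpleGroup.eq_bot_or_eq_top_of_normal _ inferInstance).resolve_right fun a => ?_
    let u : VV := ⟨(0, 0, Matrix.of fun _ _ => 1), zero_mem _, zero_mem _, trivial⟩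
    have a1 : φ ⟨zz, HH_le_GM zz_mem_HH⟩ = 1 := (a ▸ Subgroup.mem_top _ : _ ∈ φ.ker)
    have a2 : (Submodule.Quotient.mk (zz • u) : VV ⧸ W) = Submodule.Quotient.mk u :=
      LinearMap.congr_fun a1 (Submodule.Quotient.mk u)
    obtain ⟨c, hc⟩ := Submodule.mem_span_singleton.1 ((Submodule.Quotient.eq W).1 a2)
    have a3 := congrArg (fun x : VV => x.1.2.2 none 0) hc
    simp only [Submodule.coe_sub, zz_smul, Submodule.coe_smul, one0, u] at a3
    norm_num at a3
  obtain ⟨H, ⟨f⟩⟩ := pad (n := 196883) (by omega) φ h6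
  exact ⟨H, simple_congr f ⟨h.simple, h.card⟩⟩

theorem Hyp.s0468 (h : Hyp τ β γ γ' Ω e e' η) : ∃ (G : Type) (_ : Group G) (_ : Finite G), Cfsg.IsM G ∧ ∃ D : Set G, (∃ d ∈ D, D = conjugatesOf d) ∧ Nat.card D = 97239461142009186000 ∧ (∀ d ∈ D, orderOf d = 2) ∧ (∀ d ∈ D, ∀ e ∈ D, orderOf (d * e) ≤ 6) ∧ ∀ d ∈ D, ∃ (K : Type) (_ : Group K), Cfsg.IsB K ∧ Cfsg.IsNonsplitDoubleCover (Subgroup.centralizer ({d} : Set G)) K := by
  haveI := h.finiteK
  let t : GM τ := ⟨xq β false, h.tK.1⟩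
  have h1 : Subgroup.centralizer {t} = (KK τ β).subgroupOf (GM τ) := H4.centralizer_sub _
    (le_antisymm (fun k hk => h.memK hk.1 (Subgroup.mem_centralizer_singleton_iff.1 hk.2))
      fun k hk => ⟨hk.1, Subgroup.mem_centralizer_singleton_iff.2 (h.commK hk)⟩)
  have f : KK τ β ≃* Subgroup.centralizer {t} :=
    (Subgroup.subgroupOfEquivOfLe inf_le_left).symm.trans (MulEquiv.subgroupCongr h1.symm)
  have h2 : orderOf t = 2 := orderOf_eq_prime (Subtype.ext ((sq _).trans (xq_sq h.hβ false))) fun e =>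
    xq_ne_one (short_ne_zero h.hβ) false (congrArg Subtype.val e)
  refine ⟨GM τ, inferInstance, h.finite, ⟨h.simple, h.card⟩, conjugatesOf t, ⟨_, IsConj.refl _, rfl⟩, ?_,
    fun d hd => ?_, fun c hc d hd => ?_, fun d hd => ?_⟩
  · have a1 := (Subgroup.centralizer {t}).index_mul_card
    rw [← H4.card_conjugatesOf, ← Nat.card_congr f.toEquiv, h.cardK, h.card] at a1
    omega
  · obtain ⟨a, rfl⟩ := isConj_iff.1 hd
    rw [orderOf_conj', h2]
  · obtain ⟨a, rfl⟩ := isConj_iff.1 hc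
    obtain ⟨b, rfl⟩ := isConj_iff.1 hd
    rcases (h.pair ⟨a, a.2, rfl, rfl⟩ ⟨b, b.2, rfl, rfl⟩).2 with ⟨n, b1, b2, b3⟩ | ⟨b3, -⟩
    · exact (orderOf_le_of_pow_eq_one b1 (Subtype.ext b3)).trans (by omega)
    · exact orderOf_le_of_pow_eq_one (by norm_num) (Subtype.ext b3)
  · obtain ⟨a, rfl⟩ := isConj_iff.1 hd
    obtain ⟨f'⟩ := H4.centralizer_conj_equiv a t
    exact ⟨_, inferInstance, h.cover.2.1, H4.nonsplit_congr (f.trans f') (MulEquiv.refl _) h.cover.2.2⟩

theorem Hyp.s0469 (h : Hyp τ β γ γ' Ω e e' η) : ∃ (G : Type) (_ : Group G) (_ : Finite G), Cfsg.IsM G ∧ ∃ z : G, orderOf z = 2 ∧ ∃ (Q : Subgroup (Subgroup.centralizer ({z} : Set G))) (_ : Q.Normal), Nat.card Q = 2 ^ 25 ∧ Cfsg.IsExtraspecial 2 Q ∧ Cfsg.IsCo1 ((Subgroup.centralizer ({z} : Set G)) ⧸ Q) := by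
  let z : GM τ := ⟨zz, HH_le_GM zz_mem_HH⟩
  have h1 : Subgroup.centralizer {z} = HH.subgroupOf (GM τ) := H4.centralizer_sub _
    (le_antisymm (fun k hk => h.memH hk.1 (Subgroup.mem_centralizer_singleton_iff.1 hk.2))
      fun k hk => ⟨HH_le_GM hk, Subgroup.mem_centralizer_singleton_iff.2 (zz_comm' hk)⟩)
  have f : HH ≃* Subgroup.centralizer {z} :=
    (Subgroup.subgroupOfEquivOfLe HH_le_GM).symm.trans (MulEquiv.subgroupCongr h1.symm)
  have f' : QQ ≃* (QQ.subgroupOf HH).map f.toMonoidHom := (Subgroup.subgroupOfEquivOfLe QQ_le).symm.trans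
    (Subgroup.equivMapOfInjective _ _ f.injective)
  haveI := normal_QQ.map f.toMonoidHom f.surjective
  obtain ⟨q⟩ := quot_HH
  have q' := (QuotientGroup.congr _ ((QQ.subgroupOf HH).map f.toMonoidHom) f rfl).symm.trans q
  exact ⟨GM τ, inferInstance, h.finite, ⟨h.simple, h.card⟩, z,
    orderOf_eq_prime (Subtype.ext ((sq _).trans zz_sq)) fun e => zz_ne1 (congrArg Subtype.val e),
    (QQ.subgroupOf HH).map f.toMonoidHom, inferInstance, (Nat.card_congr f'.toEquiv).symm.trans card_QQ,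
    extraspecial_congr f' extraspecial_QQ, simple_congr q'.symm isCo1⟩

end Cfsg.Agent.Mo
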