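import Cfsg.Agent.H5.LeeK

/-! The classes modulo 2 with even inner product with a short vector are generated by the short
vectors orthogonal to it. -/

set_option autoImplicit false

namespace Cfsg.Agent.Mo

open H5 H5.Lee Finset

def cL : List (ℕ × List ℕ) := [(2, [nat_lit 0x10005000200014000a000300020000c000800050002000100008000400020001000080004000200010000800050002800100008, nat_lit 0x1000400020001400080003000200010000a000400020000c0006000500018001400080004000200010000800040002000100008]),
  (5, [nat_lit 0x1000400030001000080004000200010000800040002000100008000400020001000080004000200010000c00040002000100008, nat_lit 0x1000400020000c0008000500020000c000800040002000100008000400018000c000800040002000100008000300020000c000a]),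
  (9, [nat_lit 0x1000400020001000080004000200010000800040001000100008000400020001000080004000200018000800040002000100008, nat_lit 0x10004000180010000800040002800100008000400020000c0008000400020001400080003000200010000600050002800100008]),
  (10, [nat_lit 0x1000380024000e000700048001c0012000700058001c001200090004800240012000700048001c000e0007000480024000e0009, nat_lit 0x1000400020001000080004000200010000800040002000100008000400020001000080004000200010000800060003000100008, nat_lit 0x100038002400120009000380024000a0009000480024000e0007000480024000e00090004800240012000900038001c000e0009]),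
  (15, [nat_lit 0x10004000180010000a000500020001400080004000200010000a0004000200010000800040002000100008000400028000c000a, nat_lit 0x100040002800100008000500018000c000a00050002000100008000400020001000080004000200010000a00040002800100008, nat_lit 0x1000400020001000060004000200010000a000300020000c000a000300020001000080005000280010000800040002000100008]),
  (17, [nat_lit 0x100040001800100008000400020000c0008000400020001400080003000200010000a0003000280010000800050002000100008]),
  (19, [nat_lit 0x1000400020001000080004000200010000800040002000100008000400010001000080004000200010000c00040002000100008, nat_lit 0x10004000200010000a0003000180010000600040002000100008000300020000c00080003000200010000a00040002000100008]),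
  (21, [nat_lit 0x10003000200010000800040001800100008000400020001000080003000280010000a0003000200010000a00050002000100008])]

theorem cL_chk : (∀ p ∈ cL, (∀ X ∈ p.2, (inL X = 0 ∧ dt X X = 2080) ∧ dt V0 X = 2048) ∧
    ∀ l < 24, ((p.2.map fun X => dt (ds l) X / 8).sum + (if l = p.1 then 1 else 0) +
      (if l = 1 then 1 else 0)) % 2 = 0) ∧
    (∀ k < 24, dt V0 (bs k) = 2048 ∨ k = 1 ∨
      ((dt V0 (bs k) = 2040 ∨ dt V0 (bs k) = 2056) ∧ ∃ p ∈ cL, p.1 = k)) ∧ dt V0 (bs 1) = 2040 := by
  decide +kernel

def T1c : ℕ := nat_lit 0x1000400020001000080004000200010000800040002000100008000400020001000080004000200010000800060003000100008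
def T2c : ℕ := nat_lit 0x1000400020001000080004000200010000800040002000100008000400020001000080004000200010000c00040001000100008
def T3c : ℕ := nat_lit 0x1000400020001000080004000200010000800040002000100008000400020001000080004000200010000c00060002000100008

theorem Tc_chk : ((inL T1c = 0 ∧ dt T1c T1c = 2080) ∧ dt V0 T1c = 2048) ∧
    ((inL T2c = 0 ∧ dt T2c T2c = 2080) ∧ dt V0 T2c = 2048) ∧
    ((inL T3c = 0 ∧ dt T3c T3c = 2080) ∧ dt V0 T3c = 2048) ∧ vec T1c + vec T2c = vec T3c := by
  decide +kernel

theorem bL_zero : bL 0 = v0 := by rw [bL, cd_chk.1, v0]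

/-- three short vectors orthogonal to `β` with `r + s = t` -/
theorem exists_tri {β : Λ} (hβ : β ∈ L2) : ∃ r ∈ L2, ∃ s ∈ L2, r + s ∈ L2 ∧
    dotInt (β : V) (r : V) = 0 ∧ dotInt (β : V) (s : V) = 0 := by
  obtain ⟨g, rfl⟩ := trans2 hβ
  obtain ⟨h1, h2, h3, h4⟩ := Tc_chk
  refine ⟨g • lv T1c, smul_mem_L2 g (mem_L2_of h1.1), g • lv T2c, smul_mem_L2 g (mem_L2_of h2.1),
    ?_, ?_, ?_⟩
  · rw [← smul_add']
    have : lv T1c + lv T2c = lv T3c := Subtype.ext (by
      rw [AddSubgroup.coe_add, lv_val h1.1.1, lv_val h2.1.1, lv_val h3.1.1, h4])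
    rw [this]; exact smul_mem_L2 g (mem_L2_of h3.1)
  · rw [dot_smul, bL_zero, v0, dot_lv hV0 h1.1.1, h1.2]; rfl
  · rw [dot_smul, bL_zero, v0, dot_lv hV0 h2.1.1, h2.2]; rfl

theorem mem_of_co {S : AddSubgroup Λ} (h2 : ∀ w : Λ, (2 : ℤ) • w ∈ S) {x : Λ}
    (h : ∀ l < 24, co l x % 2 = 0) : x ∈ S := by
  rw [← expand x]
  refine S.sum_mem fun k hk => ?_
  have : co k x = 2 * (co k x / 2) := by have := h k (mem_range.1 hk); omega
  rw [this, mul_smul]; exact h2 _

theorem co_lv {l X : ℕ} (hl : l < 24) (hX : inL X = 0) : co l (lv X) = (dt (ds l) X / 8 : ℕ) - 256 := by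
  have := co_mul l (lv X)
  rw [dd_val hl, lv_val hX, dt_vec (bs_chk l hl).2.2.2.1 (inL_spec hX).1] at this
  omega

theorem co_list {l : ℕ} (hl : l < 24) (L : List ℕ) (hL : ∀ X ∈ L, inL X = 0) :
    co l (L.map lv).sum % 2 = ((L.map fun X => dt (ds l) X / 8).sum : ℕ) % 2 := by
  induction L with
  | nil => simp
  | cons X L ih =>
    have := ih fun Y hY => hL Y (List.mem_cons_of_mem _ hY)
    rw [List.map_cons, List.sum_cons, map_add, co_lv hl (hL X List.mem_cons_self), List.map_cons,
      List.sum_cons]
    push_cast at this ⊢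
    omega

theorem dot_v0_bb {k : ℕ} (hk : k < 24) : dotInt (v0 : V) (bb k : V) = (dt V0 (bs k) : ℤ) - 2048 := by
  rw [v0, lv_val hV0, bb_val hk, dt_vec (inL_spec hV0).1 (bs_chk k hk).2.2.1]

theorem even_mem0 {S : AddSubgroup Λ} (h2 : ∀ w : Λ, (2 : ℤ) • w ∈ S)
    (hS : ∀ r ∈ L2, dotInt (v0 : V) (r : V) = 0 → r ∈ S) {x : Λ}
    (hx : dotInt (v0 : V) (x : V) / 8 % 2 = 0) : x ∈ S := by
  have key : ∀ x : Λ, x - (dotInt (v0 : V) (x : V) / 8) • bb 1 ∈ S := by
    refine basis_ind (by simp [dotInt]) (fun k hk => ?_) (fun x y hx hy => ?_) fun x hx => ?_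
    · rw [dot_v0_bb hk]
      rcases cL_chk.2.1 k hk with h | rfl | ⟨h, p, hp, rfl⟩
      · rw [h]
        simpa using hS _ (norm_bb hk) (by rw [dot_v0_bb hk, h]; rfl)
      · rw [cL_chk.2.2]
        convert h2 (bb 1) using 1
        norm_num
        rw [two_smul]
      · obtain ⟨h3, h4⟩ := cL_chk.1 p hp
        have hm : (p.2.map lv).sum ∈ S := list_sum_mem fun y hy => by
          obtain ⟨X, hX, rfl⟩ := List.mem_map.1 hy
          exact hS _ (mem_L2_of (h3 X hX).1) (by rw [v0, dot_lv hV0 (h3 X hX).1.1, (h3 X hX).2]; rfl)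
        refine (S.add_mem_cancel_right hm).1 (mem_of_co h2 fun l hl => ?_)
        have h5 := co_list hl p.2 fun X hX => (h3 X hX).1.1
        have h6 := h4 l hl
        rw [map_add, map_sub, map_zsmul, co_bb hl hk, co_bb hl (by norm_num)]
        rcases h with h | h <;> rw [h] <;> split_ifs at h6 ⊢ <;> simp only [smul_eq_mul] <;> omega
    · have := S.add_mem hx hy
      rw [AddSubgroup.coe_add, dot_add_right, Int.add_ediv_of_dvd_left (dot8 v0.2 x.2), add_smul]
      convert this using 1; abel
    · have := S.neg_mem hx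
      rw [AddSubgroup.coe_neg, dot_neg_right, Int.neg_ediv_of_dvd (dot8 v0.2 x.2), neg_smul]
      convert this using 1; abel
  have e : dotInt (v0 : V) (x : V) / 8 = 2 * (dotInt (v0 : V) (x : V) / 8 / 2) := by omega
  have := S.add_mem (key x) (h2 ((dotInt (v0 : V) (x : V) / 8 / 2) • bb 1))
  rwa [← mul_smul, ← e, sub_add_cancel] at this

theorem even_mem {β : Λ} (hβ : β ∈ L2) {S : AddSubgroup Λ} (h2 : ∀ w : Λ, (2 : ℤ) • w ∈ S)
    (hS : ∀ r ∈ L2, dotInt (β : V) (r : V) = 0 → r ∈ S) {x : Λ}
    (hx : dotInt (β : V) (x : V) / 8 % 2 = 0) : x ∈ S := by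
  obtain ⟨g, rfl⟩ := trans2 hβ
  rw [bL_zero] at *
  have := even_mem0 (S := S.comap (hom g)) (fun w => by
      rw [AddSubgroup.mem_comap, map_zsmul]; exact h2 _)
    (fun r hr h => hS _ (smul_mem_L2 g hr) (by rw [← h]; exact dot_smul g _ _)) (x := g⁻¹ • x)
    (by rw [← dot_smul g, smul_inv_smul]; exact hx)
  rw [AddSubgroup.mem_comap] at this
  rwa [show hom g (g⁻¹ • x) = x from smul_inv_smul g x] at this

/-- a subgroup containing `2Λ` and all `r + β`, `r` short and orthogonal to `β` -/
theorem even_mem' {β : Λ} (hβ : β ∈ L2) {S : AddSubgroup Λ} (h2 : ∀ w : Λ, (2 : ℤ) • w ∈ S)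
    (hS : ∀ r ∈ L2, dotInt (β : V) (r : V) = 0 → r + β ∈ S) {x : Λ}
    (hx : dotInt (β : V) (x : V) / 8 % 2 = 0) : x ∈ S := by
  obtain ⟨r, hr, s, hs, hrs, h3, h4⟩ := exists_tri hβ
  have hb : β ∈ S := by
    have := S.sub_mem (S.add_mem (hS r hr h3) (hS s hs h4)) (hS _ hrs (by
      rw [AddSubgroup.coe_add, dot_add_right, h3, h4, add_zero]))
    convert this using 1; abel
  exact even_mem hβ h2 (fun r hr h => by simpa using S.sub_mem (hS r hr h) hb) hx

end Cfsg.Agent.Mo
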