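import Cfsg.Agent.H4.Fis
import Cfsg.Prelude.Def_Transfer

/-! General lemmas: padding of representations, inverted normal subgroups, alternating forms. -/

set_option autoImplicit false

namespace Cfsg.Agent.Mo

open Subgroup Module

/-- a faithful representation of dimension at most `n` gives a subgroup of `GL n` -/
theorem pad {F U G : Type*} [Field F] [AddCommGroup U] [Module F U] [Module.Finite F U] [Group G]
    {n : ℕ} (hn : finrank F U ≤ n) (φ : G →* Module.End F U) (hφ : Function.Injective φ) :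
    ∃ H : Subgroup (GL (Fin n) F), Nonempty (G ≃* H) := by
  let W := U × (Fin (n - finrank F U) → F)
  have hW : finrank F W = n := by
    rw [Module.finrank_prod, Module.finrank_fin_fun]; omega
  let b : Basis (Fin n) F W := Module.finBasisOfFinrankEq F W hW
  let ψ : Module.End F U →* Module.End F W :=
    { toFun := fun f => f.prodMap LinearMap.id
      map_one' := LinearMap.prodMap_id
      map_mul' := fun f g => by ext1 <;> rfl }
  have hψ : Function.Injective ψ := fun f g h => by
    ext u
    exact congrArg Prod.fst (LinearMap.congr_fun h (u, 0))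
  let χ : G →* Matrix (Fin n) (Fin n) F :=
    (LinearMap.toMatrixAlgEquiv b).toMulEquiv.toMonoidHom.comp (ψ.comp φ)
  have hχ : Function.Injective χ :=
    (LinearMap.toMatrixAlgEquiv b).injective.comp (hψ.comp hφ)
  exact ⟨χ.toHomUnits.range, ⟨MonoidHom.ofInjective fun a b h => hχ (congrArg Units.val h)⟩⟩

/-- a normal subgroup on which a member of a pure four-group acts without fixed points is trivial -/
theorem eq_bot_of_fpf {G : Type*} [Group G] [Finite G] {N : Subgroup G} [hN : N.Normal] {z τ : G}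
    (hz : z * z = 1) (hτ : τ * (τ * z * τ⁻¹) * τ⁻¹ = z * (τ * z * τ⁻¹))
    (h : ∀ n ∈ N, n * z = z * n → n = 1) : N = ⊥ := by
  have hzi : z⁻¹ = z := inv_eq_of_mul_eq_one_right hz
  have h1 : ∀ n ∈ N, z * n * z⁻¹ = n⁻¹ := fun n hn => by
    let φ : N →* N := (MulAut.conjNormal z : MulAut N).toMonoidHom
    have hf : MonoidHom.FixedPointFree φ := fun m hm => Subtype.ext (h m m.2 (by
      have : z * m * z⁻¹ = m := congrArg Subtype.val hm
      rw [mul_inv_eq_iff_eq_mul] at this
      exact this.symm))
    have hi : Function.Involutive φ := fun m => Subtype.ext (by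
      change z * (z * m * z⁻¹) * z⁻¹ = m
      rw [hzi, ← mul_assoc, ← mul_assoc, hz, one_mul, mul_assoc, hz, mul_one])
    exact congrArg Subtype.val (congrFun (hf.coe_eq_inv_of_involutive hi) ⟨n, hn⟩)
  have h2 : ∀ a : G, (∀ n ∈ N, a * n * a⁻¹ = n⁻¹) →
      ∀ n ∈ N, (τ * a * τ⁻¹) * n * (τ * a * τ⁻¹)⁻¹ = n⁻¹ := fun a ha n hn => by
    have := ha _ (hN.conj_mem' n hn τ)
    calc _ = τ * (a * (τ⁻¹ * n * τ) * a⁻¹) * τ⁻¹ := by group
      _ = _ := by rw [this]; group
  have h3 := h2 _ (h2 z h1)
  rw [hτ] at h3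
  refine eq_bot_iff.2 fun n hn => h n hn ?_
  have h4 := h3 n hn
  have h5 := h2 z h1 n hn
  have h6 : z * n⁻¹ * z⁻¹ = n⁻¹ := by
    calc _ = z * (τ * z * τ⁻¹ * n * (τ * z * τ⁻¹)⁻¹) * z⁻¹ := by rw [h5]
      _ = _ := by rw [← h4]; group
  rw [mul_inv_eq_iff_eq_mul] at h6
  exact (Commute.inv_right_iff.1 h6).symm.eq

theorem extraspecial_congr {A B : Type*} [Group A] [Group B] {p : ℕ} (e : A ≃* B)
    (h : IsExtraspecial p A) : IsExtraspecial p B := by
  obtain ⟨⟨h1, h2, h3⟩, h4⟩ := h
  have hc : (center A).map e.toMonoidHom = center B := by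
    ext x
    constructor
    · rintro ⟨y, hy, rfl⟩; exact (centerCongr e ⟨y, hy⟩).2
    · intro hx; exact ⟨e.symm x, (centerCongr e.symm ⟨x, hx⟩).2, e.apply_symm_apply x⟩
  refine ⟨⟨h1.of_equiv e, ?_, ?_⟩, (Nat.card_congr (centerCongr e).toEquiv).symm.trans h4⟩
  · rw [← hc, ← h2]
    refine le_antisymm (fun x hx => ⟨e.symm x, frattini_le_comap_frattini_of_surjective
      (φ := e.symm.toMonoidHom) e.symm.surjective hx, e.apply_symm_apply x⟩) ?_
    rw [map_le_iff_le_comap]
    exact frattini_le_comap_frattini_of_surjective (φ := e.toMonoidHom) e.surjective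
  · rw [← hc, ← h3, _root_.map_commutator_eq, MonoidHom.range_eq_top.2 e.surjective]; rfl

/-- a symmetric matrix over `ZMod 2` with zero diagonal and odd size is singular -/
theorem det_alt {m : ℕ} (hm : Odd m) (A : Matrix (Fin m) (Fin m) ℤ) (hs : ∀ i j, A i j = A j i)
    (hd : ∀ i, Even (A i i)) : (A.map (Int.castRingHom (ZMod 2))).det = 0 := by
  let S : Matrix (Fin m) (Fin m) ℤ :=
    .of fun i j => if i < j then A i j else if j < i then -A i j else 0
  have h1 : S.transpose = -S := by
    ext i j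
    simp only [Matrix.transpose_apply, Matrix.neg_apply, S, Matrix.of_apply]
    rcases lt_trichotomy i j with h | h | h
    · simp [h, h.not_gt, hs j i]
    · simp [h]
    · simp [h, h.not_gt, hs j i]
  have h2 : S.det = 0 := by
    have := Matrix.det_transpose S
    rw [h1, Matrix.det_neg, Fintype.card_fin, hm.neg_one_pow] at this
    omega
  have h3 : A.map (Int.castRingHom (ZMod 2)) = S.map (Int.castRingHom (ZMod 2)) := by
    ext i j
    simp only [Matrix.map_apply, S, eq_intCast, Matrix.of_apply]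
    split_ifs with h h'
    · rfl
    · rw [Int.cast_neg, CharTwo.neg_eq]
    · have : i = j := le_antisymm (not_lt.1 h') (not_lt.1 h)
      subst this
      rw [Int.cast_zero, ZMod.intCast_eq_zero_iff_even]; exact hd i
  rw [h3, ← RingHom.mapMatrix_apply, ← RingHom.map_det, h2, map_zero]

/-- the representation on the row space modulo 2 of an invariant even form -/
theorem exists_rep2 {K : Type*} [Group K] [Finite K] (f : K → K → ℤ) (hs : ∀ a b, f a b = f b a)
    (hi : ∀ g a b, f (g * a) (g * b) = f a b) (hd : Even (f 1 1)) (ho : ∃ k, Odd (f 1 k)) {n : ℕ}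
    (hn : Even n) (hr : ∀ (m : ℕ) (k : Fin m → K), (Matrix.of fun i j => f (k i) (k j)).det ≠ 0 →
      m ≤ n + 1) :
    ∃ (U : Submodule (ZMod 2) (K → ZMod 2)) (φ : K →* Module.End (ZMod 2) U),
      finrank (ZMod 2) U ≤ n ∧ φ.ker ≠ ⊤ ∧ ∀ g, (∀ a b, f (g * a) b = f a b) → g ∈ φ.ker := by
  classical
  let r : K → K → ZMod 2 := fun a b => (f a b : ZMod 2)
  let U : Submodule (ZMod 2) (K → ZMod 2) := Submodule.span (ZMod 2) (Set.range r)
  let L : K → (K → ZMod 2) →ₗ[ZMod 2] (K → ZMod 2) := fun g => LinearMap.funLeft _ _ (g⁻¹ * ·)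
  have hL : ∀ g a, L g (r a) = r (g * a) := fun g a => funext fun b => by
    change (f a (g⁻¹ * b) : ZMod 2) = f (g * a) b
    rw [← hi g, mul_inv_cancel_left]
  have hU : ∀ g, ∀ u ∈ U, L g u ∈ U := fun g u hu => by
    have : U.map (L g) ≤ U := by
      rw [Submodule.map_span, Submodule.span_le]
      rintro _ ⟨_, ⟨a, rfl⟩, rfl⟩
      exact Submodule.subset_span ⟨g * a, (hL g a).symm⟩
    exact this ⟨u, hu, rfl⟩
  let φ : K →* Module.End (ZMod 2) U :=
    { toFun := fun g => (L g).restrict (hU g)
      map_one' := by ext u b; simp [L]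
      map_mul' := fun g h => by ext u b; simp [L, mul_assoc] }
  have hdd : ∀ a, Even (f a a) := fun a => by rw [← hi a 1 1, mul_one] at hd; exact hd
  refine ⟨U, φ, ?_, fun h => ?_, fun g hg => ?_⟩
  · obtain ⟨s, hs1, hs2, hs3⟩ := exists_linearIndependent (ZMod 2) (Set.range r)
    have hfin : s.Finite := (Set.finite_range r).subset hs1
    haveI := hfin.fintype
    have hc : finrank (ZMod 2) U = Fintype.card s := by
      rw [← Set.toFinset_card, ← finrank_span_set_eq_card hs3, hs2]
    let e := (Fintype.equivFin s).symm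
    choose k hk using fun i : Fin (Fintype.card s) => hs1 (e i).2
    have hli : LinearIndependent (ZMod 2) fun i => r (k i) := by
      simp only [hk]; exact hs3.comp e e.injective
    have hsp : ∀ a, r a ∈ Submodule.span (ZMod 2) (Set.range fun i => r (k i)) := fun a => by
      have : (Set.range fun i => r (k i)) = s := by
        simp only [hk]
        ext x
        exact ⟨fun ⟨i, h⟩ => h ▸ (e i).2, fun h => ⟨e.symm ⟨x, h⟩, by simp⟩⟩
      rw [this, hs2]; exact Submodule.subset_span ⟨a, rfl⟩
    let A : Matrix (Fin (Fintype.card s)) (Fin (Fintype.card s)) ℤ := .of fun i j => f (k i) (k j)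
    have hA : (A.map (Int.castRingHom (ZMod 2))).det ≠ 0 := fun h0 => by
      obtain ⟨c, hc0, hc⟩ := Matrix.exists_vecMul_eq_zero_iff.2 h0
      refine hc0 (funext (Fintype.linearIndependent_iff.1 hli c (funext fun a => ?_)))
      obtain ⟨d, hd⟩ := (Submodule.mem_span_range_iff_exists_fun _).1 (hsp a)
      have h1 : ∀ j, ∑ i, c i * r (k i) (k j) = 0 := fun j => congrFun hc j
      have h2 : ∀ i, r (k i) a = ∑ j, d j * r (k i) (k j) := fun i => by
        have := congrFun hd (k i)
        simp only [Finset.sum_apply, Pi.smul_apply, smul_eq_mul] at this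
        simp only [r] at this ⊢
        rw [hs, ← this]
        exact Finset.sum_congr rfl fun j _ => by rw [hs]
      simp only [Finset.sum_apply, Pi.smul_apply, smul_eq_mul, h2, Finset.mul_sum, Pi.zero_apply]
      rw [Finset.sum_comm]
      refine Finset.sum_eq_zero fun j _ => ?_
      simp only [mul_left_comm (c _), ← Finset.mul_sum, h1, mul_zero]
    have h1 : Fintype.card s ≤ n + 1 := hr _ k fun h0 => hA (by
      rw [← RingHom.mapMatrix_apply, ← RingHom.map_det, show A.det = 0 from h0, map_zero])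
    rw [hc]
    rcases h1.lt_or_eq with h | h
    · omega
    · exact absurd (det_alt (h ▸ hn.add_one) A (fun i j => hs _ _) fun i => hdd _) hA
  · obtain ⟨k, hk⟩ := ho
    have h1 : φ k = 1 := (h ▸ mem_top k : k ∈ φ.ker)
    have h2 : L k (r 1) = r 1 :=
      congrArg Subtype.val (LinearMap.congr_fun h1 ⟨r 1, Submodule.subset_span ⟨1, rfl⟩⟩)
    rw [hL, mul_one] at h2
    have h3 : (f k k : ZMod 2) = f 1 k := congrFun h2 k
    rw [(ZMod.intCast_eq_zero_iff_even).2 (hdd k), (ZMod.intCast_eq_one_iff_odd).2 hk] at h3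
    exact zero_ne_one h3
  · refine LinearMap.ext fun u => Subtype.ext ?_
    change L g u = u
    refine Submodule.span_induction (p := fun u _ => L g u = u) ?_ (map_zero _)
      (fun x y _ _ a b => by rw [map_add, a, b]) (fun a x _ b => by rw [map_smul, b]) u.2
    rintro _ ⟨a, rfl⟩
    rw [hL]; exact funext fun b => by simp only [r, hg]

end Cfsg.Agent.Mo
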