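import Cfsg.Agent.Mo.Alg
import Cfsg.Agent.Mo.Co
import Cfsg.Agent.Mo.Fin0
import Cfsg.Agent.Mo.Fin1

/-! The group generated by `2^{1+24} Co1` and a triality element: the computed facts, the order. -/

set_option autoImplicit false

namespace Cfsg.Agent.Mo

open H5 H5.Lee MulAction

/-- the group generated by `2^{1+24} Co1` and the triality element -/
noncomputable def GM (τ : GG) : Subgroup GG := Subgroup.closure ((HH : Set GG) ∪ {τ})
/-- the orbit of the axis `a` -/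
def XX (τ : GG) (a : VV) : Set VV := {w | ∃ g ∈ GM τ, g • a = w}

/-- the facts established by computation; `β γ γ'` are short vectors, `Ω` is a frame vector -/
structure Hyp (τ : GG) (β γ γ' Ω : Λ) (e e' η : Bool) : Prop where
  aut : τ ∈ Aut
  hβ : β ∈ L2
  hγ : γ ∈ L2
  hγ' : γ' ∈ L2
  hΩ : cl Ω = 2 ^ 23
  short : ∃ r ∈ L2, cl r = cl β ^^^ 2 ^ 23
  tri : xq β false * xq γ e = xq γ' e'
  tz : τ * zz * τ⁻¹ = xq Ω η
  tx : τ * xq Ω η * τ⁻¹ = zz * xq Ω η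
  tv : τ • ax β false = ax β false
  t1 : τ • one0 = one0
  out : ∃ (x : Λ) (f : Bool) (h : Ht), dotInt (β : V) (x : V) / 8 % 2 = 0 ∧
    τ * xq x f * τ⁻¹ = rho h ∧ h.1.1 ∉ Subgroup.center Co0
  cardX : (XX τ (ax β false)).ncard = 97239461142009186000
  cardY : {w | w ∈ XX τ (ax β false) ∧ ip (ax β false) w = 0}.ncard = 11707448673375
  transY : ∀ w ∈ XX τ (ax β false), ip (ax β false) w = 0 →
    ∃ k ∈ Subgroup.closure (((HH ⊓ stabilizer GG (ax β false) : Subgroup GG) : Set GG) ∪ {τ}),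
      k • ax β true = w
  cardW : {w | w ∈ XX τ (ax β false) ∧ ip (ax β false) w = 4}.ncard = 27143910000
  transW : ∀ w ∈ XX τ (ax β false), ip (ax β false) w = 4 →
    ∃ k ∈ GM τ, k • ax β false = ax β false ∧ k • ax γ e = w
  pairs : ∀ g ∈ GM τ, (∃ m : ℤ, ip (ax β false) (g • ax β false : VV) = m / 8) ∧
    (g • ax β false = ax β false ∨ (g * xq β false * g⁻¹ ≠ xq β false ∧
      ((∃ n, 2 ≤ n ∧ n ≤ 5 ∧ (xq β false * (g * xq β false * g⁻¹)) ^ n = 1) ∨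
        ((xq β false * (g * xq β false * g⁻¹)) ^ 6 = 1 ∧
          ip (ax β false) (g • ax β false : VV) = 5 / 8))))
  no66 : ∀ w ∈ XX τ (ax β false), ip (ax β false) w = 4 →
    ¬ (ip (ax γ e) w = 5 / 8 ∧ ip (ax γ' e') w = 5 / 8)
  ex36 : ∃ w ∈ XX τ (ax β false), ip (ax β false) w = 4 ∧ ip (ax γ e) w = 13 / 8 ∧
    ip (ax γ' e') w = 5 / 8

/-! ### the extraspecial group -/

theorem xq_mem_HH (x : Λ) (e : Bool) : xq x e ∈ HH := ⟨_, rfl⟩
theorem zz_mem_HH : zz ∈ HH := xq_mem_HH _ _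
theorem zz_sq : zz * zz = 1 := by rw [zz, ← zz, zz, ← xq_zero]; exact zz_mul_xq 0 true
theorem zz_ne1 : zz ≠ 1 := fun h => by
  rw [zz, ← xq_zero, xq_eq_iff] at h; exact absurd h.2 (by decide)
theorem zz_comm' {h : GG} (hh : h ∈ HH) : h * zz = zz * h := by
  obtain ⟨p, rfl⟩ := hh; exact zz_comm p

theorem ex_xq_mul (x y : Λ) (e f : Bool) : ∃ g, xq x e * xq y f = xq (x + y) g := by
  have : ∃ g, sgn e * sgn f * sg (cl x / 4096) (cl y % 4096) = sgn g := by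
    rcases sg_cases (cl x / 4096) (cl y % 4096) with h | h <;> rw [h]
    · exact ⟨xor e f, by cases e <;> cases f <;> simp [sgn]⟩
    · exact ⟨!xor e f, by cases e <;> cases f <;> simp [sgn]⟩
  exact this.imp fun g hg => xq_mul hg

theorem xq_cl {x y : Λ} (h : cl x = cl y) (e : Bool) : xq x e = xq y e := xq_eq_iff.2 ⟨h, rfl⟩

theorem xq_sq {r : Λ} (hr : r ∈ L2) (e : Bool) : xq r e * xq r e = 1 := by
  have h : sgn e * sgn e * sg (cl r / 4096) (cl r % 4096) = sgn false := by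
    rw [sg_cl_self, show sqNorm (r : V) = 32 from hr]; cases e <;> simp [sgn]
  rw [xq_mul h, ← xq_zero]
  exact xq_cl (by rw [cl_add, Nat.xor_self, cl_zero]) _

theorem xq_ne_one {r : Λ} (hr : cl r ≠ 0) (e : Bool) : xq r e ≠ 1 := fun h => by
  rw [← xq_zero, xq_eq_iff, cl_zero] at h; exact hr h.1

theorem exists_xq_inv (x : Λ) (e : Bool) : ∃ f, (xq x e)⁻¹ = xq x f := by
  obtain ⟨g, hg⟩ := ex_xq_mul x x e false
  rw [xq_cl (x := x + x) (y := 0) (by rw [cl_add, Nat.xor_self, cl_zero])] at hg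
  cases g
  · exact ⟨false, inv_eq_of_mul_eq_one_right (hg.trans xq_zero)⟩
  · refine ⟨true, inv_eq_of_mul_eq_one_right ?_⟩
    rw [show xq x true = zz * xq x false from (zz_mul_xq x false).symm, ← mul_assoc,
      zz_comm' (xq_mem_HH _ _), mul_assoc, hg]
    exact zz_sq

theorem xq_comm_even {x y : Λ} (h : dotInt (x : V) (y : V) / 8 % 2 = 0) (e f : Bool) :
    xq x e * xq y f = xq y f * xq x e := by rw [xq_comm, if_pos h, one_mul]

theorem xq_comm_odd {x y : Λ} (h : dotInt (x : V) (y : V) / 8 % 2 = 1) (e f : Bool) :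
    xq x e * xq y f * (xq x e)⁻¹ = zz * xq y f := by
  rw [xq_comm, if_neg (by omega), mul_assoc, mul_inv_cancel_right]

theorem even_of_comm {x y : Λ} {e f : Bool} (h : xq x e * xq y f = xq y f * xq x e) :
    dotInt (x : V) (y : V) / 8 % 2 = 0 := by
  by_contra h1
  rw [xq_comm, if_neg h1, mul_eq_right] at h
  exact zz_ne1 h

theorem exists_odd {x : Λ} (h : cl x ≠ 0) : ∃ y : Λ, dotInt (y : V) (x : V) / 8 % 2 = 1 := by
  obtain ⟨k, hk⟩ := Nat.exists_testBit_of_ne_zero h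
  have h1 : k < 24 := by
    by_contra h2
    rw [Nat.testBit_lt_two_pow ((cl_lt x).trans_le (Nat.pow_le_pow_right (by norm_num) (by omega)))] at hk
    exact absurd hk (by decide)
  rw [testBit_cl x h1, pb, decide_eq_true_iff] at hk
  exact ⟨_, hk⟩

theorem dot_add8 (x y z : Λ) : dotInt ((x + y : Λ) : V) (z : V) / 8 =
    dotInt (x : V) (z : V) / 8 + dotInt (y : V) (z : V) / 8 := by
  rw [AddSubgroup.coe_add, dot_add_left, Int.add_ediv_of_dvd_left (dot8 x.2 z.2)]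

theorem exists_odd_even {x β : Λ} (h : cl x ≠ 0) (h' : cl x ≠ cl β) :
    ∃ y : Λ, dotInt (y : V) (x : V) / 8 % 2 = 1 ∧ dotInt (y : V) (β : V) / 8 % 2 = 0 := by
  obtain ⟨y, hy⟩ := exists_odd h
  obtain ⟨w, hw⟩ := exists_odd (x := x + β) fun e => h' (by rwa [cl_add, Nat.xor_eq_zero_iff] at e)
  rw [dot_comm, dot_add8, dot_comm _ (w : V), dot_comm _ (w : V)] at hw
  by_cases h1 : dotInt (y : V) (β : V) / 8 % 2 = 0
  · exact ⟨y, hy, h1⟩
  by_cases h2 : dotInt (w : V) (β : V) / 8 % 2 = 0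
  · exact ⟨w, by omega, h2⟩
  · exact ⟨y + w, by rw [dot_add8]; omega, by rw [dot_add8]; omega⟩

theorem conj_xq (p : Ht) (x : Λ) (e : Bool) :
    ∃ f, rho p * xq x e * (rho p)⁻¹ = xq (p.1.1 • x) f := (exists_Cj p x e).imp fun _ h => h.conj

theorem smul_ax_iff {h : GG} (hh : h ∈ HH) {r s : Λ} (hr : r ∈ L2) (hs : s ∈ L2) {e f : Bool} :
    h • ax r e = ax s f ↔ h * xq r e * h⁻¹ = xq s f := by
  obtain ⟨p, rfl⟩ := hh
  obtain ⟨g, hg⟩ := exists_Cj p r e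
  rw [hg.conj, hg.smul_ax hr (smul_mem_L2 _ hr), ax_inj (smul_mem_L2 _ hr) hs, xq_eq_iff]

theorem flip_ax {y r : Λ} (hr : r ∈ L2) (h : dotInt (y : V) (r : V) / 8 % 2 = 1) (e f : Bool) :
    xq y e • ax r f = ax r (!f) :=
  (smul_ax_iff (xq_mem_HH _ _) hr hr).2 (by rw [xq_comm_odd h, zz_mul_xq])

/-- a lift of `g` that respects given signs -/
theorem exists_lift (g : Co0) {r : Λ} (hr : r ∈ L2) (e f : Bool) :
    ∃ p : Ht, p.1.1 = g ∧ rho p • ax r e = ax (g • r) f := by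
  obtain ⟨p, rfl⟩ := Ht_surj g
  obtain ⟨f', hf⟩ := exists_Cj p r e
  have h1 := hf.smul_ax hr (smul_mem_L2 _ hr)
  by_cases h : f' = f
  · exact ⟨p, rfl, h ▸ h1⟩
  · obtain ⟨y, hy⟩ := exists_odd (short_ne_zero (smul_mem_L2 p.1.1 hr))
    refine ⟨qe y false * p, one_mul _, ?_⟩
    rw [map_mul, mul_smul, h1, ← xq, flip_ax (smul_mem_L2 _ hr) hy]
    congr 1
    cases f <;> cases f' <;> simp_all

theorem exists_smul_ax {r s : Λ} (hr : r ∈ L2) (hs : s ∈ L2) (e f : Bool) :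
    ∃ h ∈ HH, h • ax r e = ax s f := by
  obtain ⟨a, rfl⟩ := trans2 hr
  obtain ⟨b, rfl⟩ := trans2 hs
  obtain ⟨p, -, hp⟩ := exists_lift (b * a⁻¹) hr e f
  exact ⟨rho p, ⟨p, rfl⟩, by rw [hp, mul_smul, inv_smul_smul]⟩

theorem exists_neg : ∃ p : Ht, rho p = 1 ∧ ∀ x : Λ, p.1.1 • x = -x := by
  obtain ⟨p, hp⟩ := Ht_surj (mkCo (-AddMonoidHom.id Λ) fun x => norm_neg _)
  have h : ∀ x : Λ, p.1.1 • x = -x := fun x => by rw [hp]; rfl
  obtain ⟨x, e, hx⟩ := (rho_eq_xq_iff p).2 (mem_center_Co0.2 (Or.inr h))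
  refine ⟨p * (qe x e)⁻¹, by rw [map_mul, map_inv, hx, xq, mul_inv_cancel], fun y => ?_⟩
  change (p.1.1 * 1⁻¹) • y = -y
  rw [inv_one, mul_one, h]

/-- an element of `HH` fixing a short axis has a lift fixing the vector -/
theorem exists_fix (p : Ht) {β : Λ} (hβ : β ∈ L2) {e : Bool} (h : rho p • ax β e = ax β e) :
    ∃ q : Ht, rho q = rho p ∧ q.1.1 • β = β ∧ (q.1.1 ∈ Subgroup.center Co0 → p.1.1 ∈ Subgroup.center Co0) := by
  obtain ⟨f, hf⟩ := exists_Cj p β e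
  rw [hf.smul_ax hβ (smul_mem_L2 _ hβ), ax_inj (smul_mem_L2 _ hβ) hβ] at h
  rcases short_eq hβ (smul_mem_L2 p.1.1 hβ) h.1.symm with h1 | h1
  · exact ⟨p, rfl, h1, id⟩
  · obtain ⟨m, h2, h3⟩ := exists_neg
    have e1 : rho (m * p) = rho p := by rw [map_mul, h2, one_mul]
    refine ⟨m * p, e1, ?_, fun h => (rho_eq_xq_iff p).1 (e1 ▸ (rho_eq_xq_iff _).2 h)⟩
    change (m.1.1 * p.1.1) • β = β
    rw [mul_smul, h3, h1, neg_neg]

theorem card_eq_orbit {G X : Type*} [Group G] [MulAction G X] (A : Subgroup G) (x : X) :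
    Nat.card A = {w | ∃ g ∈ A, g • x = w}.ncard * Nat.card (A ⊓ stabilizer G x : Subgroup G) := by
  have h1 : {w | ∃ g ∈ A, g • x = w} = orbit A x := by
    ext w; exact ⟨fun ⟨g, hg, e⟩ => ⟨⟨g, hg⟩, e⟩, fun ⟨g, e⟩ => ⟨g, g.2, e⟩⟩
  have h2 : stabilizer A x = (A ⊓ stabilizer G x).subgroupOf A := by
    rw [Subgroup.inf_subgroupOf_left]; rfl
  rw [h1, ← index_stabilizer, h2,
    ← Nat.card_congr (Subgroup.subgroupOfEquivOfLe (inf_le_left : A ⊓ stabilizer G x ≤ A)).toEquiv,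
    Subgroup.index_mul_card]

theorem ncard_orbit_HH {β : Λ} (hβ : β ∈ L2) (e : Bool) :
    {w | ∃ g ∈ HH, g • ax β e = w}.ncard = 196560 := by
  classical
  obtain ⟨σ, hσ⟩ : ∃ σ : Λ → Bool, ∀ r, r ≠ -r → σ (-r) = !σ r := by
    refine ⟨fun r => decide (WellOrderingRel r (-r)), fun r hr => ?_⟩
    simp only [neg_neg]
    rcases trichotomous_of WellOrderingRel r (-r) with h | h | h
    · simp [h, asymm h]
    · exact absurd h hr
    · simp [h, asymm h]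
  have hne : ∀ r ∈ L2, r ≠ -r := fun r hr h => by
    have h1 : dotInt (r : V) (r : V) = dotInt (r : V) ((-r : Λ) : V) := by rw [← h]
    rw [AddSubgroup.coe_neg, dot_neg_right, dot_self, show sqNorm (r : V) = 32 from hr] at h1
    omega
  have hn : ∀ r ∈ L2, -r ∈ L2 := fun r hr => (norm_neg _).trans hr
  have hs : ∀ r ∈ L2, σ (-r) = !σ r := fun r hr => hσ r (hne r hr)
  rw [← ncard_L2]
  symm
  refine Set.ncard_congr (fun r _ => ax r (σ r)) (fun r hr => exists_smul_ax hβ hr _ _)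
    (fun r s hr hs' h => ?_) ?_
  · rw [ax_inj hr hs'] at h
    rcases short_eq hr hs' h.1 with h1 | h1
    · exact h1.symm
    · rw [h1, hs r hr] at h
      exact absurd h.2 (by simp)
  · rintro _ ⟨_, ⟨p, rfl⟩, rfl⟩
    obtain ⟨f, hf⟩ := exists_Cj p β e
    have h1 := smul_mem_L2 p.1.1 hβ
    rw [hf.smul_ax hβ h1]
    by_cases h : σ (p.1.1 • β) = f
    · exact ⟨_, h1, by rw [h]⟩
    · refine ⟨_, hn _ h1, (ax_inj (hn _ h1) h1).2 ⟨cl_neg _, ?_⟩⟩
      rw [hs _ h1]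
      cases f <;> simp_all

theorem card_HK {β : Λ} (hβ : β ∈ L2) (e : Bool) :
    Nat.card (HH ⊓ stabilizer GG (ax β e) : Subgroup GG) = 709767191322427392000 := by
  have := card_eq_orbit HH (ax β e)
  rw [ncard_orbit_HH hβ, card_HH, card_Co0] at this
  omega

/-! ### the stabiliser of the axis -/

variable {τ : GG} {β γ γ' Ω : Λ} {e e' η : Bool}

/-- the stabiliser of the axis, the double cover of the baby monster -/
noncomputable def KK (τ : GG) (β : Λ) : Subgroup GG := GM τ ⊓ stabilizer GG (ax β false)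

theorem HH_le_GM : HH ≤ GM τ := fun _ h => Subgroup.subset_closure (Or.inl h)
theorem tau_mem : τ ∈ GM τ := Subgroup.subset_closure (Or.inr rfl)

theorem Hyp.le_Aut (h : Hyp τ β γ γ' Ω e e' η) : GM τ ≤ Aut :=
  (Subgroup.closure_le _).2 (by
    rintro _ (⟨p, rfl⟩ | rfl)
    exacts [rho_mem_Aut p, h.aut])

theorem Hyp.tauK (h : Hyp τ β γ γ' Ω e e' η) : τ ∈ KK τ β := ⟨tau_mem, h.tv⟩

theorem Hyp.commK (h : Hyp τ β γ γ' Ω e e' η) {k : GG} (hk : k ∈ KK τ β) :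
    k * xq β false = xq β false * k := miyamoto (h.le_Aut hk.1) h.hβ hk.2

theorem Hyp.conjK (h : Hyp τ β γ γ' Ω e e' η) {k : GG} (hk : k ∈ KK τ β) :
    k * xq β false * k⁻¹ = xq β false := by rw [h.commK hk, mul_inv_cancel_right]

theorem Hyp.memK (h : Hyp τ β γ γ' Ω e e' η) {k : GG} (hk : k ∈ GM τ)
    (hc : k * xq β false = xq β false * k) : k ∈ KK τ β :=
  ⟨hk, ((h.pairs k hk).2.resolve_right fun h1 => h1.1 (by rw [hc, mul_inv_cancel_right]) :)⟩

theorem Hyp.xq_memK (h : Hyp τ β γ γ' Ω e e' η) {x : Λ} (hx : dotInt (x : V) (β : V) / 8 % 2 = 0)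
    (f : Bool) : xq x f ∈ KK τ β := h.memK (HH_le_GM (xq_mem_HH _ _)) (xq_comm_even hx _ _)

theorem Hyp.zzK (h : Hyp τ β γ γ' Ω e e' η) : zz ∈ KK τ β := h.xq_memK (by simp [dotInt]) _

theorem Hyp.tK (h : Hyp τ β γ γ' Ω e e' η) : xq β false ∈ KK τ β :=
  h.memK (HH_le_GM (xq_mem_HH _ _)) rfl

theorem Hyp.memH (h : Hyp τ β γ γ' Ω e e' η) {k : GG} (hk : k ∈ GM τ) (hc : k * zz = zz * k) :
    k ∈ HH := cent_zz (h.le_Aut hk) hc

theorem Hyp.stab2 (h : Hyp τ β γ γ' Ω e e' η) :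
    KK τ β ⊓ stabilizer GG (ax β true) = HH ⊓ stabilizer GG (ax β false) := by
  have ht : xq β true = zz * xq β false := (zz_mul_xq β false).symm
  refine le_antisymm (fun k hk => ?_) fun k hk => ⟨⟨HH_le_GM hk.1, hk.2⟩, ?_⟩
  · refine ⟨h.memH hk.1.1 ?_, hk.1.2⟩
    have h1 := miyamoto (h.le_Aut hk.1.1) h.hβ hk.2
    rw [ht, mul_assoc zz, ← h.commK hk.1, ← mul_assoc, ← mul_assoc] at h1
    exact mul_right_cancel h1
  · refine (smul_ax_iff hk.1 h.hβ h.hβ).2 ?_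
    rw [ht, ← mul_assoc, zz_comm' hk.1, mul_assoc, mul_assoc, ← mul_assoc k,
      h.conjK ⟨HH_le_GM hk.1, hk.2⟩]

theorem Hyp.closure_le (h : Hyp τ β γ γ' Ω e e' η) :
    Subgroup.closure (((HH ⊓ stabilizer GG (ax β false) : Subgroup GG) : Set GG) ∪ {τ}) ≤ KK τ β :=
  (Subgroup.closure_le _).2 (by
    rintro _ (hk | rfl)
    exacts [⟨HH_le_GM hk.1, hk.2⟩, h.tauK])

theorem Hyp.ip_smul (h : Hyp τ β γ γ' Ω e e' η) {g : GG} (hg : g ∈ GM τ) (u v : VV) :
    ip (g • u : VV) (g • v : VV) = ip u v := (h.le_Aut hg).1 u v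

theorem ip_vpm {β : Λ} (hβ : β ∈ L2) : ip (ax β false) (ax β true) = 0 := by
  rw [ip_ax_ax hβ hβ, dot_self, show sqNorm (β : V) = 32 from hβ, if_pos rfl]
  simp [sgn]; norm_num

theorem Hyp.orbitY (h : Hyp τ β γ γ' Ω e e' η) : {w | ∃ g ∈ KK τ β, g • ax β true = w} =
    {w | w ∈ XX τ (ax β false) ∧ ip (ax β false) w = 0} := by
  ext w
  constructor
  · rintro ⟨k, hk, rfl⟩
    obtain ⟨a, ha, e1⟩ := exists_smul_ax h.hβ h.hβ false true
    refine ⟨⟨k * a, mul_mem hk.1 (HH_le_GM ha), by rw [mul_smul, e1]⟩, ?_⟩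
    rw [← ip_vpm h.hβ, ← h.ip_smul hk.1 (ax β false) (ax β true),
      show k • ax β false = ax β false from hk.2]
  · rintro ⟨h1, h2⟩
    obtain ⟨k, hk, e1⟩ := h.transY w h1 h2
    exact ⟨k, h.closure_le hk, e1⟩

theorem Hyp.cardK (h : Hyp τ β γ γ' Ω e e' η) :
    Nat.card (KK τ β) = 8309562962452852382355161088000000 := by
  rw [card_eq_orbit (KK τ β) (ax β true), h.orbitY, h.cardY, h.stab2, card_HK h.hβ]

theorem Hyp.card' (h : Hyp τ β γ γ' Ω e e' η) :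
    Nat.card (GM τ) = 808017424794512875886459904961710757005754368000000000 := by
  rw [card_eq_orbit (GM τ) (ax β false), ← KK, h.cardK, ← XX, h.cardX]

theorem Hyp.finite (h : Hyp τ β γ γ' Ω e e' η) : Finite (GM τ) :=
  Nat.finite_of_card_ne_zero (by rw [h.card']; norm_num)

theorem Hyp.finiteK (h : Hyp τ β γ γ' Ω e e' η) : Finite (KK τ β) :=
  Nat.finite_of_card_ne_zero (by rw [h.cardK]; norm_num)

theorem Hyp.le_closure (h : Hyp τ β γ γ' Ω e e' η) : KK τ β ≤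
    Subgroup.closure (((HH ⊓ stabilizer GG (ax β false) : Subgroup GG) : Set GG) ∪ {τ}) := by
  intro k hk
  have h1 : k • ax β true ∈ {w | ∃ g ∈ KK τ β, g • ax β true = w} := ⟨k, hk, rfl⟩
  rw [h.orbitY] at h1
  obtain ⟨a, ha, e1⟩ := h.transY _ h1.1 h1.2
  have h2 : a⁻¹ * k ∈ KK τ β ⊓ stabilizer GG (ax β true) :=
    ⟨(KK τ β).mul_mem ((KK τ β).inv_mem (h.closure_le ha)) hk, by
      change (a⁻¹ * k) • _ = _
      rw [mul_smul, ← e1, inv_smul_smul]⟩
  rw [h.stab2] at h2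
  simpa using mul_mem ha (Subgroup.subset_closure (Or.inl h2))

/-- the central involution is not conjugate to the involutions of the short axes -/
theorem Hyp.not_conj (h : Hyp τ β γ γ' Ω e e' η) {g : GG} (hg : g ∈ GM τ) (f : Bool) :
    g * zz * g⁻¹ ≠ xq β f := fun h1 => by
  obtain ⟨a, ha, e1⟩ := exists_smul_ax h.hβ h.hβ f false
  rw [smul_ax_iff ha h.hβ h.hβ, ← h1] at e1
  have hb : a * g ∈ GM τ := mul_mem (HH_le_GM ha) hg
  have e2 : xq β false = (a * g) * zz * (a * g)⁻¹ := by rw [← e1]; group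
  haveI : Finite HH := Nat.finite_of_card_ne_zero (by rw [card_HH, card_Co0]; norm_num)
  have := Nat.card_le_card_of_injective (α := KK τ β) (β := HH) (fun k => ⟨(a * g)⁻¹ * k * (a * g),
    h.memH ((GM τ).mul_mem ((GM τ).mul_mem ((GM τ).inv_mem hb) k.2.1) hb) (by
      have e3 := h.commK k.2
      rw [e2] at e3
      calc _ = (a * g)⁻¹ * (k * (a * g * zz * (a * g)⁻¹)) * (a * g) := by group
        _ = _ := by rw [e3]; group)⟩) fun k l e => by
    simpa using e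
  rw [h.cardK, card_HH, card_Co0] at this
  omega

end Cfsg.Agent.Mo
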