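import Cfsg.Agent.Mo.Fin2

/-! Normal subgroups of the stabiliser of an axis and of the whole group. -/

set_option autoImplicit false

namespace Cfsg.Agent.Mo

open H5 H5.Lee MulAction

variable {τ : GG} {β γ γ' Ω : Λ} {e e' η : Bool} {N : Subgroup GG}

theorem xq_mem_iff (hz : zz ∈ N) {x : Λ} (f g : Bool) (h : xq x f ∈ N) : xq x g ∈ N := by
  by_cases e : f = g
  · exact e ▸ h
  · have := N.mul_mem hz h
    rwa [zz_mul_xq, show (!f) = g by cases f <;> cases g <;> simp_all] at this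

/-- the classes of the elements of the extraspecial group in `N` -/
def clS (N : Subgroup GG) (hz : zz ∈ N) : AddSubgroup Λ where
  carrier := {x | xq x false ∈ N}
  zero_mem' := by change xq 0 false ∈ N; rw [xq_zero]; exact N.one_mem
  add_mem' := fun {x y} hx hy => by
    obtain ⟨g, hg⟩ := ex_xq_mul x y false false
    exact xq_mem_iff hz g false (hg ▸ N.mul_mem hx hy)
  neg_mem' := fun {x} hx => by change xq (-x) false ∈ N; rwa [xq_cl (cl_neg x)]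

theorem two_mem_clS (hz : zz ∈ N) (w : Λ) : (2 : ℤ) • w ∈ clS N hz := by
  change xq _ false ∈ N
  rw [two_smul, xq_cl (y := 0) (by rw [cl_add, Nat.xor_self, cl_zero]), xq_zero]
  exact N.one_mem

theorem Hyp.zz_of_xq (h : Hyp τ β γ γ' Ω e e' η) (hN : ∀ k ∈ KK τ β, ∀ n ∈ N, k * n * k⁻¹ ∈ N)
    {x : Λ} {f : Bool} (hx : xq x f ∈ N) (h0 : cl x ≠ 0) (h1 : cl x ≠ cl β) : zz ∈ N := by
  obtain ⟨y, hy, hy'⟩ := exists_odd_even h0 h1
  have := hN _ (h.xq_memK hy' false) _ hx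
  rw [xq_comm_odd hy] at this
  exact (N.mul_mem_cancel_right hx).1 this

theorem Hyp.liftK (h : Hyp τ β γ γ' Ω e e' η) {g : Co0} (hg : g • β = β) :
    ∃ p : Ht, p.1.1 = g ∧ rho p ∈ KK τ β := by
  obtain ⟨p, h1, h2⟩ := exists_lift g h.hβ false false
  exact ⟨p, h1, HH_le_GM ⟨p, rfl⟩, by rwa [hg] at h2⟩

theorem Hyp.lift_all (h : Hyp τ β γ γ' Ω e e' η) (hN : ∀ k ∈ KK τ β, ∀ n ∈ N, k * n * k⁻¹ ∈ N)
    {p : Ht} (h1 : rho p ∈ N) (h2 : rho p ∈ KK τ β) (h3 : p.1.1 ∉ Subgroup.center Co0) {g : Co0}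
    (hg : g • β = β) : ∃ q : Ht, q.1.1 = g ∧ rho q ∈ N ∧ rho q ∈ KK τ β := by
  let M : Subgroup (stabilizer Co0 β) :=
    { carrier := {g | ∃ q : Ht, q.1.1 = g ∧ rho q ∈ N ∧ rho q ∈ KK τ β}
      one_mem' := ⟨1, rfl, by rw [map_one]; exact ⟨one_mem _, one_mem _⟩⟩
      mul_mem' := by
        rintro a b ⟨p, e1, a1, a2⟩ ⟨q, e2, b1, b2⟩
        exact ⟨p * q, show p.1.1 * q.1.1 = a.1 * b.1 by rw [e1, e2], by
          rw [map_mul]; exact ⟨N.mul_mem a1 b1, (KK τ β).mul_mem a2 b2⟩⟩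
      inv_mem' := by
        rintro a ⟨p, e1, a1, a2⟩
        exact ⟨p⁻¹, show p.1.1⁻¹ = a.1⁻¹ by rw [e1], by
          rw [map_inv]; exact ⟨N.inv_mem a1, (KK τ β).inv_mem a2⟩⟩ }
  have hM : M.Normal := ⟨by
    rintro a ⟨p, e1, a1, a2⟩ b
    obtain ⟨q, e2, b2⟩ := h.liftK b.2
    exact ⟨q * p * q⁻¹, show q.1.1 * p.1.1 * q.1.1⁻¹ = b.1 * a.1 * b.1⁻¹ by rw [e1, e2], by
      rw [map_mul, map_mul, map_inv]
      exact ⟨hN _ b2 _ a1, (KK τ β).mul_mem ((KK τ β).mul_mem b2 a2) ((KK τ β).inv_mem b2)⟩⟩⟩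
  obtain ⟨q, e1, e2, e3⟩ := exists_fix p h.hβ h2.2
  rcases (isCo2 h.hβ).1.eq_bot_or_eq_top_of_normal M hM with h4 | h4
  · have : (⟨q.1.1, e2⟩ : stabilizer Co0 β) ∈ M := ⟨q, rfl, e1 ▸ h1, e1 ▸ h2⟩
    rw [h4, Subgroup.mem_bot, Subtype.ext_iff] at this
    exact absurd (e3 (by rw [show q.1.1 = 1 from this]; exact one_mem _)) h3
  · exact (h4 ▸ Subgroup.mem_top _ : (⟨g, hg⟩ : stabilizer Co0 β) ∈ M)

theorem Hyp.omegaK (h : Hyp τ β γ γ' Ω e e' η) : xq Ω η ∈ KK τ β :=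
  h.tz ▸ (KK τ β).mul_mem ((KK τ β).mul_mem h.tauK h.zzK) ((KK τ β).inv_mem h.tauK)

theorem Hyp.short' (h : Hyp τ β γ γ' Ω e e' η) :
    ∃ r ∈ L2, cl (r + β) = 2 ^ 23 ∧ dotInt (β : V) (r : V) = 0 := by
  obtain ⟨r, hr, e1⟩ := h.short
  have e2 : cl (r + β) = 2 ^ 23 := by rw [cl_add, e1, Nat.xor_comm, Nat.xor_xor_cancel_left]
  refine ⟨r, hr, e2, ?_⟩
  obtain ⟨g, hg⟩ := ex_xq_mul Ω β η false
  rw [xq_cl (x := Ω + β) (y := r) (by rw [cl_add, e1, h.hΩ, Nat.xor_comm])] at hg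
  have e3 := even_of_comm (h.commK (hg ▸ (KK τ β).mul_mem h.omegaK h.tK))
  have e4 := dot8 r.2 β.2
  have e5 : cl (r + -β) = 2 ^ 23 := by rw [cl_add, cl_neg, ← cl_add, e2]
  have key : ∀ s : Λ, cl s = 2 ^ 23 → sqNorm (s : V) ≠ 32 ∧ sqNorm (s : V) ≠ 0 ∧ 0 ≤ sqNorm (s : V) :=
    fun s hs => ⟨fun h1 => short_ne_e8 h1 hs, fun h1 => by
      rw [show s = 0 from Subtype.ext (eq_zero_of_norm h1), cl_zero] at hs
      norm_num at hs, norm_nonneg _⟩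
  have e6 := key _ e2
  have e7 := key _ e5
  rw [AddSubgroup.coe_add, norm_add, show sqNorm (r : V) = 32 from hr] at e6 e7
  rw [AddSubgroup.coe_neg, Lee.norm_neg, dot_neg_right] at e7
  rw [show sqNorm (β : V) = 32 from h.hβ] at e6 e7
  rw [dot_comm]
  omega

theorem tau_aux {G : Type*} [Group G] {z w τ δ : G} (hz : z * z = 1) (h1 : τ * z * τ⁻¹ = w)
    (h2 : τ * w * τ⁻¹ = z * w) (hc : w * z = z * w) (h3 : δ * z * δ⁻¹ = z) (h4 : δ * w * δ⁻¹ = z * w)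
    (h5 : δ⁻¹ * w * δ = z * w) :
    τ * δ * τ * δ⁻¹ * z = z * (τ * δ * τ * δ⁻¹) ∧ τ * τ * τ * z = z * (τ * τ * τ) := by
  have hw : w * w = 1 := by
    rw [← h1]
    calc _ = τ * (z * z) * τ⁻¹ := by group
      _ = 1 := by rw [hz]; group
  have h6 : τ * (z * w) * τ⁻¹ = z := by
    calc _ = (τ * z * τ⁻¹) * (τ * w * τ⁻¹) := by group
      _ = z := by rw [h1, h2, ← mul_assoc, hc, mul_assoc, hw, mul_one]
  have h7 : δ⁻¹ * z * δ = z := by
    conv_lhs => rw [← h3]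
    group
  constructor
  · rw [← mul_inv_eq_iff_eq_mul]
    calc _ = τ * (δ * (τ * (δ⁻¹ * z * δ) * τ⁻¹) * δ⁻¹) * τ⁻¹ := by group
      _ = z := by rw [h7, h1, h4, h6]
  · rw [← mul_inv_eq_iff_eq_mul]
    calc _ = τ * (τ * (τ * z * τ⁻¹) * τ⁻¹) * τ⁻¹ := by group
      _ = z := by rw [h1, h2, h6]

/-- a subgroup normalised by the stabiliser and containing `zz` contains the stabiliser -/
theorem Hyp.K_le (h : Hyp τ β γ γ' Ω e e' η) (hN : ∀ k ∈ KK τ β, ∀ n ∈ N, k * n * k⁻¹ ∈ N)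
    (hz : zz ∈ N) : KK τ β ≤ N := by
  obtain ⟨r, hr, e1, e2⟩ := h.short'
  have hΩ : xq Ω η ∈ N := h.tz ▸ hN _ h.tauK _ hz
  have h1 : xq (r + β) η ∈ N := by rwa [xq_cl (e1.trans h.hΩ.symm)]
  have hQ : ∀ (x : Λ) (f : Bool), dotInt (β : V) (x : V) / 8 % 2 = 0 → xq x f ∈ N := fun x f hx => by
    refine xq_mem_iff hz false f (even_mem' h.hβ (two_mem_clS hz) (fun s hs e3 => ?_) hx)
    obtain ⟨g, e4, e5⟩ := of_base2 (trans_0 h.hβ hr e2) (trans_0 h.hβ hs e3)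
    obtain ⟨p, e6, hp⟩ := h.liftK e4
    obtain ⟨f, hf⟩ := conj_xq p (r + β) η
    rw [e6, smul_add', e4, e5] at hf
    exact xq_mem_iff hz f false (hf ▸ hN _ hp _ h1)
  have hH : ∀ k ∈ KK τ β, k ∈ HH → k ∈ N := by
    rintro _ hk ⟨p, rfl⟩
    obtain ⟨x, f, q, e3, e4, e5⟩ := h.out
    have e6 : xq x f ∈ KK τ β := h.xq_memK (by rwa [dot_comm]) f
    obtain ⟨p', e7, e8, -⟩ := exists_fix p h.hβ hk.2
    obtain ⟨q', a1, a2, a3⟩ := h.lift_all hN (e4 ▸ hN _ h.tauK _ (hQ x f e3))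
      (e4 ▸ (KK τ β).mul_mem ((KK τ β).mul_mem h.tauK e6) ((KK τ β).inv_mem h.tauK)) e5 e8
    obtain ⟨y, g, a4⟩ := exists_qe (q'⁻¹ * p') (by
      change q'.1.1⁻¹ * p'.1.1 = 1
      rw [a1, inv_mul_cancel])
    have a5 : (rho q')⁻¹ * rho p = xq y g := by rw [← e7, ← map_inv, ← map_mul, a4, xq]
    have a6 := even_of_comm (h.commK (a5 ▸ (KK τ β).mul_mem ((KK τ β).inv_mem a3) hk))
    have := N.mul_mem a2 (a5 ▸ hQ y g (by rwa [dot_comm]))
    rwa [mul_inv_cancel_left] at this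
  have hτ : τ ∈ N := by
    obtain ⟨y, a1, a2⟩ := exists_odd_even (x := Ω) (β := β) (by rw [h.hΩ]; norm_num)
      (by rw [h.hΩ]; exact (short_ne_e8 h.hβ).symm)
    obtain ⟨f, hf⟩ := exists_xq_inv y false
    have hδ := h.xq_memK a2 false
    obtain ⟨b1, b2⟩ := tau_aux zz_sq h.tz h.tx (zz_comm' (xq_mem_HH _ _))
      (by rw [zz_comm' (xq_mem_HH y false), mul_inv_cancel_right]) (xq_comm_odd a1 false η)
      (by rw [← xq_comm_odd a1 f η, ← hf, inv_inv])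
    have c1 : τ * xq y false * τ * (xq y false)⁻¹ ∈ KK τ β :=
      (KK τ β).mul_mem ((KK τ β).mul_mem ((KK τ β).mul_mem h.tauK hδ) h.tauK) ((KK τ β).inv_mem hδ)
    have c2 : τ * τ * τ ∈ KK τ β := (KK τ β).mul_mem ((KK τ β).mul_mem h.tauK h.tauK) h.tauK
    have c3 := hH _ c1 (h.memH c1.1 b1)
    have c4 := hH _ c2 (h.memH c2.1 b2)
    have c5 := hH _ hδ (xq_mem_HH _ _)
    have c6 := N.mul_mem (N.inv_mem (hN _ h.tauK _ c5)) (N.mul_mem c3 c5)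
    have c7 := N.mul_mem (N.inv_mem c6) c4
    convert c7 using 1
    group
  refine h.le_closure.trans ((Subgroup.closure_le _).2 ?_)
  rintro _ (hk | rfl)
  exacts [hH _ ⟨HH_le_GM hk.1, hk.2⟩ hk.1, hτ]

theorem Hyp.zz_mem (h : Hyp τ β γ γ' Ω e e' η) (hN : ∀ k ∈ KK τ β, ∀ n ∈ N, k * n * k⁻¹ ∈ N)
    {n : GG} (h1 : n ∈ N) (h2 : n ∈ HH) (h3 : n ∈ KK τ β) (h4 : n ≠ 1) (h5 : n ≠ xq β false) :
    zz ∈ N := by
  obtain ⟨p, rfl⟩ := h2
  by_cases hp : p.1.1 ∈ Subgroup.center Co0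
  · obtain ⟨x, f, e1⟩ := (rho_eq_xq_iff p).2 hp
    rw [e1] at h1 h4 h5
    by_cases a1 : cl x = 0
    · rw [xq_cl (a1.trans cl_zero.symm)] at h1 h4
      cases f
      exacts [absurd xq_zero h4, h1]
    by_cases a2 : cl x = cl β
    · rw [xq_cl a2] at h1 h5
      cases f
      · exact absurd rfl h5
      obtain ⟨g, hg⟩ := ex_xq_mul Ω β η false
      have a3 := hN _ h.tauK _ h1
      rw [show xq β true = zz * xq β false from (zz_mul_xq β false).symm,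
        show τ * (zz * xq β false) * τ⁻¹ = (τ * zz * τ⁻¹) * (τ * xq β false * τ⁻¹) by group,
        h.tz, h.conjK h.tauK, hg] at a3
      refine h.zz_of_xq hN a3 (fun a4 => ?_) fun a4 => ?_
      · rw [cl_add, Nat.xor_eq_zero_iff, h.hΩ] at a4
        exact short_ne_e8 h.hβ a4.symm
      · rw [cl_add, ← Nat.xor_eq_zero_iff, Nat.xor_xor_cancel_right, h.hΩ] at a4
        norm_num at a4
    · exact h.zz_of_xq hN h1 a1 a2
  · obtain ⟨r, hr, s, hs, hrs, a1, a2⟩ := exists_tri h.hβ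
    obtain ⟨g, e4, e5⟩ := of_base2 (trans_0 h.hβ hr a1) (trans_0 h.hβ hs a2)
    obtain ⟨q, b1, b2, b3⟩ := h.lift_all hN h1 h3 hp e4
    obtain ⟨f, hf⟩ := conj_xq q r false
    rw [b1, e5] at hf
    obtain ⟨f', hf'⟩ := ex_xq_mul r s false f
    have b4 : xq r false ∈ KK τ β := h.xq_memK (by rw [dot_comm, a1]; rfl) _
    have b5 := N.mul_mem (hN _ b4 _ b2) (N.inv_mem b2)
    rw [inv_eq_of_mul_eq_one_right (xq_sq hr false), mul_assoc (xq r false), mul_assoc (xq r false),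
      hf, hf'] at b5
    refine h.zz_of_xq hN b5 (short_ne_zero hrs) fun a4 => ?_
    have a5 : dotInt (β : V) ((r + s : Λ) : V) = 0 := by
      rw [AddSubgroup.coe_add, dot_add_right, a1, a2, add_zero]
    rcases short_eq h.hβ hrs a4.symm with a6 | a6 <;> rw [a6] at a5
    · rw [dot_self, show sqNorm (β : V) = 32 from h.hβ] at a5; omega
    · rw [AddSubgroup.coe_neg, dot_neg_right, dot_self, show sqNorm (β : V) = 32 from h.hβ] at a5; omega

/-- the involution of the axis, as an element of the stabiliser -/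
noncomputable def Hyp.tt (h : Hyp τ β γ γ' Ω e e' η) : KK τ β := ⟨xq β false, h.tK⟩

theorem Hyp.tt_center (h : Hyp τ β γ γ' Ω e e' η) : h.tt ∈ Subgroup.center (KK τ β) :=
  Subgroup.mem_center_iff.2 fun k => Subtype.ext (h.commK k.2)

theorem Hyp.order_tt (h : Hyp τ β γ γ' Ω e e' η) : orderOf h.tt = 2 :=
  orderOf_eq_prime (Subtype.ext ((sq _).trans (xq_sq h.hβ false))) fun e =>
    xq_ne_one (short_ne_zero h.hβ) false (congrArg Subtype.val e)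

theorem mem_zpowers_two {G : Type*} [Group G] {t x : G} (ht : orderOf t = 2)
    (hx : x ∈ Subgroup.zpowers t) : x = 1 ∨ x = t := by
  obtain ⟨n, rfl⟩ := hx
  change t ^ n = 1 ∨ t ^ n = t
  rw [← zpow_mod_orderOf, ht]
  rcases Int.emod_two_eq_zero_or_one n with h | h <;> simp [h]

theorem Hyp.dich (h : Hyp τ β γ γ' Ω e e' η) (N : Subgroup (KK τ β)) (hN : N.Normal) :
    N ≤ Subgroup.zpowers h.tt ∨ N = ⊤ := by
  haveI := h.finiteK
  have hN' : ∀ k ∈ KK τ β, ∀ n ∈ N.map (KK τ β).subtype, k * n * k⁻¹ ∈ N.map (KK τ β).subtype := by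
    rintro k hk _ ⟨n, hn, rfl⟩
    exact ⟨_, hN.conj_mem n hn ⟨k, hk⟩, rfl⟩
  by_cases hz : zz ∈ N.map (KK τ β).subtype
  · refine Or.inr (eq_top_iff.2 fun k _ => ?_)
    obtain ⟨n, hn, e1⟩ := h.K_le hN' hz k.2
    rwa [← show n = k from Subtype.ext e1]
  left
  haveI : (Subgroup.zpowers h.tt).Normal :=
    ⟨fun n hn g => by
      rwa [Subgroup.mem_center_iff.1 ((Subgroup.zpowers_le).2 h.tt_center hn) g, mul_inv_cancel_right]⟩
  let π := QuotientGroup.mk' (Subgroup.zpowers h.tt)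
  haveI := hN.map π (QuotientGroup.mk'_surjective _)
  have key : N.map π = ⊥ := eq_bot_of_fpf (z := π ⟨zz, h.zzK⟩) (τ := π ⟨τ, h.tauK⟩)
    (by rw [← map_mul, ← map_one π]; exact congrArg π (Subtype.ext zz_sq))
    (by
      simp only [← map_mul, ← map_inv]
      exact congrArg π (Subtype.ext (by
        change τ * (τ * zz * τ⁻¹) * τ⁻¹ = zz * (τ * zz * τ⁻¹)
        rw [h.tz, h.tx]))) (by
      rintro _ ⟨n, hn, rfl⟩ hc
      rw [← map_mul, ← map_mul, ← mul_inv_eq_one, ← map_inv, ← map_mul, QuotientGroup.mk'_apply,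
        QuotientGroup.eq_one_iff] at hc
      rw [QuotientGroup.mk'_apply, QuotientGroup.eq_one_iff]
      rcases mem_zpowers_two h.order_tt hc with a | a
      · by_contra a1
        refine hz (h.zz_mem hN' ⟨n, hn, rfl⟩ (h.memH n.2.1 (congrArg Subtype.val (mul_inv_eq_one.1 a)))
          n.2 (fun a2 => a1 ?_) fun a2 => a1 ?_)
        · rw [show n = 1 from Subtype.ext a2]; exact one_mem _
        · rw [show n = h.tt from Subtype.ext a2]; exact Subgroup.mem_zpowers _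
      · refine absurd ?_ (h.not_conj n.2.1 true)
        have a1 : (n : GG) * zz * (zz * n)⁻¹ = xq β false := congrArg Subtype.val a
        rw [show xq β true = zz * xq β false from (zz_mul_xq β false).symm,
          ← zz_comm' (xq_mem_HH β false), ← a1]
        group)
  rwa [Subgroup.map_eq_bot_iff, QuotientGroup.ker_mk'] at key

theorem Hyp.tau_ne (h : Hyp τ β γ γ' Ω e e' η) : τ * zz ≠ zz * τ := fun e1 => by
  have := h.tz
  rw [e1, mul_inv_cancel_right, zz, xq_eq_iff, cl_zero, h.hΩ] at this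
  norm_num at this

theorem Hyp.cover (h : Hyp τ β γ γ' Ω e e' η) :
    Subgroup.center (KK τ β) = Subgroup.zpowers h.tt ∧ IsB (KK τ β ⧸ Subgroup.center (KK τ β)) ∧
      IsNonsplitDoubleCover (KK τ β) (KK τ β ⧸ Subgroup.center (KK τ β)) := by
  haveI := h.finiteK
  obtain ⟨h1, h2, h3⟩ := H4.dcover_of_dich ((Subgroup.zpowers_le).2 h.tt_center)
    (by rw [Nat.card_zpowers, h.order_tt]) h.dich
    ⟨⟨τ, h.tauK⟩, ⟨zz, h.zzK⟩, fun e => h.tau_ne (congrArg Subtype.val e)⟩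
  refine ⟨h1, ⟨h2, ?_⟩, h3⟩
  have := (Subgroup.center (KK τ β)).card_eq_card_quotient_mul_card_subgroup
  rw [h.cardK, h3.1] at this
  omega

theorem lift_Co1 (hN : ∀ k ∈ HH, ∀ n ∈ N, k * n * k⁻¹ ∈ N) {p : Ht} (h1 : rho p ∈ N)
    (h3 : p.1.1 ∉ Subgroup.center Co0) (g : Co0) :
    ∃ q : Ht, rho q ∈ N ∧ q.1.1⁻¹ * g ∈ Subgroup.center Co0 := by
  let φ : Ht →* Co0 ⧸ Subgroup.center Co0 :=
    (QuotientGroup.mk' _).comp ((MonoidHom.fst _ _).comp Ht.subtype)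
  have hφ : Function.Surjective φ := (QuotientGroup.mk'_surjective _).comp Ht_surj
  have hM : (N.comap rho).Normal := ⟨fun n hn k => by
    rw [Subgroup.mem_comap, map_mul, map_mul, map_inv]; exact hN _ ⟨k, rfl⟩ _ hn⟩
  rcases isCo1.1.eq_bot_or_eq_top_of_normal _ (hM.map φ hφ) with h4 | h4
  · have : φ p ∈ (N.comap rho).map φ := ⟨p, h1, rfl⟩
    rw [h4, Subgroup.mem_bot] at this
    exact absurd ((QuotientGroup.eq_one_iff _).1 this) h3
  · obtain ⟨q, a1, a2⟩ : (g : Co0 ⧸ Subgroup.center Co0) ∈ (N.comap rho).map φ :=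
      h4 ▸ Subgroup.mem_top _
    exact ⟨q, a1, QuotientGroup.eq.1 a2⟩

theorem zz_of_xqH (hN : ∀ k ∈ HH, ∀ n ∈ N, k * n * k⁻¹ ∈ N) {x : Λ} {f : Bool} (hx : xq x f ∈ N)
    (h0 : cl x ≠ 0) : zz ∈ N := by
  obtain ⟨y, hy⟩ := exists_odd h0
  have := hN _ (xq_mem_HH y false) _ hx
  rw [xq_comm_odd hy] at this
  exact (N.mul_mem_cancel_right hx).1 this

theorem zz_memH (hN : ∀ k ∈ HH, ∀ n ∈ N, k * n * k⁻¹ ∈ N) {n : GG} (h1 : n ∈ N) (h2 : n ∈ HH)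
    (h4 : n ≠ 1) : zz ∈ N := by
  obtain ⟨p, rfl⟩ := h2
  by_cases hp : p.1.1 ∈ Subgroup.center Co0
  · obtain ⟨x, f, e1⟩ := (rho_eq_xq_iff p).2 hp
    rw [e1] at h1 h4
    by_cases a1 : cl x = 0
    · rw [xq_cl (a1.trans cl_zero.symm)] at h1 h4
      cases f
      exacts [absurd xq_zero h4, h1]
    · exact zz_of_xqH hN h1 a1
  · obtain ⟨r, hr, s, hs, hrs, -⟩ := exists_tri v0_mem
    obtain ⟨a, ha⟩ := trans2 hr
    obtain ⟨b, hb⟩ := trans2 hs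
    obtain ⟨q, b1, b2⟩ := lift_Co1 hN h1 hp (b * a⁻¹)
    have b3 : cl (q.1.1 • r) = cl s := by
      have : s = q.1.1 • (q.1.1⁻¹ * (b * a⁻¹)) • r := by
        rw [← mul_smul, mul_inv_cancel_left, ← ha, ← hb, mul_smul, inv_smul_smul]
      rcases mem_center_Co0.1 b2 with c | c <;> rw [this, c]
      rw [smul_neg', cl_neg]
    obtain ⟨f, hf⟩ := conj_xq q r false
    rw [xq_cl b3] at hf
    obtain ⟨f', hf'⟩ := ex_xq_mul r s false f
    have b5 := N.mul_mem (hN _ (xq_mem_HH r false) _ b1) (N.inv_mem b1)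
    rw [inv_eq_of_mul_eq_one_right (xq_sq hr false), mul_assoc (xq r false), mul_assoc (xq r false),
      hf, hf'] at b5
    exact zz_of_xqH hN b5 (short_ne_zero hrs)

theorem Hyp.simple' (h : Hyp τ β γ γ' Ω e e' η) : IsSimpleGroup (GM τ) := by
  haveI := h.finite
  haveI : Nontrivial (GM τ) :=
    ⟨⟨⟨zz, HH_le_GM zz_mem_HH⟩, 1, fun e => zz_ne1 (congrArg Subtype.val e)⟩⟩
  refine ⟨fun N hN => or_iff_not_imp_left.2 fun h0 => ?_⟩
  have hN' : ∀ k ∈ GM τ, ∀ n ∈ N.map (GM τ).subtype, k * n * k⁻¹ ∈ N.map (GM τ).subtype := by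
    rintro k hk _ ⟨n, hn, rfl⟩
    exact ⟨_, hN.conj_mem n hn ⟨k, hk⟩, rfl⟩
  generalize hM : N.map (GM τ).subtype = M at hN'
  have hH : ∀ k ∈ HH, ∀ n ∈ M, k * n * k⁻¹ ∈ M := fun k hk => hN' k (HH_le_GM hk)
  have hz : zz ∈ M := by
    by_contra hz
    refine h0 (eq_bot_of_fpf (z := ⟨zz, HH_le_GM zz_mem_HH⟩) (τ := ⟨τ, tau_mem⟩) (Subtype.ext zz_sq)
      (Subtype.ext (by
        change τ * (τ * zz * τ⁻¹) * τ⁻¹ = zz * (τ * zz * τ⁻¹)
        rw [h.tz, h.tx])) fun n hn hc => ?_)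
    by_contra a1
    exact hz (zz_memH hH (hM ▸ ⟨n, hn, rfl⟩) (h.memH n.2 (congrArg Subtype.val hc))
      fun a2 => a1 (Subtype.ext a2))
  have hK := h.K_le (fun k hk => hN' k hk.1) hz
  have hQ : ∀ (x : Λ) (f : Bool), xq x f ∈ M := fun x f => by
    refine xq_mem_iff hz false f (basis_ind (P := fun x => x ∈ clS M hz) (zero_mem _) (fun k hk => ?_)
      (fun _ _ => add_mem) (fun _ => neg_mem) x)
    obtain ⟨a, ha, e1⟩ := exists_smul_ax h.hβ (norm_bb hk) false false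
    rw [smul_ax_iff ha h.hβ (norm_bb hk)] at e1
    change xq _ false ∈ M
    exact e1 ▸ hH _ ha _ (hK h.tK)
  have hG : GM τ ≤ M := (Subgroup.closure_le _).2 (by
    rintro _ (⟨p, rfl⟩ | rfl)
    · obtain ⟨x, f, q, -, e4, e5⟩ := h.out
      obtain ⟨q', a1, a2⟩ := lift_Co1 hH (e4 ▸ hN' _ tau_mem _ (hQ x f)) e5 p.1.1
      obtain ⟨y, g, a3⟩ := (rho_eq_xq_iff (q'⁻¹ * p)).2 a2
      have := M.mul_mem a1 (a3 ▸ hQ y g)
      rwa [← map_mul, mul_inv_cancel_left] at this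
    · exact hK h.tauK)
  refine eq_top_iff.2 fun k _ => ?_
  obtain ⟨n, hn, e1⟩ : k.1 ∈ N.map (GM τ).subtype := hM ▸ hG k.2
  rwa [← show n = k from Subtype.ext e1]

end Cfsg.Agent.Mo
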