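import Cfsg.Agent.Mo.Fin3

/-! Axes and their involutions; the eigenspace of an axis. -/

set_option autoImplicit false

namespace Cfsg.Agent.Mo

open H5 H5.Lee MulAction

variable {τ : GG} {β γ γ' Ω : Λ} {e e' η : Bool}

/-- `s` is the involution of the axis `w` -/
def Inv (τ : GG) (β : Λ) (w : VV) (s : GG) : Prop :=
  ∃ g ∈ GM τ, g • ax β false = w ∧ g * xq β false * g⁻¹ = s

theorem Inv.smul {w : VV} {s g : GG} (h : Inv τ β w s) (hg : g ∈ GM τ) :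
    Inv τ β (g • w) (g * s * g⁻¹) := by
  obtain ⟨a, ha, rfl, rfl⟩ := h
  exact ⟨g * a, mul_mem hg ha, mul_smul _ _ _, by group⟩

theorem Inv.mem {w : VV} {s : GG} (h : Inv τ β w s) : w ∈ XX τ (ax β false) := by
  obtain ⟨a, ha, e1, -⟩ := h
  exact ⟨a, ha, e1⟩

theorem Hyp.inv_ax (h : Hyp τ β γ γ' Ω e e' η) {r : Λ} (hr : r ∈ L2) (f : Bool) :
    Inv τ β (ax r f) (xq r f) := by
  obtain ⟨a, ha, e1⟩ := exists_smul_ax h.hβ hr false f
  exact ⟨a, HH_le_GM ha, e1, (smul_ax_iff ha h.hβ hr).1 e1⟩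

theorem Hyp.inv_iff (h : Hyp τ β γ γ' Ω e e' η) {w w' : VV} {s s' : GG} (h1 : Inv τ β w s)
    (h2 : Inv τ β w' s') : w = w' ↔ s = s' := by
  obtain ⟨a, ha, rfl, rfl⟩ := h1
  obtain ⟨b, hb, rfl, rfl⟩ := h2
  have hk : b⁻¹ * a ∈ GM τ := mul_mem (inv_mem hb) ha
  constructor
  · intro e1
    have := h.conjK (k := b⁻¹ * a) ⟨hk, by
      change (b⁻¹ * a) • _ = _
      rw [mul_smul, e1, inv_smul_smul]⟩
    conv_rhs => rw [← this]
    group
  · intro e1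
    have : (b⁻¹ * a) • ax β false = ax β false := (h.memK hk (by
      calc _ = b⁻¹ * (a * xq β false * a⁻¹) * a := by group
        _ = _ := by rw [e1]; group)).2
    rw [mul_smul, inv_smul_eq_iff] at this
    exact this

theorem Hyp.pair (h : Hyp τ β γ γ' Ω e e' η) {w w' : VV} {s s' : GG} (h1 : Inv τ β w s)
    (h2 : Inv τ β w' s') : (∃ m : ℤ, ip w w' = m / 8) ∧
      ((∃ n, 1 ≤ n ∧ n ≤ 5 ∧ (s * s') ^ n = 1) ∨ ((s * s') ^ 6 = 1 ∧ ip w w' = 5 / 8)) := by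
  obtain ⟨a, ha, rfl, rfl⟩ := h1
  obtain ⟨b, hb, rfl, rfl⟩ := h2
  have hk : a⁻¹ * b ∈ GM τ := mul_mem (inv_mem ha) hb
  have e1 : ip (a • ax β false : VV) (b • ax β false : VV) =
      ip (ax β false) ((a⁻¹ * b) • ax β false : VV) := by
    rw [← h.ip_smul ha (ax β false), mul_smul, smul_inv_smul]
  have e2 : ∀ n, (a * xq β false * a⁻¹ * (b * xq β false * b⁻¹)) ^ n =
      a * (xq β false * (a⁻¹ * b * xq β false * (a⁻¹ * b)⁻¹)) ^ n * a⁻¹ := fun n => by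
    rw [← conj_pow]; congr 1; group
  simp only [e1, e2, conj_eq_one_iff]
  obtain ⟨h3, h4⟩ := h.pairs _ hk
  refine ⟨h3, ?_⟩
  rcases h4 with h4 | ⟨-, ⟨n, a1, a2, a3⟩ | h4⟩
  · exact Or.inl ⟨1, le_rfl, by norm_num, by rw [h.conjK ⟨hk, h4⟩, pow_one, xq_sq h.hβ]⟩
  · exact Or.inl ⟨n, by omega, a2, a3⟩
  · exact Or.inr h4

theorem tri_facts {r s t : Λ} (hr : r ∈ L2) (hs : s ∈ L2) (ht : t ∈ L2) {a b c : Bool}
    (h : xq r a * xq s b = xq t c) : ip (ax r a) (ax s b) = 4 ∧ dotInt (s : V) (r : V) / 8 % 2 = 0 := by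
  obtain ⟨g, hg⟩ := ex_xq_mul r s a b
  rw [hg, xq_eq_iff, cl_add] at h
  have h1 : cl r ≠ cl s := fun e1 => short_ne_zero ht (by rw [← h.1, e1, Nat.xor_self])
  rw [ip_ax_ax hr hs, if_neg h1, dot_comm (s : V)]
  rcases short_add hr hs ht h.1 with h2 | h2 <;> rw [h2] <;> norm_num

theorem Hyp.tri' (h : Hyp τ β γ γ' Ω e e' η) : xq β false * xq γ' e' = xq γ e := by
  rw [← h.tri, ← mul_assoc, xq_sq h.hβ, one_mul]

theorem Hyp.sK (h : Hyp τ β γ γ' Ω e e' η) : xq γ e ∈ KK τ β :=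
  h.xq_memK (tri_facts h.hβ h.hγ h.hγ' h.tri).2 e

theorem Hyp.tri'' (h : Hyp τ β γ γ' Ω e e' η) : xq γ e * xq γ' e' = xq β false := by
  rw [← h.tri, ← h.commK h.sK, ← mul_assoc, xq_sq h.hγ, one_mul]

theorem Hyp.orbitW (h : Hyp τ β γ γ' Ω e e' η) : {w | ∃ g ∈ KK τ β, g • ax γ e = w} =
    {w | w ∈ XX τ (ax β false) ∧ ip (ax β false) w = 4} := by
  ext w
  constructor
  · rintro ⟨k, hk, rfl⟩
    refine ⟨((h.inv_ax h.hγ e).smul hk.1).mem, ?_⟩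
    rw [← (tri_facts h.hβ h.hγ h.hγ' h.tri).1, ← h.ip_smul hk.1 (ax β false) (ax γ e),
      show k • ax β false = ax β false from hk.2]
  · rintro ⟨h1, h2⟩
    obtain ⟨k, hk, e1, e2⟩ := h.transW w h1 h2
    exact ⟨k, ⟨hk, e1⟩, e2⟩

theorem Hyp.exists_swap (h : Hyp τ β γ γ' Ω e e' η) : ∃ k ∈ KK τ β, k • ax γ e = ax γ' e' := by
  change ax γ' e' ∈ {w | ∃ g ∈ KK τ β, g • ax γ e = w}
  rw [h.orbitW]
  exact ⟨(h.inv_ax h.hγ' e').mem, (tri_facts h.hβ h.hγ' h.hγ h.tri').1⟩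

theorem order_aux {G : Type*} [Group G] {t r : G} (h1 : t * t = 1) (h2 : t ≠ 1) (hc : Commute t r)
    {A B : Prop} (h3 : (∃ n, 1 ≤ n ∧ n ≤ 5 ∧ r ^ n = 1) ∨ (r ^ 6 = 1 ∧ A))
    (h4 : (∃ n, 1 ≤ n ∧ n ≤ 5 ∧ (t * r) ^ n = 1) ∨ ((t * r) ^ 6 = 1 ∧ B)) (h5 : ¬ (A ∧ B)) :
    ∃ n, 1 ≤ n ∧ n ≤ 4 ∧ (r ^ n = 1 ∨ (t * r) ^ n = 1) := by
  have t6 : t ^ 6 = 1 := by rw [show 6 = 2 * 3 from rfl, pow_mul, sq, h1, one_pow]
  have t5 : t ^ 5 = t := by rw [show 5 = 2 * 2 + 1 from rfl, pow_succ, pow_mul, sq t, h1, one_pow, one_mul]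
  have e6 : (t * r) ^ 6 = r ^ 6 := by rw [hc.mul_pow, t6, one_mul]
  rcases h3 with ⟨n, a1, a2, a3⟩ | h3
  · by_cases hn : n ≤ 4
    · exact ⟨n, a1, hn, Or.inl a3⟩
    obtain rfl : n = 5 := by omega
    rcases h4 with ⟨m, b1, b2, b3⟩ | h4
    · by_cases hm : m ≤ 4
      · exact ⟨m, b1, hm, Or.inr b3⟩
      obtain rfl : m = 5 := by omega
      rw [hc.mul_pow, a3, mul_one, t5] at b3
      exact absurd b3 h2
    · refine ⟨1, le_rfl, by norm_num, Or.inl ?_⟩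
      have := h4.1
      rwa [e6, pow_succ, a3, one_mul, ← pow_one r] at this
  · rcases h4 with ⟨m, b1, b2, b3⟩ | h4
    · by_cases hm : m ≤ 4
      · exact ⟨m, b1, hm, Or.inr b3⟩
      obtain rfl : m = 5 := by omega
      refine ⟨1, le_rfl, by norm_num, Or.inr ?_⟩
      have := h3.1
      rwa [← e6, pow_succ, b3, one_mul, ← pow_one (t * r)] at this
    · exact absurd ⟨h3.2, h4.2⟩ h5

theorem Hyp.order4 (h : Hyp τ β γ γ' Ω e e' η) {k : GG} (hk : k ∈ KK τ β) :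
    ∃ n, 1 ≤ n ∧ n ≤ 4 ∧ ((xq γ e * (k * xq γ e * k⁻¹)) ^ n = 1 ∨
      (xq β false * (xq γ e * (k * xq γ e * k⁻¹))) ^ n = 1) := by
  have h1 := (h.inv_ax h.hγ e).smul hk.1
  have h2 : k • ax γ e ∈ {w | ∃ g ∈ KK τ β, g • ax γ e = w} := ⟨k, hk, rfl⟩
  rw [h.orbitW] at h2
  refine order_aux (xq_sq h.hβ false) (xq_ne_one (short_ne_zero h.hβ) false)
    (h.commK ((KK τ β).mul_mem h.sK ((KK τ β).mul_mem ((KK τ β).mul_mem hk h.sK)
      ((KK τ β).inv_mem hk)))).symm (h.pair (h.inv_ax h.hγ e) h1).2 ?_ (h.no66 _ h2.1 h2.2)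
  rw [← mul_assoc (xq β false), h.tri]
  exact (h.pair (h.inv_ax h.hγ' e') h1).2

/-! ### the eigenspace -/

/-- the form as a linear map -/
noncomputable def ipL (w : VV) : VV →ₗ[ℝ] ℝ where
  toFun u := ip u w
  map_add' u v := ip_add _ _ _
  map_smul' a u := ip_smul _ _ _

theorem ip_sub (u v w : VV) : ip (u - v : VV) w = ip u w - ip v w := (ipL w).map_sub u v
theorem ip_add' (u v w : VV) : ip (u + v : VV) w = ip u w + ip v w := (ipL w).map_add u v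
theorem ip_sub' (u v w : VV) : ip w (u - v : VV) = ip w u - ip w v := by
  rw [ip_comm, ip_sub, ip_comm u, ip_comm v]

theorem TT_sub2 (a u v w : VV) : TT a (u - v : VV) w = TT a u w - TT a v w := by
  rw [TT_swap12, TT_swap12 a u, TT_swap12 a v, sub_eq_add_neg, Submodule.coe_add, TT_add,
    ← neg_one_smul ℝ v, Submodule.coe_smul, TT_smul]
  ring

theorem smul_mem_E8 {k : GG} (hk : k ∈ Aut) {a u : VV} (h : k • a = a) (hu : u ∈ E8 a) :
    k • u ∈ E8 a := fun w => by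
  rw [← smul_inv_smul k w, hk.1, ← hu, ← hk.2 a u, h]

/-- the difference of the two axes of a `2A` algebra -/
noncomputable def ud (γ γ' : Λ) (e e' : Bool) : VV := ax γ e - ax γ' e'

theorem Hyp.ud_mem (h : Hyp τ β γ γ' Ω e e' η) : ud γ γ' e e' ∈ E8 (ax β false) := fun w => by
  rw [ud, TT_sub2, twoA h.hβ h.hγ h.hγ' h.tri, twoA h.hβ h.hγ' h.hγ h.tri']
  simp only [ip_sub, ip_add']
  ring

theorem Hyp.E8_orth (h : Hyp τ β γ γ' Ω e e' η) {u : VV} (hu : u ∈ E8 (ax β false)) :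
    ip (ax γ' e') u = -ip (ax γ e) u := by
  have h1 := hu (ax β false)
  have h2 := hu (ax γ e)
  have h3 := hu (ax γ' e')
  rw [TT_swap23, TT_ax_ax h.hβ, ip_comm u] at h1
  rw [TT_swap23, twoA h.hβ h.hγ h.hγ' h.tri, ip_comm u] at h2
  rw [TT_swap23, twoA h.hβ h.hγ' h.hγ h.tri', ip_comm u] at h3
  simp only [ip_sub, ip_add'] at h2 h3
  linarith

theorem Hyp.ip_ud (h : Hyp τ β γ γ' Ω e e' η) {k : GG} (hk : k ∈ KK τ β) :
    ip (ud γ γ' e e') (k • ud γ γ' e e' : VV) =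
      2 * (ip (ax γ e) (k • ax γ e : VV) - ip (ax γ' e') (k • ax γ e : VV)) := by
  have hi : k⁻¹ ∈ KK τ β := (KK τ β).inv_mem hk
  have h1 := h.E8_orth (smul_mem_E8 (h.le_Aut hi.1) hi.2 h.ud_mem)
  rw [← h.ip_smul hk.1, ← h.ip_smul hk.1 (ax γ e), smul_inv_smul, ip_comm, ip_comm (k • ax γ e : VV)] at h1
  rw [← ip_sub, ← ud]
  conv_lhs => rw [ud, smul_sub, ip_sub', ← ud]
  rw [h1]; ring

theorem Hyp.exists_form (h : Hyp τ β γ γ' Ω e e' η) : ∃ (c : ℝ) (f : KK τ β → KK τ β → ℤ),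
    (∀ a b, (f a b : ℝ) = c * ip (a • ud γ γ' e e' : VV) (b • ud γ γ' e e' : VV)) ∧
      Even (f 1 1) ∧ ∃ k, Odd (f 1 k) := by
  classical
  have e1 : ∀ a b : KK τ β, ip (a • ud γ γ' e e' : VV) (b • ud γ γ' e e' : VV) =
      ip (ud γ γ' e e') ((a⁻¹ * b) • ud γ γ' e e' : VV) := fun a b => by
    rw [← h.ip_smul a.2.1 (ud γ γ' e e'), mul_smul]
    exact congrArg _ (congrArg _ (smul_inv_smul a _).symm)
  have e2 : ∀ k : KK τ β, ∃ m : ℤ, (m : ℝ) = 8 * ip (ud γ γ' e e') (k • ud γ γ' e e' : VV) := fun k => by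
    have h1 := (h.inv_ax h.hγ e).smul k.2.1
    obtain ⟨m, hm⟩ := (h.pair (h.inv_ax h.hγ e) h1).1
    obtain ⟨n, hn⟩ := (h.pair (h.inv_ax h.hγ' e') h1).1
    refine ⟨2 * (m - n), ?_⟩
    rw [Subgroup.smul_def, h.ip_ud k.2, hm, hn]
    push_cast; ring
  choose F hF using e2
  have e3 : F 1 = 448 := by
    have := hF 1
    rw [Subgroup.smul_def, h.ip_ud (1 : KK τ β).2, Subgroup.coe_one, one_smul, ip_ax_self h.hγ, ip_comm,
      (tri_facts h.hγ h.hγ' h.hβ h.tri'').1] at this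
    exact_mod_cast this.trans (by norm_num : _ = (448 : ℝ))
  obtain ⟨k0, e4⟩ : ∃ k, F k = 16 := by
    obtain ⟨w, a1, a2, a3, a4⟩ := h.ex36
    obtain ⟨k, hk, rfl⟩ : w ∈ {w | ∃ g ∈ KK τ β, g • ax γ e = w} := h.orbitW ▸ ⟨a1, a2⟩
    have := hF ⟨k, hk⟩
    rw [Subgroup.smul_def, h.ip_ud hk, a3, a4] at this
    exact ⟨_, by exact_mod_cast this.trans (by norm_num : _ = (16 : ℝ))⟩
  have e5 : ∃ j : ℕ, ∃ k, ¬ 2 ^ (j + 1) ∣ F k := ⟨4, k0, by rw [e4]; norm_num⟩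
  have e6 : Nat.find e5 ≤ 4 := Nat.find_min' e5 ⟨k0, by rw [e4]; norm_num⟩
  have e7 : ∀ k, 2 ^ Nat.find e5 ∣ F k := fun k => by
    rcases Nat.eq_zero_or_eq_succ_pred (Nat.find e5) with a | a
    · rw [a]; exact one_dvd _
    · by_contra a1
      exact Nat.find_min e5 (m := (Nat.find e5).pred) (by omega) ⟨k, by rwa [a] at a1⟩
  obtain ⟨k1, e8⟩ := Nat.find_spec e5
  generalize Nat.find e5 = j at e6 e7 e8
  refine ⟨8 / 2 ^ j, fun a b => F (a⁻¹ * b) / 2 ^ j, fun a b => ?_, ?_, k1, ?_⟩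
  · rw [Int.cast_div (e7 _) (by positivity), hF, e1]
    push_cast; ring
  · simp only [inv_one, one_mul, e3]
    interval_cases j <;> decide
  · simp only [inv_one, one_mul]
    obtain ⟨c, hc⟩ := e7 k1
    rw [hc, Int.mul_ediv_cancel_left _ (by positivity), ← Int.not_even_iff_odd]
    rintro ⟨d, rfl⟩
    exact e8 ⟨d, by rw [hc]; ring⟩

theorem rank_le {E : Submodule ℝ VV} {m : ℕ} (u : Fin m → VV) (hu : ∀ i, u i ∈ E) (c : ℝ)
    (A : Matrix (Fin m) (Fin m) ℤ) (hA : ∀ i j, (A i j : ℝ) = c * ip (u i) (u j)) (h : A.det ≠ 0) :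
    m ≤ Module.finrank ℝ E := by
  have h1 : LinearIndependent ℝ u := Fintype.linearIndependent_iff.2 fun d hd => by
    refine congrFun (Matrix.eq_zero_of_vecMul_eq_zero (M := (Int.castRingHom ℝ).mapMatrix A) ?_
      (funext fun j => ?_))
    · rw [← RingHom.map_det]
      simpa using h
    · have := congrArg (fun x : VV => c * ipL (u j) x) hd
      simp only [map_sum, map_smul, map_zero, mul_zero, smul_eq_mul, Finset.mul_sum] at this
      change ∑ i, d i * (A i j : ℝ) = 0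
      rw [← this]
      refine Finset.sum_congr rfl fun i _ => ?_
      change d i * (A i j : ℝ) = c * (d i * ip _ _)
      rw [hA]; ring
  have h2 : LinearIndependent ℝ fun i => (⟨u i, hu i⟩ : E) :=
    LinearIndependent.of_comp E.subtype h1
  have := h2.fintype_card_le_finrank
  rwa [Fintype.card_fin] at this

theorem Hyp.exists_repK (h : Hyp τ β γ γ' Ω e e' η) :
    ∃ (U : Submodule (ZMod 2) (KK τ β → ZMod 2)) (φ : KK τ β →* Module.End (ZMod 2) U),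
      Module.finrank (ZMod 2) U ≤ 4370 ∧ φ.ker = Subgroup.center (KK τ β) := by
  haveI := h.finiteK
  obtain ⟨c, f, h1, h2, h3⟩ := h.exists_form
  obtain ⟨U, φ, a1, a2, a3⟩ := exists_rep2 f
    (fun a b => by rw [← Int.cast_inj (α := ℝ), h1, h1, ip_comm])
    (fun g a b => by
      rw [← Int.cast_inj (α := ℝ), h1, h1, mul_smul, mul_smul]
      exact congrArg _ (h.ip_smul g.2.1 _ _)) h2 h3 (n := 4370) (by decide) fun m k hk =>
    (rank_le (fun i => k i • ud γ γ' e e')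
      (fun i => smul_mem_E8 (h.le_Aut (k i).2.1) (k i).2.2 h.ud_mem) c _ (fun i j => h1 _ _) hk).trans
        (finrank_E8 h.hβ false)
  refine ⟨U, φ, a1, ?_⟩
  rw [h.cover.1]
  refine le_antisymm ((h.dich _ inferInstance).resolve_right a2)
    ((Subgroup.zpowers_le).2 (a3 _ fun a b => ?_))
  have b1 : ∀ {r : Λ} {f : Bool}, r ∈ L2 → xq r f ∈ KK τ β → xq β false • ax r f = ax r f :=
    fun hr hk => (smul_ax_iff (xq_mem_HH _ _) hr hr).2 (by rw [← h.commK hk, mul_inv_cancel_right])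
  have b2 : h.tt • ud γ γ' e e' = ud γ γ' e e' := by
    change xq β false • ud γ γ' e e' = _
    rw [ud, smul_sub, b1 h.hγ h.sK, b1 h.hγ' (h.tri ▸ (KK τ β).mul_mem h.tK h.sK)]
  rw [← Int.cast_inj (α := ℝ), h1, h1, ← Subgroup.mem_center_iff.1 h.tt_center, mul_smul, b2]

end Cfsg.Agent.Mo
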