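import Cfsg.Agent.Mo.Prog

/-! Lifting and merging of programs. -/

set_option autoImplicit false

namespace Cfsg.Agent.Mo

open Finset

def dup (k x y : ℕ) : ℕ := Nat.lor x (Nat.shiftLeft y k)
def dup2 (k x : ℕ) : ℕ := dup k x x
def rep8 (n r : ℕ) : ℕ := dup (Nat.mul 16 n) (dup2 (Nat.mul 8 n) r) r
/-- 24 copies of `m` with stride `n` -/
def rep (n m : ℕ) : ℕ := rep8 n (dup2 (Nat.mul 4 n) (dup2 (Nat.mul 2 n) (dup2 n m)))
def blkA (n m c : ℕ) : ℕ :=
  Nat.rec 0 (fun i ih => cnd (Nat.testBit m i) (Nat.lor ih (Nat.shiftLeft (ones n) (Nat.mul i n))) ih) c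
/-- bit `i < 24` of `m` fills the block `[i n, (i + 1) n)` -/
def blk (n m : ℕ) : ℕ := blkA n m 24
def k0 (b : Bool) (k : ℕ) : ℕ := cnd (and b (Nat.beq k 1)) 0 k
def liftC (n : ℕ) (b : Bool) (a : Sg) : Sg := ⟨k0 b a.k, a.s, rep n a.m⟩
def liftR (n : ℕ) (b : Bool) (a : Sg) : Sg := ⟨k0 b a.k, Nat.mul a.s n, blk n a.m⟩
def up (K : ℕ) (b : Sg) : Sg := ⟨b.k, b.s, Nat.shiftLeft b.m K⟩
/-- `P` acts below `K`, `Q` above; schedule: 0 = both heads in one stage (if kind and shift agree),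
1 = head of `P`, 2 = head of `Q` -/
def mergeP (K : ℕ) : List ℕ → Prog → Prog → Prog
  | [], P, Q => P ++ Q.map (up K)
  | _ :: _, [], Q => Q.map (up K)
  | _ :: _, P, [] => P
  | c :: sc, a :: P, b :: Q =>
    cnd (Nat.beq c 2) (up K b :: mergeP K sc (a :: P) Q)
      (cnd (and (Nat.beq c 0) (and (Nat.beq a.k b.k) (Nat.beq a.s b.s)))
        (⟨a.k, a.s, Nat.lor a.m (Nat.shiftLeft b.m K)⟩ :: mergeP K sc P Q)
        (a :: mergeP K sc P (b :: Q)))
def dbs (N k : ℕ) : Prog := List.replicate k ⟨4, 0, ones N⟩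

/-- `x` consists of `c` copies of `m` -/
def Per (n m c x : ℕ) : Prop := ∀ p, x.testBit p = (decide (p < c * n) && m.testBit (p % n))

theorem Per.dup {n m c d x y k : ℕ} (hx : Per n m c x) (hy : Per n m d y) (hk : k = c * n) :
    Per n m (c + d) (dup k x y) := fun p => by
  subst hk
  rw [Mo.dup, tb_or, tb_shl, hx, hy]
  by_cases h : c * n ≤ p
  · obtain ⟨q, rfl⟩ := Nat.exists_eq_add_of_le h
    simp [add_mul, Nat.mul_add_mod_self_right]
  · have : p < (c + d) * n := by rw [add_mul]; omega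
    simp [h, this, not_le.1 h]

theorem tb_rep {n m : ℕ} (hm : ∀ p, m.testBit p = true → p < n) (p : ℕ) :
    (rep n m).testBit p = (decide (p < 24 * n) && m.testBit (p % n)) := by
  have h1 : Per n m 1 m := fun p => by
    by_cases h : p < n
    · simp [h, Nat.mod_eq_of_lt h]
    · rw [one_mul, decide_eq_false h, Bool.false_and]
      exact Bool.eq_false_iff.2 fun e => h (hm p e)
  have h2 : Per n m 2 _ := h1.dup h1 (one_mul n).symm
  have h4 : Per n m 4 _ := h2.dup h2 rfl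
  have h8 : Per n m 8 _ := h4.dup h4 rfl
  exact ((h8.dup h8 rfl).dup h8 rfl) p

theorem tb_blkA {n : ℕ} (hn : 0 < n) (m c p : ℕ) :
    (blkA n m c).testBit p = (decide (p / n < c) && m.testBit (p / n)) := by
  induction c with
  | zero => simp [blkA]
  | succ c ih =>
    change (cnd (m.testBit c) (Nat.lor (blkA n m c) (Nat.shiftLeft (ones n) (c * n))) (blkA n m c)).testBit p = _
    have h1 : (c * n ≤ p ∧ p - c * n < n) ↔ p / n = c := by
      rw [Nat.div_eq_iff hn]; omega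
    cases h : m.testBit c
    · rw [cnd_false, ih]
      by_cases e : p / n = c
      · simp [e, h]
      · congr 1; rw [decide_eq_decide]; omega
    · rw [cnd_true, tb_or, tb_shl, tb_ones, ih, ← Bool.decide_and, decide_eq_decide.2 h1]
      by_cases e : p / n = c
      · simp [e, h]
      · rw [decide_eq_false e, Bool.or_false]; congr 1; rw [decide_eq_decide]; omega

/-- along `φ`, the operator `T` acts on the part `D` like `t` -/
def Sim (φ : ℕ → ℕ) (D : ℕ → Prop) (T t : (ℕ → ℝ) → ℕ → ℝ) : Prop :=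
  ∀ F f, (∀ j, D j → F (φ j) = f j) → ∀ j, D j → T F (φ j) = t f j

variable {φ : ℕ → ℕ} {D : ℕ → Prop}

theorem Sim.stage {A a : Sg} (hk : A.k = a.k ∨ (A.k ≤ 1 ∧ a.k ≤ 1))
    (h : ∀ j, D j → A.lo (φ j) = a.lo j ∧ A.hi (φ j) = a.hi j ∧ A.pr (φ j) = φ (a.pr j) ∧ D (a.pr j)) :
    Sim φ D (semS A) (semS a) := fun F f e j hj => by
  obtain ⟨h1, h2, h3, h4⟩ := h j hj
  rcases hk with hk | hk
  · simp only [semS, hk, h1, h2, h3, e j hj, e _ h4]
  · simp only [semS, hk.1, hk.2, if_true, h3, e _ h4]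

theorem Sim.skip {A : Sg} (h : ∀ j, D j → A.lo (φ j) = false ∧ A.hi (φ j) = false) :
    Sim φ D (semS A) id := fun F f e j hj => by
  simp [semS, Sg.pr, (h j hj).1, (h j hj).2, e j hj]

theorem Sim.nil : Sim φ D (sem []) (sem []) := fun _ _ e => e
theorem Sim.cons {A a : Sg} {P p : Prog} (h1 : Sim φ D (semS A) (semS a)) (h2 : Sim φ D (sem P) (sem p)) :
    Sim φ D (sem (A :: P)) (sem (a :: p)) := fun F f e => h2 _ _ (h1 F f e)
theorem Sim.cons' {A : Sg} {P p : Prog} (h1 : Sim φ D (semS A) id) (h2 : Sim φ D (sem P) (sem p)) :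
    Sim φ D (sem (A :: P)) (sem p) := fun F f e => h2 _ _ (h1 F f e)
theorem Sim.map {L : Sg → Sg} {P : Prog} (h : ∀ a ∈ P, Sim φ D (semS (L a)) (semS a)) :
    Sim φ D (sem (P.map L)) (sem P) := by
  induction P with
  | nil => exact Sim.nil
  | cons a P ih => exact (h a (by simp)).cons (ih fun b hb => h b (by simp [hb]))
theorem Sim.skips {P : Prog} (h : ∀ a ∈ P, Sim φ D (semS a) id) : Sim φ D (sem P) (sem []) := by
  induction P with
  | nil => exact Sim.nil
  | cons a P ih => exact (h a (by simp)).cons' (ih fun b hb => h b (by simp [hb]))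
theorem Sim.append {P p Q q : Prog} (h1 : Sim φ D (sem P) (sem p)) (h2 : Sim φ D (sem Q) (sem q)) :
    Sim φ D (sem (P ++ Q)) (sem (p ++ q)) := fun F f e j hj => by
  rw [sem_append, sem_append]; exact h2 _ _ (h1 F f e) j hj

theorem k0_spec (b : Bool) (k : ℕ) : k0 b k = k ∨ (k0 b k ≤ 1 ∧ k ≤ 1) := by
  unfold k0
  cases b
  · exact Or.inl rfl
  · by_cases h : k = 1
    · subst h; exact Or.inr ⟨zero_le_one, le_rfl⟩
    · rw [beq_f h]; exact Or.inl rfl

theorem pr_of {A a : Sg} {p j : ℕ} (h1 : A.lo p = a.lo j) (h2 : A.hi p = a.hi j) (h0 : φ j = p)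
    (h3 : φ (j + a.s) = p + A.s) (h4 : a.s ≤ j → φ (j - a.s) = p - A.s) : A.pr p = φ (a.pr j) := by
  unfold Sg.pr
  rw [h1, h2]
  split_ifs with a1 a2
  · exact h3.symm
  · rw [Sg.hi_eq, Bool.and_eq_true_iff, decide_eq_true_eq] at a2
    exact (h4 a2.1).symm
  · exact h0.symm

theorem sim_liftC {n i : ℕ} (hi : i < 24) (b : Bool) {a : Sg} (h : wfS n a = true) :
    Sim (i * n + ·) (· < n) (semS (liftC n b a)) (semS a) := Sim.stage (k0_spec b a.k) fun j hj => by
  have e : ∀ p, (liftC n b a).lo p = (decide (p < 24 * n) && a.lo (p % n)) :=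
    tb_rep fun p hp => by have := wfS_lo h (p := p) hp; omega
  have e1 : ∀ j < n, (liftC n b a).lo (i * n + j) = a.lo j := fun j hj => by
    rw [e, Nat.mul_add_mod_self_right, Nat.mod_eq_of_lt hj, decide_eq_true (by nlinarith), Bool.true_and]
  have e2 : (liftC n b a).hi (i * n + j) = a.hi j := by
    rw [Sg.hi_eq, Sg.hi_eq]
    change (decide (a.s ≤ _) && (liftC n b a).lo (_ - a.s)) = _
    by_cases hs : a.s ≤ j
    · rw [Nat.add_sub_assoc hs, e1 _ (by omega), decide_eq_true hs, decide_eq_true (by omega)]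
    · rw [decide_eq_false hs, Bool.false_and, Bool.and_eq_false_imp, decide_eq_true_eq, e]
      intro h1
      rw [Bool.and_eq_false_imp]
      intro _
      by_contra h2
      have h3 := wfS_lo h (p := (i * n + j - a.s) % n) (by simpa using h2)
      have h4 := Nat.div_add_mod (i * n + j - a.s) n
      have h5 : (i * n + j) % n = ((i * n + j - a.s) % n + a.s) % n := by
        rw [Nat.mod_add_mod, Nat.sub_add_cancel h1]
      rw [Nat.mul_add_mod_self_right, Nat.mod_eq_of_lt hj, Nat.mod_eq_of_lt h3] at h5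
      omega
  exact ⟨e1 j hj, e2, pr_of (e1 j hj) e2 rfl (add_assoc _ _ _).symm
    fun hs => (Nat.add_sub_assoc hs _).symm, (pr_spec h j).2.2.1 hj⟩

theorem sim_liftR {n j : ℕ} (hj : j < n) (b : Bool) {a : Sg} (h : wfS 24 a = true) :
    Sim (· * n + j) (· < 24) (semS (liftR n b a)) (semS a) := Sim.stage (k0_spec b a.k) fun i hi => by
  have e1 : ∀ i < 24, (liftR n b a).lo (i * n + j) = a.lo i := fun i hi => by
    change (blkA n a.m 24).testBit _ = _
    rw [tb_blkA (by omega), add_comm, Nat.add_mul_div_right _ _ (by omega), Nat.div_eq_of_lt hj, zero_add,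
      decide_eq_true hi, Bool.true_and]
    rfl
  have e3 : a.s ≤ i → (i - a.s) * n + j = i * n + j - a.s * n := fun hs => by
    have := Nat.mul_le_mul_right n hs
    rw [Nat.sub_mul]; omega
  have e2 : (liftR n b a).hi (i * n + j) = a.hi i := by
    rw [Sg.hi_eq, Sg.hi_eq]
    change (decide (a.s * n ≤ _) && (liftR n b a).lo (_ - a.s * n)) = _
    by_cases hs : a.s ≤ i
    · have := Nat.mul_le_mul_right n hs
      rw [← e3 hs, e1 _ (by omega), decide_eq_true hs, decide_eq_true (by omega)]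
    · have := Nat.mul_le_mul_right n (show i + 1 ≤ a.s by omega)
      rw [add_mul] at this
      rw [decide_eq_false hs, decide_eq_false (by omega), Bool.false_and, Bool.false_and]
  exact ⟨e1 i hi, e2, pr_of (φ := (· * n + j)) (e1 i hi) e2 rfl
    (by change (i + a.s) * n + j = i * n + j + a.s * n; ring) e3,
    (pr_spec h i).2.2.1 hi⟩

theorem up_lo (K : ℕ) (b : Sg) (p : ℕ) : (up K b).lo p = (decide (K ≤ p) && b.lo (p - K)) := tb_shl _ _ _
theorem up_hi (K : ℕ) (b : Sg) (p : ℕ) : (up K b).hi p = (decide (K ≤ p) && b.hi (p - K)) := by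
  rw [Sg.hi_eq, Sg.hi_eq, up_lo]
  change (decide (b.s ≤ p) && (decide (K ≤ p - b.s) && b.lo (p - b.s - K))) = _
  rw [← Bool.and_assoc, ← Bool.and_assoc, ← Bool.decide_and, ← Bool.decide_and, Nat.sub_right_comm]
  by_cases h : K + b.s ≤ p
  · rw [decide_eq_true (by omega), decide_eq_true (by omega)]
  · rw [decide_eq_false (by omega), decide_eq_false (by omega)]

theorem sim_up (K : ℕ) (b : Sg) : Sim (K + ·) (fun _ => True) (semS (up K b)) (semS b) :=
  Sim.stage (Or.inl rfl) fun j _ => by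
    have e1 : (up K b).lo (K + j) = b.lo j := by simp [up_lo]
    have e2 : (up K b).hi (K + j) = b.hi j := by simp [up_hi]
    exact ⟨e1, e2, pr_of e1 e2 rfl (add_assoc _ _ _).symm fun hs => (Nat.add_sub_assoc hs _).symm, trivial⟩
theorem skip_up (K : ℕ) (b : Sg) : Sim id (· < K) (semS (up K b)) id :=
  Sim.skip fun j hj => by simp [up_lo, up_hi, not_le.2 hj]
theorem sim_self {K : ℕ} {a : Sg} (h : wfS K a = true) : Sim id (· < K) (semS a) (semS a) :=
  Sim.stage (Or.inl rfl) fun j hj => ⟨rfl, rfl, rfl, (pr_spec h j).2.2.1 hj⟩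
theorem out_lo {K : ℕ} {a : Sg} (h : wfS K a = true) (j : ℕ) : a.lo (K + j) = false ∧ a.hi (K + j) = false :=
  ⟨Bool.eq_false_iff.2 fun e => by have := wfS_lo h e; omega,
    Bool.eq_false_iff.2 fun e => by have := wfS_hi h e; omega⟩
theorem skip_self {K : ℕ} {a : Sg} (h : wfS K a = true) : Sim (K + ·) (fun _ => True) (semS a) id :=
  Sim.skip fun j _ => out_lo h j
theorem Sim.self {K : ℕ} {P : Prog} (h : wf K P = true) : Sim id (· < K) (sem P) (sem P) := by
  simpa using Sim.map (L := id) fun a ha => sim_self (wf_iff.1 h a ha)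

theorem sim_both {K : ℕ} {a b : Sg} (h : wfS K a = true) (hk : a.k = b.k) (hs : a.s = b.s) :
    Sim id (· < K) (semS ⟨a.k, a.s, Nat.lor a.m (Nat.shiftLeft b.m K)⟩) (semS a) ∧
    Sim (K + ·) (fun _ => True) (semS ⟨a.k, a.s, Nat.lor a.m (Nat.shiftLeft b.m K)⟩) (semS b) := by
  have e1 : ∀ p, Sg.lo ⟨a.k, a.s, Nat.lor a.m (Nat.shiftLeft b.m K)⟩ p = (a.lo p || (up K b).lo p) :=
    fun p => tb_or _ _ _
  have e2 : ∀ p, Sg.hi ⟨a.k, a.s, Nat.lor a.m (Nat.shiftLeft b.m K)⟩ p = (a.hi p || (up K b).hi p) :=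
    fun p => by
      rw [Sg.hi_eq, Sg.hi_eq, Sg.hi_eq, e1, Bool.and_or_distrib_left, show (up K b).s = a.s from hs.symm]
  refine ⟨Sim.stage (Or.inl rfl) fun j hj => ?_, Sim.stage (Or.inl hk) fun j _ => ?_⟩
  · have a1 : Sg.lo ⟨a.k, a.s, Nat.lor a.m (Nat.shiftLeft b.m K)⟩ j = a.lo j := by
      rw [e1]; simp [up_lo, not_le.2 hj]
    have a2 : Sg.hi ⟨a.k, a.s, Nat.lor a.m (Nat.shiftLeft b.m K)⟩ j = a.hi j := by
      rw [e2]; simp [up_hi, not_le.2 hj]
    exact ⟨a1, a2, pr_of a1 a2 rfl rfl fun _ => rfl, (pr_spec h j).2.2.1 hj⟩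
  · have a1 : Sg.lo ⟨a.k, a.s, Nat.lor a.m (Nat.shiftLeft b.m K)⟩ (K + j) = b.lo j := by
      rw [e1]; simp [up_lo, (out_lo h j).1]
    have a2 : Sg.hi ⟨a.k, a.s, Nat.lor a.m (Nat.shiftLeft b.m K)⟩ (K + j) = b.hi j := by
      rw [e2]; simp [up_hi, (out_lo h j).2]
    exact ⟨a1, a2, pr_of a1 a2 rfl (by rw [← hs]; exact (add_assoc _ _ _).symm)
      fun h1 => by rw [← hs] at h1 ⊢; exact (Nat.add_sub_assoc h1 _).symm, trivial⟩

theorem sim_merge (K : ℕ) (sc : List ℕ) {P : Prog} (h : wf K P = true) (Q : Prog) :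
    Sim id (· < K) (sem (mergeP K sc P Q)) (sem P) ∧
      Sim (K + ·) (fun _ => True) (sem (mergeP K sc P Q)) (sem Q) := by
  have u1 : ∀ Q : Prog, Sim id (· < K) (sem (Q.map (up K))) (sem []) := fun Q =>
    Sim.skips fun a ha => by obtain ⟨b, -, rfl⟩ := List.mem_map.1 ha; exact skip_up K b
  have u2 : ∀ Q : Prog, Sim (K + ·) (fun _ => True) (sem (Q.map (up K))) (sem Q) := fun Q =>
    Sim.map fun a _ => sim_up K a
  have u3 : ∀ {P : Prog}, wf K P = true → Sim (K + ·) (fun _ => True) (sem P) (sem []) := fun h =>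
    Sim.skips fun a ha => skip_self (wf_iff.1 h a ha)
  induction sc generalizing P Q with
  | nil => exact ⟨by simpa [mergeP] using (Sim.self h).append (u1 Q), (u3 h).append (u2 Q)⟩
  | cons c sc ih =>
    rcases P with _ | ⟨a, P⟩
    · exact ⟨u1 Q, u2 Q⟩
    rcases Q with _ | ⟨b, Q⟩
    · exact ⟨Sim.self h, u3 h⟩
    have h' := wf_cons.1 h
    rw [mergeP]
    cases Nat.beq c 2
    · rw [cnd_false]
      cases e : (Nat.beq c 0 && (Nat.beq a.k b.k && Nat.beq a.s b.s))
      · exact ⟨(sim_self h'.1).cons (ih h'.2 _).1, (skip_self h'.1).cons' (ih h'.2 _).2⟩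
      · simp only [Bool.and_eq_true, Nat.beq_eq] at e
        have := sim_both h'.1 e.2.1 e.2.2
        exact ⟨this.1.cons (ih h'.2 _).1, this.2.cons (ih h'.2 _).2⟩
    · exact ⟨(skip_up K b).cons' (ih h _).1, (sim_up K b).cons (ih h _).2⟩

theorem sem_dbs (N k : ℕ) (f : ℕ → ℝ) {p : ℕ} (hp : p < N) : sem (dbs N k) f p = 2 ^ k * f p := by
  induction k generalizing f with
  | zero => simp [dbs, sem]
  | succ k ih =>
    rw [dbs, List.replicate_succ, sem, ← dbs, ih]
    simp [semS, Sg.lo, hp]; ring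

theorem sim_mapC {n i : ℕ} (hi : i < 24) (b : Bool) {P : Prog} (h : wf n P = true) (F : ℕ → ℝ) {j : ℕ}
    (hj : j < n) {f : ℕ → ℝ} (hf : ∀ j < n, F (i * n + j) = f j) :
    sem (P.map (liftC n b)) F (i * n + j) = sem P f j :=
  Sim.map (fun a ha => sim_liftC hi b (wf_iff.1 h a ha)) F f hf j hj
theorem sim_mapR {n j : ℕ} (hj : j < n) (b : Bool) {P : Prog} (h : wf 24 P = true) (F : ℕ → ℝ) {i : ℕ}
    (hi : i < 24) {f : ℕ → ℝ} (hf : ∀ i < 24, F (i * n + j) = f i) :
    sem (P.map (liftR n b)) F (i * n + j) = sem P f i :=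
  Sim.map (fun a ha => sim_liftR hj b (wf_iff.1 h a ha)) F f hf i hi

/-- a program acts by its matrix -/
theorem sem_matrix {N : ℕ} {P : Prog} (h : wf N P = true) (f : ℕ → ℝ) {p : ℕ} (hp : p < N) :
    sem P f p = ∑ q ∈ range N, f q * sem P (Pi.single q 1) p := by
  rw [← sem_sum]
  exact Sim.self h _ _ (fun j hj => by simp [Pi.single_apply, hj]) p hp

end Cfsg.Agent.Mo
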