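import Cfsg.Agent.Mo.GenD0

/-! Certificate checks of the generators. -/

namespace Cfsg.Agent.Mo

theorem g25_ok : g25.ok = true := by decide +kernel
theorem g26_ok : g26.ok = true := by decide +kernel
theorem g27_ok : g27.ok = true := by decide +kernel
theorem g28_ok : g28.ok = true := by decide +kernel
theorem g29_ok : g29.ok = true := by decide +kernel
theorem g30_ok : g30.ok = true := by decide +kernel
theorem g31_ok : g31.ok = true := by decide +kernel
theorem g32_ok : g32.ok = true := by decide +kernel
theorem g33_ok : g33.ok = true := by decide +kernel
theorem g34_ok : g34.ok = true := by decide +kernel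
theorem g35_ok : g35.ok = true := by decide +kernel
theorem g68_ok : g68.ok = true := by decide +kernel

end Cfsg.Agent.Mo
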