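import Cfsg.Agent.Mo.GenD1

/-! Certificate checks of the generators. -/

namespace Cfsg.Agent.Mo

theorem g36_ok : g36.ok = true := by decide +kernel
theorem g52_ok : g52.ok = true := by decide +kernel
theorem g37_ok : g37.ok = true := by decide +kernel
theorem g53_ok : g53.ok = true := by decide +kernel
theorem g38_ok : g38.ok = true := by decide +kernel
theorem g54_ok : g54.ok = true := by decide +kernel
theorem g39_ok : g39.ok = true := by decide +kernel
theorem g55_ok : g55.ok = true := by decide +kernel

end Cfsg.Agent.Mo
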