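import Cfsg.Agent.Mo.GenD2

/-! Certificate checks of the generators. -/

namespace Cfsg.Agent.Mo

theorem g40_ok : g40.ok = true := by decide +kernel
theorem g56_ok : g56.ok = true := by decide +kernel
theorem g41_ok : g41.ok = true := by decide +kernel
theorem g57_ok : g57.ok = true := by decide +kernel
theorem g42_ok : g42.ok = true := by decide +kernel
theorem g58_ok : g58.ok = true := by decide +kernel
theorem g43_ok : g43.ok = true := by decide +kernel
theorem g59_ok : g59.ok = true := by decide +kernel

end Cfsg.Agent.Mo
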