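import Cfsg.Agent.Mo.GenD3

/-! Certificate checks of the generators. -/

namespace Cfsg.Agent.Mo

theorem g44_ok : g44.ok = true := by decide +kernel
theorem g60_ok : g60.ok = true := by decide +kernel
theorem g45_ok : g45.ok = true := by decide +kernel
theorem g61_ok : g61.ok = true := by decide +kernel
theorem g46_ok : g46.ok = true := by decide +kernel
theorem g62_ok : g62.ok = true := by decide +kernel
theorem g47_ok : g47.ok = true := by decide +kernel
theorem g63_ok : g63.ok = true := by decide +kernel

end Cfsg.Agent.Mo
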