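import Cfsg.Agent.Mo.GenD4

/-! Certificate checks of the generators. -/

namespace Cfsg.Agent.Mo

theorem g48_ok : g48.ok = true := by decide +kernel
theorem g64_ok : g64.ok = true := by decide +kernel
theorem g49_ok : g49.ok = true := by decide +kernel
theorem g65_ok : g65.ok = true := by decide +kernel
theorem g50_ok : g50.ok = true := by decide +kernel
theorem g66_ok : g66.ok = true := by decide +kernel
theorem g51_ok : g51.ok = true := by decide +kernel
theorem g67_ok : g67.ok = true := by decide +kernel

end Cfsg.Agent.Mo
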