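import Cfsg.Agent.Mo.Fin

/-! INTERFACE (part G): from finitely many computed facts to `Hyp`. -/

set_option autoImplicit false

namespace Cfsg.Agent.Mo

open H5 H5.Lee MulAction

theorem dc_aux {G A B : Type*} [Group G] [MulAction G A] [MulAction G B] (H : Subgroup G) (a : A)
    (b : B) (r : A → B → Prop) (hr : ∀ g ∈ H, ∀ x y, r x y → r (g • x) (g • y)) {g : G}
    (hg : g ∈ H) : {y | (∃ k ∈ H, k • b = y) ∧ r (g • a) y}.ncard =
      {y | (∃ k ∈ H, k • b = y) ∧ r a y}.ncard := by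
  rw [← Set.ncard_image_of_injective {y | (∃ k ∈ H, k • b = y) ∧ r a y} (MulAction.injective g)]
  congr 1
  ext y
  constructor
  · rintro ⟨⟨k, hk, rfl⟩, h⟩
    refine ⟨g⁻¹ • k • b, ⟨⟨g⁻¹ * k, H.mul_mem (H.inv_mem hg) hk, mul_smul _ _ _⟩, ?_⟩,
      smul_inv_smul _ _⟩
    have := hr _ (H.inv_mem hg) _ _ h
    rwa [inv_smul_smul] at this
  · rintro ⟨_, ⟨⟨k, hk, rfl⟩, h⟩, rfl⟩
    exact ⟨⟨g * k, H.mul_mem hg hk, mul_smul _ _ _⟩, hr _ hg _ _ h⟩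
theorem finite_orb {G A : Type*} [Group G] [MulAction G A] (H : Subgroup G) [Finite H] (a : A) :
    {x | ∃ g ∈ H, g • a = x}.Finite :=
  (Set.finite_range fun g : H => g.1 • a).subset fun _ ⟨g, hg, e⟩ => ⟨⟨g, hg⟩, e⟩
/-- double counting for an invariant relation between two orbits -/
theorem dc {G A B : Type*} [Group G] [MulAction G A] [MulAction G B] (H : Subgroup G) [Finite H]
    (a : A) (b : B) (r : A → B → Prop) (hr : ∀ g ∈ H, ∀ x y, r x y → r (g • x) (g • y)) :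
    {x | ∃ g ∈ H, g • a = x}.ncard * {y | (∃ k ∈ H, k • b = y) ∧ r a y}.ncard =
      {y | ∃ g ∈ H, g • b = y}.ncard * {x | (∃ k ∈ H, k • a = x) ∧ r x b}.ncard := by
  classical
  rw [Set.ncard_eq_toFinset_card _ (finite_orb H a), Set.ncard_eq_toFinset_card _ (finite_orb H b)]
  refine Finset.card_mul_eq_card_mul r (fun x hx => ?_) fun y hy => ?_
  · obtain ⟨g, hg, rfl⟩ := (Set.Finite.mem_toFinset _).1 hx
    rw [← dc_aux H a b r hr hg, ← Set.ncard_coe_finset]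
    congr 1
    ext y
    simp
  · obtain ⟨g, hg, rfl⟩ := (Set.Finite.mem_toFinset _).1 hy
    rw [← dc_aux H b a (fun y x => r x y) (fun g hg y x => hr g hg x y) hg, ← Set.ncard_coe_finset]
    congr 1
    ext y
    simp

instance finite_HH : Finite HH :=
  Nat.finite_of_card_ne_zero (by rw [card_HH, card_Co0]; norm_num)
theorem HH_le_Aut : HH ≤ Aut := by rintro _ ⟨p, rfl⟩; exact rho_mem_Aut p
theorem rho_mem (p : Ht) : rho p ∈ HH := ⟨p, rfl⟩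

/-- the orbit under `HH` -/
def OO (w : VV) : Set VV := {u | ∃ g ∈ HH, g • w = u}
theorem OO.finite (w : VV) : (OO w).Finite := finite_orb HH w
theorem OO.self (w : VV) : w ∈ OO w := ⟨1, one_mem _, one_smul _ _⟩
theorem OO.smul {w u : VV} (h : u ∈ OO w) {g : GG} (hg : g ∈ HH) : g • u ∈ OO w := by
  obtain ⟨k, hk, rfl⟩ := h
  exact ⟨g * k, mul_mem hg hk, mul_smul _ _ _⟩
theorem OO.iff {w u : VV} : u ∈ OO w ↔ ∃ h : Ht, u = rho h • w :=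
  ⟨fun ⟨_, ⟨p, e⟩, h⟩ => ⟨p, by rw [e, h]⟩, fun ⟨p, e⟩ => ⟨_, rho_mem p, e.symm⟩⟩
theorem OO.short {β : Λ} (hβ : β ∈ L2) {a : VV} :
    a ∈ OO (ax β false) ↔ ∃ r ∈ L2, ∃ f, a = ax r f := by
  constructor
  · rintro ⟨_, ⟨p, rfl⟩, rfl⟩
    obtain ⟨f, c⟩ := exists_Cj p β false
    exact ⟨_, smul_mem_L2 _ hβ, f, c.smul_ax hβ (smul_mem_L2 _ hβ)⟩
  · rintro ⟨r, hr, f, rfl⟩
    exact exists_smul_ax hβ hr false f

/-- the stabiliser-type subgroup generated by `H ∩ K` and the triality element -/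
noncomputable def K0 (τ : GG) (β : Λ) : Subgroup GG :=
  Subgroup.closure (((HH ⊓ stabilizer GG (ax β false) : Subgroup GG) : Set GG) ∪ {τ})

/-- the pair `(a, w)` is equivalent to one of the canonical pairs `(ax β, wc c)` -/
def Can (τ : GG) (β : Λ) (wc : Fin 9 → VV) (a w : VV) : Prop :=
  ∃ h : Ht, rho h • a = ax β false ∧ ∃ k ∈ K0 τ β, ∃ c, k • rho h • w = wc c

theorem Can.base (τ : GG) (β : Λ) (wc : Fin 9 → VV) (c : Fin 9) : Can τ β wc (ax β false) (wc c) :=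
  ⟨1, by rw [map_one, one_smul], 1, one_mem _, c, by rw [map_one, one_smul, one_smul]⟩
theorem Can.smul {τ : GG} {β : Λ} {wc : Fin 9 → VV} {a w : VV} (h : Ht) :
    Can τ β wc (rho h • a) (rho h • w) ↔ Can τ β wc a w :=
  ⟨fun ⟨p, h1, k, hk, c, h2⟩ => ⟨p * h, by rwa [map_mul, mul_smul], k, hk, c, by
    rwa [map_mul, mul_smul]⟩, fun ⟨p, h1, k, hk, c, h2⟩ =>
    ⟨p * h⁻¹, by rwa [map_mul, mul_smul, map_inv, inv_smul_smul], k, hk, c, by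
      rwa [map_mul, mul_smul, map_inv, inv_smul_smul]⟩⟩
theorem K0.tau (τ : GG) (β : Λ) : τ ∈ K0 τ β := Subgroup.subset_closure (Or.inr rfl)
theorem Can.iff {τ : GG} {β : Λ} {wc : Fin 9 → VV} {w : VV} :
    Can τ β wc (ax β false) w ↔ ∃ k ∈ K0 τ β, ∃ c, k • w = wc c :=
  ⟨fun ⟨p, h1, k, hk, c, h2⟩ => ⟨k * rho p, mul_mem hk
    (Subgroup.subset_closure (Or.inl ⟨rho_mem p, h1⟩)), c, by rwa [mul_smul]⟩,
    fun ⟨k, hk, c, h⟩ => ⟨1, by rw [map_one, one_smul], k, hk, c, by rwa [map_one, one_smul]⟩⟩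
theorem Can.tau {τ : GG} {β : Λ} {wc : Fin 9 → VV} {a w : VV} (n : Ht) (hn : τ * rho n = rho n * τ)
    (ha : rho n • a = ax β false) : Can τ β wc a (τ • w) ↔ Can τ β wc a w := by
  rw [← Can.smul n, ← Can.smul (w := w) n, ha, Can.iff, Can.iff, ← mul_smul, ← hn, mul_smul]
  exact ⟨fun ⟨k, hk, c, h⟩ => ⟨k * τ, mul_mem hk (K0.tau τ β), c, by rwa [mul_smul]⟩,
    fun ⟨k, hk, c, h⟩ => ⟨k * τ⁻¹, mul_mem hk (inv_mem (K0.tau τ β)), c, by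
      rwa [mul_smul, inv_smul_smul]⟩⟩

/-- no `2A`-triple through `a` has both other inner products with `w` equal to `5 / 8` -/
def N66 (β : Λ) (a w : VV) : Prop :=
  ∃ h : Ht, rho h • a = ax β false ∧ ∀ s ∈ L2, ∀ t ∈ L2, ∀ f g : Bool,
    xq β false * xq s f = xq t g →
      ¬ (ip (ax s f) (rho h • w : VV) = 5 / 8 ∧ ip (ax t g) (rho h • w : VV) = 5 / 8)

theorem N66.smul {β : Λ} {a w : VV} (h : Ht) : N66 β (rho h • a) (rho h • w) ↔ N66 β a w :=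
  ⟨fun ⟨p, h1, h2⟩ => ⟨p * h, by rwa [map_mul, mul_smul], by rwa [map_mul, mul_smul]⟩,
    fun ⟨p, h1, h2⟩ => ⟨p * h⁻¹, by rwa [map_mul, mul_smul, map_inv, inv_smul_smul], by
      rwa [map_mul, mul_smul, map_inv, inv_smul_smul]⟩⟩

/-- the two triality images over the frame class of `x` have types `k`, `k'` -/
def Tg (τ : GG) (δ : Λ) (v : Fin 12 → VV) (i : Fin 12) (x : Λ) (k k' : Fin 12) : Prop :=
  ∃ d : Ht, cl (d.1.1 • x) = 2 ^ 23 ∧ (∃ h : Ht, τ • rho d • v i = rho h • v k) ∧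
    ∃ h : Ht, τ • xq δ false • rho d • v i = rho h • v k'

theorem Tg.stab {τ : GG} {δ : Λ} {v : Fin 12 → VV} {i k k' : Fin 12} {x y : Λ} (s : Ht)
    (hs : rho s • v i = v i) (hy : cl y = cl (s.1.1 • x)) (h : Tg τ δ v i x k k') :
    Tg τ δ v i y k k' := by
  obtain ⟨d, h1, h2⟩ := h
  have e : rho (d * s⁻¹) • v i = rho d • v i := by
    rw [map_mul, mul_smul, map_inv, inv_smul_eq_iff.2 hs.symm]
  refine ⟨d * s⁻¹, ?_, by rwa [e]⟩
  rw [cl_smul _ hy, Ht_mul_fst, Ht_inv_fst, mul_smul, inv_smul_smul, h1]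
theorem Tg.congr {τ : GG} {δ : Λ} {v : Fin 12 → VV} {i k k' : Fin 12} {x y : Λ} (hy : cl y = cl x)
    (h : Tg τ δ v i x k k') : Tg τ δ v i y k k' :=
  h.stab 1 (by rw [map_one, one_smul]) (hy.trans (congrArg cl (one_smul Co0 x).symm))

/-- the number of signed frames with triality image of type `k` -/
noncomputable def PP (τ : GG) (δ : Λ) (v : Fin 12 → VV) (i k : Fin 12) : ℕ :=
  {c : ℕ | ∃ x, cl x = c ∧ ∃ k', Tg τ δ v i x k k'}.ncard +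
    {c : ℕ | ∃ x, cl x = c ∧ Tg τ δ v i x k k}.ncard

/-- the number of short axes with inner product `c` -/
noncomputable def NS (w : VV) (c : ℝ) : ℕ :=
  {a : VV | (∃ r ∈ L2, ∃ f, a = ax r f) ∧ ip a w = c}.ncard

theorem NS_eq {β : Λ} (hβ : β ∈ L2) (w : VV) (c : ℝ) :
    NS w c = {a | a ∈ OO (ax β false) ∧ ip a w = c}.ncard := by simp only [NS, OO.short hβ]
theorem NS_smul (h : Ht) (w : VV) (c : ℝ) : NS (rho h • w) c = NS w c := by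
  obtain ⟨β, hβ⟩ : L2.Nonempty := Set.nonempty_of_ncard_ne_zero (by rw [ncard_L2]; norm_num)
  rw [NS_eq hβ, NS_eq hβ]
  exact dc_aux HH w (ax β false) (fun w a : VV => ip a w = c)
    (fun g hg x y e => ((HH_le_Aut hg).1 y x).trans e) (rho_mem h)

structure Base (τ : GG) (Ω δ : Λ) (η : Bool) (v : Fin 12 → VV) : Prop where
  aut : τ ∈ Aut
  hΩ : cl Ω = 2 ^ 23
  hδ : dotInt (Ω : V) (δ : V) / 8 % 2 = 1
  tz : τ * zz * τ⁻¹ = xq Ω η
  tx : τ * xq Ω η * τ⁻¹ = zz * xq Ω η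
  sep : ∀ i k, (∀ c, NS (v i) c = NS (v k) c) → i = k

/-- the triality image of `w` over the signed frame `φ` lies in the orbit of `u` -/
def Gd (τ ω : GG) (w : VV) (φ : GG) (u : VV) : Prop :=
  ∃ h ∈ HH, h * φ * h⁻¹ = ω ∧ τ • h • w ∈ OO u

section
variable {τ : GG} {Ω δ : Λ} {η : Bool} {v : Fin 12 → VV}

theorem conj_not {h φ : GG} (hh : h ∈ HH) {x : Λ} {e : Bool} (a : h * xq x e * h⁻¹ = φ) :
    h * xq x (!e) * h⁻¹ = zz * φ := by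
  rw [← zz_mul_xq, ← mul_assoc, zz_comm' hh, ← a]; group
theorem Base.dw (B : Base τ Ω δ η v) : xq δ false * xq Ω η * (xq δ false)⁻¹ = zz * xq Ω η :=
  xq_comm_odd (by rw [dot_comm]; exact B.hδ) _ _
theorem Base.tzw (B : Base τ Ω δ η v) : τ * (zz * xq Ω η) * τ⁻¹ = zz := by
  have h1 : xq Ω η * xq Ω η = 1 := by
    rw [← B.tz, show τ * zz * τ⁻¹ * (τ * zz * τ⁻¹) = τ * (zz * zz) * τ⁻¹ by group, zz_sq]; group
  rw [show τ * (zz * xq Ω η) * τ⁻¹ = τ * zz * τ⁻¹ * (τ * xq Ω η * τ⁻¹) by group, B.tz, B.tx,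
    ← mul_assoc, zz_comm' (xq_mem_HH _ _), mul_assoc, h1, mul_one]
theorem Base.memA (B : Base τ Ω δ η v) {n : GG} (hn : n ∈ HH) (h : n * xq Ω η * n⁻¹ = xq Ω η) :
    τ * n * τ⁻¹ ∈ HH := by
  refine cent_zz (mul_mem (mul_mem B.aut (HH_le_Aut hn)) (inv_mem B.aut)) ?_
  have h1 : n * (zz * xq Ω η) = zz * xq Ω η * n := by
    rw [← mul_assoc, zz_comm' hn, mul_assoc, mul_assoc, mul_inv_eq_iff_eq_mul.1 h]
  rw [← B.tzw, show τ * n * τ⁻¹ * (τ * (zz * xq Ω η) * τ⁻¹) = τ * (n * (zz * xq Ω η)) * τ⁻¹ by group,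
    h1]
  group
theorem Base.tdt (B : Base τ Ω δ η v) : τ * xq δ false * τ ∈ HH := by
  refine cent_zz (mul_mem (mul_mem B.aut (HH_le_Aut (xq_mem_HH _ _))) B.aut) ?_
  calc τ * xq δ false * τ * zz = τ * (xq δ false * (τ * zz * τ⁻¹) * (xq δ false)⁻¹) * τ⁻¹ *
        (τ * xq δ false * τ) := by group
    _ = _ := by rw [B.tz, B.dw, B.tzw]
theorem Base.Gd_iff (B : Base τ Ω δ η v) {h φ : GG} (hh : h ∈ HH) (a : h * φ * h⁻¹ = xq Ω η)
    {w u : VV} : Gd τ (xq Ω η) w φ u ↔ τ • h • w ∈ OO u := by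
  refine ⟨fun ⟨k, hk, b, c⟩ => ?_, fun c => ⟨h, hh, a, c⟩⟩
  have := OO.smul c (B.memA (mul_mem hh (inv_mem hk)) (by
    conv_lhs => rw [← b]
    rw [← a]; group))
  rwa [mul_smul, mul_smul, mul_smul, inv_smul_smul, inv_smul_smul] at this
theorem Base.disj (B : Base τ Ω δ η v) {u : VV} {a b : Fin 12} (ha : u ∈ OO (v a))
    (hb : u ∈ OO (v b)) : a = b := by
  obtain ⟨p, e1⟩ := OO.iff.1 ha
  obtain ⟨q, e2⟩ := OO.iff.1 hb
  refine B.sep a b fun c => ?_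
  rw [← NS_smul p, ← e1, e2, NS_smul]
theorem Base.Gd_unique (B : Base τ Ω δ η v) {φ : GG} {w : VV} {a b : Fin 12}
    (ha : Gd τ (xq Ω η) w φ (v a)) (hb : Gd τ (xq Ω η) w φ (v b)) : a = b := by
  obtain ⟨h, hh, e, c⟩ := ha
  exact B.disj c ((B.Gd_iff hh e).1 hb)
theorem Base.flip (B : Base τ Ω δ η v) {h : GG} (hh : h ∈ HH) {x : Λ} {e : Bool}
    (a : h * xq x e * h⁻¹ = xq Ω η) :
    xq δ false * h * xq x (!e) * (xq δ false * h)⁻¹ = xq Ω η := by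
  calc _ = xq δ false * (h * xq x (!e) * h⁻¹) * (xq δ false)⁻¹ := by group
    _ = zz * (xq δ false * xq Ω η * (xq δ false)⁻¹) := by
      rw [conj_not hh a, ← mul_assoc, zz_comm' (xq_mem_HH _ _)]; group
    _ = _ := by rw [B.dw, ← mul_assoc, zz_sq, one_mul]
theorem Base.exists_sign (B : Base τ Ω δ η v) (d : Ht) {x : Λ} (h : cl (d.1.1 • x) = 2 ^ 23) :
    ∃ e, rho d * xq x e * (rho d)⁻¹ = xq Ω η := by
  obtain ⟨f, a⟩ := conj_xq d x false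
  rw [xq_cl (h.trans B.hΩ.symm)] at a
  by_cases b : f = η
  · exact ⟨false, b ▸ a⟩
  · refine ⟨!false, ?_⟩
    rw [conj_not (rho_mem d) a, zz_mul_xq]
    congr 1
    revert b; cases f <;> cases η <;> decide
theorem Base.Tg_iff (B : Base τ Ω δ η v) {i a b : Fin 12} {x : Λ} : Tg τ δ v i x a b ↔
    ∃ e, Gd τ (xq Ω η) (v i) (xq x e) (v a) ∧ Gd τ (xq Ω η) (v i) (xq x (!e)) (v b) := by
  constructor
  · rintro ⟨d, h1, h2, h3⟩
    obtain ⟨e, he⟩ := B.exists_sign d h1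
    exact ⟨e, ⟨_, rho_mem d, he, OO.iff.2 h2⟩, _, mul_mem (xq_mem_HH _ _) (rho_mem d),
      B.flip (rho_mem d) he, by rw [mul_smul]; exact OO.iff.2 h3⟩
  · rintro ⟨e, ⟨_, ⟨d, rfl⟩, h1, h2⟩, h3⟩
    obtain ⟨f, hf⟩ := conj_xq d x e
    refine ⟨d, (xq_eq_iff.1 (hf.symm.trans h1)).1.trans B.hΩ, OO.iff.1 h2, OO.iff.1 ?_⟩
    rw [← mul_smul (xq δ false)]
    exact (B.Gd_iff (mul_mem (xq_mem_HH _ _) (rho_mem d)) (B.flip (rho_mem d) h1)).1 h3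
theorem Base.Tg_symm (B : Base τ Ω δ η v) {i a b : Fin 12} {x : Λ} (h : Tg τ δ v i x a b) :
    Tg τ δ v i x b a := by
  obtain ⟨e, h1, h2⟩ := B.Tg_iff.1 h
  exact B.Tg_iff.2 ⟨!e, h2, by rw [Bool.not_not e]; exact h1⟩
theorem Base.Tg_unique (B : Base τ Ω δ η v) {i a b a' b' : Fin 12} {x : Λ} (h : Tg τ δ v i x a b)
    (h' : Tg τ δ v i x a' b') : (a = a' ∧ b = b') ∨ (a = b' ∧ b = a') := by
  obtain ⟨e, h1, h2⟩ := B.Tg_iff.1 h
  obtain ⟨f, h3, h4⟩ := B.Tg_iff.1 h'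
  by_cases c : f = e
  · subst c
    exact Or.inl ⟨B.Gd_unique h1 h3, B.Gd_unique h2 h4⟩
  · obtain rfl : f = !e := by cases f <;> cases e <;> simp_all
    rw [Bool.not_not] at h4
    exact Or.inr ⟨B.Gd_unique h1 h4, B.Gd_unique h2 h3⟩
theorem not_short {g : Co0} {x r : Λ} (hx : cl (g • x) = 2 ^ 23) (hr : r ∈ L2) : cl r ≠ cl x :=
  fun e => short_ne_e8 (smul_mem_L2 g hr) ((cl_smul g e).trans hx)
theorem frame_sing {g : Co0} {x : Λ} (hx : cl (g • x) = 2 ^ 23) :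
    cl x ≠ 0 ∧ sg (cl x / 4096) (cl x % 4096) = 1 := by
  refine ⟨fun e => ?_, ?_⟩
  · rw [cl_smul g (e.trans cl_zero.symm), smul_zero', cl_zero] at hx
    norm_num at hx
  · rw [sg_cl_self, ← norm_smul' g, ← sg_cl_self, hx, sg_comm]
    exact sg_zero _
end

/-- coloured sets of classes covering the singular classes -/
structure Col (τ : GG) (δ : Λ) (v : Fin 12 → VV) (i : Fin 12) (R : Fin 4 → Set ℕ)
    (lab : Fin 4 → List (Fin 12 × Fin 12)) : Prop where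
  sound : ∀ g, ∀ c ∈ R g, (∃ x, cl x = c ∧ ∃ kk ∈ lab g, Tg τ δ v i x kk.1 kk.2) ∨
    (g = 0 ∧ ∃ r ∈ L2, cl r = c)
  cover : ∀ c < 2 ^ 24, c ≠ 0 → sg (c / 4096) (c % 4096) = 1 → ∃ g, c ∈ R g
  disj : ∀ g g', g ≠ g' → ∀ kk ∈ lab g, ∀ ll ∈ lab g', kk ≠ ll ∧ kk ≠ ll.swap

theorem Col.clos {τ : GG} {δ : Λ} {v : Fin 12 → VV} {i : Fin 12} {R : Fin 4 → Set ℕ}
    {lab : Fin 4 → List (Fin 12 × Fin 12)} (C : Col τ δ v i R lab) (x : Λ) (g : Co0)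
    (hx : cl (g • x) = 2 ^ 23) : ∃ k k', Tg τ δ v i x k k' := by
  obtain ⟨a, ha⟩ := C.cover _ (cl_lt x) (frame_sing hx).1 (frame_sing hx).2
  obtain ⟨y, e, kk, -, h⟩ | ⟨-, r, hr, e⟩ := C.sound a _ ha
  · exact ⟨_, _, h.congr e.symm⟩
  · exact absurd e (not_short hx hr)

theorem ncard_eq_sum {S : Set ℕ} {N : Finset ℕ} [DecidablePred (· ∈ S)] (h : ∀ c ∈ S, c ∈ N) :
    S.ncard = ∑ c ∈ N, if c ∈ S then 1 else 0 := by
  rw [← Finset.card_filter, ← Set.ncard_coe_finset]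
  congr 1
  ext c
  simpa using h c

theorem Col.PP_eq {τ : GG} {Ω δ : Λ} {η : Bool} {v : Fin 12 → VV} (B : Base τ Ω δ η v) {i : Fin 12}
    {R : Fin 4 → Set ℕ} {lab : Fin 4 → List (Fin 12 × Fin 12)} (C : Col τ δ v i R lab) (k : Fin 12)
    (m cnt : Fin 4 → ℕ) (hm0 : m 0 = 0)
    (hm : ∀ g, ∀ kk ∈ lab g, (if kk.1 = k then 1 else 0) + (if kk.2 = k then 1 else 0) = m g)
    (hc : ∀ g, g ≠ 0 → (R g).ncard = cnt g) : PP τ δ v i k = ∑ g, m g * cnt g := by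
  classical
  obtain ⟨N, hN⟩ : ∃ N : Finset ℕ, ∀ x, cl x ∈ N := ⟨_, fun x => Finset.mem_range.2 (cl_lt x)⟩
  have h1 : ∀ g, m g * cnt g = ∑ c ∈ N, m g * if c ∈ R g then 1 else 0 := fun g => by
    by_cases a : g = 0
    · simp [a, hm0]
    · rw [← hc g a, ← Finset.mul_sum, ncard_eq_sum fun c b => ?_]
      obtain ⟨y, rfl, -⟩ | ⟨-, r, -, rfl⟩ := C.sound g c b <;> exact hN _
  rw [PP, ncard_eq_sum (N := N) (by rintro _ ⟨x, rfl, -⟩; exact hN x),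
    ncard_eq_sum (N := N) (by rintro _ ⟨x, rfl, -⟩; exact hN x), ← Finset.sum_add_distrib]
  simp only [h1]
  rw [Finset.sum_comm]
  refine Finset.sum_congr rfl fun c _ => ?_
  by_cases a : ∃ g, ∃ x, cl x = c ∧ c ∈ R g ∧ ∃ kk ∈ lab g, Tg τ δ v i x kk.1 kk.2
  · obtain ⟨g, x, rfl, hg, kk, hk, t⟩ := a
    rw [Finset.sum_eq_single g (fun g' _ b => ?_) (fun b => absurd (Finset.mem_univ _) b), if_pos hg,
      mul_one, ← hm g kk hk]
    · have e1 : cl x ∈ {c : ℕ | ∃ x, cl x = c ∧ ∃ k', Tg τ δ v i x k k'} ↔ kk.1 = k ∨ kk.2 = k :=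
        ⟨fun ⟨y, e, _, t'⟩ => (B.Tg_unique t (t'.congr e.symm)).imp And.left And.right, fun b =>
          b.elim (fun b => ⟨x, rfl, _, b ▸ t⟩) fun b => ⟨x, rfl, _, b ▸ B.Tg_symm t⟩⟩
      have e2 : cl x ∈ {c : ℕ | ∃ x, cl x = c ∧ Tg τ δ v i x k k} ↔ kk.1 = k ∧ kk.2 = k :=
        ⟨fun ⟨y, e, t'⟩ => (B.Tg_unique t (t'.congr e.symm)).elim id id, fun b =>
          ⟨x, rfl, by rwa [b.1, b.2] at t⟩⟩
      simp only [e1, e2]
      by_cases b1 : kk.1 = k <;> by_cases b2 : kk.2 = k <;> simp [b1, b2]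
    · rw [if_neg fun b' => ?_, mul_zero]
      obtain ⟨y, e, ll, hl, t'⟩ | ⟨-, r, hr, e⟩ := C.sound g' _ b'
      · obtain ⟨c1, c2⟩ := C.disj g g' b.symm kk hk ll hl
        rcases B.Tg_unique t (t'.congr e.symm) with c | c
        exacts [c1 (Prod.ext c.1 c.2), c2 (Prod.ext c.1 c.2)]
      · obtain ⟨d, hd, -⟩ := t
        exact not_short hd hr e
  · have b : ∀ x, cl x = c → ∀ k k', ¬ Tg τ δ v i x k k' := by
      rintro x rfl k k' ⟨d, hd, -⟩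
      obtain ⟨g, hg⟩ := C.cover _ (cl_lt x) (frame_sing hd).1 (frame_sing hd).2
      obtain ⟨y, e, t⟩ | ⟨-, r, hr, e⟩ := C.sound g _ hg
      exacts [a ⟨g, y, e, hg, t⟩, not_short hd hr e]
    rw [if_neg fun ⟨x, e, _, t⟩ => b x e _ _ t, if_neg fun ⟨x, e, t⟩ => b x e _ _ t, eq_comm]
    refine Finset.sum_eq_zero fun g _ => ?_
    split_ifs with hg
    · obtain ⟨y, e, t⟩ | ⟨rfl, -⟩ := C.sound g _ hg
      exacts [(a ⟨g, y, e, hg, t⟩).elim, by rw [hm0, zero_mul]]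
    · rfl

structure Hyp2 (τ : GG) (β γ γ' Ω δ : Λ) (e e' η : Bool) (v : Fin 12 → VV) (sz : Fin 12 → ℕ)
    (wc : Fin 9 → VV) : Prop extends Base τ Ω δ η v where
  hβ : β ∈ L2
  hγ : γ ∈ L2
  hγ' : γ' ∈ L2
  short : ∃ r ∈ L2, cl r = cl β ^^^ 2 ^ 23
  tri : xq β false * xq γ e = xq γ' e'
  tv : τ • ax β false = ax β false
  t1 : τ • one0 = one0
  out : ∃ (x : Λ) (f : Bool) (h : Ht), dotInt (β : V) (x : V) / 8 % 2 = 0 ∧
    τ * xq x f * τ⁻¹ = rho h ∧ h.1.1 ∉ Subgroup.center Co0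
  v0 : v 0 = ax β false
  clos : ∀ i (x : Λ) (g : Co0), cl (g • x) = 2 ^ 23 → ∃ k k', Tg τ δ v i x k k'
  sz0 : sz 0 = 196560
  tree : ∀ k, k ≠ 0 → ∃ i < k, 0 < PP τ δ v k i ∧ sz k * PP τ δ v k i = sz i * PP τ δ v i k
  sumX : ∑ i, sz i = 97239461142009186000
  sumY : ∑ i, sz i * NS (v i) 0 = 196560 * 11707448673375
  sumW : ∑ i, sz i * NS (v i) 4 = 196560 * 27143910000
  can : ∀ i, ∀ r ∈ L2, ∀ f, Can τ β wc (ax r f) (v i)
  wc0 : ∀ c, ip (ax β false) (wc c) = 0 → wc c = ax β true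
  wc4 : ∀ c, ip (ax β false) (wc c) = 4 → wc c = ax γ e
  wcp : ∀ c, (∃ m : ℤ, ip (ax β false) (wc c) = m / 8) ∧ (wc c = ax β false ∨
    ∃ g ∈ GM τ, g • ax β false = wc c ∧ g * xq β false * g⁻¹ ≠ xq β false ∧
      ((∃ n, 2 ≤ n ∧ n ≤ 5 ∧ (xq β false * (g * xq β false * g⁻¹)) ^ n = 1) ∨
        ((xq β false * (g * xq β false * g⁻¹)) ^ 6 = 1 ∧ ip (ax β false) (wc c) = 5 / 8)))
  n66 : ∀ i, ∀ r ∈ L2, ∀ f, ip (ax r f) (v i) = 4 → N66 β (ax r f) (v i)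
  ex36 : ∃ (i : Fin 12) (h : Ht), ip (ax β false) (rho h • v i : VV) = 4 ∧
    ip (ax γ e) (rho h • v i : VV) = 13 / 8 ∧ ip (ax γ' e') (rho h • v i : VV) = 5 / 8

section
variable {τ : GG} {β γ γ' Ω δ : Λ} {e e' η : Bool} {v : Fin 12 → VV} {sz : Fin 12 → ℕ}
  {wc : Fin 9 → VV}

theorem Hyp2.tauO (h : Hyp2 τ β γ γ' Ω δ e e' η v sz wc) {i : Fin 12} {u : VV} (hu : u ∈ OO (v i)) :
    ∃ k, τ • u ∈ OO (v k) := by
  obtain ⟨_, ⟨p, rfl⟩, rfl⟩ := hu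
  obtain ⟨f, hf⟩ := conj_xq p⁻¹ Ω η
  have e1 : rho p * xq ((p⁻¹).1.1 • Ω) f * (rho p)⁻¹ = xq Ω η := by rw [← hf, map_inv]; group
  obtain ⟨a, b, t⟩ := h.clos i ((p⁻¹).1.1 • Ω) p.1.1 (by rw [Ht_inv_fst, smul_inv_smul, h.hΩ])
  obtain ⟨g, t1, t2⟩ := h.Tg_iff.1 t
  by_cases c : f = g
  · exact ⟨a, (h.Gd_iff (rho_mem p) e1).1 (c ▸ t1)⟩
  · obtain rfl : f = !g := by cases f <;> cases g <;> simp_all
    exact ⟨b, (h.Gd_iff (rho_mem p) e1).1 t2⟩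

theorem Hyp2.PP_eq (h : Hyp2 τ β γ γ' Ω δ e e' η v sz wc) (i k : Fin 12) :
    PP τ δ v i k = {φ | Gd τ (xq Ω η) (v i) φ (v k)}.ncard := by
  let T : Bool → Set ℕ := fun e => {c | ∃ x, cl x = c ∧ Gd τ (xq Ω η) (v i) (xq x e) (v k)}
  have hT : ∀ e, (T e).Finite := fun e =>
    (Set.finite_Iio (2 ^ 24)).subset (by rintro _ ⟨x, rfl, -⟩; exact cl_lt x)
  have hl : ∀ x, cl (Function.invFun cl (cl x)) = cl x := fun x => Function.invFun_eq ⟨x, rfl⟩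
  have h0 : ∀ x e, Gd τ (xq Ω η) (v i) (xq x e) (v k) → ∃ k', Tg τ δ v i x k k' := by
    rintro x e ⟨g, hg, a, b⟩
    obtain ⟨k', c⟩ := h.tauO (OO.smul (OO.self (v i)) (mul_mem (xq_mem_HH δ false) hg))
    exact ⟨k', h.Tg_iff.2 ⟨e, ⟨g, hg, a, b⟩, _, mul_mem (xq_mem_HH _ _) hg, h.flip hg a, c⟩⟩
  have h1 : {c : ℕ | ∃ x, cl x = c ∧ ∃ k', Tg τ δ v i x k k'} = T false ∪ T true := by
    ext c
    constructor
    · rintro ⟨x, rfl, k', t⟩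
      obtain ⟨e, a, -⟩ := h.Tg_iff.1 t
      cases e
      exacts [Or.inl ⟨x, rfl, a⟩, Or.inr ⟨x, rfl, a⟩]
    · rintro (⟨x, rfl, a⟩ | ⟨x, rfl, a⟩) <;> exact ⟨x, rfl, h0 _ _ a⟩
  have h2 : {c : ℕ | ∃ x, cl x = c ∧ Tg τ δ v i x k k} = T false ∩ T true := by
    ext c
    constructor
    · rintro ⟨x, rfl, t⟩
      obtain ⟨e, a, b⟩ := h.Tg_iff.1 t
      cases e
      exacts [⟨⟨x, rfl, a⟩, x, rfl, b⟩, ⟨⟨x, rfl, b⟩, x, rfl, a⟩]
    · rintro ⟨⟨x, rfl, a⟩, y, c, b⟩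
      exact ⟨x, rfl, h.Tg_iff.2 ⟨false, a, by rwa [xq_cl c] at b⟩⟩
  have h3 : ∀ e, Set.InjOn (fun c => xq (Function.invFun cl c) e) (T e) := by
    rintro e _ ⟨x, rfl, -⟩ _ ⟨y, rfl, -⟩ a
    rw [← hl x, ← hl y, (xq_eq_iff.1 a).1]
  have h4 : {φ | Gd τ (xq Ω η) (v i) φ (v k)} = (fun c => xq (Function.invFun cl c) false) '' T false ∪
      (fun c => xq (Function.invFun cl c) true) '' T true := by
    ext φ
    constructor
    · intro a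
      obtain ⟨_, ⟨p, rfl⟩, b, -⟩ := id a
      obtain ⟨f, hf⟩ := conj_xq p⁻¹ Ω η
      obtain rfl : φ = xq ((p⁻¹).1.1 • Ω) f := by rw [← hf, ← b, map_inv]; group
      cases f
      exacts [Or.inl ⟨_, ⟨_, rfl, a⟩, xq_cl (hl _) _⟩, Or.inr ⟨_, ⟨_, rfl, a⟩, xq_cl (hl _) _⟩]
    · rintro (⟨_, ⟨x, rfl, a⟩, rfl⟩ | ⟨_, ⟨x, rfl, a⟩, rfl⟩) <;>
        rwa [← xq_cl (hl x)] at a
  rw [PP, h1, h2, Set.ncard_union_add_ncard_inter _ _ (hT _) (hT _), h4,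
    Set.ncard_union_eq (Set.disjoint_left.2 ?_) ((hT _).image _) ((hT _).image _),
    (h3 _).ncard_image, (h3 _).ncard_image]
  rintro _ ⟨c, -, rfl⟩ ⟨c', -, a⟩
  exact absurd (xq_eq_iff.1 a).2 (by decide)

theorem Base.sym_le (B : Base τ Ω δ η v) (a b : VV) :
    {w | w ∈ OO a ∧ τ • w ∈ OO b}.ncard ≤ {w | w ∈ OO b ∧ τ • w ∈ OO a}.ncard :=
  Set.ncard_le_ncard_of_injOn (fun w => (xq δ false * τ) • w)
    (fun w hw => ⟨by rw [mul_smul]; exact OO.smul hw.2 (xq_mem_HH _ _), by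
      rw [← mul_smul, ← mul_assoc]; exact OO.smul hw.1 B.tdt⟩)
    (MulAction.injective _).injOn ((OO.finite b).subset fun _ hw => hw.1)

theorem Hyp2.count (h : Hyp2 τ β γ γ' Ω δ e e' η v sz wc) (i k : Fin 12) :
    (OO (v i)).ncard * PP τ δ v i k = {φ | ∃ g ∈ HH, g * xq Ω η * g⁻¹ = φ}.ncard *
      {w | w ∈ OO (v i) ∧ τ • w ∈ OO (v k)}.ncard := by
  have := @dc GG VV GG _ _ (MulAction.compHom GG (MulAut.conj : GG →* MulAut GG)) HH _ (v i) (xq Ω η)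
    (fun w φ => Gd τ (xq Ω η) w φ (v k)) (by
      rintro g hg w φ ⟨a, ha, b, c⟩
      refine ⟨a * g⁻¹, mul_mem ha (inv_mem hg), ?_, by rwa [mul_smul, inv_smul_smul]⟩
      change _ * (g * φ * g⁻¹) * _ = _
      rw [← b]; group)
  have e1 : {φ | Gd τ (xq Ω η) (v i) φ (v k)} =
      {φ | (∃ g ∈ HH, g * xq Ω η * g⁻¹ = φ) ∧ Gd τ (xq Ω η) (v i) φ (v k)} := by
    ext φ
    refine ⟨fun a => ⟨?_, a⟩, fun a => a.2⟩
    obtain ⟨g, hg, b, -⟩ := a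
    exact ⟨g⁻¹, inv_mem hg, by rw [← b]; group⟩
  have e2 : {w | w ∈ OO (v i) ∧ τ • w ∈ OO (v k)} =
      {w | w ∈ OO (v i) ∧ Gd τ (xq Ω η) w (xq Ω η) (v k)} := by
    ext w
    rw [Set.mem_setOf_eq, Set.mem_setOf_eq, h.Gd_iff (one_mem _) (by group), one_smul]
  rw [h.PP_eq, e1, e2]
  exact this

theorem Hyp2.card_O (h : Hyp2 τ β γ γ' Ω δ e e' η v sz wc) (k : Fin 12) :
    (OO (v k)).ncard = sz k ∧ v k ∈ XX τ (ax β false) := by
  induction k using WellFoundedLT.induction with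
  | ind k ih =>
  by_cases a : k = 0
  · subst a
    rw [h.sz0, h.v0]
    exact ⟨ncard_orbit_HH h.hβ false, 1, one_mem _, one_smul _ _⟩
  obtain ⟨i, hi, h1, h2⟩ := h.tree k a
  obtain ⟨h3, g, hg, h4⟩ := ih i hi
  refine ⟨Nat.eq_of_mul_eq_mul_right h1 ?_, ?_⟩
  · rw [h2, ← h3, h.count, h.count, le_antisymm (h.sym_le (v k) (v i)) (h.sym_le (v i) (v k))]
  · rw [h.PP_eq] at h1
    obtain ⟨φ, p, hp, -, q, hq, b⟩ := Set.nonempty_of_ncard_ne_zero h1.ne'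
    refine ⟨p⁻¹ * τ⁻¹ * q * g, mul_mem (mul_mem (mul_mem (inv_mem (HH_le_GM hp)) (inv_mem tau_mem))
      (HH_le_GM hq)) hg, ?_⟩
    rw [mul_smul, mul_smul, mul_smul, h4, b, inv_smul_smul, inv_smul_smul]

theorem Hyp2.XX_iff (h : Hyp2 τ β γ γ' Ω δ e e' η v sz wc) {w : VV} :
    w ∈ XX τ (ax β false) ↔ ∃ i, w ∈ OO (v i) := by
  constructor
  · rintro ⟨g, hg, rfl⟩
    have : ∀ u : VV, (∃ i, u ∈ OO (v i)) → ∃ i, g • u ∈ OO (v i) := by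
      induction hg using Subgroup.closure_induction'' with
      | one => intro u hu; rwa [one_smul]
      | mem g hg =>
        rintro u ⟨i, hu⟩
        rcases hg with hg | rfl
        exacts [⟨i, OO.smul hu hg⟩, h.tauO hu]
      | inv_mem g hg =>
        rintro u ⟨i, hu⟩
        rcases hg with hg | rfl
        · exact ⟨i, OO.smul hu (inv_mem hg)⟩
        · obtain ⟨k, hk⟩ := h.tauO (OO.smul hu (xq_mem_HH δ false))
          refine ⟨k, ?_⟩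
          have := OO.smul hk (inv_mem h.tdt)
          rwa [← mul_smul, ← mul_smul, show (g * xq δ false * g)⁻¹ * g * xq δ false = g⁻¹ by group]
            at this
      | mul a b _ _ ha hb => intro u hu; rw [mul_smul]; exact ha _ (hb u hu)
    exact this _ ⟨0, h.v0 ▸ OO.self _⟩
  · rintro ⟨i, p, hp, rfl⟩
    obtain ⟨g, hg, a⟩ := (h.card_O i).2
    exact ⟨p * g, mul_mem (HH_le_GM hp) hg, by rw [mul_smul, a]⟩

theorem Hyp2.card_filter (h : Hyp2 τ β γ γ' Ω δ e e' η v sz wc) (P : VV → Prop) :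
    {w | w ∈ XX τ (ax β false) ∧ P w}.ncard = ∑ i, {w | w ∈ OO (v i) ∧ P w}.ncard := by
  rw [← finsum_eq_sum_of_fintype, ← Set.ncard_iUnion_of_finite
    (fun i => (OO.finite (v i)).subset fun _ a => a.1)
    fun i k a => Set.disjoint_left.2 fun w b c => a (h.disj b.1 c.1)]
  congr 1
  ext w
  simp only [h.XX_iff, Set.mem_setOf_eq, Set.mem_iUnion, exists_and_right]

theorem Hyp2.card_ip (h : Hyp2 τ β γ γ' Ω δ e e' η v sz wc) (c : ℝ) :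
    196560 * {w | w ∈ XX τ (ax β false) ∧ ip (ax β false) w = c}.ncard = ∑ i, sz i * NS (v i) c := by
  rw [h.card_filter, Finset.mul_sum]
  refine Finset.sum_congr rfl fun i _ => ?_
  rw [← ncard_orbit_HH h.hβ false, ← (h.card_O i).1, NS_eq h.hβ]
  exact dc HH (ax β false) (v i) (fun a w : VV => ip a w = c)
    fun g hg x y e => ((HH_le_Aut hg).1 x y).trans e

theorem Hyp2.exists_ax (h : Hyp2 τ β γ γ' Ω δ e e' η v sz wc) {w : VV}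
    (hw : w ∈ XX τ (ax β false)) :
    ∃ i, ∃ p : Ht, ∃ r ∈ L2, ∃ f, w = rho p • v i ∧ ax β false = rho p • ax r f := by
  obtain ⟨i, _, ⟨p, rfl⟩, rfl⟩ := h.XX_iff.1 hw
  obtain ⟨r, hr, f, a⟩ := (OO.short h.hβ).1 (OO.smul (OO.self _) (inv_mem (rho_mem p)))
  exact ⟨i, p, r, hr, f, rfl, by rw [← a, smul_inv_smul]⟩

theorem Hyp2.K0_le (h : Hyp2 τ β γ γ' Ω δ e e' η v sz wc) {k : GG} (hk : k ∈ K0 τ β) :
    k ∈ GM τ ∧ k • ax β false = ax β false :=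
  (Subgroup.closure_le (GM τ ⊓ stabilizer GG (ax β false))).2 (by
    rintro g (hg | rfl)
    exacts [⟨HH_le_GM hg.1, hg.2⟩, ⟨tau_mem, h.tv⟩]) hk

theorem Hyp2.le_Aut (h : Hyp2 τ β γ γ' Ω δ e e' η v sz wc) : GM τ ≤ Aut :=
  (Subgroup.closure_le _).2 (by
    rintro g (hg | rfl)
    exacts [HH_le_Aut hg, h.aut])

theorem Hyp2.canon (h : Hyp2 τ β γ γ' Ω δ e e' η v sz wc) {w : VV} (hw : w ∈ XX τ (ax β false)) :
    ∃ k ∈ K0 τ β, ∃ c, k • w = wc c ∧ ip (ax β false) (wc c) = ip (ax β false) w := by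
  obtain ⟨i, p, r, hr, f, rfl, a⟩ := h.exists_ax hw
  have := (Can.smul p).2 (h.can i r hr f)
  rw [← a] at this
  obtain ⟨k, hk, c, b⟩ := Can.iff.1 this
  refine ⟨k, hk, c, b, ?_⟩
  rw [← (h.le_Aut (h.K0_le hk).1).1 (ax β false) (rho p • v i), (h.K0_le hk).2, b]
end

theorem Hyp2.hyp {τ : GG} {β γ γ' Ω δ : Λ} {e e' η : Bool} {v : Fin 12 → VV} {sz : Fin 12 → ℕ}
    {wc : Fin 9 → VV} (h : Hyp2 τ β γ γ' Ω δ e e' η v sz wc) : Hyp τ β γ γ' Ω e e' η where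
  aut := h.aut
  hβ := h.hβ
  hγ := h.hγ
  hγ' := h.hγ'
  hΩ := h.hΩ
  short := h.short
  tri := h.tri
  tz := h.tz
  tx := h.tx
  tv := h.tv
  t1 := h.t1
  out := h.out
  cardX := by
    have := h.card_filter fun _ => True
    simp only [and_true, Set.setOf_mem_eq, (h.card_O _).1] at this
    rw [this, h.sumX]
  cardY := Nat.eq_of_mul_eq_mul_left (by norm_num) ((h.card_ip 0).trans h.sumY)
  transY := fun w hw a => by
    obtain ⟨k, hk, c, h1, h2⟩ := h.canon hw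
    exact ⟨k⁻¹, inv_mem hk, by rw [← h.wc0 c (h2.trans a), ← h1, inv_smul_smul]⟩
  cardW := Nat.eq_of_mul_eq_mul_left (by norm_num) ((h.card_ip 4).trans h.sumW)
  transW := fun w hw a => by
    obtain ⟨k, hk, c, h1, h2⟩ := h.canon hw
    exact ⟨k⁻¹, (h.K0_le (inv_mem hk)).1, (h.K0_le (inv_mem hk)).2, by
      rw [← h.wc4 c (h2.trans a), ← h1, inv_smul_smul]⟩
  pairs := fun g hg => by
    obtain ⟨k, hk, c, h1, h2⟩ := h.canon ⟨g, hg, rfl⟩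
    obtain ⟨h3, h4⟩ := h.wcp c
    obtain ⟨k1, k2⟩ := h.K0_le hk
    rw [← h2]
    refine ⟨h3, h4.imp (fun a => smul_left_cancel k (by rw [h1, a, k2])) ?_⟩
    rintro ⟨g', hg', a, b, c⟩
    have m1 := miyamoto (h.le_Aut k1) h.hβ k2
    have m2 := miyamoto (h.le_Aut (mul_mem (inv_mem hg') (mul_mem k1 hg))) h.hβ (e := false)
      (by rw [mul_smul, mul_smul, h1, ← a, inv_smul_smul])
    have e1 : g' * xq β false * g'⁻¹ = k * (g * xq β false * g⁻¹) * k⁻¹ := by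
      calc _ = g' * (xq β false * (g'⁻¹ * (k * g))) * (k * g)⁻¹ := by group
        _ = _ := by rw [← m2]; group
    have e2 : xq β false * (g' * xq β false * g'⁻¹) =
        k * (xq β false * (g * xq β false * g⁻¹)) * k⁻¹ := by
      rw [e1, ← mul_assoc k (xq β false), m1]; group
    rw [e2] at c
    simp only [conj_pow, conj_eq_one_iff] at c
    exact ⟨fun d => b (by rw [e1, d, m1]; group), c⟩
  no66 := fun w hw a => by
    obtain ⟨i, p, r, hr, f, rfl, b⟩ := h.exists_ax hw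
    have := (N66.smul p).2 (h.n66 i r hr f (by rw [← (rho_mem_Aut p).1, ← b, a]))
    rw [← b] at this
    obtain ⟨q, h1, h2⟩ := this
    obtain ⟨f1, c1⟩ := exists_Cj q γ e
    obtain ⟨f2, c2⟩ := exists_Cj q γ' e'
    have := h2 _ (smul_mem_L2 _ h.hγ) _ (smul_mem_L2 _ h.hγ') f1 f2 (by
      rw [← c1.conj, ← c2.conj, ← h.tri]
      conv_lhs => rw [← (smul_ax_iff (rho_mem q) h.hβ h.hβ).1 h1]
      group)
    rwa [← c1.smul_ax h.hγ (smul_mem_L2 _ h.hγ), ← c2.smul_ax h.hγ' (smul_mem_L2 _ h.hγ'),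
      (rho_mem_Aut q).1, (rho_mem_Aut q).1] at this
  ex36 := by
    obtain ⟨i, p, a⟩ := h.ex36
    exact ⟨_, h.XX_iff.2 ⟨i, OO.iff.2 ⟨p, rfl⟩⟩, a⟩

end Cfsg.Agent.Mo
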