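import Cfsg.Agent.Mo.HeT

/-! Relators of the Held group (generated by tools/h1mo/hechk.py). -/

set_option Elab.async false

namespace Cfsg.Agent.Mo.He

theorem r2_68687568687521 : rc 2 0x68687568687521 = true := by decide +kernel
theorem r2_878787 : rc 2 0x878787 = true := by decide +kernel
theorem r2_784874 : rc 2 0x784874 = true := by decide +kernel
theorem r2_8757856765 : rc 2 0x8757856765 = true := by decide +kernel
theorem r_47474141 : rcH 0x47474141 = true := by decide +kernel
theorem r2_8585 : rc 2 0x8585 = true := by decide +kernel
theorem r_54345343 : rcH 0x54345343 = true := by decide +kernel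
theorem r_434343 : rcH 0x434343 = true := by decide +kernel
theorem r_7347431 : rcH 0x7347431 = true := by decide +kernel
theorem r_747141 : rcH 0x747141 = true := by decide +kernel
theorem r0_8686868686 : rc 0 0x8686868686 = true := by decide +kernel
theorem r0_8687568685261 : rc 0 0x8687568685261 = true := by decide +kernel
theorem r2_6256757652 : rc 2 0x6256757652 = true := by decide +kernel
theorem r0_4242424242 : rc 0 0x4242424242 = true := by decide +kernel
theorem r0_3848431 : rc 0 0x3848431 = true := by decide +kernel
theorem r1_848141 : rc 1 0x848141 = true := by decide +kernel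
theorem r0_848141 : rc 0 0x848141 = true := by decide +kernel
theorem r_75657565 : rcH 0x75657565 = true := by decide +kernel
theorem r_56535653 : rcH 0x56535653 = true := by decide +kernel
theorem r2_762762 : rc 2 0x762762 = true := by decide +kernel
theorem r1_8757856765 : rc 1 0x8757856765 = true := by decide +kernel
theorem r0_8636816361 : rc 0 0x8636816361 = true := by decide +kernel
theorem r_7561651 : rcH 0x7561651 = true := by decide +kernel
theorem r1_8282 : rc 1 0x8282 = true := by decide +kernel
theorem r2_7272 : rc 2 0x7272 = true := by decide +kernel
theorem r1_8383 : rc 1 0x8383 = true := by decide +kernel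
theorem r0_8181 : rc 0 0x8181 = true := by decide +kernel
theorem r1_88 : rc 1 0x88 = true := by decide +kernel
theorem r0_31241421 : rc 0 0x31241421 = true := by decide +kernel
theorem c2_6 : cc 2 6 = true := by decide +kernel
theorem r1_637637632632 : rc 1 0x637637632632 = true := by decide +kernel
theorem r0_6256757652 : rc 0 0x6256757652 = true := by decide +kernel
theorem r1_67676262 : rc 1 0x67676262 = true := by decide +kernel
theorem r0_212121 : rc 0 0x212121 = true := by decide +kernel
theorem r_11 : rcH 0x11 = true := by decide +kernel
theorem r0_767262 : rc 0 0x767262 = true := by decide +kernel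
theorem r1_5252 : rc 1 0x5252 = true := by decide +kernel
theorem r0_7272 : rc 0 0x7272 = true := by decide +kernel
theorem c0_2 : cc 0 2 = true := by decide +kernel

end Cfsg.Agent.Mo.He
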