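import Cfsg.Agent.Mo.HeT

/-! Relators of the Held group (generated by tools/h1mo/hechk.py). -/

set_option Elab.async false

namespace Cfsg.Agent.Mo.He

theorem r2_8687568685261 : rc 2 0x8687568685261 = true := by decide +kernel
theorem r2_3848431 : rc 2 0x3848431 = true := by decide +kernel
theorem r2_7454724542 : rc 2 0x7454724542 = true := by decide +kernel
theorem r_5454534543 : rcH 0x5454534543 = true := by decide +kernel
theorem r2_867686765 : rc 2 0x867686765 = true := by decide +kernel
theorem r2_8282 : rc 2 0x8282 = true := by decide +kernel
theorem r2_8181 : rc 2 0x8181 = true := by decide +kernel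
theorem r_6475746131 : rcH 0x6475746131 = true := by decide +kernel
theorem r_63634543 : rcH 0x63634543 = true := by decide +kernel
theorem r_741741 : rcH 0x741741 = true := by decide +kernel
theorem r2_637637632632 : rc 2 0x637637632632 = true := by decide +kernel
theorem r0_68687568687521 : rc 0 0x68687568687521 = true := by decide +kernel
theorem r_535135135131 : rcH 0x535135135131 = true := by decide +kernel
theorem r2_67676262 : rc 2 0x67676262 = true := by decide +kernel
theorem r1_3848431 : rc 1 0x3848431 = true := by decide +kernel
theorem r2_212121 : rc 2 0x212121 = true := by decide +kernel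
theorem r1_784874 : rc 1 0x784874 = true := by decide +kernel
theorem r0_784874 : rc 0 0x784874 = true := by decide +kernel
theorem r_53535353 : rcH 0x53535353 = true := by decide +kernel
theorem r2_612621 : rc 2 0x612621 = true := by decide +kernel
theorem r1_8636816361 : rc 1 0x8636816361 = true := by decide +kernel
theorem r1_867686765 : rc 1 0x867686765 = true := by decide +kernel
theorem r_6165751 : rcH 0x6165751 = true := by decide +kernel
theorem r0_8282 : rc 0 0x8282 = true := by decide +kernel
theorem r2_5252 : rc 2 0x5252 = true := by decide +kernel
theorem r1_8181 : rc 1 0x8181 = true := by decide +kernel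
theorem c2_2 : cc 2 2 = true := by decide +kernel
theorem r0_88 : rc 0 0x88 = true := by decide +kernel
theorem r_7373 : rcH 0x7373 = true := by decide +kernel
theorem r_5151 : rcH 0x5151 = true := by decide +kernel
theorem c2_5 : cc 2 5 = true := by decide +kernel
theorem r0_637637632632 : rc 0 0x637637632632 = true := by decide +kernel
theorem r0_67676262 : rc 0 0x67676262 = true := by decide +kernel
theorem r_77 : rcH 0x77 = true := by decide +kernel
theorem r_66 : rcH 0x66 = true := by decide +kernel
theorem r1_767262 : rc 1 0x767262 = true := by decide +kernel
theorem r0_762762 : rc 0 0x762762 = true := by decide +kernel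
theorem r0_5252 : rc 0 0x5252 = true := by decide +kernel
theorem r1_22 : rc 1 0x22 = true := by decide +kernel

end Cfsg.Agent.Mo.He
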