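import Cfsg.Agent.Mo.HeT

/-! Relators of the Held group (generated by tools/h1mo/hechk.py). -/

set_option Elab.async false

namespace Cfsg.Agent.Mo.He

theorem r2_4242424242 : rc 2 0x4242424242 = true := by decide +kernel
theorem r2_8348431 : rc 2 0x8348431 = true := by decide +kernel
theorem r2_841841 : rc 2 0x841841 = true := by decide +kernel
theorem r_6464746461 : rcH 0x6464746461 = true := by decide +kernel
theorem r2_8636816361 : rc 2 0x8636816361 = true := by decide +kernel
theorem r2_78676875 : rc 2 0x78676875 = true := by decide +kernel
theorem r2_8383 : rc 2 0x8383 = true := by decide +kernel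
theorem r2_88 : rc 2 0x88 = true := by decide +kernel
theorem r_65454563 : rcH 0x65454563 = true := by decide +kernel
theorem r_4143131 : rcH 0x4143131 = true := by decide +kernel
theorem r1_8686868686 : rc 1 0x8686868686 = true := by decide +kernel
theorem r1_68687568687521 : rc 1 0x68687568687521 = true := by decide +kernel
theorem r_757357357353 : rcH 0x757357357353 = true := by decide +kernel
theorem r2_313213121 : rc 2 0x313213121 = true := by decide +kernel
theorem r1_8348431 : rc 1 0x8348431 = true := by decide +kernel
theorem r2_7562652 : rc 2 0x7562652 = true := by decide +kernel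
theorem r1_841841 : rc 1 0x841841 = true := by decide +kernel
theorem r0_841841 : rc 0 0x841841 = true := by decide +kernel
theorem r_67676161 : rcH 0x67676161 = true := by decide +kernel
theorem r_31313131 : rcH 0x31313131 = true := by decide +kernel
theorem r1_7454724542 : rc 1 0x7454724542 = true := by decide +kernel
theorem r0_8757856765 : rc 0 0x8757856765 = true := by decide +kernel
theorem r_7576765 : rcH 0x7576765 = true := by decide +kernel
theorem r0_78676875 : rc 0 0x78676875 = true := by decide +kernel
theorem r_761761 : rcH 0x761761 = true := by decide +kernel
theorem r2_3232 : rc 2 0x3232 = true := by decide +kernel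
theorem r0_8585 : rc 0 0x8585 = true := by decide +kernel
theorem c1_8 : cc 1 8 = true := by decide +kernel
theorem r1_31241421 : rc 1 0x31241421 = true := by decide +kernel
theorem c2_7 : cc 2 7 = true := by decide +kernel
theorem c2_1 : cc 2 1 = true := by decide +kernel
theorem r1_313213121 : rc 1 0x313213121 = true := by decide +kernel
theorem r1_7562652 : rc 1 0x7562652 = true := by decide +kernel
theorem r1_212121 : rc 1 0x212121 = true := by decide +kernel
theorem r_55 : rcH 0x55 = true := by decide +kernel
theorem r1_762762 : rc 1 0x762762 = true := by decide +kernel
theorem r0_612621 : rc 0 0x612621 = true := by decide +kernel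
theorem r0_3232 : rc 0 0x3232 = true := by decide +kernel
theorem r0_22 : rc 0 0x22 = true := by decide +kernel

end Cfsg.Agent.Mo.He
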