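import Cfsg.Agent.Mo.HeC0
import Cfsg.Agent.Mo.HeC1
import Cfsg.Agent.Mo.HeC2
import Cfsg.Agent.Mo.HeC3
import Cfsg.Agent.H6.HeI

/-! The Held group centralises an element of order 7 of `GM tau`. -/

set_option autoImplicit false

namespace Cfsg.Agent.Mo

namespace He

open H6.He H6.TT H8.TC

theorem rel : ∀ W ∈ RL_TT, H8.TC.val lt W = 1 := by
  simp only [RL_TT, List.forall_mem_cons, List.not_mem_nil, false_imp_iff, implies_true, and_true]
  exact ⟨rel_ofH r_11, rel_of r0_22 r1_22 r2_22, rel_ofH r_33,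
    rel_ofH r_44, rel_ofH r_55, rel_ofH r_66,
    rel_ofH r_77, rel_of r0_88 r1_88 r2_88, rel_ofH r_5151,
    rel_ofH r_7171, rel_of r0_8181 r1_8181 r2_8181, rel_of r0_3232 r1_3232 r2_3232,
    rel_of r0_5252 r1_5252 r2_5252, rel_of r0_7272 r1_7272 r2_7272, rel_of r0_8282 r1_8282 r2_8282,
    rel_ofH r_7373, rel_of r0_8383 r1_8383 r2_8383, rel_of r0_8585 r1_8585 r2_8585,
    rel_of r0_212121 r1_212121 r2_212121, rel_of r0_612621 r1_612621 r2_612621, rel_ofH r_747141,
    rel_of r0_848141 r1_848141 r2_848141, rel_ofH r_741741, rel_of r0_841841 r1_841841 r2_841841,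
    rel_ofH r_767161, rel_ofH r_761761, rel_of r0_767262 r1_767262 r2_767262,
    rel_of r0_762762 r1_762762 r2_762762, rel_ofH r_434343, rel_ofH r_645463,
    rel_of r0_784874 r1_784874 r2_784874, rel_ofH r_656565, rel_of r0_878787 r1_878787 r2_878787,
    rel_ofH r_4143131, rel_ofH r_7347431, rel_of r0_8348431 r1_8348431 r2_8348431,
    rel_of r0_3848431 r1_3848431 r2_3848431, rel_ofH r_7561651, rel_ofH r_6165751,
    rel_of r0_7562652 r1_7562652 r2_7562652, rel_ofH r_7576765, rel_of r0_31241421 r1_31241421 r2_31241421,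
    rel_ofH r_31313131, rel_ofH r_47474141, rel_ofH r_67676161,
    rel_of r0_67676262 r1_67676262 r2_67676262, rel_ofH r_53435343, rel_ofH r_54345343,
    rel_ofH r_63634543, rel_ofH r_53535353, rel_ofH r_56535653,
    rel_ofH r_63636363, rel_ofH r_65454563, rel_ofH r_64646464,
    rel_ofH r_75657565, rel_ofH r_75757575, rel_of r0_78676875 r1_78676875 r2_78676875,
    rel_of r0_313213121 r1_313213121 r2_313213121, rel_of r0_867686765 r1_867686765 r2_867686765, rel_ofH r_6475746131,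
    rel_ofH r_6464764641, rel_ofH r_4646764641, rel_of r0_8636816361 r1_8636816361 r2_8636816361,
    rel_ofH r_6464746461, rel_of r0_4242424242 r1_4242424242 r2_4242424242, rel_of r0_7454724542 r1_7454724542 r2_7454724542,
    rel_of r0_6256757652 r1_6256757652 r2_6256757652, rel_ofH r_5454534543, rel_ofH r_5646534643,
    rel_of r0_8757856765 r1_8757856765 r2_8757856765, rel_of r0_8686868686 r1_8686868686 r2_8686868686, rel_ofH r_535135135131,
    rel_of r0_637637632632 r1_637637632632 r2_637637632632, rel_ofH r_757357357353, rel_of r0_8687568685261 r1_8687568685261 r2_8687568685261,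
    rel_of r0_68687568687521 r1_68687568687521 r2_68687568687521⟩
theorem com {c : ℕ} (h1 : 1 ≤ c) (h8 : c ≤ 8) : hl 3 * lt c = lt c * hl 3 := by
  interval_cases c
  exacts [com_ofH (by decide) c2_1, com_of c0_2 c1_2 c2_2, com_ofH (by decide) c2_3,
    com_ofH (by decide) c2_4, com_ofH (by decide) c2_5, com_ofH (by decide) c2_6,
    com_ofH (by decide) c2_7, com_of c0_8 c1_8 c2_8]
theorem x_chk : agr HT 2 [3, 3, 3, 3, 3, 3, 3] [] = true ∧ neS (runW HT [3] (tst 2)) (tst 2) = true ∧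
    neS (runW HT [4] (tst 2)) (tst 2) = true := by decide +kernel
theorem ne_one {a : ℕ} (h : neS (runW HT [a] (tst 2)) (tst 2) = true) : hl a ≠ 1 := fun e =>
  neS_spec ((rp_tst 2).runW hl_ok [a]) (rp_tst 2) h (by simp [gw, e])
theorem order_x : orderOf (hl 3) = 7 := by
  have : Fact (Nat.Prime 7) := ⟨by norm_num⟩
  refine orderOf_eq_prime ?_ (ne_one x_chk.2.1)
  simpa [gw, pow_succ] using eq_of_tvecH (gw_HH (by decide)) (one_mem _) (agr_spec hl_ok x_chk.1)

theorem lt_mem (c : ℕ) : lt c ∈ H6.TT.gen lt 8 := by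
  by_cases h : 1 ≤ c ∧ c ≤ 8
  · exact lt_mem_gen h.1 h.2
  · rcases c with _ | c
    · exact one_mem _
    · rw [lt, lw, List.getD_eq_default _ _ (by simp; omega)]; exact one_mem _
theorem isHe_of_equiv {A B : Type} [Group A] [Group B] {K : Subgroup B} (e : A ≃* K) (h : IsHe K) :
    IsHe A :=
  ⟨by have := h.1; exact e.isSimpleGroup, (Nat.card_congr e.toEquiv).trans h.2⟩
theorem isHe_gen {Γ : Type} [Group Γ] (l : ℕ → Γ) (h0 : l 0 = 1) (hm : ∀ c, l c ∈ H6.TT.gen l 8)
    (h1 : l 1 ≠ 1) (hr : ∀ W ∈ RL_TT, H8.TC.val l W = 1) : IsHe (H6.TT.gen l 8) := by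
  have : Nontrivial (H6.TT.gen l 8) := ⟨⟨⟨_, hm 1⟩, 1, fun e => h1 (congrArg Subtype.val e)⟩⟩
  have hv : ∀ W, ((H8.TC.val (fun c => (⟨l c, hm c⟩ : H6.TT.gen l 8)) W : H6.TT.gen l 8) : Γ) =
      H8.TC.val l W := fun W => by
    simp [H8.TC.val, List.map_map, Function.comp_def]
  obtain ⟨e⟩ := iso_TT (fun c => (⟨l c, hm c⟩ : H6.TT.gen l 8)) (Subtype.ext h0)
    (fun W h => Subtype.ext ((hv W).trans (hr W h))) (by
      refine top_unique fun ⟨g, hg⟩ _ => ?_
      induction hg using Subgroup.closure_induction with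
      | mem x hx =>
        obtain ⟨c, a, b, rfl⟩ := hx
        exact lt_mem_gen (lt := fun c => (⟨l c, hm c⟩ : H6.TT.gen l 8)) a b
      | one => exact one_mem _
      | mul x y hx hy ix iy => exact mul_mem (ix trivial) (iy trivial)
      | inv x hx ix => exact inv_mem (ix trivial))
  exact isHe_of_equiv e isHe_qG
theorem isHe : IsHe (H6.TT.gen lt 8) :=
  isHe_gen lt rfl lt_mem (fun e => ne_one x_chk.2.2 (by simpa [lt, lw, gw] using e)) rel

end He

theorem he_in_M : ∃ x ∈ GM tau, orderOf x = 7 ∧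
    ∃ K : Subgroup GG, K ≤ GM tau ⊓ Subgroup.centralizer {x} ∧ IsHe K :=
  ⟨_, He.hl_mem 3, He.order_x, _, (Subgroup.closure_le _).2 (by
    rintro _ ⟨c, a, b, rfl⟩
    exact ⟨gw_mem fun a _ => He.hl_mem a, Subgroup.mem_centralizer_singleton_iff.2 (He.com a b).symm⟩),
    He.isHe⟩

end Cfsg.Agent.Mo
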