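import Cfsg.Agent.Mo.HeT

/-! Relators of the Held group (generated by tools/h1mo/hechk.py). -/

set_option Elab.async false

namespace Cfsg.Agent.Mo.He

theorem r2_8686868686 : rc 2 0x8686868686 = true := by decide +kernel
theorem r2_848141 : rc 2 0x848141 = true := by decide +kernel
theorem r_6464764641 : rcH 0x6464764641 = true := by decide +kernel
theorem r_4646764641 : rcH 0x4646764641 = true := by decide +kernel
theorem r_64646464 : rcH 0x64646464 = true := by decide +kernel
theorem r_5646534643 : rcH 0x5646534643 = true := by decide +kernel
theorem c2_8 : cc 2 8 = true := by decide +kernel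
theorem r2_31241421 : rc 2 0x31241421 = true := by decide +kernel
theorem r_53435343 : rcH 0x53435343 = true := by decide +kernel
theorem r_645463 : rcH 0x645463 = true := by decide +kernel
theorem c2_4 : cc 2 4 = true := by decide +kernel
theorem r1_8687568685261 : rc 1 0x8687568685261 = true := by decide +kernel
theorem r_44 : rcH 0x44 = true := by decide +kernel
theorem r1_4242424242 : rc 1 0x4242424242 = true := by decide +kernel
theorem r0_8348431 : rc 0 0x8348431 = true := by decide +kernel
theorem r1_878787 : rc 1 0x878787 = true := by decide +kernel
theorem r0_878787 : rc 0 0x878787 = true := by decide +kernel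
theorem r_75757575 : rcH 0x75757575 = true := by decide +kernel
theorem r_63636363 : rcH 0x63636363 = true := by decide +kernel
theorem r2_767262 : rc 2 0x767262 = true := by decide +kernel
theorem r0_7454724542 : rc 0 0x7454724542 = true := by decide +kernel
theorem r0_867686765 : rc 0 0x867686765 = true := by decide +kernel
theorem r1_78676875 : rc 1 0x78676875 = true := by decide +kernel
theorem r_767161 : rcH 0x767161 = true := by decide +kernel
theorem r_656565 : rcH 0x656565 = true := by decide +kernel
theorem r1_8585 : rc 1 0x8585 = true := by decide +kernel
theorem r0_8383 : rc 0 0x8383 = true := by decide +kernel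
theorem c0_8 : cc 0 8 = true := by decide +kernel
theorem r_7171 : rcH 0x7171 = true := by decide +kernel
theorem r2_22 : rc 2 0x22 = true := by decide +kernel
theorem c2_3 : cc 2 3 = true := by decide +kernel
theorem r1_6256757652 : rc 1 0x6256757652 = true := by decide +kernel
theorem r0_313213121 : rc 0 0x313213121 = true := by decide +kernel
theorem r0_7562652 : rc 0 0x7562652 = true := by decide +kernel
theorem r_33 : rcH 0x33 = true := by decide +kernel
theorem r1_612621 : rc 1 0x612621 = true := by decide +kernel
theorem r1_7272 : rc 1 0x7272 = true := by decide +kernel
theorem r1_3232 : rc 1 0x3232 = true := by decide +kernel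
theorem c1_2 : cc 1 2 = true := by decide +kernel

end Cfsg.Agent.Mo.He
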