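import Cfsg.Agent.Mo.Idw
import Cfsg.Agent.Mo.HeD0
import Cfsg.Agent.Mo.HeD1
import Cfsg.Agent.Mo.HeD2
import Cfsg.Agent.Mo.HeD3
import Cfsg.Agent.H8.TC

/-! The table of programs for the Held group in the centraliser of an element of order 7. -/

set_option autoImplicit false

namespace Cfsg.Agent.Mo.He

open H4 H5 H5.Lee

noncomputable def en (g : Gen) : Prog × ℕ := (mkP g, g.e)
noncomputable def ex : Prog × ℕ := en gx
noncomputable def el1 : Prog × ℕ := en gl1
noncomputable def el3 : Prog × ℕ := en gl3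
noncomputable def el5 : Prog × ℕ := en gl5
noncomputable def el6 : Prog × ℕ := en gl6
noncomputable def el7 : Prog × ℕ := en gl7
noncomputable def ed2 : Prog × ℕ := en gd2
noncomputable def ed8 : Prog × ℕ := en gd8
noncomputable def en2 : Prog × ℕ := en gn2
noncomputable def em1 : Prog × ℕ := en gm1
noncomputable def em2 : Prog × ℕ := en gm2
noncomputable def em3 : Prog × ℕ := en gm3
noncomputable def ei2 : Prog × ℕ := en gi2
/-- 0 = `ξ`, 1 = `tau`, 2 = `tau⁻¹`, 3 = the element of order 7, 4-15 monomial elements -/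
noncomputable def HT : Tbl := [en g68, (TP, 3), (TP.reverse, 3), ex, el1, el3, el5, el6, el7, ed2, ed8,
  en2, em1, em2, em3, ei2]

theorem en_spec {g : Gen} (h : g.ok = true) (a : ℕ) : ∃ k, Impl k (en g).1 (en g).2 ∧
    k ∈ GM tau ∧ (a ≠ 1 → a ≠ 2 → k ∈ HH) := by
  obtain ⟨p, hp, -⟩ := Gen.spec h
  exact ⟨_, hp, HH_le_GM (rho_mem' p), fun _ _ => rho_mem' p⟩
theorem exists_hl : ∃ gl, TOK gl HT ∧ ∀ a, gl a ∈ GM tau ∧ (a ≠ 1 → a ≠ 2 → gl a ∈ HH) := by
  refine exists_gl (Q := fun a g => g ∈ GM tau ∧ (a ≠ 1 → a ≠ 2 → g ∈ HH)) (fun a _ => ⟨one_mem _, fun _ _ => one_mem _⟩) fun a ha => ?_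
  change a < 16 at ha
  interval_cases a
  exacts [en_spec g68_ok _, ⟨_, tau_impl, tau_mem, fun h => absurd rfl h⟩,
    ⟨_, tau_impl', inv_mem tau_mem, fun _ h => absurd rfl h⟩, en_spec gx_ok _, en_spec gl1_ok _,
    en_spec gl3_ok _, en_spec gl5_ok _, en_spec gl6_ok _, en_spec gl7_ok _, en_spec gd2_ok _,
    en_spec gd8_ok _, en_spec gn2_ok _, en_spec gm1_ok _, en_spec gm2_ok _, en_spec gm3_ok _,
    en_spec gi2_ok _]
noncomputable def hl : ℕ → GG := exists_hl.choose
theorem hl_ok : TOK hl HT := exists_hl.choose_spec.1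
theorem hl_mem (a : ℕ) : hl a ∈ GM tau := (exists_hl.choose_spec.2 a).1

/-- the eight involutions -/
def lw (c : ℕ) : List ℕ :=
  [[], [4], [1, 9], [5], [12, 0, 13, 0, 14], [6], [7], [8], [0, 11, 0, 2, 10, 0, 15, 0]].getD c []
noncomputable def lt (c : ℕ) : GG := gw hl (lw c)
def xw (k : ℕ) : ℕ → List ℕ :=
  Nat.rec (fun _ => []) (fun _ ih W => appL (ih (Nat.div W 16)) (lw (Nat.mod W 16))) k
theorem appL_eq (a b : List ℕ) : appL a b = a ++ b := by
  induction a with
  | nil => rfl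
  | cons x t ih => exact congrArg (x :: ·) ih
theorem val_xw (k : ℕ) : ∀ W < 16 ^ k, H8.TC.val lt W = gw hl (xw k W) := by
  induction k with
  | zero => intro W h; obtain rfl : W = 0 := by omega
            exact H8.TC.val_zero _
  | succ k ih =>
    intro W h
    rw [H8.TC.val_step rfl, ih _ (by rw [pow_succ] at h; omega)]
    exact (gw_append _ _ _).symm.trans (congrArg _ (appL_eq _ _).symm)

def inH (w : List ℕ) : Bool := w.all fun a => a != 1 && a != 2
theorem gw_HH {w : List ℕ} (h : inH w = true) : gw hl w ∈ HH := gw_mem fun a ha => by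
  have := List.all_eq_true.1 h a ha
  simp only [Bool.and_eq_true, bne_iff_ne] at this
  exact (exists_hl.choose_spec.2 a).2 this.1 this.2

/-- test of a relator on the vector number `i` -/
noncomputable def rc (i W : ℕ) : Bool := cnd (Nat.blt W (16 ^ 16)) (agr HT i (xw 16 W) []) false
noncomputable def rcH (W : ℕ) : Bool := cnd (inH (xw 16 W)) (rc 2 W) false
theorem rel_of {W : ℕ} (h0 : rc 0 W = true) (h1 : rc 1 W = true) (h2 : rc 2 W = true) :
    H8.TC.val lt W = 1 := by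
  simp only [rc, cnd_false_iff] at h0 h1 h2
  rw [val_xw 16 W (Nat.blt_eq.mp h0.1)]
  exact eq_of_agr hl_ok hl_mem h0.2 h1.2 h2.2
theorem rel_ofH {W : ℕ} (h : rcH W = true) : H8.TC.val lt W = 1 := by
  simp only [rcH, rc, cnd_false_iff] at h
  rw [val_xw 16 W (Nat.blt_eq.mp h.2.1)]
  exact eq_of_tvecH (gw_HH h.1) (one_mem _) (agr_spec hl_ok h.2.2)
/-- the letter `c` commutes with the element of order 7 -/
noncomputable def cc (i c : ℕ) : Bool := agr HT i (appL (lw c) [3]) (3 :: lw c)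
theorem cc_aux {c : ℕ} (h : gw hl (appL (lw c) [3]) = gw hl (3 :: lw c)) : hl 3 * lt c = lt c * hl 3 := by
  simpa [appL_eq, gw_append, gw, lt] using h
theorem com_of {c : ℕ} (h0 : cc 0 c = true) (h1 : cc 1 c = true) (h2 : cc 2 c = true) :
    hl 3 * lt c = lt c * hl 3 := cc_aux (eq_of_agr hl_ok hl_mem h0 h1 h2)
theorem com_ofH {c : ℕ} (h : inH (appL (lw c) [3]) = true ∧ inH (3 :: lw c) = true) (h2 : cc 2 c = true) :
    hl 3 * lt c = lt c * hl 3 :=
  cc_aux (eq_of_tvecH (gw_HH h.1) (gw_HH h.2) (agr_spec hl_ok h2))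

end Cfsg.Agent.Mo.He
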