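import Cfsg.Agent.Mo.Inv2

/-! Certificate data. -/

namespace Cfsg.Agent.Mo.Iv

def Ce : SL := [(98880, Int.negSucc 15)]
def Le0 : List PC := [⟨2624, [(100928, Int.negSucc 15)], [], []⟩,
  ⟨6720, [(105024, Int.negSucc 15)], [], []⟩]
theorem pe0 : pairs 2624 Ce Le0 = true := by decide +kernel
theorem ce : cov [[0], [1], [2], [3], [4], [5], [6], [7], [8], [9], [10], [35, 39], [36, 37, 40], [35, 39], [36, 38, 37], [35, 39], [36, 37, 40]] (bt1 2624) (seeds Le0) (fun x' S' => and (sub (bt1 2624) x') (sub MX S')) = true := by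
  decide +kernel
theorem ie : Inv (bt1 2624) MX := cov_sub ((pairs_spec pe0).2) ce

end Cfsg.Agent.Mo.Iv
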