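import Cfsg.Agent.Mo.InvA
import Cfsg.Agent.Mo.InvB
import Cfsg.Agent.Mo.InvC
import Cfsg.Agent.Mo.InvD
import Cfsg.Agent.Mo.InvE

/-! The triality element preserves the trilinear form. -/

set_option autoImplicit false

namespace Cfsg.Agent.Mo

namespace Iv
theorem c1 : cov [[35], [36], [37], [38], [40], [35], [25], [39], [27], [29], [31], [28], [36], [24], [40], [35], [39], [37], [24], [35], [24]] (Nat.lor (Nat.lor (Nat.lor (bt1 0) (bt1 1)) (bt1 577)) (bt1 1152)) (ones 197184)
    (fun x' S' => and (sub M1 x') (sub (ones 197184) S')) = true := by decide +kernel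
theorem c2 : cov [[24], [25], [27], [28], [26], [29], [31], [32], [30], [33], [34], [35], [36], [37], [38], [36], [35]] (bt1 2624) MX (fun x' S' => and (sub MX x') (sub MX S')) = true := by decide +kernel
end Iv

theorem tau_aut : tau ∈ Aut :=
  Iv.final (Iv.cov_sub (((Iv.ia.or Iv.ib).or Iv.ic).or Iv.id) Iv.c1) (Iv.cov_sub Iv.ie Iv.c2)

end Cfsg.Agent.Mo
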