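import Cfsg.Agent.Mo.Ns3
import Cfsg.Agent.Mo.Inv
import Cfsg.Agent.Mo.Fin2

/-! Identity test for elements of `Aut` given by words in programs. -/

set_option autoImplicit false

namespace Cfsg.Agent.Mo

open H4 H5 H5.Lee Matrix

namespace Iw

def LQ (k : ℕ) : ℕ := [576, 640, 768, 960, 1408, 4224, 5504, 9664, 17088, 26304, 42176, 96256, 311, 335,
  359, 383, 407, 431, 455, 479, 503, 527, 551, 564].getD k 0
def pl (b x n : ℕ) : ℕ := Nat.rec x (fun k ih => Nat.lor ih
  (Nat.shiftLeft (Nat.land (Nat.shiftRight (Nat.succ k) b) 1) (Nat.add 576 (LQ k)))) n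
def mk (n : ℕ) : ℕ := Nat.rec 0 (fun k ih => Nat.lor ih (Nat.shiftLeft 1 (Nat.add 576 (LQ k)))) n
theorem tb_mk (n p : ℕ) (h : (mk n).testBit p = true) : ∃ k < n, p = 576 + LQ k := by
  induction n with
  | zero => simp [mk] at h
  | succ n ih =>
    change (Nat.lor (mk n) (1 <<< (576 + LQ n))).testBit p = true at h
    rw [tb_or, Bool.or_eq_true, Nat.one_shiftLeft, Nat.testBit_two_pow, decide_eq_true_eq] at h
    rcases h with h | h
    · obtain ⟨k, hk, e⟩ := ih h
      exact ⟨k, by omega, e⟩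
    · exact ⟨n, by omega, h.symm⟩

end Iw

/-- the test vector: weights `1, ..., 24` on short classes that generate, and `∑ i, dual (W (i, i))` -/
def uS : List ℕ := [0, Iw.pl 0 (N2.tp 24) 24, Iw.pl 1 0 24, Iw.pl 2 0 24, Iw.pl 3 0 24, Iw.pl 4 0 24, 0]

namespace Iw

theorem chk : (∀ k < 24, VM.testBit (LQ k) = true ∧ vz uS.tail (576 + LQ k) = k + 1 ∧
      (cp (LQ k) = 2 ^ k ∨ ∃ j < 24, cp (LQ k) ^^^ cp (LQ j) = 2 ^ k)) ∧
    Nat.land (N2.orA uS.tail) (ones 98880) = mk 24 ∧
    trimP (lmap (Nat.shiftRight · 98880) uS.tail) = trimP (lmap (Nat.shiftRight · 98880) N2.tS.tail) := by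
  decide +kernel
theorem vz_or {xs : List ℕ} {p : ℕ} (h : (N2.orA xs).testBit p = false) : vz xs p = 0 := by
  induction xs with
  | nil => rfl
  | cons x t ih =>
    change (Nat.lor x (N2.orA t)).testBit p = false at h
    rw [tb_or, Bool.or_eq_false_iff] at h
    cases t with
    | nil => simp [h.1]
    | cons y t => rw [vz_cons2, h.1, ih h.2]; simp
theorem low {p : ℕ} (hp : p < 98880) (h : val uS p ≠ 0) : ∃ k < 24, p = 576 + LQ k := by
  refine tb_mk 24 p ?_
  rw [← chk.2.1, tb_and, tb_ones, decide_eq_true hp, Bool.and_true]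
  by_contra e
  exact h (by rw [val, vz_or (Bool.eq_false_iff.2 e)]; simp)
theorem high {p : ℕ} (hp : 98880 ≤ p) : val uS p = val N2.tS p := by
  obtain ⟨q, rfl⟩ := Nat.exists_eq_add_of_le' hp
  have := congrArg (vz · q) chk.2.2
  simp only [vz_trimP] at this
  rw [vz_map _ _ q _ fun x => tb_shr x _ q, vz_map _ _ q _ fun x => tb_shr x _ q] at this
  rw [val, val, this]; rfl
theorem good : Good (val uS) := by
  have a : ∀ p < 576, val uS p = 0 := fun p hp => by
    by_contra e
    obtain ⟨k, -, h⟩ := low (by omega) e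
    omega
  refine ⟨fun i hi j hj => by rw [a _ (by omega), a _ (by omega)], fun q hq h => ?_, fun p hp => ?_⟩
  · by_contra e
    obtain ⟨k, hk, h'⟩ := low (by omega) e
    rw [show q = LQ k by omega, (chk.1 k hk).1] at h
    exact absurd h (by decide)
  · rw [high (by omega), ← N2.rp_tS, Cr.crd_out _ hp]

end Iw

noncomputable def u0 : VV := inc (val uS)
theorem rp_uS : Rp uS u0 := fun p => congrFun (crd_inc Iw.good) p

namespace Iw

theorem mc_u0 {q : ℕ} (h : VM.testBit q = true) : mc (u0 : Amb).2.1 (rq q) = val uS (576 + q) := by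
  rw [← rp_uS, crd_M _ (VM_lt h), if_pos h]
theorem mc_L {k : ℕ} (hk : k < 24) : mc (u0 : Amb).2.1 (rq (LQ k)) = k + 1 := by
  rw [mc_u0 (chk.1 k hk).1, val, (chk.1 k hk).2.1]; simp [uS]
theorem W_u0 : (u0 : Amb).2.2 = (N2.tv : Amb).2.2 := Matrix.ext fun i j => by
  rw [u0, N2.tv, Cr.inc_W, Cr.inc_W, high (by omega)]

theorem comm_L {p : Ht} (h : rho p • u0 = u0) {k : ℕ} (hk : k < 24) :
    (p.1.2 : Matrix κ κ ℝ) * P (cp (LQ k)) = P (cp (LQ k)) * p.1.2 := by
  have hv := (chk.1 k hk).1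
  obtain ⟨f, c⟩ := exists_Cj p (rq (LQ k)) false
  have e := c.mc (u0 : Amb).2.1
  have e1 := congrArg (fun u : VV => (u : Amb).2.1) h
  simp only [rho_smul, act_apply] at e1
  obtain ⟨q, hq, e2⟩ := rq_surj (smul_mem_L2 p.1.1 (rq_mem hv))
  have e3 := (cl_rq hq).trans e2
  rw [e1, mc_L hk, sgn_false, one_mul, mc, ← PL_congr e3, ← mc] at e
  have h0 : val uS (576 + q) ≠ 0 := fun a => by
    rw [mc_u0 hq, a, mul_zero] at e
    have : (0 : ℝ) ≤ k := Nat.cast_nonneg k
    linarith
  obtain ⟨j, hj, a⟩ := low (by have := VM_lt hq; omega) h0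
  obtain rfl : q = LQ j := by omega
  rw [mc_L hj] at e
  cases f
  · rw [sgn_false, one_mul] at e
    obtain rfl : j = k := by exact_mod_cast add_right_cancel e
    have := c.2
    rw [sgn_false, one_smul, one_smul, ← PL_congr e3, PL, cl_rq hv] at this
    conv_rhs => rw [← this, Matrix.mul_assoc, OG.tr_mul, Matrix.mul_one]
  · rw [sgn_true] at e
    have : (0 : ℝ) ≤ j := Nat.cast_nonneg j
    have : (0 : ℝ) ≤ k := Nat.cast_nonneg k
    linarith

end Iw

theorem fix_u0 {g : GG} (hg : g ∈ HH) (h : g • u0 = u0) : g = 1 := by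
  obtain ⟨p, rfl⟩ := hg
  obtain ⟨a, hc⟩ := commutant (c := (p.1.2 : Matrix κ κ ℝ)) fun k hk => by
    rcases (Iw.chk.1 k hk).2.2 with e | ⟨j, hj, e⟩
    · rw [← e]; exact Iw.comm_L h hk
    · have e1 := P_mul' (cp (Iw.LQ k)) (cp (Iw.LQ j))
      have e2 := congrArg (sg (cp (Iw.LQ k) / 4096) (cp (Iw.LQ j) % 4096) • ·) e1
      simp only [smul_smul, sg_mul_self, one_smul] at e2
      rw [← e, ← e2, Matrix.mul_smul, Matrix.smul_mul, ← Matrix.mul_assoc, Iw.comm_L h hk,
        Matrix.mul_assoc, Iw.comm_L h hj, Matrix.mul_assoc]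
  have h2 : a * a = 1 := by
    have e := OG.tr_mul p.1.2
    rw [hc, transpose_smul, Matrix.smul_mul, Matrix.mul_smul, transpose_one, Matrix.mul_one,
      smul_smul] at e
    have := congrFun (congrFun e 0) 0
    rwa [Matrix.smul_apply, one_apply_eq, smul_eq_mul, mul_one] at this
  have h3 : mat p.1.1 = a • 1 := by
    have e := congrArg (fun u : VV => a • (u : Amb).2.2) h
    simp only [rho_smul, act_apply] at e
    rw [hc, transpose_smul, transpose_one, Matrix.mul_smul, Matrix.mul_one, smul_smul, h2, one_smul,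
      Iw.W_u0, ← Matrix.one_mul (N2.tv : Amb).2.2, ← Matrix.smul_mul, ← Matrix.mul_assoc,
      Matrix.mul_one] at e
    ext i j
    rw [← N2.mul_tv (mat p.1.1), e, N2.mul_tv]
  refine GG_ext fun u => Subtype.ext ?_
  rw [rho_smul, act_apply, hc, h3, one_smul]
  simp only [transpose_smul, Matrix.mul_smul, Matrix.smul_mul, smul_smul, h2, one_smul,
    transpose_one, Matrix.mul_one, Matrix.one_mul]

theorem mem_HH_of_fix {g : GG} (hg : g ∈ Aut) {r : Λ} (hr : r ∈ L2) (h1 : g • ax r false = ax r false)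
    (h2 : g • ax r true = ax r true) : g ∈ HH := by
  have e : zz = xq r true * (xq r false)⁻¹ := eq_mul_inv_of_mul_eq (zz_mul_xq r false)
  have a := miyamoto hg hr h1
  have b := miyamoto hg hr h2
  refine cent_zz hg ?_
  rw [e]
  exact (Commute.mul_right b (Commute.inv_right a) :)

theorem rho_mem' (p : Ht) : rho p ∈ HH := ⟨p, rfl⟩
theorem GM_le_Aut : GM tau ≤ Aut :=
  (Subgroup.closure_le _).2 (by
    rintro g (⟨p, rfl⟩ | rfl)
    exacts [rho_mem_Aut p, tau_aut])

/-! ### words in a table of programs; the first letter acts first -/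

abbrev Tbl := List (Prog × ℕ)
noncomputable def gw (gl : ℕ → GG) : List ℕ → GG
  | [] => 1
  | a :: w => gw gl w * gl a
noncomputable def runW (T : Tbl) (w : List ℕ) : List ℕ → List ℕ :=
  List.rec (fun S => S) (fun a _ ih S => ih (app (T.getD a ([], 0)).1 (T.getD a ([], 0)).2 S)) w
/-- the table implements the letters (letters outside the table are trivial) -/
def TOK (gl : ℕ → GG) (T : Tbl) : Prop := ∀ a, Impl (gl a) (T.getD a ([], 0)).1 (T.getD a ([], 0)).2

theorem gw_append (gl : ℕ → GG) (w w' : List ℕ) : gw gl (w ++ w') = gw gl w' * gw gl w := by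
  induction w with
  | nil => exact (mul_one _).symm
  | cons a w ih => rw [List.cons_append, gw, ih, gw, mul_assoc]
theorem gw_mem {gl : ℕ → GG} {K : Subgroup GG} {w : List ℕ} (h : ∀ a ∈ w, gl a ∈ K) : gw gl w ∈ K := by
  induction w with
  | nil => exact one_mem K
  | cons a w ih => exact mul_mem (ih fun b hb => h b (List.mem_cons_of_mem _ hb)) (h a (by simp))
theorem Rp.runW {gl : ℕ → GG} {T : Tbl} (h : TOK gl T) (w : List ℕ) {S : List ℕ} {v : VV} (r : Rp S v) :
    Rp (Mo.runW T w S) (gw gl w • v) := by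
  induction w generalizing S v with
  | nil => rwa [gw, one_smul]
  | cons a w ih => rw [gw, mul_smul]; exact ih ((h a).app r)
/-- existence of the letters -/
theorem exists_gl {T : Tbl} {Q : ℕ → GG → Prop} (h1 : ∀ a, T.length ≤ a → Q a 1)
    (h : ∀ a < T.length, ∃ g, Impl g (T.getD a ([], 0)).1 (T.getD a ([], 0)).2 ∧ Q a g) :
    ∃ gl, TOK gl T ∧ ∀ a, Q a (gl a) := by
  have : ∀ a, ∃ g, Impl g (T.getD a ([], 0)).1 (T.getD a ([], 0)).2 ∧ Q a g := fun a => by
    by_cases e : a < T.length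
    · exact h a e
    · exact ⟨1, by rw [List.getD_eq_default _ _ (not_lt.1 e)]; exact Impl.one, h1 a (not_lt.1 e)⟩
  choose gl h using this
  exact ⟨gl, fun a => (h a).1, fun a => (h a).2⟩

/-- the three test states -/
def tst (i : ℕ) : List ℕ :=
  cnd (Nat.beq i 0) ax1S (cnd (Nat.beq i 1) [0, 0, 0x3000003, Nat.lor 0x1000002 (Nat.shiftLeft 1 577),
    0x1000002] uS)
noncomputable def tvec (i : ℕ) : VV := if i = 0 then ax (rq 1) false else if i = 1 then ax (rq 1) true else u0
theorem rp_tst (i : ℕ) : Rp (tst i) (tvec i) := by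
  rcases i with _ | _ | i
  · exact rp_ax1
  · have : eqL (axS 1 true) (tst 1) = true := by decide +kernel
    exact eqL_spec this ▸ axS_spec N3.vm1 true
  · exact rp_uS
/-- `w` and `w'` agree on the test vector number `i` -/
noncomputable def agr (T : Tbl) (i : ℕ) (w w' : List ℕ) : Bool := eqL (runW T w (tst i)) (runW T w' (tst i))
theorem agr_spec {gl : ℕ → GG} {T : Tbl} (h : TOK gl T) {i : ℕ} {w w' : List ℕ} (a : agr T i w w' = true) :
    gw gl w • tvec i = gw gl w' • tvec i :=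
  ((rp_tst i).runW h w).eq (eqL_spec a ▸ (rp_tst i).runW h w')
theorem eq_of_tvec {g g' : GG} (hg : g ∈ Aut) (hg' : g' ∈ Aut) (h : ∀ i < 3, g • tvec i = g' • tvec i) :
    g = g' := by
  have e : ∀ i < 3, (g'⁻¹ * g) • tvec i = tvec i := fun i hi => by rw [mul_smul, h i hi, inv_smul_smul]
  exact (inv_mul_eq_one.1 (fix_u0 (mem_HH_of_fix (mul_mem (inv_mem hg') hg) (rq_mem N3.vm1)
    (e 0 (by decide)) (e 1 (by decide))) (e 2 (by decide)))).symm
theorem eq_of_tvecH {g g' : GG} (hg : g ∈ HH) (hg' : g' ∈ HH) (h : g • tvec 2 = g' • tvec 2) : g = g' :=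
  (inv_mul_eq_one.1 (fix_u0 (mul_mem (inv_mem hg') hg) (by
    rw [mul_smul]; exact inv_smul_eq_iff.2 h))).symm

/-- the standard table: letters 0-68 as in `GT`, 69 = `tau`, 70 = `tau⁻¹`, followed by `X` -/
noncomputable def stdT (X : Tbl) : Tbl :=
  (List.range 69).map (fun a => ((gt a).P, (gt a).e)) ++ (TP, 3) :: (TP.reverse, 3) :: X
noncomputable def stdG (a : ℕ) : GG :=
  if a < 69 then rho (hT a) else if a = 69 then tau else if a = 70 then tau⁻¹ else 1
theorem stdG_ok : TOK stdG (stdT []) := fun a => by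
  unfold stdG stdT
  split_ifs with h1 h2 h3
  · rw [List.getD_append _ _ _ _ (by simpa using h1), List.getD_eq_getElem _ _ (by simpa using h1)]
    simpa using hT_impl h1
  · subst h2; exact tau_impl
  · subst h3; exact tau_impl'
  · rw [List.getD_eq_default _ _ (by simp; omega)]; exact Impl.one
theorem stdG_mem (a : ℕ) : stdG a ∈ GM tau := by
  unfold stdG
  split_ifs
  exacts [HH_le_GM (rho_mem' _), tau_mem, inv_mem tau_mem, one_mem _]
/-- identity test for words in the standard letters -/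
noncomputable def idW (w w' : List ℕ) : Bool :=
  cnd (agr (stdT []) 0 w w') (cnd (agr (stdT []) 1 w w') (agr (stdT []) 2 w w') false) false
theorem eq_of_agr {gl : ℕ → GG} {T : Tbl} (h : TOK gl T) (hm : ∀ a, gl a ∈ GM tau) {w w' : List ℕ}
    (h0 : agr T 0 w w' = true) (h1 : agr T 1 w w' = true) (h2 : agr T 2 w w' = true) :
    gw gl w = gw gl w' :=
  eq_of_tvec (GM_le_Aut (gw_mem fun a _ => hm a)) (GM_le_Aut (gw_mem fun a _ => hm a)) fun i hi => by
    interval_cases i
    exacts [agr_spec h h0, agr_spec h h1, agr_spec h h2]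
theorem idW_spec {w w' : List ℕ} (h : idW w w' = true) : gw stdG w = gw stdG w' := by
  simp only [idW, cnd_false_iff] at h
  exact eq_of_agr stdG_ok stdG_mem h.1 h.2.1 h.2.2

end Cfsg.Agent.Mo
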