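import Cfsg.Agent.Mo.Prod
import Cfsg.Agent.Mo.Gen1

/-! Products of basis vectors as computed sparse lists; the check of one pair of basis vectors. -/

set_option autoImplicit false

namespace Cfsg.Agent.Mo.Iv

open H4 H5 H5.Lee Finset Cr

noncomputable def frZ {α : Type} (c : ℤ) (k : ℤ → α) : α :=
  Int.rec (fun n => frN n fun m => k (Int.ofNat m)) (fun n => frN n fun m => k (Int.negSucc m)) c
theorem frZ_eq {α : Type} (c : ℤ) (k : ℤ → α) : frZ c k = k c := by cases c <;> rfl
noncomputable def isZ (c : ℤ) : Bool := Int.rec (fun n => Nat.beq n 0) (fun _ => false) c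
theorem isZ_spec {c : ℤ} (h : isZ c = true) : c = 0 := by
  cases c with
  | ofNat n => rw [Nat.eq_of_beq_eq_true (show Nat.beq n 0 = true from h)]; rfl
  | negSucc n => exact absurd h Bool.false_ne_true

noncomputable def evf (L : SL) (g : ℕ → ℝ) : ℝ := (L.map fun t => (t.2 : ℝ) * g t.1).sum
@[simp] theorem evf_nil (g : ℕ → ℝ) : evf [] g = 0 := rfl
@[simp] theorem evf_cons (t : ℕ × ℤ) (L : SL) (g : ℕ → ℝ) : evf (t :: L) g = t.2 * g t.1 + evf L g := rfl

noncomputable def insK (a : ℕ) (c : ℤ) (L : SL) : (SL → Bool) → Bool :=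
  List.rec (fun k => k [(a, c)]) (fun t M ih k =>
    cnd (Nat.beq t.1 a) (frZ (Int.add t.2 c) fun s => k ((a, s) :: M)) (ih fun M' => k (t :: M'))) L
theorem insK_spec {a : ℕ} {c : ℤ} {L : SL} {k : SL → Bool} (h : insK a c L k = true) :
    ∃ M, k M = true ∧ ∀ g, evf M g = c * g a + evf L g := by
  induction L generalizing k with
  | nil => exact ⟨_, h, fun g => rfl⟩
  | cons t M ih =>
    change cnd _ _ (insK a c M _) = true at h
    cases e : Nat.beq t.1 a <;> rw [e] at h
    · obtain ⟨M', h1, h2⟩ := ih h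
      exact ⟨_, h1, fun g => by rw [evf_cons, evf_cons, h2]; ring⟩
    · rw [cnd_true, frZ_eq] at h
      refine ⟨_, h, fun g => ?_⟩
      rw [evf_cons, evf_cons, Nat.eq_of_beq_eq_true e, Int.add_def]; push_cast; ring
noncomputable def accK (c : ℤ) (L : SL) : SL → (SL → Bool) → Bool :=
  List.rec (fun A k => k A) (fun t _ ih A k => frZ (Int.mul c t.2) fun s =>
    cnd (isZ s) (ih A k) (frN t.1 fun a => insK a s A fun A' => ih A' k)) L
theorem accK_spec {c : ℤ} {L A : SL} {k : SL → Bool} (h : accK c L A k = true) :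
    ∃ M, k M = true ∧ ∀ g, evf M g = c * evf L g + evf A g := by
  induction L generalizing A with
  | nil => exact ⟨_, h, fun g => by simp⟩
  | cons t M ih =>
    change frZ _ (fun s => cnd (isZ s) (accK c M A k) (frN t.1 fun a => insK a s A fun A' => accK c M A' k)) =
      true at h
    rw [frZ_eq, frN_eq, Int.mul_def] at h
    cases e : isZ (c * t.2) <;> rw [e] at h
    · obtain ⟨A', h1, h2⟩ := insK_spec h
      obtain ⟨B, h3, h4⟩ := ih h1
      exact ⟨_, h3, fun g => by rw [h4, h2, evf_cons]; push_cast; ring⟩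
    · obtain ⟨B, h3, h4⟩ := ih h
      have : (c : ℝ) * t.2 = 0 := by exact_mod_cast isZ_spec e
      exact ⟨_, h3, fun g => by rw [h4, evf_cons, mul_add, ← mul_assoc, this]; ring⟩
noncomputable def sumK (f : ℕ → ℕ → (SL → Bool) → Bool) (C : SL) : List ℕ → SL → (SL → Bool) → Bool :=
  List.rec (fun _ A k => k A) (fun t _ ih hs A k =>
    f t.1 (hs.headD 0) fun L => accK t.2 L A fun A' => ih hs.tail A' k) C
theorem sumK_spec {f : ℕ → ℕ → (SL → Bool) → Bool} {T : ℕ → VV → ℝ}
    (hf : ∀ a h k, f a h k = true → ∃ L, k L = true ∧ ∀ w : VV, evf L (crd w) = T a w)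
    {C : SL} {hs : List ℕ} {A : SL} {k : SL → Bool} (h : sumK f C hs A k = true) :
    ∃ M, k M = true ∧ ∀ w : VV, evf M (crd w) = evf C (T · w) + evf A (crd w) := by
  induction C generalizing hs A with
  | nil => exact ⟨_, h, fun g => by simp⟩
  | cons t M ih =>
    obtain ⟨L, h1, h2⟩ := hf _ _ _ h
    obtain ⟨A', h3, h4⟩ := accK_spec h1
    obtain ⟨B, h5, h6⟩ := ih h3
    exact ⟨_, h5, fun w => by rw [h6, h4, h2, evf_cons]; ring⟩

/-! ### planes of a sparse list -/

def bits (z o f : ℕ) : ℕ → List ℕ :=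
  Nat.rec (fun _ => [z]) (fun _ ih n => cnd (Nat.beq n 0) [z]
    (cnd (Nat.beq (Nat.land n 1) 0) z o :: ih (Nat.shiftRight n 1))) f
theorem bits_spec (z o p : ℕ) : ∀ f n, n ≤ f → bits z o f n ≠ [] ∧
    vz (bits z o f n) p = -bzi (z.testBit p) + n * (bzi (o.testBit p) - bzi (z.testBit p))
  | 0, n, h => ⟨List.cons_ne_nil _ _, by rw [Nat.le_zero.1 h]; simp [bits]⟩
  | f + 1, n, h => by
    rw [show bits z o (f + 1) n = cnd (Nat.beq n 0) [z]
      (cnd (Nat.beq (Nat.land n 1) 0) z o :: bits z o f (Nat.shiftRight n 1)) from rfl,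
      show Nat.land n 1 = n % 2 from Nat.and_one_is_mod n,
      show Nat.shiftRight n 1 = n / 2 from Nat.shiftRight_eq_div_pow n 1]
    by_cases e : n = 0
    · rw [beq_t e, e]; simp
    · obtain ⟨h1, h2⟩ := bits_spec z o p f (n / 2) (by omega)
      rw [beq_f e, cnd_false, vz_cons _ h1, h2]
      refine ⟨List.cons_ne_nil _ _, ?_⟩
      have : (n : ℤ) = 2 * (n / 2 : ℕ) + (n % 2 : ℕ) := by omega
      conv_rhs => rw [this]
      rcases Nat.mod_two_eq_zero_or_one n with a | a <;> rw [a] <;> simp [Nat.beq] <;> ring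
noncomputable def tpl (x : ℕ) (c : ℤ) : List ℕ := Int.rec (fun n => bits 0 x n n) (fun n => bits x 0 n n) c
theorem vz_tpl (x : ℕ) (c : ℤ) (p : ℕ) : vz (tpl x c) p = c * bzi (x.testBit p) := by
  cases c with
  | ofNat n => exact (bits_spec 0 x p n n le_rfl).2.trans (by simp)
  | negSucc n => exact (bits_spec x 0 p n n le_rfl).2.trans (by simp [Int.negSucc_eq]; ring)
noncomputable def pls (L : SL) : List ℕ :=
  List.rec [0] (fun t _ ih => frL (addP (frN (Nat.shiftLeft 1 t.1) fun x => tpl x t.2) ih)) L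
theorem vz_pls_cons (t : ℕ × ℤ) (L : SL) (p : ℕ) :
    vz (pls (t :: L)) p = (if p = t.1 then t.2 else 0) + vz (pls L) p := by
  rw [show pls (t :: L) = frL (addP (tpl (1 <<< t.1) t.2) (pls L)) from rfl, frL, frc_eq, vz_addP, vz_tpl,
    Nat.one_shiftLeft, Nat.testBit_two_pow]
  by_cases e : p = t.1
  · simp [e]
  · simp [e, Ne.symm e]
theorem sum_pls {N : ℕ} {g : ℕ → ℝ} (hg : ∀ p, N ≤ p → g p = 0) (L : SL) :
    ∑ p ∈ range N, (vz (pls L) p : ℝ) * g p = evf L g := by
  induction L with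
  | nil => simp [pls]
  | cons t L ih =>
    simp only [vz_pls_cons, Int.cast_add, add_mul, sum_add_distrib, ih, evf_cons]
    congr 1
    rw [sum_eq_single t.1 (fun b _ hb => by simp [hb]) fun h => by
      rw [hg _ (not_lt.1 fun a => h (mem_range.2 a)), mul_zero], if_pos rfl]

/-! ### table entries -/

def b1 (x q : ℕ) : ℕ := Nat.land (Nat.shiftRight x q) 1
theorem b1_eq (x q : ℕ) : b1 x q = (x.testBit q).toNat := by
  change (x >>> q) &&& 1 = _
  rw [Nat.and_one_is_mod, Nat.toNat_testBit, Nat.shiftRight_eq_div_pow]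
def nib (xs : List ℕ) (q : ℕ) : ℕ := List.rec 0 (fun x _ ih => Nat.add (b1 x q) (Nat.mul 2 ih)) xs
theorem nib_eq (xs : List ℕ) (q : ℕ) : nib xs q = vn xs q := by
  induction xs with
  | nil => rfl
  | cons x t ih => rw [vn_cons, ← b1_eq, ← ih]; rfl
def toZ (n : ℕ) : ℤ := cnd (Nat.ble 8 n) (Int.negSucc (Nat.sub 15 n)) (Int.ofNat n)
noncomputable def xz (q i : ℕ) : ℤ := frN (nib (XP i) q) toZ
theorem xz_eq (q : ℕ) {i : ℕ} (hi : i < 24) : xz q i = xc q i := by
  obtain ⟨a, b, c, d, h⟩ := XP_eq hi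
  rw [xz, frN_eq, nib_eq, xc, h]
  simp only [vn_cons, vn_nil, vz_cons2, vz_one]
  cases a.testBit q <;> cases b.testBit q <;> cases c.testBit q <;> cases d.testBit q <;> rfl
def vl (q : ℕ) : Bool := Nat.beq (b1 VM q) 1
theorem vl_spec {q : ℕ} (h : vl q = true) : VM.testBit q = true := by
  have := Nat.eq_of_beq_eq_true h
  rw [b1_eq] at this
  revert this; cases VM.testBit q <;> simp
def parN (x n : ℕ) : ℕ := Nat.rec 0 (fun i ih => Nat.add (b1 x i) ih) n
def sgZ (x : ℕ) : ℤ := cnd (Nat.beq (Nat.land (parN x 12) 1) 0) (Int.ofNat 1) (Int.negSucc 0)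
theorem sgZ_eq (b j : ℕ) : (sgZ (Nat.land b j) : ℝ) = sg b j := by
  have : ∀ n, ∏ k ∈ range n, (if b.testBit k && j.testBit k then -1 else 1 : ℝ) =
      (-1) ^ parN (Nat.land b j) n := fun n => by
    induction n with
    | zero => simp [parN]
    | succ n ih =>
      rw [prod_range_succ, ih, show parN (Nat.land b j) (n + 1) = b1 (Nat.land b j) n + parN (Nat.land b j) n
        from rfl, b1_eq, tb_and, pow_add]
      cases (b.testBit n && j.testBit n) <;> simp
  rw [sg, this, sgZ, show ∀ n, Nat.land n 1 = n % 2 from Nat.and_one_is_mod, neg_one_pow_eq_pow_mod_two]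
  rcases Nat.mod_two_eq_zero_or_one (parN (Nat.land b j) 12) with a | a <;> rw [a] <;> simp [Nat.beq]
noncomputable def dotZ (q r n : ℕ) : ℤ :=
  Nat.rec (Int.ofNat 0) (fun i ih => Int.add (Int.mul (xz q i) (xz r i)) ih) n
theorem dotZ_eq (q r : ℕ) : ∀ n ≤ 24, dotZ q r n = ∑ i ∈ range n, xc q i * xc r i
  | 0, _ => rfl
  | n + 1, h => by
    rw [sum_range_succ, ← dotZ_eq q r n (by omega), ← xz_eq q (i := n) (by omega),
      ← xz_eq r (i := n) (by omega)]
    exact add_comm _ _
def lsum (f : ℕ → ℕ × ℤ) (n : ℕ) : SL := Nat.rec [] (fun i ih => f i :: ih) n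
theorem evf_lsum (f : ℕ → ℕ × ℤ) (g : ℕ → ℝ) (n : ℕ) :
    evf (lsum f n) g = ∑ i ∈ range n, ((f i).2 : ℝ) * g (f i).1 := by
  induction n with
  | zero => rfl
  | succ n ih => rw [sum_range_succ, ← ih]; exact add_comm _ _
def dl (x y c : ℕ) : ℤ := cnd (Nat.beq x y) (Int.ofNat c) (Int.ofNat 0)
theorem dl_eq (x y c : ℕ) : (dl x y c : ℝ) = if x = y then (c : ℝ) else 0 := by
  unfold dl
  split_ifs with e
  · rw [beq_t e]; simp
  · rw [beq_f e]; simp

/-! ### products, scaled by 32 -/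

def aA (i j : ℕ) : ℕ := Nat.add (Nat.mul i 24) j
def aW (i j : ℕ) : ℕ := Nat.add 576 (Nat.add 98304 (Nat.add (Nat.mul i 4096) j))
def pAA (i j k l : ℕ) : SL := [(aA i l, dl j k 16), (aA l i, dl j k 16), (aA i k, dl j l 16),
  (aA k i, dl j l 16), (aA j l, dl i k 16), (aA l j, dl i k 16), (aA j k, dl i l 16), (aA k j, dl i l 16)]
theorem pAA_spec {i j k l : ℕ} (hi : i < 24) (hj : j < 24) (hk : k < 24) (hl : l < 24) (w : VV) :
    evf (pAA i j k l) (crd w) = 32 * TT (dual (i * 24 + j)) (dual (k * 24 + l)) w := by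
  have s := (good_crd w).symm
  rw [TT_AA hi hj hk hl]
  simp only [pAA, evf_cons, evf_nil, dl_eq, show ∀ a b, aA a b = a * 24 + b from fun _ _ => rfl,
    s l hl i hi, s k hk i hi, s l hl j hj, s k hk j hj]
  split_ifs <;> push_cast <;> ring
noncomputable def pAM (i j q : ℕ) : SL :=
  [(Nat.add 576 q, Int.mul (Int.ofNat 4) (Int.mul (xz q i) (xz q j)))]
theorem pAM_spec {i j q : ℕ} (hi : i < 24) (hj : j < 24) (h : VM.testBit q = true) (w : VV) :
    evf (pAM i j q) (crd w) = 32 * TT (dual (i * 24 + j)) (dual (576 + q)) w := by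
  rw [TT_AM hi hj h]
  simp only [pAM, evf_cons, evf_nil, xz_eq q hi, xz_eq q hj, Int.mul_def, Nat.add_eq, Int.ofNat_eq_natCast]
  push_cast; ring
def pAW (i j k l : ℕ) : SL := [(aW i l, dl j k 16), (aW j l, dl i k 16), (aW k l, dl i j 4)]
theorem pAW_spec {i j k l : ℕ} (hi : i < 24) (hj : j < 24) (hk : k < 24) (hl : l < 4096) (w : VV) :
    evf (pAW i j k l) (crd w) = 32 * TT (dual (i * 24 + j)) (dual (576 + (98304 + (k * 4096 + l)))) w := by
  rw [TT_AW hi hj hk hl]
  simp only [pAW, evf_cons, evf_nil, dl_eq,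
    show ∀ a b, aW a b = 576 + (98304 + (a * 4096 + b)) from fun _ _ => rfl]
  split_ifs <;> push_cast <;> ring
noncomputable def pMW (q k l : ℕ) : SL :=
  frN (nib CPL q) fun c => frN (Nat.xor l (Nat.mod c 4096)) fun l' =>
    frZ (sgZ (Nat.land (Nat.div c 4096) l)) fun s => frZ (xz q k) fun x =>
    lsum (fun i => (aW i l', Int.mul s (Int.sub (dl i k 4) (Int.mul (xz q i) x)))) 24
theorem pMW_spec {q k l : ℕ} (h : VM.testBit q = true) (hk : k < 24) (hl : l < 4096) (w : VV) :
    evf (pMW q k l) (crd w) = 32 * TT (dual (576 + q)) (dual (576 + (98304 + (k * 4096 + l)))) w := by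
  rw [TT_MW h hk hl]
  simp only [pMW, frN_eq, frZ_eq, evf_lsum, mul_sum]
  refine sum_congr rfl fun i hi => ?_
  rw [xz_eq q (mem_range.1 hi), xz_eq q hk, nib_eq, Int.mul_def, Int.mul_def,
    show ∀ a b, Int.sub a b = a - b from fun _ _ => rfl, Int.cast_mul, sgZ_eq, Int.cast_sub, dl_eq]
  change sg (cp q / 4096) l * _ * crd w (576 + (98304 + (i * 4096 + (l ^^^ cp q % 4096)))) = _
  split_ifs <;> push_cast <;> ring
noncomputable def pS (q : ℕ) : SL :=
  lsum (fun p => frN (Nat.div p 24) fun i => frN (Nat.mod p 24) fun j =>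
    (p, Int.mul (Int.ofNat 4) (Int.mul (xz q i) (xz q j)))) 576
theorem pS_spec {q : ℕ} (h : VM.testBit q = true) (w : VV) :
    evf (pS q) (crd w) = 32 * TT (dual (576 + q)) (dual (576 + q)) w := by
  rw [TT_MM_same h, pS, evf_lsum, show 576 = 24 * 24 from rfl, Cr.sum_mul, sum_div, mul_sum]
  refine sum_congr rfl fun i hi => ?_
  rw [sum_div, mul_sum]
  refine sum_congr rfl fun j hj => ?_
  have hi := mem_range.1 hi
  have hj := mem_range.1 hj
  simp only [frN_eq]
  rw [show Nat.div (i * 24 + j) 24 = i from (by omega : (i * 24 + j) / 24 = i),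
    show Nat.mod (i * 24 + j) 24 = j from (by omega : (i * 24 + j) % 24 = j), xz_eq q hi, xz_eq q hj,
    Int.mul_def, Int.mul_def, Int.ofNat_eq_natCast]
  push_cast; ring
noncomputable def pMM (q r h : ℕ) (k : SL → Bool) : Bool :=
  cnd (Nat.beq q r) (k (pS q)) (cnd (Nat.beq h 0)
    (cnd (Nat.beq (Int.natAbs (dotZ q r 24)) 16) false (k []))
    (frN (Nat.pred h) fun t => frN (nib CPL q) fun c => frN (nib CPL r) fun d =>
      cnd (and (vl t) (Nat.beq (Nat.xor c d) (nib CPL t)))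
        (k [(Nat.add 576 t, Int.mul (Int.ofNat 32) (sgZ (Nat.land (Nat.div c 4096) (Nat.mod d 4096))))])
        false))
theorem pMM_spec {q r h : ℕ} {k : SL → Bool} (hq : VM.testBit q = true) (hr : VM.testBit r = true)
    (e : pMM q r h k = true) :
    ∃ L, k L = true ∧ ∀ w : VV, evf L (crd w) = 32 * TT (dual (576 + q)) (dual (576 + r)) w := by
  unfold pMM at e
  by_cases a : q = r
  · rw [beq_t a, cnd_true] at e
    exact ⟨_, e, fun w => a ▸ pS_spec hq w⟩
  rw [beq_f a, cnd_false] at e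
  cases b : Nat.beq h 0 <;> rw [b] at e
  · simp only [cnd_false, frN_eq, cnd_false_iff, Bool.and_eq_true, nib_eq] at e
    refine ⟨_, e.2, fun w => ?_⟩
    rw [TT_MM_short hq hr (vl_spec e.1.1) (Nat.eq_of_beq_eq_true e.1.2), evf_cons, evf_nil, Int.mul_def,
      Int.cast_mul, sgZ_eq]
    change (32 : ℤ) * sg (cp q / 4096) (cp r % 4096) * crd w (576 + _) + 0 = _
    push_cast; ring
  · rw [cnd_true, dotZ_eq q r 24 le_rfl] at e
    by_cases c : Int.natAbs (∑ i ∈ range 24, xc q i * xc r i) = 16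
    · rw [beq_t c] at e; exact absurd e Bool.false_ne_true
    rw [beq_f c] at e
    refine ⟨_, e, fun w => ?_⟩
    rw [TT_MM_zero hq hr a fun d => c ?_, evf_nil, mul_zero]
    rw [show (256 : ℤ) = 16 ^ 2 from rfl, sq_eq_sq_iff_eq_or_eq_neg] at d
    omega

noncomputable def prod1 (a b h : ℕ) (k : SL → Bool) : Bool :=
  cnd (Nat.ble 576 a)
    (frN (Nat.sub a 576) fun q => cnd (vl q) (cnd (Nat.ble 98880 b)
      (frN (Nat.sub b 98880) fun u => cnd (Nat.ble u 98303) (frN (Nat.div u 4096) fun i =>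
        k (pMW q i (Nat.mod u 4096))) false)
      (frN (Nat.sub b 576) fun r => cnd (vl r) (pMM q r h k) false)) false)
    (frN (Nat.div a 24) fun i => frN (Nat.mod a 24) fun j => cnd (Nat.ble 576 b)
      (cnd (Nat.ble 98880 b)
        (frN (Nat.sub b 98880) fun u => cnd (Nat.ble u 98303) (k (pAW i j (Nat.div u 4096) (Nat.mod u 4096))) false)
        (frN (Nat.sub b 576) fun r => cnd (vl r) (k (pAM i j r)) false))
      (k (pAA i j (Nat.div b 24) (Nat.mod b 24))))
theorem ble_t {a b : ℕ} (h : a ≤ b) : Nat.ble a b = true := Nat.ble_eq_true_of_le h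
theorem frN_e {α : Type} (n : ℕ) (k : ℕ → α) : frN n k = k n := (frN_eq n k).trans rfl
theorem sub_e (x y : ℕ) : Nat.sub x y = x - y := Eq.trans rfl rfl
theorem div_e (x y : ℕ) : Nat.div x y = x / y := Eq.trans rfl rfl
theorem mod_e (x y : ℕ) : Nat.mod x y = x % y := Eq.trans rfl rfl
theorem prod1_spec {a b h : ℕ} {k : SL → Bool} (hab : a ≤ b) (e : prod1 a b h k = true) :
    ∃ L, k L = true ∧ ∀ w : VV, evf L (crd w) = 32 * TT (dual a) (dual b) w := by
  unfold prod1 at e
  simp only [frN_e, sub_e, div_e, mod_e] at e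
  have eW : 98880 ≤ b → b = 576 + (98304 + ((b - 98880) / 4096 * 4096 + (b - 98880) % 4096)) := by omega
  have eM : 576 ≤ b → b = 576 + (b - 576) := by omega
  by_cases h1 : 576 ≤ a
  · rw [ble_t h1, cnd_true, cnd_false_iff] at e
    obtain ⟨v, e⟩ := e
    have ea : a = 576 + (a - 576) := by omega
    by_cases h2 : 98880 ≤ b
    · rw [ble_t h2, cnd_true, cnd_false_iff, Nat.ble_eq] at e
      exact ⟨_, e.2, fun w => by
        rw [pMW_spec (vl_spec v) (by omega) (by omega), ← ea, ← eW h2]⟩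
    · rw [ble_f h2, cnd_false, cnd_false_iff] at e
      have := pMM_spec (vl_spec v) (vl_spec e.1) e.2
      rwa [← ea, ← eM (by omega)] at this
  · rw [ble_f h1, cnd_false] at e
    have ea : a = a / 24 * 24 + a % 24 := by omega
    by_cases h3 : 576 ≤ b
    · rw [ble_t h3, cnd_true] at e
      by_cases h2 : 98880 ≤ b
      · rw [ble_t h2, cnd_true, cnd_false_iff, Nat.ble_eq] at e
        exact ⟨_, e.2, fun w => by
          rw [pAW_spec (by omega) (by omega) (by omega) (by omega), ← ea, ← eW h2]⟩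
      · rw [ble_f h2, cnd_false, cnd_false_iff] at e
        exact ⟨_, e.2, fun w => by rw [pAM_spec (by omega) (by omega) (vl_spec e.1), ← ea, ← eM h3]⟩
    · rw [ble_f h3, cnd_false] at e
      exact ⟨_, e, fun w => by
        rw [pAA_spec (by omega) (by omega) (by omega) (by omega), ← ea,
          show b / 24 * 24 + b % 24 = b by omega]⟩
noncomputable def prodK (b a h : ℕ) (k : SL → Bool) : Bool :=
  cnd (Nat.ble a b) (prod1 a b h k) (prod1 b a h k)
theorem prodK_spec (b a h : ℕ) (k : SL → Bool) (e : prodK b a h k = true) :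
    ∃ L, k L = true ∧ ∀ w : VV, evf L (crd w) = 32 * TT (dual a) (dual b) w := by
  unfold prodK at e
  by_cases h1 : a ≤ b
  · rw [ble_t h1] at e; exact prod1_spec h1 e
  · rw [ble_f h1] at e
    obtain ⟨L, h2, h3⟩ := prod1_spec (by omega) e
    exact ⟨L, h2, fun w => by rw [h3, TT_swap12]⟩

/-! ### images of basis vectors -/

theorem dual_out {p : ℕ} (hp : 197184 ≤ p) : dual p = 0 :=
  ext_ip fun w => by
    rw [ip_dual, crd_out _ hp, show ((0 : VV) : Amb) = (0 : ℝ) • (0 : Amb) by simp, ip_smul, zero_mul]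
theorem TT_zero (v w : Amb) : TT (0 : VV) v w = 0 := by
  rw [show ((0 : VV) : Amb) = (0 : ℝ) • (0 : Amb) by simp, TT_smul, zero_mul]
theorem TT_sum (S : Finset ℕ) (c : ℕ → ℝ) (u : ℕ → VV) (v w : Amb) :
    TT (∑ p ∈ S, c p • u p : VV) v w = ∑ p ∈ S, c p * TT (u p) v w := by
  induction S using Finset.cons_induction with
  | empty => exact TT_zero v w
  | cons a S h ih => rw [sum_cons, sum_cons, Submodule.coe_add, TT_add, ih, Submodule.coe_smul, TT_smul]
theorem TT_crd (u : VV) (v w : Amb) : TT u v w = ∑ p ∈ range 197184, crd u p * TT (dual p) v w := by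
  rw [← TT_sum, ← eq_sum_dual]
theorem TT_pls {u : VV} {C : SL} (h : ∀ x, 16 * crd u x = vz (pls C) x) (v w : Amb) :
    evf C (fun a => 32 * TT (dual a) v w) = 512 * TT u v w := by
  rw [← sum_pls (N := 197184) fun p hp => by rw [dual_out hp, TT_zero, mul_zero], TT_crd, mul_sum]
  exact sum_congr rfl fun p _ => by rw [← h]; ring

def tr (p : ℕ) : ℕ := cnd (Nat.ble 576 p) p (aA (Nat.mod p 24) (Nat.div p 24))
def okA (p : ℕ) : Bool :=
  cnd (Nat.ble 576 p) (cnd (Nat.ble 98880 p) (Nat.ble p 197183) (vl (Nat.sub p 576))) true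
noncomputable def U (p : ℕ) : List ℕ := pls [(p, Int.ofNat 1), (tr p, Int.ofNat 1)]
theorem crd_dual {p : ℕ} (h : okA p = true) (x : ℕ) : 2 * crd (dual p) x = vz (U p) x := by
  have e : ∀ y, (vz (U p) y : ℝ) = (if y = p then 1 else 0) + if y = tr p then 1 else 0 := fun y => by
    rw [U, vz_pls_cons, vz_pls_cons]
    simp only [pls, vz_one, Nat.zero_testBit, bzi_false]
    split_ifs <;> norm_num
  have t1 : 576 ≤ p → tr p = p := fun a => by rw [tr, ble_t a]; rfl
  have t2 : ¬ 576 ≤ p → tr p = p % 24 * 24 + p / 24 := fun a => by rw [tr, ble_f a]; rfl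
  have hv : ∀ q < 98304, VM.testBit q = false → 576 + q ≠ p := fun q hq hv a => by
    rw [okA, ble_t (by omega), cnd_true, ble_f (by omega), cnd_false, ← a, Nat.sub_eq,
      Nat.add_sub_cancel_left] at h
    exact Bool.false_ne_true (hv.symm.trans (vl_spec h))
  have ho : p < 197184 := by
    by_contra a
    rw [okA, ble_t (by omega), cnd_true, ble_t (by omega), cnd_true, Nat.ble_eq] at h
    omega
  have g : Good fun y => (vz (U p) y : ℝ) := by
    refine ⟨fun i hi j hj => ?_, fun q hq a => ?_, fun y hy => ?_⟩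
    · rw [e, e]
      by_cases a : 576 ≤ p
      · rw [t1 a, if_neg (by omega), if_neg (by omega)]
      · rw [t2 a, add_comm]
        exact congrArg₂ (· + ·) (if_congr (by omega) rfl rfl) (if_congr (by omega) rfl rfl)
    · have := hv q hq a
      rw [e, if_neg this, if_neg, add_zero]
      by_cases a : 576 ≤ p
      · rwa [t1 a]
      · rw [t2 a]; omega
    · rw [e, if_neg (by omega), if_neg, add_zero]
      by_cases a : 576 ≤ p
      · rw [t1 a]; omega
      · rw [t2 a]; omega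
  have d : dual (tr p) = dual p := ext_ip fun w => by
    rw [ip_dual, ip_dual]
    by_cases a : 576 ≤ p
    · rw [t1 a]
    · rw [t2 a, (good_crd w).symm _ (by omega) _ (by omega), show p / 24 * 24 + p % 24 = p by omega]
  have f : (fun y => (vz (U p) y : ℝ)) = Pi.single p 1 + Pi.single (tr p) 1 := funext fun y => by
    rw [e, Pi.add_apply, Pi.single_apply, Pi.single_apply]
  rw [← congrFun (crd_inc g) x, f, map_add, Submodule.coe_add, crd_add, two_mul]
  exact congrArg (crd (dual p) x + crd · x) (congrArg Subtype.val d.symm)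

noncomputable def chkT (P : Prog) (p : ℕ) (C : SL) : Bool :=
  and (okA p) (eqL (trimP (runF P (U p))) (trimP (pls C)))
theorem chkT_spec {g : GG} {P : Prog} (hg : Impl g P 3) {p : ℕ} {C : SL} (h : chkT P p C = true) (x : ℕ) :
    16 * crd (g • dual p : VV) x = vz (pls C) x := by
  rw [chkT, Bool.and_eq_true] at h
  have := congrArg (fun l => (vz l x : ℝ)) (eqL_spec h.2)
  simp only [vz_trimP, runF_eq, vz_run hg.1, ← crd_dual h.1] at this
  rw [← this, sem_smul, hg.2]; ring

/-- second basis vector, sixteen times its preimage, positions of the products -/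
structure PC where
  q : ℕ
  d : SL
  h1 : List ℕ
  h2 : List ℕ
noncomputable def pairOK (P R : Prog) (p : ℕ) (C : SL) (c : PC) : Bool :=
  cnd (chkT R c.q c.d) (sumK (prodK c.q) C c.h1 [] fun L1 => sumK (prodK p) c.d c.h2 [] fun L2 =>
    eqL (trimP (runF P (pls L2))) (trimP (0 :: 0 :: 0 :: pls L1))) false

def Z (g : GG) (u v : VV) : Prop := ∀ w : VV, TT (g • u : VV) v w = TT u (g⁻¹ • v : VV) (g⁻¹ • w : VV)

theorem pairOK_spec {g : GG} {P : Prog} (hg : Impl g P 3) (hg' : Impl g⁻¹ P.reverse 3) {p : ℕ} {C : SL}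
    (hC : chkT P p C = true) {c : PC} (h : pairOK P P.reverse p C c = true) : Z g (dual p) (dual c.q) := by
  intro w
  rw [pairOK, cnd_false_iff] at h
  obtain ⟨L1, h1, h2⟩ := sumK_spec (prodK_spec c.q) h.2
  obtain ⟨L2, h3, h4⟩ := sumK_spec (prodK_spec p) h1
  have a1 := h2 w
  have a2 := h4 (g⁻¹ • w)
  rw [TT_pls (chkT_spec hg hC), evf_nil, add_zero, ← sum_pls (good_crd w).out] at a1
  rw [TT_pls (chkT_spec hg' h.1), evf_nil, add_zero, ← sum_pls (good_crd _).out, TT_swap12] at a2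
  have a3 := sem_adj hg.1 (fun x => (vz (pls L2) x : ℝ)) (crd w)
  have a4 : ∀ x, sem P (fun x => (vz (pls L2) x : ℝ)) x = 8 * vz (pls L1) x := fun x => by
    have := congrArg (fun l => (vz l x : ℝ)) (eqL_spec h3)
    simp only [vz_trimP, runF_eq, vz_run hg.1, vz_zero_cons] at this
    rw [this]; push_cast; ring
  simp only [a4, hg'.2, mul_assoc, mul_left_comm _ ((2 : ℝ) ^ 3), ← mul_sum] at a3
  rw [a1, a2] at a3
  linarith

end Cfsg.Agent.Mo.Iv
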