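import Cfsg.Agent.Mo.Inv1
import Cfsg.Agent.Mo.Tau

/-! Transport of checked pairs along the normaliser of the four-group; reduction to two coverings. -/

set_option autoImplicit false

namespace Cfsg.Agent.Mo.Iv

open H4 H5 H5.Lee Finset Cr

theorem TT_smul2 (a : ℝ) (u v w : VV) : TT u (a • v : VV) w = a * TT u v w := by
  rw [TT_swap12, Submodule.coe_smul, TT_smul, TT_swap12]
theorem Z.smul {g : GG} {u v : VV} (h : Z g u v) (a b : ℝ) : Z g (a • u) (b • v) := fun w => by
  rw [GG_smul, GG_smul, TT_smul2, TT_smul2, Submodule.coe_smul, Submodule.coe_smul, TT_smul, TT_smul, h w]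
theorem Z.conj {g n n' : GG} (hn : n ∈ Aut) (hn' : n' ∈ Aut) (e : g * n = n' * g) {u v : VV}
    (h : Z g u v) : Z g (n • u) (n' • v) := fun w => by
  have e1 : g⁻¹ * n' = n * g⁻¹ := by rw [inv_mul_eq_iff_eq_mul, ← mul_assoc, e, mul_inv_cancel_right]
  have e2 : g⁻¹ = n * (g⁻¹ * n'⁻¹) := by rw [← mul_assoc, ← e1, mul_inv_cancel_right]
  rw [← mul_smul, e, mul_smul, ← smul_inv_smul n' w, hn'.2, h, ← hn.2, ← mul_smul n, ← e1, mul_smul,
    ← mul_smul g⁻¹ n'⁻¹, ← mul_smul n, ← e2, smul_inv_smul]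
theorem dual_src {n : GG} (hn : n ∈ Aut) {P : Prog} (h : Impl n P 0) (hm : mono P = true) (p : ℕ) :
    n • dual (src P p) = sgn (sb P p) • dual p := ext_ip fun w => by
  have := h.2 (n⁻¹ • w) p
  rw [smul_inv_smul, sem_mono hm, pow_zero, one_mul, ← ip_dual, ← hn.1, smul_inv_smul] at this
  rw [Submodule.coe_smul, ip_smul, ip_dual, ← this, ← mul_assoc]
  cases sb P p <;> simp [sgn]

def Inv (x S : ℕ) : Prop := ∀ p q, x.testBit p = true → S.testBit q = true → Z tau (dual p) (dual q)

def al (j : ℕ) : ℕ × List ℕ := AL.getD j (0, [25])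
theorem al_mem (j : ℕ) : al j ∈ AL := by
  rw [al, List.getD_eq_getElem?_getD]
  cases h : AL[j]? with
  | none => exact List.mem_cons_self
  | some a => exact List.mem_of_getElem? h
noncomputable def alOK (a : ℕ × List ℕ) : Bool := and (and (Nat.ble a.1 68) (okW a.2))
  (and (and (mono (gt a.1).P) (mono (wP a.2))) (and (Nat.beq (gt a.1).e 0) (Nat.beq (wE a.2) 0)))
theorem al_chk : AL.all alOK = true := by decide +kernel
theorem al_spec {a : ℕ × List ℕ} (ha : a ∈ AL) : Impl (rho (hT a.1)) (gt a.1).P 0 ∧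
    Impl (rho (wd a.2)) (wP a.2) 0 ∧ mono (gt a.1).P = true ∧ mono (wP a.2) = true := by
  have h := List.all_eq_true.1 al_chk a ha
  simp only [alOK, Bool.and_eq_true, Nat.ble_eq, Nat.beq_eq] at h
  exact ⟨h.2.2.1 ▸ hT_impl (by omega), h.2.2.2 ▸ impl_wd h.1.2, h.2.1.1, h.2.1.2⟩
theorem Inv.step {x S : ℕ} (h : Inv x S) (j : ℕ) :
    Inv (runB (gt (al j).1).P x) (runB (wP (al j).2) S) := fun p q hp hq => by
  obtain ⟨i1, i2, m1, m2⟩ := al_spec (al_mem j)
  rw [tb_runB i1.1] at hp
  rw [tb_runB i2.1] at hq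
  have := ((h _ _ hp hq).conj (rho_mem_Aut _) (rho_mem_Aut _) (tau_conj _ (al_mem j))).smul
    (sgn (sb (gt (al j).1).P p)) (sgn (sb (wP (al j).2) q))
  rwa [dual_src (rho_mem_Aut _) i1 m1, dual_src (rho_mem_Aut _) i2 m2, smul_smul, smul_smul, sgn_mul_self,
    sgn_mul_self, one_smul, one_smul] at this
noncomputable def runW (w : List ℕ) : ℕ → ℕ → (ℕ → ℕ → Bool) → Bool :=
  List.rec (fun x S k => k x S) (fun j _ ih x S k => frN (runB (gt (al j).1).P x) fun x' =>
    frN (runB (wP (al j).2) S) fun S' => ih x' S' k) w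
theorem runW_spec {w : List ℕ} {x S : ℕ} {k : ℕ → ℕ → Bool} (h : Inv x S) (e : runW w x S k = true) :
    ∃ x' S', Inv x' S' ∧ k x' S' = true := by
  induction w generalizing x S with
  | nil => exact ⟨_, _, h, e⟩
  | cons j w ih => exact ih (h.step j) e
noncomputable def cov (W : List (List ℕ)) : ℕ → ℕ → (ℕ → ℕ → Bool) → Bool :=
  List.rec (fun x S k => k x S) (fun w _ ih x S k => runW w x S fun x' S' =>
    cnd (Nat.beq x' x) (frN (Nat.lor S S') fun T => ih x T k)
      (cnd (Nat.beq S' S) (frN (Nat.lor x x') fun y => ih y S k) false)) W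
theorem cov_spec {W : List (List ℕ)} {x S : ℕ} {k : ℕ → ℕ → Bool} (h : Inv x S) (e : cov W x S k = true) :
    ∃ x' S', Inv x' S' ∧ k x' S' = true := by
  induction W generalizing x S with
  | nil => exact ⟨_, _, h, e⟩
  | cons w W ih =>
    obtain ⟨x', S', h', e'⟩ := runW_spec h e
    cases a : Nat.beq x' x <;> rw [a] at e'
    · rw [cnd_false, cnd_false_iff, frN_e] at e'
      rw [Nat.eq_of_beq_eq_true e'.1] at h'
      refine ih (fun p q hp hq => ?_) e'.2
      rw [tb_or, Bool.or_eq_true] at hp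
      exact hp.elim (h p q · hq) (h' p q · hq)
    · rw [cnd_true, frN_e] at e'
      rw [Nat.eq_of_beq_eq_true a] at h'
      refine ih (fun p q hp hq => ?_) e'
      rw [tb_or, Bool.or_eq_true] at hq
      exact hq.elim (h p q hp) (h' p q hp)
def sub (a b : ℕ) : Bool := Nat.beq (Nat.land a b) a
theorem sub_spec {a b p : ℕ} (h : sub a b = true) (hp : a.testBit p = true) : b.testBit p = true := by
  have := congrArg (·.testBit p) (Nat.eq_of_beq_eq_true h)
  simpa [hp] using this
theorem cov_sub {W : List (List ℕ)} {x S y T : ℕ} (h : Inv x S)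
    (e : cov W x S (fun x' S' => and (sub y x') (sub T S')) = true) : Inv y T := by
  obtain ⟨x', S', h', e'⟩ := cov_spec h e
  rw [Bool.and_eq_true] at e'
  exact fun p q hp hq => h' p q (sub_spec e'.1 hp) (sub_spec e'.2 hq)
theorem Inv.or {x y S : ℕ} (h : Inv x S) (h' : Inv y S) : Inv (Nat.lor x y) S := fun p q hp hq => by
  rw [tb_or, Bool.or_eq_true] at hp
  exact hp.elim (h p q · hq) (h' p q · hq)

/-- the holes -/
def HO : ℕ := Nat.shiftLeft (Nat.xor (ones 98304) (Nat.land VM (ones 98304))) 576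
theorem tb_HO (m n k p : ℕ) (h : (Nat.shiftLeft (Nat.xor (ones n) (Nat.land m (ones n))) k).testBit p = true) :
    k ≤ p ∧ p - k < n ∧ m.testBit (p - k) = false := by
  simp only [tb_shl, tb_xor, tb_and, tb_ones, Bool.and_eq_true, decide_eq_true_eq] at h
  by_cases a : p - k < n
  · exact ⟨h.1, a, by simpa [a] using h.2⟩
  · simp [a] at h
theorem dual_HO {p : ℕ} (h : HO.testBit p = true) : dual p = 0 := by
  obtain ⟨h1, h2, h3⟩ := tb_HO VM 98304 576 p h
  rw [show p = 576 + (p - 576) by omega]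
  exact dual_hole h2 h3
theorem Z_zero (u : VV) : Z tau u 0 := fun w => by
  rw [← zero_smul ℝ u, GG_smul, TT_smul2, TT_smul2, zero_mul, zero_mul]
def bt1 (p : ℕ) : ℕ := Nat.shiftLeft 1 p
theorem bt1_spec {p q : ℕ} (h : (bt1 p).testBit q = true) : q = p := by
  rw [show bt1 p = 1 <<< p from rfl, Nat.one_shiftLeft, Nat.testBit_two_pow] at h
  exact (of_decide_eq_true h).symm
def seeds (L : List PC) : ℕ := List.rec HO (fun c _ ih => Nat.lor (bt1 c.q) ih) L
noncomputable def pairs (p : ℕ) (C : SL) (L : List PC) : Bool :=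
  List.rec (chkT TP p C) (fun c _ ih => cnd (pairOK TP TP.reverse p C c) ih false) L
theorem pairs_spec {p : ℕ} {C : SL} {L : List PC} (h : pairs p C L = true) :
    chkT TP p C = true ∧ Inv (bt1 p) (seeds L) := by
  induction L with
  | nil => exact ⟨h, fun _ q _ hq => by rw [dual_HO hq]; exact Z_zero _⟩
  | cons c L ih =>
    obtain ⟨h1, h2⟩ := cnd_false_iff.1 h
    refine ⟨(ih h2).1, fun p' q hp hq => ?_⟩
    rcases Bool.or_eq_true_iff.1 ((tb_or _ _ _).symm.trans hq) with a | a
    · rw [bt1_spec hp, bt1_spec a]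
      exact pairOK_spec tau_impl tau_impl' (ih h2).1 h1
    · exact (ih h2).2 p' q hp a
theorem Inv.or' {x S T : ℕ} (h : Inv x S) (h' : Inv x T) : Inv x (Nat.lor S T) := fun p q hp hq => by
  rw [tb_or, Bool.or_eq_true] at hq
  exact hq.elim (h p q hp) (h' p q hp)

/-! ### the four-group -/

noncomputable def MZ : ℕ := runT (gt 24).P 0
noncomputable def MO : ℕ := runT (gt 23).P 0
noncomputable def NH : ℕ := Nat.xor (ones 197184) HO
/-- trivial character -/
noncomputable def M1 : ℕ := Nat.xor NH (Nat.land NH (Nat.lor MZ MO))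
/-- the positions of type `X` -/
noncomputable def MX : ℕ := Nat.land NH (Nat.xor MO (Nat.land MO MZ))
theorem neg_chk : (gt 24).P.all (fun a => Nat.beq a.k 2) = true ∧
    (gt 23).P.all (fun a => Nat.beq a.k 2) = true := by decide +kernel
theorem src_neg {P : Prog} (h : P.all (fun a => Nat.beq a.k 2) = true) (p : ℕ) : src P p = p := by
  induction P with
  | nil => rfl
  | cons a P ih =>
    rw [List.all_cons, Bool.and_eq_true, Nat.beq_eq] at h
    rw [src, ih h.2, srcS, if_neg (by omega)]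
noncomputable abbrev om : GG := rho (hT 23)
noncomputable abbrev ze : GG := rho (hT 24)
theorem ze_dual (p : ℕ) : ze • dual p = sgn (MZ.testBit p) • dual p := by
  obtain ⟨i1, -, m1, -⟩ := al_spec (a := (24, [23])) (by decide)
  rw [MZ, tb_runT i1.1, Nat.zero_testBit, Bool.false_xor, ← dual_src (rho_mem_Aut _) i1 m1, src_neg neg_chk.1]
theorem om_dual (p : ℕ) : om • dual p = sgn (MO.testBit p) • dual p := by
  obtain ⟨i1, -, m1, -⟩ := al_spec (a := (23, [23, 24])) (by decide)
  rw [MO, tb_runT i1.1, Nat.zero_testBit, Bool.false_xor, ← dual_src (rho_mem_Aut _) i1 m1, src_neg neg_chk.2]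
theorem tau_ze : tau * ze = om * tau := by
  simpa [wd] using tau_conj (24, [23]) (by decide)
theorem tau_om : tau * om = ze * om * tau := by
  simpa [wd] using tau_conj (23, [23, 24]) (by decide)

noncomputable def D (u v w : VV) : ℝ := TT (tau • u : VV) (tau • v : VV) (tau • w : VV) - TT u v w
theorem D_12 (u v w : VV) : D u v w = D v u w := by rw [D, D, TT_swap12, TT_swap12 u]
theorem D_23 (u v w : VV) : D u v w = D u w v := by rw [D, D, TT_swap23, TT_swap23 u]
theorem D_smul (a : ℝ) (u v w : VV) : D (a • u) v w = a * D u v w := by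
  rw [D, D, GG_smul, Submodule.coe_smul, Submodule.coe_smul, TT_smul, TT_smul, mul_sub]
theorem D_inv {n n' : GG} (hn : n ∈ Aut) (hn' : n' ∈ Aut) (e : tau * n = n' * tau) (u v w : VV) :
    D (n • u) (n • v) (n • w) = D u v w := by
  simp only [D, ← mul_smul, e]
  simp only [mul_smul]
  rw [hn.2, hn'.2]
theorem D_eig {n n' : GG} (hn : n ∈ Aut) (hn' : n' ∈ Aut) (e : tau * n = n' * tau) {u v w : VV}
    {a b c : Bool} (hu : n • u = sgn a • u) (hv : n • v = sgn b • v) (hw : n • w = sgn c • w)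
    (h : (a ^^ b ^^ c) = true) : D u v w = 0 := by
  have := D_inv hn hn' e u v w
  rw [hu, hv, hw, D_smul, D_12, D_smul, D_12, D_23, D_12, D_smul, D_12, D_23, ← mul_assoc, ← mul_assoc,
    ← sgn_xor, ← sgn_xor, h, sgn_true] at this
  linarith
theorem D_ext {v w : VV} (h : ∀ p < 197184, D (dual p) v w = 0) (u : VV) : D u v w = 0 := by
  have e : tau • u = ∑ p ∈ range 197184, crd u p • tau • dual p := by
    conv_lhs => rw [eq_sum_dual u, smul_sum]
    exact sum_congr rfl fun p _ => GG_smul _ _ _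
  rw [D, e, TT_sum, TT_crd u, ← sum_sub_distrib]
  exact sum_eq_zero fun p hp => by rw [← mul_sub, ← D, h p (mem_range.1 hp), mul_zero]
theorem D_of_Z {u v : VV} (h : ∀ q < 197184, crd (tau • v : VV) q = 0 ∨ Z tau u (dual q)) (w : VV) :
    D u v w = 0 := by
  have e : v = ∑ p ∈ range 197184, crd (tau • v : VV) p • tau⁻¹ • dual p := by
    conv_lhs => rw [← inv_smul_smul tau v, eq_sum_dual (tau • v), smul_sum]
    exact sum_congr rfl fun p _ => GG_smul _ _ _
  rw [D, TT_swap12, TT_crd, TT_swap12 u]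
  nth_rewrite 2 [e]
  rw [TT_sum, ← sum_sub_distrib]
  refine sum_eq_zero fun p hp => (h p (mem_range.1 hp)).elim (fun a => by rw [a]; ring) fun a => ?_
  rw [TT_swap12, a, inv_smul_smul, TT_swap12 u, sub_self]
theorem crd_eig {n : GG} (hn : n ∈ Aut) {v : VV} {q : ℕ} {a : Bool} (hq : n • dual q = sgn a • dual q)
    (hv : n • v = sgn (!a) • v) : crd v q = 0 := by
  have := hn.1 (dual q) v
  rw [hq, hv, Submodule.coe_smul, ip_smul, ip_comm, Submodule.coe_smul, ip_smul, ip_comm, ip_dual, sgn_not,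
    ← mul_assoc, mul_neg, sgn_mul_self] at this
  linarith

theorem final (h1 : Inv M1 (ones 197184)) (h2 : Inv MX MX) : tau ∈ Aut := by
  have A := @rho_mem_Aut
  have nh : ∀ p < 197184, dual p = 0 ∨ NH.testBit p = true := fun p hp => by
    cases a : HO.testBit p
    · exact Or.inr (by simp [NH, a, hp])
    · exact Or.inl (dual_HO a)
  have z0 : ∀ v w, D 0 v w = 0 := fun v w => by rw [← zero_smul ℝ 0, D_smul, zero_mul]
  have k1 : ∀ p < 197184, MZ.testBit p = false → MO.testBit p = false → ∀ v w, D (dual p) v w = 0 :=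
    fun p hp a b v w => (nh p hp).elim (fun c => c ▸ z0 v w) fun c =>
      D_of_Z (fun q hq => Or.inr (h1 p q (by simp [M1, a, b, c]) (by simp [hq]))) w
  have k2 : ∀ p < 197184, MZ.testBit p = false → MO.testBit p = true → ∀ r, MZ.testBit r = true →
      MO.testBit r = true → ∀ w, D (dual p) (dual r) w = 0 := fun p hp a b r a' b' w => by
    refine (nh p hp).elim (fun c => c ▸ z0 _ w) fun c => D_of_Z (fun q hq => ?_) w
    have e1 : om • tau • dual r = sgn true • tau • dual r := by
      rw [← mul_smul, ← tau_ze, mul_smul, ze_dual, a', GG_smul]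
    have e2 : ze • tau • dual r = sgn false • tau • dual r := by
      have : ze • om • tau • dual r = sgn true • tau • dual r := by
        rw [← mul_smul, ← mul_smul, ← tau_om, mul_smul, om_dual, b', GG_smul]
      rw [e1, GG_smul] at this
      rw [smul_right_injective _ (by simp [sgn] : sgn true ≠ 0) this, sgn_false, one_smul]
    cases a2 : MZ.testBit q
    · cases b2 : MO.testBit q
      · exact Or.inl (crd_eig (A _) (om_dual q) (by rw [b2]; exact e1))
      · refine (nh q hq).elim (fun d => Or.inr (d ▸ Z_zero _)) fun d => Or.inr (h2 p q ?_ ?_)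
        · simp [MX, a, b, c]
        · simp [MX, a2, b2, d]
    · exact Or.inl (crd_eig (A _) (ze_dual q) (by rw [a2]; exact e2))
  have k : ∀ p < 197184, ∀ q < 197184, ∀ r < 197184, D (dual p) (dual q) (dual r) = 0 := by
    intro p hp q hq r hr
    have s1 := D_eig (A _) (A _) tau_ze (ze_dual p) (ze_dual q) (ze_dual r)
    have s2 := D_eig (A _) (mul_mem (A _) (A _)) tau_om (om_dual p) (om_dual q) (om_dual r)
    have t1 := (k1 p hp · · (dual q) (dual r))
    have t2 := fun a b => (D_12 _ _ _).trans (k1 q hq a b (dual p) (dual r))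
    have t3 := fun a b => (D_23 _ _ _).trans ((D_12 _ _ _).trans (k1 r hr a b (dual p) (dual q)))
    have u1 := (k2 p hp · · q · · (dual r))
    have u2 := fun a b c d => (D_23 _ _ _).trans (k2 p hp a b r c d (dual q))
    have u3 := fun a b c d => (D_12 _ _ _).trans (k2 q hq a b p c d (dual r))
    have u4 := fun a b c d => (D_12 _ _ _).trans ((D_23 _ _ _).trans (k2 q hq a b r c d (dual p)))
    have u5 := fun a b c d => (D_23 _ _ _).trans ((D_12 _ _ _).trans (k2 r hr a b p c d (dual q)))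
    have u6 := fun a b c d => (D_12 _ _ _).trans ((D_23 _ _ _).trans ((D_12 _ _ _).trans
      (k2 r hr a b q c d (dual p))))
    revert s1 s2 t1 t2 t3 u1 u2 u3 u4 u5 u6
    generalize D (dual p) (dual q) (dual r) = d
    cases MZ.testBit p <;> cases MO.testBit p <;> cases MZ.testBit q <;> cases MO.testBit q <;>
      cases MZ.testBit r <;> cases MO.testBit r <;> simp
  refine ⟨tau_ip, fun u v w => sub_eq_zero.1 (D_ext (fun p hp => ?_) u)⟩
  rw [D_12]
  refine D_ext (fun q hq => ?_) v
  rw [D_23, D_12]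
  exact D_ext (fun r hr => k r hr q hq p hp) w

end Cfsg.Agent.Mo.Iv
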