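import Cfsg.Agent.Mo.Chk
import Cfsg.Agent.Mo.Chk2

/-! Local analysis in `2^{1+24} Co1`: the action on classes, monomial elements, search in `M24`. -/

set_option autoImplicit false

namespace Cfsg.Agent.Mo.Lc

open H4 H5 H5.Lee CoG
open scoped Pointwise

/-- `g` carries the class `c` to the class `d` -/
def Mp (g : Co0) (c d : ℕ) : Prop := ∃ x, cl x = c ∧ cl (g • x) = d
theorem Mp.app {g : Co0} {c d : ℕ} (h : Mp g c d) {x : Λ} (hx : cl x = c) : cl (g • x) = d := by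
  obtain ⟨y, a, b⟩ := h
  exact (cl_smul g (hx.trans a.symm)).trans b
theorem Mp.mul {g h : Co0} {c d e : ℕ} (a : Mp g c d) (b : Mp h d e) : Mp (h * g) c e := by
  obtain ⟨y, a1, a2⟩ := a
  exact ⟨y, a1, by rw [mul_smul]; exact b.app a2⟩
theorem Mp.lt {g : Co0} {c d : ℕ} (h : Mp g c d) : d < 2 ^ 24 := by
  obtain ⟨y, -, b⟩ := h
  exact b ▸ cl_lt _
theorem cl_center {g : Co0} (h : g ∈ Subgroup.center Co0) (x : Λ) : cl (g • x) = cl x := by
  rcases mem_center_Co0.1 h with a | a <;> rw [a]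
  exact cl_neg x

def op (i : ℕ) : ℕ := 2048 + 4096 * i
/-- the classes of the vectors `(-3, 1 ^ 23)` -/
def OC : ℕ := nat_lit 0x80040080020080010080008080004080002080001080000880000480000280000180063a80031d8007b48003da8001ed8006cc8003668001b38006e380054b80049f800475800
def oc (i : ℕ) : ℕ := img 24 OC i
theorem op_chk : ∀ i < 24, VM.testBit (op i) = true ∧ cp (op i) = oc i ∧
    (∀ k < 24, xc (op i) k = if k = i then -3 else 1) ∧ ∀ j < 24, oc i = oc j → i = j := by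
  decide +kernel
noncomputable def xi (i : ℕ) : Λ := rq (op i)
theorem xi_val {i : ℕ} (hi : i < 24) (p : ι) : (xi i : V) p = if p = gE.pt i then -3 else 1 := by
  rw [xi, rq_val (op_chk i hi).1, (op_chk i hi).2.2.1 _ (gE.ix_lt p)]
  exact if_congr (by rw [eq_comm, ← gE.pt_eq_iff hi, eq_comm]) rfl rfl
theorem cl_xi {i : ℕ} (hi : i < 24) : cl (xi i) = oc i := (cl_rq (op_chk i hi).1).trans (op_chk i hi).2.1
theorem xi_mem {i : ℕ} (hi : i < 24) : xi i ∈ L2 := rq_mem (op_chk i hi).1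
theorem oc_lt (i : ℕ) : oc i < 2 ^ 24 := img_lt _ _ _

theorem mono_of {g : Co0} (h : Mp g 8388608 8388608) : ∃ σ c, g = Lee.mono σ c := by
  obtain ⟨w, hw⟩ := cl_eq_iff.1 ((cl_e8 none).trans (h.app (cl_e8 none)).symm)
  refine (isN_of_one (x := e8 none) ⟨none, 8, Or.inl rfl, rfl⟩ ?_).exists_mono
  rw [← cross_eq (i := none) (Or.inl rfl)]
  exact ⟨(g • e8 none).2, norm_smul' _ _, w, w.2, congrArg Subtype.val hw⟩

/-- a coordinate permutation up to sign -/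
def Pm (g : Co0) (σ : M24) : Prop := g = mh σ ∨ g = ng * mh σ
theorem mh_xi (σ : M24) {i : ℕ} (hi : i < 24) : mh σ • xi i = xi (gE.ix (σ.1 (gE.pt i))) := by
  ext p
  rw [mh_apply, xi_val hi, xi_val (gE.ix_lt _), gE.pt_ix]
  exact if_congr (Equiv.symm_apply_eq _) rfl rfl
theorem Pm.mp {g : Co0} {σ : M24} (h : Pm g σ) {i : ℕ} (hi : i < 24) :
    Mp g (oc i) (oc (gE.ix (σ.1 (gE.pt i)))) := by
  refine ⟨_, cl_xi hi, ?_⟩
  rcases h with rfl | rfl
  · rw [mh_xi σ hi, cl_xi (gE.ix_lt _)]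
  · rw [mul_smul, ng_smul, cl_neg, mh_xi σ hi, cl_xi (gE.ix_lt _)]
theorem Pm.eq {g : Co0} {σ : M24} (h : Pm g σ) {i j : ℕ} (hi : i < 24) (hj : j < 24)
    (a : Mp g (oc i) (oc j)) : σ.1 (gE.pt i) = gE.pt j := by
  rw [← (op_chk _ (gE.ix_lt _)).2.2.2 j hj (((h.mp hi).app (cl_xi hi)).symm.trans (a.app (cl_xi hi))),
    gE.pt_ix]
theorem pm_of {g : Co0} (h : Mp g 8388608 8388608) {i j : ℕ} (hi : i < 24) (hj : j < 24)
    (a : Mp g (oc i) (oc j)) : ∃ σ, Pm g σ := by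
  obtain ⟨σ, c, rfl⟩ := mono_of h
  have e := short_eq (xi_mem hj) (smul_mem_L2 (Lee.mono σ c) (xi_mem hi))
    ((cl_xi hj).trans (a.app (cl_xi hi)).symm)
  refine ⟨σ, e.imp (fun e => ?_) fun e => ?_⟩
  · refine congrArg (Lee.mono σ) (Subtype.ext (Finset.eq_empty_of_forall_notMem fun p hp => ?_))
    have := congrFun (congrArg Subtype.val e) p
    rw [mono_smul, signedPerm, if_pos hp, xi_val hi, xi_val hj] at this
    split_ifs at this <;> omega
  · rw [mono_eq]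
    refine congrArg (fun c => CoG.sg c * mh σ) (Subtype.ext (Finset.eq_univ_of_forall fun p => ?_))
    by_contra hp
    have := congrFun (congrArg Subtype.val e) p
    rw [mono_smul, signedPerm, if_neg hp, AddSubgroup.coe_neg, Pi.neg_apply, xi_val hi, xi_val hj] at this
    split_ifs at this <;> omega
theorem ng_center : ng ∈ Subgroup.center Co0 := PM_le ng_mem
theorem center_of {g : Co0} (h : Mp g 8388608 8388608) (a : ∀ i < 24, Mp g (oc i) (oc i)) :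
    g ∈ Subgroup.center Co0 := by
  obtain ⟨σ, b⟩ := pm_of h (by norm_num : 0 < 24) (by norm_num) (a 0 (by norm_num))
  obtain rfl : σ = 1 := Subtype.ext (Equiv.ext fun p => by
    have := b.eq (gE.ix_lt p) (gE.ix_lt p) (a _ (gE.ix_lt p))
    rwa [gE.pt_ix] at this)
  rcases b with rfl | rfl <;> rw [map_one]
  exacts [one_mem _, by rw [mul_one]; exact ng_center]

/-- commuting on classes -/
def Cm (g x : Co0) : Prop := ∀ y : Λ, cl (g • x • y) = cl (x • g • y)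
theorem Cm.mul {g h x : Co0} (a : Cm g x) (b : Cm h x) : Cm (g * h) x := fun y => by
  rw [mul_smul, mul_smul, cl_smul g (b y), a]
theorem Cm.center {g x : Co0} (a : Cm g x) : g * x * g⁻¹ * x⁻¹ ∈ Subgroup.center Co0 := by
  have e : ∀ y, cl ((g * x * g⁻¹ * x⁻¹) • y) = cl y := fun y => by
    rw [mul_smul, mul_smul, mul_smul, a, smul_inv_smul, smul_inv_smul]
  exact center_of ⟨_, cl_e8 none, (e _).trans (cl_e8 none)⟩ fun i hi => ⟨_, cl_xi hi, (e _).trans (cl_xi hi)⟩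
theorem cm_of {p q : Ht} (h : rho p * rho q = rho q * rho p) : Cm p.1.1 q.1.1 := fun y => by
  have : (p * q * (q * p)⁻¹).1.1 ∈ Subgroup.center Co0 := (rho_eq_xq_iff _).1 ⟨0, false, by
    rw [map_mul, map_inv, map_mul, map_mul, h, mul_inv_cancel, xq_zero]⟩
  rw [← cl_center this (q.1.1 • p.1.1 • y), Ht_mul_fst, Ht_inv_fst, Ht_mul_fst, Ht_mul_fst, ← mul_smul q.1.1,
    mul_smul _ _⁻¹, inv_smul_smul, mul_smul]
theorem Cm.perm {g x : Co0} {σ r : M24} (a : Cm g x) (hg : Pm g σ) (hx : Pm x r) (p : ι) :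
    σ.1 (r.1 p) = r.1 (σ.1 p) := by
  have b1 := (hx.mp (gE.ix_lt p)).mul (hg.mp (gE.ix_lt _))
  have b2 := (hg.mp (gE.ix_lt p)).mul (hx.mp (gE.ix_lt _))
  have := (b1.app (cl_xi (gE.ix_lt p))).symm.trans (((congrArg cl (mul_smul _ _ _)).trans ((a _).trans
    (congrArg cl (mul_smul _ _ _)).symm)).trans (b2.app (cl_xi (gE.ix_lt p))))
  simpa only [gE.pt_ix] using gE.ix_inj ((op_chk _ (gE.ix_lt _)).2.2.2 _ (gE.ix_lt _) this)
theorem Cm.sign {x : Co0} {σ r : M24} {c : Code} (a : Cm (Lee.mono σ c) x) (hx : Pm x r) :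
    symmDiff c.1 (r.1 • c.1) = ∅ ∨ symmDiff c.1 (r.1 • c.1) = Finset.univ := by
  have b : Lee.mono σ c * mh r * (Lee.mono σ c)⁻¹ * (mh r)⁻¹ ∈ Subgroup.center Co0 := by
    have := a.center
    rcases hx with rfl | rfl
    · exact this
    · rwa [← mul_assoc, Subgroup.mem_center_iff.1 ng_center, mul_inv_rev, ← mul_assoc,
        Subgroup.mem_center_iff.1 (inv_mem ng_center), mul_assoc ng, mul_assoc ng, mul_assoc ng,
        inv_mul_cancel_left] at this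
  have e : Lee.mono σ c * mh r * (Lee.mono σ c)⁻¹ * (mh r)⁻¹ = Lee.mono (σ * r * σ⁻¹ * r⁻¹)
      ⟨_, symmDiff_mem_code c.2 (smul_mem_code (σ * r * σ⁻¹).2 c.2)⟩ := by
    rw [mono_eq, mono_eq, ← CoG.sg_comm]
    simp only [map_mul, map_inv]
    group
  rw [e, center_eq] at b
  have k : ∀ d : Code, Lee.mono (σ * r * σ⁻¹ * r⁻¹) ⟨_, symmDiff_mem_code c.2
      (smul_mem_code (σ * r * σ⁻¹).2 c.2)⟩ = Lee.mono 1 d → symmDiff c.1 (r.1 • c.1) = d := fun d h => by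
    obtain ⟨h1, h2⟩ := mono_inj h
    rw [← h2, mul_inv_eq_one.1 h1]
  refine b.imp (fun b => k ⟨_, empty_mem_code⟩ (co_ext' fun y => (b y).trans ?_))
    fun b => k ⟨_, univ_mem_code⟩ (co_ext' fun y => (b y).trans (ng_smul y).symm)
  exact ((congrArg (· • y) (map_one mh)).trans (one_smul _ y)).symm

/-! ### search in `M24` -/

def Rl (σ : M24) (M : List (ℕ × ℕ)) : Prop := ∀ x ∈ M, x.1 < 24 ∧ x.2 < 24 ∧ σ.1 (gE.pt x.1) = gE.pt x.2
def ext (r l : ℕ) (M : List (ℕ × ℕ)) : ℕ → ℕ → List (ℕ × ℕ) :=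
  Nat.rec (fun _ _ => M) (fun _ ih a b => Cr.frN (img 5 r a) fun a' => Cr.frN (img 5 r b) fun b' =>
    (a, b) :: ih a' b') l
theorem Rl.ext {σ ρ : M24} {r : ℕ} (hr : gE.Rep ρ.1 r) (hc : ∀ p, σ.1 (ρ.1 p) = ρ.1 (σ.1 p))
    {M : List (ℕ × ℕ)} (h : Rl σ M) (l : ℕ) {a b : ℕ} (ha : a < 24) (hb : b < 24)
    (e : σ.1 (gE.pt a) = gE.pt b) : Rl σ (ext r l M a b) := by
  induction l generalizing a b with
  | zero => exact h
  | succ l ih =>
    refine List.forall_mem_cons.2 ⟨⟨ha, hb, e⟩, ih (hr.img_lt ha) (hr.img_lt hb) ?_⟩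
    rw [← hr.apply_pt ha, ← hr.apply_pt hb, hc, e]
def selm (f : ℕ × ℕ → ℕ) (M : List (ℕ × ℕ)) : ℕ → ℕ :=
  List.rec (fun _ => 0) (fun x _ ih s => cnd (odd s) (Nat.lor (Nat.shiftLeft 1 (f x)) (ih (Nat.shiftRight s 1)))
    (ih (Nat.shiftRight s 1))) M
theorem Rl.selm {σ : M24} {M : List (ℕ × ℕ)} (h : Rl σ M) (s : ℕ) :
    selm Prod.fst M s < 2 ^ 24 ∧ selm Prod.snd M s < 2 ^ 24 ∧
      σ.1 • gE.ofMask (selm Prod.fst M s) = gE.ofMask (selm Prod.snd M s) := by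
  induction M generalizing s with
  | nil => exact ⟨Nat.two_pow_pos _, Nat.two_pow_pos _, by
      change σ.1 • gE.ofMask 0 = gE.ofMask 0
      rw [gE.ofMask_zero, Finset.smul_finset_empty]⟩
  | cons x M ih =>
    obtain ⟨⟨h1, h2, h3⟩, h4⟩ := List.forall_mem_cons.1 h
    obtain ⟨a, b, c⟩ := ih h4 (Nat.shiftRight s 1)
    have e : ∀ f, Lc.selm f (x :: M) s = cnd (odd s) (2 ^ f x ||| Lc.selm f M (Nat.shiftRight s 1))
        (Lc.selm f M (Nat.shiftRight s 1)) := fun f => by rw [← Nat.one_shiftLeft]; rfl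
    rw [e, e]
    cases odd s
    · exact ⟨a, b, c⟩
    · refine ⟨Nat.or_lt_two_pow (Nat.pow_lt_pow_right (by norm_num) h1) a,
        Nat.or_lt_two_pow (Nat.pow_lt_pow_right (by norm_num) h2) b, ?_⟩
      rw [cnd_true, cnd_true, gE.ofMask_lor, gE.ofMask_lor, gE.ofMask_two_pow h1, gE.ofMask_two_pow h2,
        Finset.smul_finset_union, c, Finset.smul_finset_singleton, ← h3]
      rfl
def bad2 (a b : ℕ) : Bool := cnd (Nat.beq (pc24 a) (pc24 b)) (xor (inC a) (inC b)) true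
def bad (M : List (ℕ × ℕ)) (s : ℕ) : Bool :=
  Cr.frN (selm Prod.fst M s) fun a => Cr.frN (selm Prod.snd M s) fun b => bad2 a b
theorem Rl.bad {σ : M24} {M : List (ℕ × ℕ)} (h : Rl σ M) (s : ℕ) : bad M s ≠ true := by
  obtain ⟨a, b, c⟩ := h.selm s
  have e1 := Finset.card_smul_finset σ.1 (gE.ofMask (Lc.selm Prod.fst M s))
  have e2 := smul_mem_code_iff σ.2 (s := gE.ofMask (Lc.selm Prod.fst M s))
  rw [c, card_ofMask24 a, card_ofMask24 b] at e1
  rw [c, ofMask_mem_code a, ofMask_mem_code b] at e2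
  rw [Lc.bad, Cr.frN_eq, Cr.frN_eq, bad2, e1, Nat.beq_refl, cnd_true, Bool.eq_iff_iff.2 e2, Bool.xor_self]
  exact Bool.false_ne_true
def dfs1 (ts : List ℕ) (k : List (ℕ × ℕ) → Bool) (M : List (ℕ × ℕ)) : Bool := cnd (anyL ts (bad M)) true (k M)
theorem Rl.dfs1 {σ : M24} {M : List (ℕ × ℕ)} (h : Rl σ M) {ts : List ℕ} {k : List (ℕ × ℕ) → Bool}
    (e : dfs1 ts k M = true) : k M = true := by
  cases a : anyL ts (Lc.bad M)
  · rwa [Lc.dfs1, a] at e
  · obtain ⟨s, -, b⟩ := anyL_iff.1 a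
    exact absurd b (h.bad s)
/-- branch over the images of the listed points, cut by the listed tests -/
def dfs (r l : ℕ) (k : List (ℕ × ℕ) → Bool) (L : List (ℕ × List ℕ)) : List (ℕ × ℕ) → Bool :=
  List.rec k (fun x _ ih M => cnd (Nat.blt x.1 24) (allLt 24 fun j => dfs1 x.2 ih (ext r l M x.1 j)) false) L
theorem Rl.dfs {σ ρ : M24} {r l : ℕ} (hr : gE.Rep ρ.1 r) (hc : ∀ p, σ.1 (ρ.1 p) = ρ.1 (σ.1 p))
    {k : List (ℕ × ℕ) → Bool} {L : List (ℕ × List ℕ)} {M : List (ℕ × ℕ)} (h : Rl σ M)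
    (e : dfs r l k L M = true) : ∃ M', Rl σ M' ∧ k M' = true := by
  induction L generalizing M with
  | nil => exact ⟨M, h, e⟩
  | cons x L ih =>
    obtain ⟨e1, e2⟩ := cnd_false_iff.1 e
    have := h.ext hr hc l (Nat.blt_eq.to_iff.1 e1) (gE.ix_lt _) (gE.pt_ix _).symm
    exact ih this (this.dfs1 (allLt_iff.1 e2 _ (gE.ix_lt _)))

/-! ### signs and tables -/

def par (a b n : ℕ) : Bool := Nat.rec false (fun k ih => xor ih (and (tb a k) (tb b k))) n
theorem par_spec (a b n : ℕ) :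
    (∏ k ∈ Finset.range n, if a.testBit k && b.testBit k then (-1 : ℝ) else 1) = sgn (par a b n) := by
  induction n with
  | zero => exact sgn_false.symm
  | succ n ih =>
    rw [Finset.prod_range_succ, ih, show par a b (n + 1) = xor (par a b n) (and (tb a n) (tb b n)) from rfl,
      sgn_xor, tb_eq, tb_eq]
    rfl
def hq (a b : ℕ) : Bool := par (Nat.div a 4096) (Nat.mod b 4096) 12
theorem hq_spec (a b : ℕ) : Mo.sg (a / 4096) (b % 4096) = sgn (hq a b) := par_spec _ _ _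
theorem odd_of_hq {x y : Λ} (h : xor (hq (cl x) (cl y)) (hq (cl y) (cl x)) = true) :
    dotInt (x : V) (y : V) / 8 % 2 = 1 := by
  have := sg_cl_comm x y
  rw [hq_spec, hq_spec, ← sgn_xor, h, sgn_true] at this
  split_ifs at this
  · norm_num at this
  · omega
theorem lin_zero (T n : ℕ) : H4.lin T n 0 = 0 := by
  have := lin_xor T n 0 0
  rwa [Nat.xor_self, Nat.xor_self] at this
/-- the table of images of the basis classes -/
def Tb (g : Co0) (T : ℕ) : Prop := ∀ x, cl (g • x) = H4.lin T 24 (cl x)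
def tbC1 (ys : List ℕ) (T : ℕ) : Bool := allLt 24 fun k => Nat.beq (ys.getD k 0) (H4.lin T 24 (Nat.shiftLeft 1 k))
noncomputable def tbC (w : List ℕ) (T : ℕ) : Bool := cnd (okW w) (frcK (cols (imgW w S0)) fun ys => tbC1 ys T) false
theorem tbC_spec {w : List ℕ} {T : ℕ} (h : tbC w T = true) : Tb (Mo.wd w).1.1 T := fun x => by
  obtain ⟨h1, h2⟩ := cnd_false_iff.1 h
  rw [frcK_eq] at h2
  rw [(tr_wd h1).ap]
  refine xor_ind (Q := fun c => ap _ c = H4.lin T 24 c) 24 (by rw [apL_zero, lin_zero]) (fun k hk => ?_)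
    (fun a _ b _ ha hb => by rw [apL_xor, lin_xor, ha, hb]) _ (cl_lt x)
  rw [apL_two_pow, ← Nat.one_shiftLeft]
  exact Nat.eq_of_beq_eq_true (allLt_iff.1 h2 k hk)
theorem Tb.mp {g : Co0} {T c : ℕ} (h : Tb g T) (hc : c < 2 ^ 24) : Mp g c (H4.lin T 24 c) := by
  obtain ⟨x, rfl⟩ := cl_surj hc
  exact ⟨x, rfl, h x⟩

end Cfsg.Agent.Mo.Lc
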