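import Cfsg.Agent.Mo.Lc1

/-! Local analysis: the centraliser in `2^{1+24} Co1` of a product of two involutions, by a stabiliser chain. -/

set_option autoImplicit false

namespace Cfsg.Agent.Mo.Lc

open H4 H5 H5.Lee CoG
open scoped Pointwise

/-- letters: 0 is `t1 t2`, 1-3 are conjugates under `tau` of elements of `Q`, the others centralise `t1`, `t2` -/
structure LD where
  l : ℕ
  t1 : List ℕ
  t2 : List ℕ
  LT : List (List ℕ × ℕ)
  T1 : ℕ
  r : ℕ
  BT : ℕ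
  AT : ℕ
  PT : ℕ
  BW : List (List ℕ)
  YN : List (List ℕ × ℕ)
  S1 : List (ℕ × List ℕ)
  p : ℕ
  S2 : List (ℕ × List ℕ)
  s0 : List ℕ
  S3 : List (List ℕ)
  DF : List (ℕ × List ℕ)
  S4 : List (List ℕ)
  RL : List (ℕ × List ℕ × List ℕ)

def IDT : ℕ := nat_lit 0x800000400000200000100000080000040000020000010000008000004000002000001000000800000400000200000100000080000040000020000010000008000004000002000001
theorem IDT_chk : tbC [] IDT = true := by decide +kernel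
def orr (a b : Bool) : Bool := cnd a true b
theorem orr_iff {a b : Bool} : orr a b = true ↔ a = true ∨ b = true := by cases a <;> simp [orr]
def sx (q m p : ℕ) (b : Bool) : Bool :=
  allLt 24 fun k => decide (xc q k = cnd (xor b (tb m k)) (-1) 1 * cnd (Nat.beq k p) (-3) 1)
theorem sx_spec {q m p : ℕ} {b : Bool} (hq : VM.testBit q = true) (hp : p < 24) (h : sx q m p b = true)
    {c : Code} (hc : gE.ofMask m = c) : cl (CoG.sg c • xi p) = cp q := by
  have e : ∀ i, (rq q : V) i = cnd b (-1) 1 * ((CoG.sg c • xi p : Λ) : V) i := fun i => by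
    rw [rq_val hq, of_decide_eq_true (allLt_iff.1 h _ (gE.ix_lt i)), sg_apply, xi_val hp, ← hc]
    have a : i = gE.pt p ↔ Nat.beq (gE.ix i) p = true := by rw [Nat.beq_eq, eq_comm, gE.pt_eq_iff hp, eq_comm]
    simp only [gE.mem_ofMask_tb, a]
    cases b <;> cases tb m (gE.ix i) <;> cases Nat.beq (gE.ix i) p <;> simp
  rw [← cl_rq hq]
  cases b
  · exact congrArg cl (Subtype.ext (funext fun i => by rw [e, cnd_false, one_mul]))
  · rw [← cl_neg]
    exact congrArg cl (Subtype.ext (funext fun i => by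
      rw [e, cnd_true, neg_one_mul, AddSubgroup.coe_neg, Pi.neg_apply]))
def qc (n : List ℕ) : ℕ := List.rec 0 (fun a _ ih => Nat.xor ih (Nat.shiftLeft 1 a)) n
theorem qc_spec {n : List ℕ} (h : allL n (fun a => Nat.blt a 24) = true) :
    ∃ x f, cl x = qc n ∧ rho (Mo.wd n) = xq x f := by
  replace h := allL_iff.1 h
  induction n with
  | nil => exact ⟨0, false, cl_zero, (map_one rho).trans xq_zero.symm⟩
  | cons a n ih =>
    obtain ⟨x, f, h1, h2⟩ := ih fun b hb => h b (by simp [hb])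
    have ha := Nat.blt_eq.to_iff.1 (h a (by simp))
    obtain ⟨g, hg⟩ := ex_xq_mul x (ug a) f false
    exact ⟨x + ug a, g, by rw [cl_add, h1, cl_ug ha, ← Nat.one_shiftLeft]; rfl,
      by rw [Mo.wd, map_mul, h2, hT_q ha, hg]⟩
theorem xor4 (a b c d : ℕ) : a ^^^ b ^^^ (c ^^^ d) = a ^^^ c ^^^ (b ^^^ d) := by
  rw [Nat.xor_assoc, Nat.xor_assoc, Nat.xor_left_comm b]
def del (K w : List ℕ) : List ℕ := List.rec [] (fun a _ ih => cnd (memL K a) ih (a :: ih)) w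
theorem pow_gcd_mem {G : Type*} [Group G] {N : Subgroup G} {g : G} (m n : ℕ) :
    g ^ m ∈ N → g ^ n ∈ N → g ^ Nat.gcd m n ∈ N := by
  induction m, n using Nat.gcd.induction with
  | H0 n => exact fun _ h => by rwa [Nat.gcd_zero_left]
  | H1 m n _ ih =>
    intro h1 h2
    rw [Nat.gcd_rec]
    refine ih ?_ h1
    rw [← Nat.mod_add_div n m, pow_add, pow_mul] at h2
    exact (N.mul_mem_cancel_right (pow_mem h1 _)).1 h2

namespace LD
variable (D : LD)
def le (a : ℕ) : List ℕ × ℕ := D.LT.getD a ([], IDT)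
noncomputable def lt (a : ℕ) : Ht := Mo.wd (D.le a).1
noncomputable def ev : List ℕ → Ht
  | [] => 1
  | a :: w => ev w * D.lt a
def apw (w : List ℕ) : ℕ → ℕ :=
  List.rec (fun c => c) (fun a _ ih c => Cr.frN (H4.lin (D.le a).2 24 c) ih) w
def mp (w : List ℕ) (c d : ℕ) : Bool := Nat.beq (D.apw w c) d
def bs (k : ℕ) : ℕ := img 24 D.BT k
def Bs : List ℕ := lmap D.bs (List.range 8)
def triv (w : List ℕ) : Bool := cnd (D.mp w 8388608 8388608) (allLt 24 fun i => D.mp w (oc i) (oc i)) false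
def leaf (need : List ℕ) (S : List (List ℕ)) (M : List (ℕ × ℕ)) : Bool :=
  cnd (allL need fun i => anyL M fun x => Nat.beq x.1 i) (anyL S fun w =>
    cnd (allL M fun x => D.mp w (oc x.2) (oc x.1)) (D.mp w 8388608 8388608) false) false
noncomputable def c0 : Bool :=
  allL D.LT (fun t => tbC t.1 t.2) && tbC D.t1 D.T1 && eqL (D.le 0).1 (D.t2 ++ D.t1) &&
    (okA D.t1 && eqL (alW D.t1) D.t1 && okA D.t2 && eqL (alW D.t2) D.t2)
def cY : Bool := allLt 4 fun a => orr (Nat.beq a 0) (okA (D.YN.getD a ([], 0)).1 &&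
  allL (D.YN.getD a ([], 0)).1 (fun b => Nat.blt b 24) && eqL (alW (D.YN.getD a ([], 0)).1) (D.le a).1 &&
    Nat.beq (qc (D.YN.getD a ([], 0)).1) (H4.lin D.BT 8 (D.YN.getD a ([], 0)).2))
def cB : Bool := allLt 8 fun k => allL (D.BW.getD k []) (Nat.ble 4) && D.mp (D.BW.getD k []) 8388608 (D.bs k)
def cW : Bool := allLt 24 fun k => Nat.blt (img 24 D.PT k) 256 && Nat.beq (Nat.shiftLeft 1 k)
  (Nat.xor (H4.lin D.BT 8 (img 24 D.PT k)) (H4.lin D.AT 24 (Nat.xor (Nat.shiftLeft 1 k)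
    (H4.lin (D.le 0).2 24 (Nat.shiftLeft 1 k)))))
def cN : Bool := allLt 256 fun m => Cr.frN (H4.lin D.BT 8 m) fun c => orr (Nat.beq c 0)
  (anyLt 8 fun k => xor (hq (D.bs k) c) (hq c (D.bs k)))
def cX : Bool := D.mp [0] 8388608 8388608 && Nat.blt D.p 24 &&
  allLt 24 fun i => Nat.blt (img 5 D.r i) 24 && D.mp [0] (oc i) (oc (img 5 D.r i))
def c1a (c : ℕ) (e : ℕ × List ℕ) : Bool :=
  orr (hq c c) (orr (D.mp e.2 c 8388608) (orr (Nat.beq c 0) (VM.testBit e.1 && Nat.beq (cp e.1) c)))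
def c1 : Bool := allLt 256 fun m => Cr.frN (H4.lin D.BT 8 m) fun c => D.c1a c (D.S1.getD m (0, []))
def c2a (m : ℕ) (e : ℕ × List ℕ) : Bool := cnd (orr (sx e.1 m D.p false) (sx e.1 m D.p true))
  (VM.testBit e.1 && D.mp e.2 (cp e.1) (oc D.p) && D.mp e.2 8388608 8388608) false
def c2 : Bool := allLt 4096 fun x => Cr.frN (cw x) fun m => Cr.frN (Nat.xor m (push 24 5 D.r m)) fun d =>
  cnd (orr (Nat.beq d 0) (Nat.beq d 16777215)) (anyL D.S2 (D.c2a m)) true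
def c3 : Bool := dfs D.r D.l (D.leaf [D.p] D.S3) [(D.p, D.s0)] []
def c4 : Bool := dfs D.r D.l (D.leaf (List.range 24) D.S4) D.DF (ext D.r D.l [] D.p D.p)
def ncm (w : List ℕ) : Bool := anyLt 24 fun i =>
  !(D.mp w (H4.lin D.T1 24 (oc i)) (H4.lin D.T1 24 (D.apw w (oc i))))
def c7 : Bool := allL D.S2 fun e => allL D.S3 fun u => frcK (lmap (D.apw (e.2 ++ u)) D.Bs) fun v =>
  allL D.S4 fun w => cnd (eqL (lmap (D.apw w) v) D.Bs) (orr (D.triv (e.2 ++ u ++ w)) (D.ncm (e.2 ++ u ++ w))) true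
def rok (K : List ℕ) (e : ℕ × List ℕ × List ℕ) : Bool :=
  D.triv e.2.1 && D.triv e.2.2 && allL e.2.1 (Nat.ble 1) && allL e.2.2 (Nat.ble 1) &&
    allL (del K e.2.1) (Nat.beq e.1) && allL (del K e.2.2) (Nat.beq e.1) &&
      Nat.beq (Nat.gcd (del K e.2.1).length (del K e.2.2).length) 1
def rl (L : List (ℕ × List ℕ × List ℕ)) : List ℕ → List ℕ :=
  List.rec (fun K => K) (fun e _ ih K => cnd (D.rok K e) (ih (e.1 :: K)) K) L
def cR1 (K : List ℕ) : Bool := allLt D.LT.length fun a => orr (Nat.beq a 0) (memL K a)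
def cR : Bool := frcK (D.rl D.RL [1, 2, 3]) D.cR1
noncomputable def cG (t : List ℕ × ℕ) : Prop :=
  eqW (t.1 ++ D.t1) (D.t1 ++ t.1) = true ∧ eqW (t.1 ++ D.t2) (D.t2 ++ t.1) = true
structure OK : Prop where
  h0 : D.c0 = true
  hG : ∀ t ∈ D.LT.drop 4, D.cG t
  hY : D.cY = true
  hB : D.cB = true
  hW : D.cW = true
  hN : D.cN = true
  hX : D.cX = true
  h1 : D.c1 = true
  h2 : D.c2 = true
  h3 : D.c3 = true
  h4 : D.c4 = true
  h7 : D.c7 = true
  hR : D.cR = true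
/-- centralising both involutions -/
def C (g : GG) : Prop := g * rho (Mo.wd D.t1) = rho (Mo.wd D.t1) * g ∧ g * rho (Mo.wd D.t2) = rho (Mo.wd D.t2) * g
noncomputable def X : GG := rho (Mo.wd D.t1) * rho (Mo.wd D.t2)

variable {D}
theorem ev_append (u w : List ℕ) : D.ev (u ++ w) = D.ev w * D.ev u := by
  induction u with
  | nil => exact (mul_one _).symm
  | cons a u ih => rw [List.cons_append, ev, ev, ih, mul_assoc]
theorem apw_append (u w : List ℕ) (c : ℕ) : D.apw (u ++ w) c = D.apw w (D.apw u c) := by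
  induction u generalizing c with
  | nil => rfl
  | cons a u ih => exact ih _
theorem ev_mem {V : Subgroup GG} {w : List ℕ} (h : ∀ a ∈ w, rho (D.lt a) ∈ V) : rho (D.ev w) ∈ V := by
  induction w with
  | nil => exact (map_one rho).symm ▸ one_mem _
  | cons a w ih =>
    rw [ev, map_mul]
    exact mul_mem (ih fun b hb => h b (by simp [hb])) (h a (by simp))
theorem C.X {g : GG} (h : D.C g) : g * D.X = D.X * g := by
  rw [LD.X, ← mul_assoc, h.1, mul_assoc, h.2, mul_assoc]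
theorem lt_out {a : ℕ} (h : D.LT.length ≤ a) : rho (D.lt a) = 1 := by
  rw [lt, le, List.getD_eq_default _ _ h]; exact map_one rho

namespace OK
variable (H : D.OK)
include H
theorem tb (a : ℕ) : Tb (D.lt a).1.1 (D.le a).2 := by
  have := H.h0
  simp only [c0, Bool.and_eq_true] at this
  refine tbC_spec ?_
  by_cases h : a < D.LT.length
  · exact allL_iff.1 this.1.1.1 _ (by rw [le, List.getD_eq_getElem _ _ h]; exact List.getElem_mem _)
  · rw [le, List.getD_eq_default _ _ (not_lt.1 h)]; exact IDT_chk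
theorem lt0 : rho (D.lt 0) = D.X := by
  have := H.h0
  simp only [c0, Bool.and_eq_true] at this
  rw [lt, eqL_spec this.1.2, wd_append, map_mul, X]
theorem tauC : D.C tau := by
  have := H.h0
  simp only [c0, Bool.and_eq_true] at this
  obtain ⟨-, ⟨⟨a, b⟩, c⟩, d⟩ := this
  exact ⟨by rw [tau_alW a, eqL_spec b], by rw [tau_alW c, eqL_spec d]⟩
theorem apw (w : List ℕ) {c : ℕ} (hc : c < 2 ^ 24) : Mp (D.ev w).1.1 c (D.apw w c) := by
  induction w generalizing c with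
  | nil =>
    obtain ⟨x, rfl⟩ := cl_surj hc
    exact ⟨x, rfl, congrArg cl (one_smul Co0 x)⟩
  | cons a w ih => exact ((H.tb a).mp hc).mul (ih ((H.tb a).mp hc).lt)
theorem mp {w : List ℕ} {c d : ℕ} (hc : c < 2 ^ 24) (h : D.mp w c d = true) : Mp (D.ev w).1.1 c d :=
  Nat.eq_of_beq_eq_true h ▸ H.apw w hc
theorem triv {w : List ℕ} (h : D.triv w = true) : (D.ev w).1.1 ∈ Subgroup.center Co0 :=
  center_of (H.mp (by norm_num) (cnd_false_iff.1 h).1) fun i hi =>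
    H.mp (oc_lt i) (allLt_iff.1 (cnd_false_iff.1 h).2 i hi)
theorem fixW {x : Λ} (h : cl ((D.lt 0).1.1 • x) = cl x) : ∃ m < 256, cl x = H4.lin D.BT 8 m := by
  obtain ⟨m, a, b⟩ := xor_ind (Q := fun c => ∃ m < 256, c = H4.lin D.BT 8 m ^^^
    H4.lin D.AT 24 (c ^^^ H4.lin (D.le 0).2 24 c)) 24 ⟨0, by norm_num, by simp [lin_zero]⟩
    (fun k hk => by
      have := allLt_iff.1 H.hW k hk
      rw [Bool.and_eq_true, Nat.blt_eq, Nat.beq_eq] at this
      exact ⟨_, this.1, Nat.one_shiftLeft k ▸ this.2⟩)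
    (by
      rintro a - b - ⟨m, a1, a2⟩ ⟨n, b1, b2⟩
      refine ⟨m ^^^ n, Nat.xor_lt_two_pow (n := 8) a1 b1, ?_⟩
      rw [lin_xor D.BT, lin_xor (D.le 0).2, xor4 a, lin_xor D.AT, xor4 (H4.lin D.BT 8 m), ← a2, ← b2])
    _ (cl_lt x)
  exact ⟨m, a, by rwa [← H.tb 0 x, h, Nat.xor_self, lin_zero, Nat.xor_zero] at b⟩
theorem rep : D.p < 24 ∧ ∃ ρ, Pm (D.lt 0).1.1 ρ ∧ gE.Rep ρ.1 D.r := by
  have := H.hX
  simp only [cX, Bool.and_eq_true, allLt_iff, Nat.blt_eq] at this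
  obtain ⟨⟨a, b⟩, c⟩ := this
  have e : D.ev [0] = D.lt 0 := one_mul _
  obtain ⟨ρ, d⟩ := pm_of (e ▸ H.mp (by norm_num) a) b (c _ b).1 (e ▸ H.mp (oc_lt _) (c _ b).2)
  exact ⟨b, ρ, d, fun q => by
    have := d.eq (gE.ix_lt q) (c _ (gE.ix_lt q)).1 (e ▸ H.mp (oc_lt _) (c _ (gE.ix_lt q)).2)
    rw [gE.pt_ix] at this
    rw [this, gE.ix_pt _ (c _ (gE.ix_lt q)).1]⟩
theorem leaf {g : Co0} {σ : M24} (hg : Pm g σ) {need : List ℕ} {S : List (List ℕ)} {M : List (ℕ × ℕ)}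
    (hM : Rl σ M) (h : D.leaf need S M = true) : ∃ w ∈ S, Mp (D.ev w).1.1 8388608 8388608 ∧
      ∀ i ∈ need, Mp ((D.ev w).1.1 * g) (oc i) (oc i) := by
  obtain ⟨h1, h2⟩ := cnd_false_iff.1 h
  obtain ⟨w, a, b⟩ := anyL_iff.1 h2
  obtain ⟨b1, b2⟩ := cnd_false_iff.1 b
  refine ⟨w, a, H.mp (by norm_num) b2, fun i hi => ?_⟩
  obtain ⟨x, c, d⟩ := anyL_iff.1 (allL_iff.1 h1 i hi)
  have := hg.mp (hM x c).1
  rw [(hM x c).2.2, gE.ix_pt _ (hM x c).2.1] at this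
  exact Nat.eq_of_beq_eq_true d ▸ this.mul (H.mp (oc_lt _) (allL_iff.1 b1 x c))
theorem nf2 (hw : ∀ w, Cm (D.ev w).1.1 (D.lt 0).1.1) {g : Co0} (hc : Cm g (D.lt 0).1.1)
    (ho : Mp g 8388608 8388608) : ∃ e ∈ D.S2, ∃ u ∈ D.S3, ∃ w ∈ D.S4,
      (D.ev (e.2 ++ u ++ w)).1.1 * g ∈ Subgroup.center Co0 := by
  obtain ⟨hp, ρ, r1, r2⟩ := H.rep
  obtain ⟨σ, c, rfl⟩ := mono_of ho
  obtain ⟨x, hx, e⟩ := (mem_code_iff _).1 c.2
  have s := hc.sign r1
  have l := Nat.xor_lt_two_pow (cw_lt hx) (r2.push_lt (cw x))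
  rw [← e, r2.smul_ofMask, ← gE.ofMask_xor, ← gE.ofMask_zero, ← gE.ofMask_full,
    gE.ofMask_inj l (by norm_num), gE.ofMask_inj l (by norm_num)] at s
  have a := allLt_iff.1 H.h2 x hx
  have s' : orr (Nat.beq (Nat.xor (cw x) (push 24 5 D.r (cw x))) 0)
      (Nat.beq (Nat.xor (cw x) (push 24 5 D.r (cw x))) 16777215) = true :=
    orr_iff.2 (s.imp Nat.beq_eq.to_iff.2 Nat.beq_eq.to_iff.2)
  rw [Cr.frN_eq, Cr.frN_eq, s', cnd_true] at a
  obtain ⟨e2, a1, a2⟩ := anyL_iff.1 a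
  simp only [c2a, cnd_false_iff, Bool.and_eq_true, orr_iff] at a2
  obtain ⟨a2, ⟨a3, a4⟩, a5⟩ := a2
  have b : Mp (Lee.mono σ c) (oc (gE.ix (σ⁻¹.1 (gE.pt D.p)))) (cp e2.1) := ⟨_, cl_xi (gE.ix_lt _), by
    rw [mono_eq, mul_smul, mh_xi _ (gE.ix_lt _), gE.pt_ix, ← Equiv.Perm.mul_apply, ← Subgroup.coe_mul,
      mul_inv_cancel, Subgroup.coe_one, Equiv.Perm.one_apply, gE.ix_pt _ hp]
    exact a2.elim (fun h => sx_spec a3 hp h e) fun h => sx_spec a3 hp h e⟩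
  have o2 := ho.mul (H.mp (by norm_num) a5)
  obtain ⟨σ2, p2⟩ := pm_of o2 (gE.ix_lt _) hp (b.mul (H.mp b.lt a4))
  have k2 := (hw e2.2).mul hc
  obtain ⟨M, m1, m2⟩ := Rl.dfs r2 (k2.perm p2 r1) (fun _ h => absurd h List.not_mem_nil) H.h3
  obtain ⟨u, u1, u2, u3⟩ := H.leaf p2 m1 m2
  have o3 := o2.mul u2
  have f3 := u3 _ List.mem_cons_self
  obtain ⟨σ3, p3⟩ := pm_of o3 hp hp f3
  have k3 := ((hw u).mul k2).perm p3 r1
  obtain ⟨M', n1, n2⟩ := Rl.dfs r2 k3 (Rl.ext r2 k3 (fun _ h => absurd h List.not_mem_nil) _ hp hp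
    (p3.eq hp hp f3)) H.h4
  obtain ⟨w, w1, w2, w3⟩ := H.leaf p3 n1 n2
  refine ⟨e2, a1, u, u1, w, w1, ?_⟩
  rw [ev_append, ev_append, Ht_mul_fst, Ht_mul_fst, mul_assoc, mul_assoc]
  exact center_of (o3.mul w2) fun i hi => w3 i (List.mem_range.2 hi)
theorem nf1 {g : Co0} (hc : Cm g (D.lt 0).1.1) : ∃ w, Mp ((D.ev w).1.1 * g) 8388608 8388608 := by
  have o : Mp (D.lt 0).1.1 8388608 8388608 := by
    have := H.hX
    simp only [cX, Bool.and_eq_true] at this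
    have e : D.ev [0] = D.lt 0 := one_mul _
    exact e ▸ H.mp (by norm_num) this.1.1
  obtain ⟨m, a, b⟩ := H.fixW (x := g • e8 none)
    ((hc _).symm.trans (cl_smul g ((o.app (cl_e8 none)).trans (cl_e8 none).symm)))
  have f : cl (g⁻¹ • g • e8 none) = 2 ^ 23 := by rw [inv_smul_smul, cl_e8]
  have c := allLt_iff.1 H.h1 m a
  simp only [Cr.frN_eq, ← b, c1a, orr_iff, Bool.and_eq_true, Nat.beq_eq] at c
  rcases c with c | c | c | c
  · have := (frame_sing f).2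
    rw [hq_spec, c, sgn_true] at this
    norm_num at this
  · exact ⟨_, Mp.mul ⟨_, cl_e8 none, rfl⟩ (H.mp (cl_lt _) c)⟩
  · exact absurd c (frame_sing f).1
  · exact absurd ((cl_rq c.1).trans c.2) (not_short f (rq_mem c.1))

end OK
end LD
end Cfsg.Agent.Mo.Lc
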