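import Cfsg.Agent.Mo.Lc2
import Cfsg.Agent.Mo.Fin3

/-! Local analysis: the facts needed for the simplicity of the centraliser of two involutions. -/

set_option autoImplicit false

namespace Cfsg.Agent.Mo.Lc

open H4 H5 H5.Lee CoG

/-- a normal subgroup of `T` containing the central involution -/
structure Nz (T N : Subgroup GG) : Prop where
  le : N ≤ T
  cj : ∀ k ∈ T, ∀ n ∈ N, k * n * k⁻¹ ∈ N
  z : zz ∈ N

namespace LD
variable {D : LD} {T N : Subgroup GG}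

theorem zzT (hT : ∀ g, g ∈ T ↔ g ∈ GM tau ∧ D.C g) : zz ∈ T :=
  (hT _).2 ⟨HH_le_GM zz_mem_HH, (zz_comm _).symm, (zz_comm _).symm⟩
theorem nzT (hT : ∀ g, g ∈ T ↔ g ∈ GM tau ∧ D.C g) : Nz T T :=
  ⟨le_rfl, fun _ a _ b => mul_mem (mul_mem a b) (inv_mem a), zzT hT⟩
theorem del_mem (hN : Nz T N) {K w : List ℕ} (hK : ∀ a ∈ K, rho (D.lt a) ∈ N)
    (hw : ∀ a ∈ w, rho (D.lt a) ∈ T) : rho (D.ev (del K w)) ∈ T ∧ rho (D.ev w) * (rho (D.ev (del K w)))⁻¹ ∈ N := by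
  induction w with
  | nil => exact ⟨ev_mem (w := []) fun _ h => absurd h List.not_mem_nil, by
      rw [show del K [] = [] from rfl, mul_inv_cancel]; exact one_mem _⟩
  | cons a w ih =>
    obtain ⟨h1, h2⟩ := ih fun b hb => hw b (by simp [hb])
    rw [show del K (a :: w) = cnd (memL K a) (del K w) (a :: del K w) from rfl]
    cases e : memL K a
    · rw [cnd_false, ev, ev, map_mul, map_mul, mul_inv_rev, mul_assoc, mul_inv_cancel_left]
      exact ⟨mul_mem h1 (hw a (by simp)), h2⟩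
    · refine ⟨h1, ?_⟩
      have := mul_mem h2 (hN.cj _ h1 _ (hK a (memL_iff.1 e)))
      rwa [← mul_assoc, ← mul_assoc, inv_mul_cancel_right, ← map_mul] at this
theorem ev_rep {g : ℕ} {w : List ℕ} (h : allL w (Nat.beq g) = true) : D.ev w = D.lt g ^ w.length := by
  replace h := allL_iff.1 h
  induction w with
  | nil => rfl
  | cons a w ih =>
    rw [ev, ih fun b hb => h b (by simp [hb]), List.length_cons, pow_succ,
      Nat.eq_of_beq_eq_true (h a (by simp))]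

namespace OK
variable (H : D.OK) (hT : ∀ g, g ∈ T ↔ g ∈ GM tau ∧ D.C g)
include H hT
theorem tauT : tau ∈ T := (hT _).2 ⟨tau_mem, H.tauC⟩
theorem gT {a : ℕ} (h : 4 ≤ a) : rho (D.lt a) ∈ T := by
  by_cases b : a < D.LT.length
  · have := H.hG (D.le a) (by
      rw [le, List.getD_eq_getElem _ _ b]
      exact List.mem_drop_iff_getElem.2 ⟨a - 4, by omega, by simp [h]⟩)
    refine (hT _).2 ⟨HH_le_GM (rho_mem _), ?_, ?_⟩
    · simpa only [wd_append, map_mul, lt] using (eqW_spec this.1).symm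
    · simpa only [wd_append, map_mul, lt] using (eqW_spec this.2).symm
  · rw [lt_out (not_lt.1 b)]; exact one_mem _
theorem bsN (hN : Nz T N) {k : ℕ} (hk : k < 8) : ∃ y ∈ clS N hN.z, cl y = D.bs k := by
  have := allLt_iff.1 H.hB k hk
  rw [Bool.and_eq_true] at this
  obtain ⟨f, e⟩ := conj_xq (D.ev (D.BW.getD k [])) (ug 23) false
  refine ⟨_, xq_mem_iff hN.z f false (e ▸ hN.cj _ (ev_mem fun a ha => H.gT hT
    (Nat.le_of_ble_eq_true (allL_iff.1 this.1 a ha))) _ (tau_tz ▸ hN.cj _ (H.tauT hT) _ hN.z)), ?_⟩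
  exact (H.mp (by norm_num) this.2).app (cl_ug (by norm_num))
theorem q1 (hN : Nz T N) {m : ℕ} {x : Λ} (h : cl x = H4.lin D.BT 8 m) (f : Bool) : xq x f ∈ N := by
  refine xq_mem_iff hN.z false f ?_
  suffices ∀ n ≤ 8, ∀ x, cl x = H4.lin D.BT n m → x ∈ clS N hN.z from this 8 le_rfl x h
  intro n hn
  induction n with
  | zero =>
    intro x h
    change xq x false ∈ N
    rw [xq_cl (h.trans cl_zero.symm), xq_zero]; exact one_mem _
  | succ n ih =>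
    intro x h
    rw [lin_succ, bit_eq] at h
    split_ifs at h
    · obtain ⟨y, a, b⟩ := H.bsN hT hN (show n < 8 from hn)
      refine (AddSubgroup.add_mem_cancel_right _ a).1 (ih (by omega) _ ?_)
      rw [cl_add, h, b, one_mul, bs, Nat.xor_xor_cancel_right]
    · exact ih (by omega) x (by rwa [zero_mul, Nat.xor_zero] at h)
omit hT in
theorem fixX {x : Λ} {f : Bool} (h : xq x f * D.X = D.X * xq x f) : ∃ m < 256, cl x = H4.lin D.BT 8 m := by
  obtain ⟨g, e⟩ := conj_xq (D.lt 0) x f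
  rw [H.lt0, ← h, mul_inv_cancel_right] at e
  exact H.fixW (xq_eq_iff.1 e).1.symm
theorem qN (hN : Nz T N) {g : GG} (hg : g ∈ QQ) (h : g * D.X = D.X * g) : g ∈ N := by
  obtain ⟨x, f, rfl⟩ := hg
  obtain ⟨m, -, e⟩ := H.fixX h
  exact H.q1 hT hN e f
theorem yN (hN : Nz T N) {a : ℕ} (h0 : a ≠ 0) (h : a < 4) : rho (D.lt a) ∈ N := by
  have := allLt_iff.1 H.hY a h
  simp only [orr_iff, Nat.beq_eq, h0, false_or, Bool.and_eq_true] at this
  obtain ⟨⟨⟨a1, a2⟩, a3⟩, a4⟩ := this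
  obtain ⟨x, f, b, c⟩ := qc_spec a2
  have := hN.cj _ (H.tauT hT) _ (H.q1 hT hN (b.trans a4) f)
  rwa [← c, tau_alW a1, mul_inv_cancel_right, eqL_spec a3] at this
theorem ltT {a : ℕ} (h0 : a ≠ 0) : rho (D.lt a) ∈ T :=
  (Nat.lt_or_ge a 4).elim (H.yN hT (nzT hT) h0) (H.gT hT)
theorem evX (w : List ℕ) : rho (D.ev w) * D.X = D.X * rho (D.ev w) :=
  Subgroup.mem_centralizer_singleton_iff.1 (ev_mem fun a _ => Subgroup.mem_centralizer_singleton_iff.2 (by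
    by_cases h : a = 0
    · rw [h, H.lt0]
    · exact ((hT _).1 (H.ltT hT h)).2.X))
theorem evC (w : List ℕ) : Cm (D.ev w).1.1 (D.lt 0).1.1 := cm_of (H.lt0.symm ▸ H.evX hT w)
/-- the centraliser of `X` in `HH` is generated by the letters and its part in `Q` -/
theorem ch {V : Subgroup GG} (h1 : ∀ a, rho (D.lt a) ∈ V) (h2 : ∀ g ∈ QQ, g * D.X = D.X * g → g ∈ V)
    {g : GG} (hg : g ∈ HH) (h : g * D.X = D.X * g) : g ∈ V := by
  obtain ⟨p, rfl⟩ := hg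
  have c : Cm p.1.1 (D.lt 0).1.1 := cm_of (H.lt0.symm ▸ h)
  obtain ⟨w, a⟩ := H.nf1 c
  obtain ⟨e, -, u, -, v, -, b⟩ := H.nf2 (H.evC hT) ((H.evC hT w).mul c) a
  rw [← mul_assoc, ← Ht_mul_fst, ← ev_append, ← Ht_mul_fst, ← rho_eq_xq_iff, map_mul] at b
  refine (V.mul_mem_cancel_left (ev_mem fun a _ => h1 a)).1 (h2 _ b ?_)
  rw [mul_assoc, h, ← mul_assoc, H.evX hT, mul_assoc]
theorem nd (x : Λ) (f : Bool) (h : xq x f ∈ T) (h0 : cl x ≠ 0) :
    ∃ y, xq y false ∈ T ∧ dotInt (y : V) (x : V) / 8 % 2 = 1 := by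
  obtain ⟨m, a, b⟩ := H.fixX ((hT _).1 h).2.X
  have c := allLt_iff.1 H.hN m a
  simp only [Cr.frN_eq, ← b, orr_iff, Nat.beq_eq, h0, false_or, anyLt_iff] at c
  obtain ⟨k, c1, c2⟩ := c
  obtain ⟨y, d1, d2⟩ := H.bsN hT (nzT hT) c1
  exact ⟨y, d1, odd_of_hq (d2.symm ▸ c2)⟩
theorem f7 (p : Ht) (h : rho p ∈ T) (hp : ∀ x, xq x false ∈ T → cl (p.1.1 • x) = cl x) : rho p ∈ QQ := by
  have hc := ((hT _).1 h).2
  obtain ⟨e, e1, u, u1, w, w1, b⟩ := H.nf2 (H.evC hT) (cm_of (H.lt0.symm ▸ hc.X)) ⟨ug 23, cl_ug (by norm_num),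
    (hp _ (tau_tz ▸ (nzT hT).cj _ (H.tauT hT) _ (zzT hT))).trans (cl_ug (by norm_num))⟩
  have k := fun y => (congrArg cl (mul_smul _ _ y)).symm.trans (cl_center b y)
  have a := allL_iff.1 (frcK_eq _ _ ▸ allL_iff.1 (allL_iff.1 H.h7 e e1) u u1) w w1
  have s : lmap (D.apw w) (lmap (D.apw (e.2 ++ u)) D.Bs) = D.Bs := by
    rw [lmap_eq, lmap_eq, List.map_map]
    refine (List.map_congr_left fun c hc => ?_).trans (List.map_id _)
    rw [Bs, lmap_eq] at hc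
    obtain ⟨i, hi, rfl⟩ := List.mem_map.1 hc
    obtain ⟨y, d1, d2⟩ := H.bsN hT (nzT hT) (List.mem_range.1 hi)
    rw [Function.comp, ← apw_append, ← d2]
    exact ((H.apw _ (cl_lt y)).app (hp y d1)).symm.trans (k y)
  rw [s, N2.eqL_refl, cnd_true, orr_iff] at a
  rcases a with a | a
  · exact (rho_eq_xq_iff p).2 ((Subgroup.mul_mem_cancel_left _ (H.triv a)).1 b)
  · obtain ⟨i, hi, a⟩ := anyLt_iff.1 a
    have t : Tb (Mo.wd D.t1).1.1 D.T1 := by
      have := H.h0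
      simp only [c0, Bool.and_eq_true] at this
      exact tbC_spec this.1.1.2
    refine absurd a (by
      rw [Bool.not_eq_true, Bool.not_eq_false', LD.mp, Nat.beq_eq, ← cl_xi hi, ← t,
        ← (H.apw _ (cl_lt _)).app rfl, ← (H.apw _ (cl_lt _)).app rfl, ← t,
        ← smul_inv_smul p.1.1 (xi i), ← cl_smul _ (cm_of hc.1 _), k]
      exact (cl_smul _ (k _)).symm)
theorem relN (hN : Nz T N) {K w : List ℕ} {g : ℕ} (hK : ∀ a ∈ K, rho (D.lt a) ∈ N) (h1 : D.triv w = true)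
    (h2 : allL w (Nat.ble 1) = true) (h3 : allL (del K w) (Nat.beq g) = true) :
    rho (D.lt g) ^ (del K w).length ∈ N := by
  have := (del_mem hN hK fun a ha => H.ltT hT
    (Nat.ne_of_gt (Nat.le_of_ble_eq_true (allL_iff.1 h2 a ha)))).2
  rwa [N.mul_mem_cancel_left (H.qN hT hN ((rho_eq_xq_iff _).2 (H.triv h1)) (H.evX hT w)), inv_mem_iff,
    ev_rep h3, map_pow] at this
theorem rlN (hN : Nz T N) (L : List (ℕ × List ℕ × List ℕ)) {K : List ℕ} (hK : ∀ a ∈ K, rho (D.lt a) ∈ N) :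
    ∀ a ∈ D.rl L K, rho (D.lt a) ∈ N := by
  induction L generalizing K with
  | nil => exact hK
  | cons e L ih =>
    rw [show D.rl (e :: L) K = cnd (D.rok K e) (D.rl L (e.1 :: K)) K from rfl]
    cases a : D.rok K e
    · exact hK
    · simp only [rok, Bool.and_eq_true, Nat.beq_eq] at a
      obtain ⟨⟨⟨⟨⟨⟨a1, a2⟩, a3⟩, a4⟩, a5⟩, a6⟩, a7⟩ := a
      refine ih (List.forall_mem_cons.2 ⟨?_, hK⟩)
      have := pow_gcd_mem _ _ (H.relN hT hN hK a1 a3 a5) (H.relN hT hN hK a2 a4 a6)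
      rwa [a7, pow_one] at this
theorem ltN (hN : Nz T N) {a : ℕ} (h0 : a ≠ 0) : rho (D.lt a) ∈ N := by
  by_cases b : a < D.LT.length
  · have := allLt_iff.1 ((frcK_eq _ _).symm.trans H.hR) a b
    simp only [orr_iff, Nat.beq_eq, h0, false_or, memL_iff] at this
    exact H.rlN hT hN _ (fun c hc => H.yN hT hN (by rintro rfl; simp at hc) (by
      simp only [List.mem_cons, List.not_mem_nil, or_false] at hc; omega)) a this
  · rw [lt_out (not_lt.1 b)]; exact one_mem _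
theorem chN (hN : Nz T N) {g : GG} (hg : g ∈ HH) (h : g * D.X = D.X * g) : ∃ k : ℤ, g * D.X ^ k ∈ N := by
  have c : ∀ {n}, n ∈ N → ∀ k : ℤ, Commute n (D.X ^ k) := fun hn k =>
    Commute.zpow_right ((hT _).1 (hN.le hn)).2.X k
  let V : Subgroup GG :=
    { carrier := {g | ∃ k : ℤ, g * D.X ^ k ∈ N}
      one_mem' := ⟨0, by rw [zpow_zero, mul_one]; exact one_mem _⟩
      mul_mem' := fun {a b} ⟨k, ha⟩ ⟨j, hb⟩ => ⟨j + k, by
        have := mul_mem ha hb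
        rwa [mul_assoc, ← (c hb k).eq, mul_assoc, ← zpow_add, ← mul_assoc] at this⟩
      inv_mem' := fun {a} ⟨k, ha⟩ => ⟨-k, by
        have := (c (inv_mem ha) k).eq
        rw [mul_inv_rev, mul_inv_cancel_left] at this
        rw [← this, zpow_neg, mul_inv_cancel_right, ← mul_inv_rev]
        exact inv_mem ha⟩ }
  refine H.ch hT (V := V) (fun a => ?_) (fun g a b => ⟨0, ?_⟩) hg h
  · by_cases h0 : a = 0
    · exact ⟨-1, by rw [h0, H.lt0, zpow_neg_one, mul_inv_cancel]; exact one_mem _⟩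
    · exact ⟨0, by rw [zpow_zero, mul_one]; exact H.ltN hT hN h0⟩
  · rw [zpow_zero, mul_one]; exact H.qN hT hN a b
omit H in
theorem X_eq (h1 : rho (Mo.wd D.t1) * rho (Mo.wd D.t1) = 1) (h2 : rho (Mo.wd D.t2) * rho (Mo.wd D.t2) = 1) {l : ℕ}
    (hl : D.X ^ (2 * l + 1) = 1) {k : ℤ} (h : D.X ^ k ∈ T) : D.X ^ k = 1 := by
  have d := ((hT _).1 h).2.1
  have e : rho (Mo.wd D.t1) * D.X * (rho (Mo.wd D.t1))⁻¹ = D.X⁻¹ := by
    rw [X, ← mul_assoc, h1, one_mul, mul_inv_rev, inv_eq_of_mul_eq_one_right h2]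
  have f : D.X ^ k * D.X ^ k = 1 := by
    rw [← eq_inv_iff_mul_eq_one, ← inv_zpow, ← e, conj_zpow, ← d, mul_inv_cancel_right]
  have g : (D.X ^ k) ^ (2 * l + 1) = 1 := by rw [← zpow_natCast, zpow_comm, zpow_natCast, hl, one_zpow]
  rwa [pow_succ, pow_mul, sq, f, one_pow, one_mul] at g
theorem gen (h1 : rho (Mo.wd D.t1) * rho (Mo.wd D.t1) = 1) (h2 : rho (Mo.wd D.t2) * rho (Mo.wd D.t2) = 1) {l : ℕ}
    (hl : D.X ^ (2 * l + 1) = 1) (N : Subgroup GG) (h : N ≤ T) (hc : ∀ k ∈ T, ∀ n ∈ N, k * n * k⁻¹ ∈ N)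
    (hz : zz ∈ N) : T ⊓ HH ≤ N := by
  rintro g ⟨a, b⟩
  obtain ⟨k, c⟩ := H.chN hT ⟨h, hc, hz⟩ b ((hT _).1 a).2.X
  rwa [X_eq hT h1 h2 hl ((T.mul_mem_cancel_left a).1 (h c)), mul_one] at c
theorem chT {g : GG} (hg : g ∈ HH) (h : g * D.X = D.X * g) : ∃ k : ℤ, g * D.X ^ k ∈ T := H.chN hT (nzT hT) hg h

end OK
end LD
end Cfsg.Agent.Mo.Lc
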