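import Cfsg.Agent.Mo.Lc3

/-! Local analysis: the involutions centralising `zz` and both involutions are conjugate to `zz`. -/

set_option autoImplicit false

namespace Cfsg.Agent.Mo.Lc

open H4 H5 H5.Lee CoG

structure ID where
  a : List ℕ
  TA : ℕ
  FL : List ℕ
  CJ : List (ℕ × List ℕ × Bool)

theorem xq_sq' (x : Λ) (f : Bool) : xq x f * xq x f = xq 0 (hq (cl x) (cl x)) := by
  rw [xq_mul (g := hq (cl x) (cl x)) (by rw [sgn_mul_self, one_mul, hq_spec])]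
  exact xq_cl (by rw [cl_add, Nat.xor_self, cl_zero]) _
theorem sq_iff {x : Λ} {f : Bool} : xq x f * xq x f = 1 ↔ hq (cl x) (cl x) = false := by
  rw [xq_sq', ← xq_zero, xq_eq_iff, and_iff_right rfl]
theorem lin_lt (T n m : ℕ) : H4.lin T n m < 2 ^ 24 := by
  induction n with
  | zero => exact Nat.two_pow_pos _
  | succ n ih =>
    rw [lin_succ, bit_eq]
    refine Nat.xor_lt_two_pow ih ?_
    split_ifs
    · rw [one_mul]; exact img_lt _ _ _
    · rw [zero_mul]; exact Nat.two_pow_pos _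
theorem sq_center {p : Ht} {e : Bool} (h : rho p * rho p = xq 0 e) : p.1.1 * p.1.1 ∈ Subgroup.center Co0 :=
  (rho_eq_xq_iff (p * p)).1 ⟨0, e, by rw [map_mul, h]⟩
theorem tau_zw : tau * (zz * xq (ug 23) false) * tau⁻¹ = zz := by
  have h1 : xq (ug 23) false * xq (ug 23) false = 1 := by
    rw [← tau_tz, show tau * zz * tau⁻¹ * (tau * zz * tau⁻¹) = tau * (zz * zz) * tau⁻¹ by group, zz_sq]; group
  rw [show tau * (zz * xq (ug 23) false) * tau⁻¹ = tau * zz * tau⁻¹ * (tau * xq (ug 23) false * tau⁻¹) by group,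
    tau_tz, tau_tx, ← mul_assoc, zz_comm' (xq_mem_HH _ _), mul_assoc, h1, mul_one]
/-- conjugate to `zz` in `T` -/
def Cz (T : Subgroup GG) (g : GG) : Prop := ∃ k ∈ T, k * g * k⁻¹ = zz
theorem Cz.of {T : Subgroup GG} {k g : GG} (hk : k ∈ T) (h : Cz T (k * g * k⁻¹)) : Cz T g := by
  obtain ⟨l, a, b⟩ := h
  exact ⟨l * k, mul_mem a hk, by rw [← b]; group⟩
theorem conj_sq {G : Type*} [Group G] {k g : G} (h : g * g = 1) : k * g * k⁻¹ * (k * g * k⁻¹) = 1 := by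
  rw [show k * g * k⁻¹ * (k * g * k⁻¹) = k * (g * g) * k⁻¹ by group, h, mul_one, mul_inv_cancel]
theorem conj_ne {G : Type*} [Group G] {k g : G} (h : g ≠ 1) : k * g * k⁻¹ ≠ 1 := fun e => h (by
  rwa [mul_inv_eq_one, mul_eq_left] at e)

namespace LD
variable (D : LD) (I : ID)
def cQ1 (c : ℕ) (w : List ℕ) : Bool := orr (hq c c) (orr (Nat.beq c 0)
  (D.mp w c 8388608 && allL w (Nat.ble 1) && memL I.FL c))
def cQ : Bool := allLt 256 fun m => Cr.frN (H4.lin D.BT 8 m) fun c => D.cQ1 I c (D.S1.getD m (0, [])).2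
def cF : Bool := allL I.FL (fun c => !(hq c c) && !(Nat.beq c 0) && anyLt 256 fun m => Nat.beq (H4.lin D.BT 8 m) c) &&
  decide I.FL.Nodup && Nat.beq (I.FL.length % 2) 1
def cK (T : ℕ) : Bool := allLt 256 fun m => Cr.frN (H4.lin D.BT 8 m) fun c => cnd (Nat.beq (H4.lin T 24 c) c)
  (anyLt 256 fun n => Cr.frN (H4.lin D.BT 8 n) fun d => Nat.beq (Nat.xor d (H4.lin T 24 d)) c) true
def cj1 (w v : List ℕ) (T c : ℕ) : Bool := D.mp (w ++ v) c (H4.lin T 24 (D.apw v c))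
def cj (w v : List ℕ) (T : ℕ) : Bool :=
  allL v (Nat.ble 1) && D.cj1 w v T 8388608 && allLt 24 fun i => D.cj1 w v T (oc i)
def key (w : List ℕ) : ℕ := D.apw w (D.bs 1) + 16777216 * (D.apw w (D.bs 2) + 16777216 * D.apw w (D.bs 3))
def cI1 (w : List ℕ) : Bool := cnd (eqL (lmap (D.apw (w ++ w)) D.Bs.tail) D.Bs.tail) (orr (D.triv w) (orr (D.ncm w)
  (Cr.frN (D.key w) fun k => anyL I.CJ fun e =>
    cnd (Nat.beq e.1 k) (D.cj w e.2.1 (cnd e.2.2 I.TA (D.le 1).2)) false))) true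
def cI : Bool := allL D.S2 fun e => allL D.S3 fun u => allL D.S4 fun w => frcK (e.2 ++ u ++ w) (D.cI1 I)
structure OK2 : Prop where
  hQ : D.cQ I = true
  hF : D.cF I = true
  hK : D.cK I.TA = true ∧ D.cK (D.le 1).2 = true
  hI : D.cI I = true
  hA : tbC I.a I.TA = true ∧ D.cG (I.a, 0) ∧ eqW (I.a ++ I.a) [24] = true
  hY : hq (qc (D.YN.getD 1 ([], 0)).1) (qc (D.YN.getD 1 ([], 0)).1) = false

theorem cG_mem {D : LD} {T : Subgroup GG} (hT : ∀ g, g ∈ T ↔ g ∈ GM tau ∧ D.C g) {t : List ℕ × ℕ} (h : D.cG t) :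
    rho (Mo.wd t.1) ∈ T := by
  refine (hT _).2 ⟨HH_le_GM (rho_mem _), ?_, ?_⟩
  · simpa only [wd_append, map_mul] using (eqW_spec h.1).symm
  · simpa only [wd_append, map_mul] using (eqW_spec h.2).symm
theorem OK.ncm {D : LD} (H : D.OK) {p : Ht} (hc : D.C (rho p)) {w : List ℕ}
    (k : ∀ y, cl ((D.ev w).1.1 • p.1.1 • y) = cl y) : ¬ D.ncm w = true := fun a => by
  obtain ⟨i, hi, a⟩ := anyLt_iff.1 a
  have t : Tb (Mo.wd D.t1).1.1 D.T1 := by
    have := H.h0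
    simp only [c0, Bool.and_eq_true] at this
    exact tbC_spec this.1.1.2
  refine absurd a (by
    rw [Bool.not_eq_true, Bool.not_eq_false', LD.mp, Nat.beq_eq, ← cl_xi hi, ← t,
      ← (H.apw _ (cl_lt _)).app rfl, ← (H.apw _ (cl_lt _)).app rfl, ← t,
      ← smul_inv_smul p.1.1 (xi i), ← cl_smul _ (cm_of hc.1 _), k]
    exact (cl_smul _ (k _)).symm)

namespace OK
variable {D I} {T : Subgroup GG} (H : D.OK) (hT : ∀ g, g ∈ T ↔ g ∈ GM tau ∧ D.C g) (J : D.OK2 I)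
include H hT J
theorem frame {x : Λ} {f : Bool} (h : xq x f ∈ T) (h1 : xq x f * xq x f = 1) (h0 : cl x ≠ 0) :
    cl x ∈ I.FL ∧ ∃ w, rho (D.ev w) ∈ T ∧ Mp (D.ev w).1.1 (cl x) 8388608 := by
  obtain ⟨m, a, b⟩ := H.fixX ((hT _).1 h).2.X
  have c := allLt_iff.1 J.hQ m a
  simp only [Cr.frN_eq, ← b, cQ1, orr_iff, sq_iff.1 h1, Nat.beq_eq, h0, Bool.and_eq_true, memL_iff,
    Bool.false_eq_true, false_or] at c
  exact ⟨c.2, _, ev_mem fun a ha => H.ltT hT (Nat.ne_of_gt (Nat.le_of_ble_eq_true (allL_iff.1 c.1.2 a ha))),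
    H.mp (cl_lt _) c.1.1⟩
theorem czQ {g : GG} (h : g ∈ T) (hq : g ∈ QQ) (h1 : g * g = 1) (h0 : g ≠ 1) : Cz T g := by
  obtain ⟨x, f, rfl⟩ := hq
  by_cases a : cl x = 0
  · exact ⟨1, one_mem _, by rw [one_mul, inv_one, mul_one, (xq_of_cl0 a f).resolve_left h0]⟩
  obtain ⟨-, w, b, c⟩ := H.frame hT J h h1 a
  obtain ⟨e, d⟩ := conj_xq (D.ev w) x f
  refine Cz.of b ?_
  rw [d, xq_cl ((c.app rfl).trans (cl_ug (k := 23) (by norm_num)).symm)]
  cases e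
  · exact ⟨_, inv_mem (H.tauT hT), by rw [← tau_tz]; group⟩
  · exact ⟨_, H.tauT hT, by rw [← tau_zw, zz_mul_xq]; rfl⟩
theorem fixF {p : Ht} (h : rho p ∈ T) (h1 : rho p * rho p = 1) :
    ∃ x, xq x false ∈ T ∧ xq x false * xq x false = 1 ∧ cl x ≠ 0 ∧ cl (p.1.1 • x) = cl x := by
  classical
  have := J.hF
  simp only [cF, Bool.and_eq_true, allL_iff, anyLt_iff, Nat.beq_eq, decide_eq_true_eq, Bool.not_eq_true',
    ← Bool.not_eq_true (Nat.beq _ _)] at this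
  obtain ⟨⟨a, b⟩, c⟩ := this
  have e : ∀ c ∈ I.FL.toFinset, ∃ x, cl x = c ∧ xq x false ∈ T ∧ xq x false * xq x false = 1 ∧ cl x ≠ 0 :=
    fun c hc => by
      obtain ⟨⟨a1, a2⟩, m, -, a3⟩ := a c (List.mem_toFinset.1 hc)
      obtain ⟨x, rfl⟩ := cl_surj (a3 ▸ lin_lt _ _ _ : c < 2 ^ 24)
      exact ⟨x, rfl, H.q1 hT (nzT hT) a3.symm _, sq_iff.2 a1, a2⟩
  choose s s1 s2 s3 s4 using e
  by_contra n
  have z := cl_center (sq_center (h1.trans xq_zero.symm))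
  have m : ∀ c hc, cl (p.1.1 • s c hc) ∈ I.FL.toFinset := fun c hc => by
    obtain ⟨f, d⟩ := conj_xq p (s c hc) false
    refine List.mem_toFinset.2 (H.frame hT J (d ▸ (nzT hT).cj _ h _ (s2 c hc)) (d ▸ conj_sq (s3 c hc))
      fun e => s4 c hc ?_).1
    rw [← z, mul_smul, cl_smul _ (e.trans cl_zero.symm), smul_zero', cl_zero]
  have := Finset.sum_involution (f := fun _ => (1 : ZMod 2)) (fun c hc => cl (p.1.1 • s c hc))
    (fun _ _ => by decide) (fun c hc _ e => n ⟨_, s2 c hc, s3 c hc, s4 c hc, e.trans (s1 c hc).symm⟩) m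
    fun c hc => by rw [cl_smul _ (s1 _ _), ← mul_smul, z, s1]
  rw [Finset.sum_const, List.toFinset_card_of_nodup b, nsmul_eq_mul, mul_one, ZMod.natCast_eq_zero_iff] at this
  omega
omit J in
theorem coset {A : Ht} {TA : ℕ} {e : Bool} (hA : rho A ∈ T) (ht : Tb A.1.1 TA) (hk : D.cK TA = true)
    (h2 : rho A * rho A = xq 0 e) {g : GG} (h : g ∈ T) (h1 : g * g = 1) (hq : g * (rho A)⁻¹ ∈ QQ) :
    ∃ k ∈ T, k * g * k⁻¹ = rho A ∨ k * g * k⁻¹ = zz * rho A := by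
  obtain ⟨y, f, hy⟩ := hq
  obtain ⟨m, a, b⟩ := H.fixX ((hT _).1 (hy ▸ mul_mem h (inv_mem hA))).2.X
  obtain rfl := eq_mul_of_mul_inv_eq hy
  obtain ⟨f1, e1⟩ := conj_xq A y f
  obtain ⟨f2, e2⟩ := ex_xq_mul y (A.1.1 • y) f f1
  obtain ⟨f3, e3⟩ := ex_xq_mul (y + A.1.1 • y) 0 f2 e
  rw [← e2, ← e1, ← h2, show xq y f * (rho A * xq y f * (rho A)⁻¹) * (rho A * rho A) =
    xq y f * rho A * (xq y f * rho A) by group, h1, ← xq_zero, xq_eq_iff, add_zero, cl_add, cl_zero, eq_comm,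
    Nat.xor_eq_zero_iff, ht] at e3
  have c := allLt_iff.1 hk m a
  rw [Cr.frN_eq, ← b, ← e3.1, Nat.beq_refl, cnd_true, anyLt_iff] at c
  obtain ⟨n, -, c⟩ := c
  obtain ⟨u, hu⟩ := cl_surj (lin_lt D.BT 8 n)
  rw [Cr.frN_eq, ← hu, ← ht, Nat.beq_eq] at c
  obtain ⟨f4, e4⟩ := exists_xq_inv u false
  obtain ⟨f5, e5⟩ := conj_xq A u f4
  obtain ⟨f6, e6⟩ := ex_xq_mul u (A.1.1 • u) false f5
  rw [xq_cl ((cl_add _ _).trans c), ← e5, ← e4] at e6
  refine ⟨(xq u false)⁻¹, inv_mem (H.q1 hT (nzT hT) hu _), ?_⟩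
  by_cases k : f = f6
  · exact Or.inl (by rw [k, ← e6]; group)
  · refine Or.inr ?_
    rw [Bool.eq_not.2 k, ← zz_mul_xq, ← e6, ← mul_assoc, ← mul_assoc, zz_comm' (inv_mem (xq_mem_HH _ _))]
    group
theorem cz {g : GG} (h : g ∈ T) (hh : g ∈ HH) (h1 : g * g = 1) (h0 : g ≠ 1) : Cz T g := by
  obtain ⟨p, rfl⟩ := hh
  obtain ⟨x, x1, x2, x3, x4⟩ := H.fixF hT J h h1
  obtain ⟨-, w0, b, c⟩ := H.frame hT J x1 x2 x3
  refine Cz.of b ?_
  have o : Mp (D.ev w0 * p * (D.ev w0)⁻¹).1.1 8388608 8388608 := ⟨_, c.app rfl, by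
    rw [Ht_mul_fst, Ht_mul_fst, Ht_inv_fst, mul_smul, mul_smul, inv_smul_smul]; exact c.app x4⟩
  replace h := (nzT hT).cj _ b _ h
  replace h1 := conj_sq (k := rho (D.ev w0)) h1
  replace h0 := conj_ne (k := rho (D.ev w0)) h0
  rw [← map_inv, ← map_mul, ← map_mul] at h h1 h0 ⊢
  generalize D.ev w0 * p * (D.ev w0)⁻¹ = p at h h1 h0 o
  have hc := ((hT _).1 h).2
  obtain ⟨e, e1, u, u1, w, w1, b⟩ := H.nf2 (H.evC hT) (cm_of (H.lt0.symm ▸ hc.X)) o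
  have a := (frcK_eq _ _).symm.trans (allL_iff.1 (allL_iff.1 (allL_iff.1 J.hI e e1) u u1) w w1)
  generalize e.2 ++ u ++ w = w at a b
  have z := sq_center (h1.trans xq_zero.symm)
  have k := fun y => (congrArg cl (mul_smul _ _ y)).symm.trans (cl_center b y)
  have k2 : ∀ y, cl ((D.ev w).1.1 • y) = cl (p.1.1 • y) := fun y => by
    rw [← k (p.1.1 • y), ← mul_smul p.1.1, cl_smul _ (cl_center z y)]
  have s : lmap (D.apw (w ++ w)) D.Bs.tail = D.Bs.tail := by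
    rw [lmap_eq]
    refine (List.map_congr_left fun c hc => ?_).trans (List.map_id _)
    have hc := List.mem_of_mem_tail hc
    rw [Bs, lmap_eq] at hc
    obtain ⟨i, -, rfl⟩ := List.mem_map.1 hc
    obtain ⟨y, d⟩ := cl_surj (img_lt 24 D.BT i)
    rw [bs, ← d, ← (H.apw _ (cl_lt y)).app rfl, ev_append, Ht_mul_fst, mul_smul, cl_smul _ (k2 y), k, id]
  rw [cI1, s, N2.eqL_refl, cnd_true, orr_iff, orr_iff] at a
  rcases a with a | a | a
  · exact H.czQ hT J h ((rho_eq_xq_iff p).2 ((Subgroup.mul_mem_cancel_left _ (H.triv a)).1 b)) h1 h0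
  · exact absurd a (H.ncm hc k)
  obtain ⟨⟨_, v, t⟩, -, a⟩ := anyL_iff.1 a
  have key : ∀ {A : Ht} {TA : ℕ}, Tb A.1.1 TA → D.cj w v TA = true → rho (D.ev v) ∈ T ∧
      rho (D.ev v) * rho p * (rho (D.ev v))⁻¹ * (rho A)⁻¹ ∈ QQ := fun {A TA} ht a => by
    simp only [cj, Bool.and_eq_true, allLt_iff] at a
    have q : ∀ c < 2 ^ 24, D.cj1 w v TA c = true → Mp ((A.1.1 * (D.ev v).1.1)⁻¹ * ((D.ev v).1.1 * p.1.1)) c c :=
      fun c hc a => by
        obtain ⟨y, rfl⟩ := cl_surj hc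
        refine ⟨y, rfl, ?_⟩
        have := (H.mp hc a).app rfl
        rw [← (H.apw _ hc).app rfl, ← ht, ev_append, Ht_mul_fst, mul_smul, cl_smul _ (k2 y), ← mul_smul,
          ← mul_smul] at this
        rw [mul_smul, cl_smul _ this, inv_smul_smul]
    refine ⟨ev_mem fun b hb => H.ltT hT (Nat.ne_of_gt (Nat.le_of_ble_eq_true (allL_iff.1 a.1.1 b hb))), ?_⟩
    rw [← map_inv, ← map_inv, ← map_mul, ← map_mul, ← map_mul]
    refine (rho_eq_xq_iff _).2 ?_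
    have := Subgroup.Normal.conj_mem inferInstance _ (center_of (q _ (by norm_num) a.1.2)
      fun i hi => q _ (oc_lt i) (a.2 i hi)) (A.1.1 * (D.ev v).1.1)
    rwa [mul_inv_cancel_left, mul_inv_rev, ← mul_assoc] at this
  cases t
  · obtain ⟨a1, a2⟩ := key (H.tb 1) (cnd_false_iff.1 a).2
    have y := allLt_iff.1 H.hY 1 (by norm_num)
    simp only [orr_iff, Nat.beq_eq, one_ne_zero, false_or, Bool.and_eq_true] at y
    obtain ⟨x, f, y1, y2⟩ := qc_spec y.1.1.2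
    have y3 : rho (D.lt 1) = tau * xq x f * tau⁻¹ := by
      rw [← y2, tau_alW y.1.1.1, mul_inv_cancel_right, eqL_spec y.1.2, lt]
    have c1 := (nzT hT).cj _ a1 _ h
    obtain ⟨l, l1, l2⟩ := H.coset hT (H.ltT hT one_ne_zero) (H.tb 1) J.hK.2 (e := false)
      (by rw [y3, conj_sq (sq_iff.2 (y1.symm ▸ J.hY)), xq_zero]) c1 (conj_sq h1) a2
    have t := inv_mem (H.tauT hT)
    refine Cz.of a1 (Cz.of l1 (Cz.of t (H.czQ hT J ((nzT hT).cj _ t _ ((nzT hT).cj _ l1 _ c1)) ?_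
      (conj_sq (conj_sq (conj_sq h1))) (conj_ne (conj_ne (conj_ne h0))))))
    rcases l2 with l2 | l2 <;> rw [l2, y3]
    · rw [show ∀ a, tau⁻¹ * (tau * a * tau⁻¹) * tau⁻¹⁻¹ = a from fun a => by group]
      exact xq_mem x f
    · rw [← tau_zw, show ∀ a b, tau⁻¹ * (tau * a * tau⁻¹ * (tau * b * tau⁻¹)) * tau⁻¹⁻¹ = a * b from
        fun a b => by group]
      exact mul_mem (mul_mem (xq_mem _ _) (xq_mem _ _)) (xq_mem x f)
  · obtain ⟨a1, a2⟩ := key (tbC_spec J.hA.1) (cnd_false_iff.1 a).2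
    have s : rho (Mo.wd I.a) * rho (Mo.wd I.a) = zz := by
      rw [← map_mul, ← wd_append, eqW_spec J.hA.2.2, Mo.wd, Mo.wd, one_mul, hT_z]
    obtain ⟨l, -, l2⟩ := H.coset hT (cG_mem hT J.hA.2.1) (tbC_spec J.hA.1) J.hK.1 s
      ((nzT hT).cj _ a1 _ h) (conj_sq h1) a2
    have := conj_sq (k := l) (conj_sq (k := rho (D.ev v)) h1)
    refine absurd ?_ zz_ne1
    rcases l2 with l2 | l2 <;> rw [l2] at this
    · rwa [s] at this
    · rwa [mul_assoc, ← mul_assoc (rho _), zz_comm, ← mul_assoc, ← mul_assoc, zz_sq, one_mul, s] at this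

end OK
end LD
end Cfsg.Agent.Mo.Lc
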