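import Cfsg.Agent.Mo.LcI

/-! The centraliser of an element of type `3C`. -/

set_option autoImplicit false

namespace Cfsg.Agent.Mo

open H4 H5 H5.Lee Lc Ct MulAction

structure C3 {G : Type*} [Group G] (M T : Subgroup G) (A : G → Prop) (z t x : G) : Prop where
  fin : Finite M
  mem : ∀ g, g ∈ T ↔ g ∈ M ∧ Commute g t ∧ Commute g x
  zT : z ∈ T
  z2 : z * z = 1
  xM : x ∈ M
  x3 : orderOf x = 3
  tx : t * x * t⁻¹ = x⁻¹
  At : A t
  AM : ∀ u, A u → u ∈ M ∧ u * u = 1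
  Ac : ∀ g ∈ M, ∀ u, A u → A (g * u * g⁻¹)
  a : ∀ g ∈ M, Commute g z → Commute g x → ∃ k : ℤ, g * x ^ k ∈ T
  b : ∀ g ∈ T, Commute g z → g * g = 1 → g ≠ 1 → ∃ k ∈ T, k * g * k⁻¹ = z
  c : ¬ A (t * z)
  c' : ¬ A z
  d : ∃ e : Fin 4 → G, Function.Injective e ∧ ∀ i, e i ∈ T ∧ e i * e i = 1 ∧ e i ≠ 1 ∧ Commute (e i) z ∧
    ∀ j, Commute (e i) (e j)

namespace C3
variable {G : Type*} [Group G] {M T : Subgroup G} {A : G → Prop} {z t x : G} (h : C3 M T A z t x)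
include h
theorem x3k (k : ℤ) : x ^ k * x ^ k * x ^ k = 1 := by
  rw [← zpow_add, ← zpow_add, ← orderOf_dvd_iff_zpow_eq_one, h.x3]; omega
theorem txk (k : ℤ) : t * x ^ k = x ^ (-k) * t := by
  rw [← mul_inv_eq_iff_eq_mul, ← conj_zpow, h.tx, inv_zpow']
theorem cj (k : ℤ) : x ^ k * t * (x ^ k)⁻¹ = t * x ^ k := by
  rw [← neg_neg k, ← h.txk, neg_neg, zpow_neg, mul_assoc, ← mul_inv_rev,
    inv_eq_of_mul_eq_one_right (h.x3k k)]
theorem xT {k : ℤ} (a : x ^ k ∈ T) : x ^ k = 1 := by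
  have := h.cj k
  rwa [((h.mem _).1 a).2.1.eq, mul_inv_cancel_right, eq_comm, mul_eq_left] at this
theorem inv_mul {u v : G} (a : u * x * u⁻¹ = x⁻¹) (b : v * x * v⁻¹ = x⁻¹) : Commute (u * v) x := by
  rw [Commute, SemiconjBy, ← mul_inv_eq_iff_eq_mul, show u * v * x * (u * v)⁻¹ = u * (v * x * v⁻¹) * u⁻¹ by group,
    b, ← conj_inv, a, inv_inv]
theorem one0 {u : G} (h1 : A u) (h2 : u * x * u⁻¹ = x⁻¹) (h3 : Commute u z) : ∃ k : ℤ, u = t * x ^ k := by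
  have tz := ((h.mem _).1 h.zT).2
  obtain ⟨tM, t2⟩ := h.AM t h.At
  have cz := tz.1.symm.mul_left h3
  obtain ⟨k, c⟩ := h.a _ (mul_mem tM (h.AM u h1).1) cz (h.inv_mul h.tx h2)
  replace cz := cz.mul_left (tz.2.symm.zpow_left k)
  have e : u = t * x ^ (-k) * (t * u * x ^ k) := by
    rw [mul_assoc t, ← (((h.mem _).1 c).2.2.zpow_right (-k)).eq, zpow_neg, mul_inv_cancel_right, ← mul_assoc, t2,
      one_mul]
  generalize t * u * x ^ k = c0 at c cz e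
  obtain ⟨-, c1, c2⟩ := (h.mem _).1 c
  by_cases c3 : c0 = 1
  · exact ⟨-k, by rw [e, c3, mul_one]⟩
  have c4 : c0 * c0 = 1 := by
    have := (h.AM u h1).2
    rwa [e, ← (c1.mul_right (c2.zpow_right (-k))).symm.mul_mul_mul_comm, ← h.cj, _root_.conj_mul, t2, mul_one,
      mul_inv_cancel, one_mul] at this
  obtain ⟨l, l1, l2⟩ := h.b _ c cz c4 c3
  obtain ⟨l3, l4, l5⟩ := (h.mem _).1 l1
  have := h.Ac _ (inv_mem (zpow_mem h.xM (-k))) _ (h.Ac _ l3 _ h1)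
  rw [e, ← _root_.conj_mul (b := l), l2, (l4.mul_right (l5.zpow_right _)).eq, mul_inv_cancel_right, ← h.cj, ← _root_.conj_mul,
    (tz.2.symm.zpow_left (-k)).inv_left.eq, mul_inv_cancel_right] at this
  exact absurd (by simpa only [inv_inv, ← mul_assoc, inv_mul_cancel, one_mul, inv_mul_cancel_right] using this) h.c
theorem inv_conj {u l : G} (hl : l ∈ T) (h2 : u * x * u⁻¹ = x⁻¹) : l * u * l⁻¹ * x * (l * u * l⁻¹)⁻¹ = x⁻¹ := by
  have c := ((h.mem _).1 hl).2.2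
  rw [show l * u * l⁻¹ * x * (l * u * l⁻¹)⁻¹ = l * (u * (l⁻¹ * x * l) * u⁻¹) * l⁻¹ by group, c.inv_left.eq,
    inv_mul_cancel_right, h2, c.inv_right.eq, mul_inv_cancel_right]
theorem fix {l : G} (hl : l ∈ T) (k : ℤ) : l * (t * x ^ k) * l⁻¹ = t * x ^ k := by
  rw [(((h.mem _).1 hl).2.1.mul_right (((h.mem _).1 hl).2.2.zpow_right k)).eq, mul_inv_cancel_right]
theorem one {u w : G} (h1 : A u) (h2 : u * x * u⁻¹ = x⁻¹) (hw : ∃ l ∈ T, l * w * l⁻¹ = z) (h3 : Commute u w) :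
    ∃ k : ℤ, u = t * x ^ k := by
  obtain ⟨l, a, rfl⟩ := hw
  exact (h.one0 (h.Ac _ ((h.mem _).1 a).1 _ h1) (h.inv_conj a h2) (h3.conj l)).imp fun k e => by
    rwa [← h.fix a, mul_left_inj, mul_right_inj] at e
theorem two0 {u : G} (h1 : A u) (h2 : u * x * u⁻¹ = x⁻¹) :
    (∃ k : ℤ, u = t * x ^ k) ∨ ∃ k : ℤ, Commute u (t * x ^ k * z) := by
  haveI := h.fin
  obtain ⟨uM, u2⟩ := h.AM u h1
  obtain ⟨zM, -, zx⟩ := (h.mem _).1 h.zT
  have yM := mul_mem uM zM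
  have ui := inv_eq_of_mul_eq_one_right u2
  have zi := inv_eq_of_mul_eq_one_right h.z2
  have e1 : ∀ j : ℕ, u * (u * z) ^ j * u⁻¹ = ((u * z) ^ j)⁻¹ := fun j => by
    rw [← conj_pow, ← inv_pow, ← mul_assoc, u2, one_mul, mul_inv_rev, zi]
  have e2 : ∀ j : ℕ, (u * z) ^ (2 * j + 1) * z = (u * z) ^ j * u * ((u * z) ^ j)⁻¹ := fun j => by
    rw [← e1, ← mul_assoc, ← mul_assoc, mul_assoc _ u u, u2, mul_one, ui, ← pow_add, ← two_mul, pow_succ, mul_assoc,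
      mul_assoc, h.z2, mul_one]
  have p : 0 < orderOf (u * z) := orderOf_pos (⟨_, yM⟩ : M) |>.trans_eq (Subgroup.orderOf_mk _ _)
  obtain ⟨m, e | e⟩ := Nat.even_or_odd' (orderOf (u * z))
  swap
  · have := h.Ac _ (pow_mem yM m) _ h1
    rw [← e2, ← e, pow_orderOf_eq_one, one_mul] at this
    exact absurd this h.c'
  have w2 : (u * z) ^ m * (u * z) ^ m = 1 := by rw [← pow_add, ← two_mul, ← e, pow_orderOf_eq_one]
  have w1 : (u * z) ^ m ≠ 1 := pow_ne_one_of_lt_orderOf (by omega) (by omega)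
  have wu : Commute u ((u * z) ^ m) := by
    rw [Commute, SemiconjBy, ← mul_inv_eq_iff_eq_mul, e1, inv_eq_of_mul_eq_one_right w2]
  have wz : Commute ((u * z) ^ m) z := by
    have := wu.symm.inv_right.mul_right ((Commute.refl (u * z)).pow_left m)
    rwa [inv_mul_cancel_left] at this
  have y1 : u * z * x * (u * z)⁻¹ = x⁻¹ := by
    rw [mul_assoc u, zx.eq, mul_inv_rev, ← mul_assoc, ← mul_assoc, mul_inv_cancel_right, h2]
  have y2 : ∀ j : ℕ, Commute ((u * z) ^ (2 * j)) x := fun j => by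
    rw [pow_mul, sq]; exact (h.inv_mul y1 y1).pow_left j
  obtain ⟨j, rfl | rfl⟩ := Nat.even_or_odd' m
  · obtain ⟨k, c⟩ := h.a _ (pow_mem yM _) wz (y2 j)
    have := mul_mem c c
    rw [← ((y2 j).zpow_right k).mul_mul_mul_comm, w2, one_mul, ← zpow_add] at this
    have k3 := h.x3k k
    rw [← zpow_add, h.xT this, one_mul] at k3
    rw [k3, mul_one] at c
    exact Or.inl (h.one h1 h2 (h.b _ c wz w2 w1) wu)
  · obtain ⟨k, c⟩ := h.one0 (e2 j ▸ h.Ac _ (pow_mem yM j) _ h1) (by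
      rw [pow_succ, mul_assoc _ _ z, mul_assoc u, h.z2, mul_one, show ∀ a, a * u * x * (a * u)⁻¹ =
        a * (u * x * u⁻¹) * a⁻¹ from fun a => by group, h2, (y2 j).inv_right.eq, mul_inv_cancel_right])
      (wz.mul_left (Commute.refl z))
    exact Or.inr ⟨k, by rwa [← c, mul_assoc, h.z2, mul_one]⟩
theorem three {u : G} (h1 : A u) (h2 : u * x * u⁻¹ = x⁻¹) : ∃ k : ℤ, u = t * x ^ k := by
  obtain ⟨e, e1, e2⟩ := h.d
  by_contra n
  have : ∀ i, ∃ k : ℤ, Commute u (t * x ^ k * e i) := fun i => by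
    obtain ⟨l, a, b⟩ := h.b _ (e2 i).1 (e2 i).2.2.2.1 (e2 i).2.1 (e2 i).2.2.1
    rcases h.two0 (h.Ac _ ((h.mem _).1 a).1 _ h1) (h.inv_conj a h2) with ⟨k, c⟩ | ⟨k, c⟩
    · exact absurd ⟨k, by rwa [← h.fix a, mul_left_inj, mul_right_inj] at c⟩ n
    · exact ⟨k, by rwa [← h.fix a, ← b, _root_.conj_mul, Commute.conj_iff] at c⟩
  choose k hk using this
  obtain ⟨i, j, a, b⟩ := Fintype.exists_ne_map_eq_of_card_lt (fun i => (k i : ZMod 3)) (by simp)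
  have c : x ^ k i = x ^ k j := zpow_eq_zpow_iff_modEq.2 (by
    rw [h.x3]; exact (ZMod.intCast_eq_intCast_iff _ _ _).1 b)
  have d := (hk i).inv_right.mul_right (hk j)
  rw [c, mul_inv_rev, mul_assoc, inv_mul_cancel_left, inv_eq_of_mul_eq_one_right (e2 i).2.1] at d
  refine n (h.one h1 h2 (h.b _ (mul_mem (e2 i).1 (e2 j).1) ((e2 i).2.2.2.1.mul_left (e2 j).2.2.2.1) ?_
    fun f => a (e1 ?_)) d)
  · rw [← ((e2 i).2.2.2.2 j).mul_mul_mul_comm, (e2 i).2.1, (e2 j).2.1, one_mul]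
  · exact mul_left_cancel ((e2 i).2.1.trans f.symm)
theorem cent {g : G} (hg : g ∈ M) (c : Commute g x) : ∃ k : ℤ, g * (x ^ k)⁻¹ ∈ T := by
  obtain ⟨k, e⟩ := h.three (h.Ac g hg t h.At) (by
    rw [show g * t * g⁻¹ * x * (g * t * g⁻¹)⁻¹ = g * (t * (g⁻¹ * x * g) * t⁻¹) * g⁻¹ by group, c.inv_left.eq,
      inv_mul_cancel_right, h.tx, c.inv_right.eq, mul_inv_cancel_right])
  refine ⟨k, (h.mem _).2 ⟨mul_mem hg (inv_mem (zpow_mem h.xM k)), ?_,
    c.mul_left ((Commute.refl x).zpow_left k).inv_left⟩⟩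
  rw [(c.zpow_right k).inv_right.eq, Commute, SemiconjBy, ← mul_inv_eq_iff_eq_mul,
    show ∀ a, a * g * t * (a * g)⁻¹ = a * (g * t * g⁻¹) * a⁻¹ from fun a => by group, e, ← h.cj]
  group
theorem card : Nat.card (M ⊓ Subgroup.centralizer {x} : Subgroup G) = Nat.card T * 3 := by
  rw [← h.x3, ← Nat.card_zpowers, ← Nat.card_prod]
  refine (Nat.card_congr (Equiv.ofBijective (fun p : T × Subgroup.zpowers x => ⟨p.1 * p.2,
    mul_mem ((h.mem _).1 p.1.2).1 ((Subgroup.zpowers_le.2 h.xM) p.2.2), mul_mem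
      (Subgroup.mem_centralizer_singleton_iff.2 ((h.mem _).1 p.1.2).2.2) (Subgroup.zpowers_le.2
        (Subgroup.mem_centralizer_singleton_iff.2 rfl) p.2.2)⟩) ⟨?_, ?_⟩)).symm
  · rintro ⟨a, _, i, rfl⟩ ⟨b, _, j, rfl⟩ e
    have e1 : (a : G) * x ^ i = b * x ^ j := congrArg Subtype.val e
    have e2 : x ^ (i - j) = (a : G)⁻¹ * b := by rw [zpow_sub, eq_inv_mul_iff_mul_eq, ← mul_assoc, e1]; group
    have e3 := h.xT (e2 ▸ mul_mem (inv_mem a.2) b.2)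
    obtain rfl : a = b := Subtype.ext (inv_mul_eq_one.1 (e2.symm.trans e3))
    exact Prod.ext rfl (Subtype.ext (mul_left_cancel e1))
  · rintro ⟨g, a, b⟩
    obtain ⟨k, c⟩ := h.cent a (Subgroup.mem_centralizer_singleton_iff.1 b)
    exact ⟨⟨⟨_, c⟩, _, k, rfl⟩, Subtype.ext (inv_mul_cancel_right _ _)⟩
end C3

/-- commuting involutions of axes -/
theorem comm_axes (H : dat.OK) {a w : VV} {s u : GG} (h1 : Inv tau (rq 1) a s) (h2 : Inv tau (rq 1) w u)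
    (c : s * u = u * s) : s = u ∨ (∃ m ∈ GM tau, m * s * m⁻¹ = xq (rq 1) false ∧ m * (s * u) * m⁻¹ = zz) ∨
      ∃ b, Inv tau (rq 1) b (s * u) := by
  have Hy := H.hyp2.hyp
  obtain ⟨g, hg, rfl, rfl⟩ := h1
  obtain ⟨k, hk, d, a, b⟩ := H.hyp2.canon (XX_smul (inv_mem hg) h2.mem)
  have k1 : k ∈ KK tau (rq 1) := H.hyp2.K0_le hk
  have m : k * g⁻¹ ∈ GM tau := mul_mem k1.1 (inv_mem hg)
  have e : k * g⁻¹ * (g * xq (rq 1) false * g⁻¹) * (k * g⁻¹)⁻¹ = xq (rq 1) false := by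
    conv_rhs => rw [← Hy.conjK k1]
    group
  have i := h2.smul m
  rw [mul_smul, a] at i
  have v := (valK H d).2
  rw [← a, ip_conj (H.hyp2.le_Aut k1.1) (Hy.conjK k1), ga_inv H hg,
    (Hy.smul_iff h2 (mul_mem (mul_mem hg Hy.tK.1) (inv_mem hg))).2 c] at v
  obtain ⟨l, hl, rfl⟩ := h2.mem
  rw [Hy.ip_smul hl, ip_ax_self Hy.hβ] at v
  have v' : ga d = 256 := Int.cast_injective (α := ℝ) (by push_cast; linarith)
  obtain rfl | rfl | rfl := (by decide : ∀ d, ga d = 256 → d = 0 ∨ d = 1 ∨ d = 3) d v'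
  · have := ((Hy.inv_iff i (Hy.inv_ax Hy.hβ false)).1 rfl).trans e.symm
    exact Or.inl (by rwa [mul_left_inj, mul_right_inj, eq_comm] at this)
  · refine Or.inr (Or.inl ⟨_, m, e, ?_⟩)
    rw [← _root_.conj_mul, e, (Hy.inv_iff i (Hy.inv_ax Hy.hβ true)).1
      (H.hyp2.wc0 _ ((valK H 1).1.trans (by norm_num [al]))), show xq (rq 1) true = zz * xq (rq 1) false from
      (zz_mul_xq _ false).symm, ← mul_assoc, zz_comm' (xq_mem_HH _ _), mul_assoc, xq_sq Hy.hβ, mul_one]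
  · have := (Hy.inv_ax Hy.hγ' eT).smul (inv_mem m)
    rw [← Hy.tri, ← e, ← (Hy.inv_iff i (Hy.inv_ax Hy.hγ false)).1
      (H.hyp2.wc4 _ ((valK H 3).1.trans (by rw [show al 3 = 32 from rfl]; norm_num))), _root_.conj_mul] at this
    exact Or.inr (Or.inr ⟨_, by
      rwa [show ∀ a b : GG, a⁻¹ * (a * b * a⁻¹) * a⁻¹⁻¹ = b from fun a b => by group] at this⟩)

def E4 : Fin 4 → List ℕ := ![[24], [23], [23, 24], [1, 6, 7, 8, 9, 10, 16]]
theorem e4a : ∀ i, eqW (E4 i ++ t31) (t31 ++ E4 i) = true ∧ eqW (E4 i ++ t32) (t32 ++ E4 i) = true := by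
  decide +kernel
theorem e4b : ∀ i, eqW (E4 i ++ E4 i) [] = true ∧ neW (E4 i) [] = true ∧ ∀ j,
    eqW (E4 i ++ E4 j) (E4 j ++ E4 i) = true ∧ (i = j ∨ neW (E4 i) (E4 j) = true) := by decide +kernel

theorem th_c3 (H : dat.OK) : C3 (GM tau) (CT t31 t32) (fun u => ∃ a, Inv tau (rq 1) a u) zz (rho (Mo.wd t31))
    (rho (Mo.wd t31) * rho (Mo.wd t32)) := by
  have Hy := H.hyp2.hyp
  have hT := isCT t31 t32
  obtain ⟨a1, a2, i1, i2, -⟩ := th_axes H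
  have s1 := i1.sq Hy
  have c' : ¬ ∃ a, Inv tau (rq 1) a zz := fun ⟨_, g, hg, _, e⟩ =>
    Hy.not_conj (inv_mem hg) false (by rw [← e]; group)
  refine ⟨Hy.finite, fun g => (hT g).trans (and_congr_right fun _ => and_congr_right fun c => ?_), hT.zz, zz_sq,
    HH_le_GM (mul_mem (rho_mem _) (rho_mem _)), order_t3 H, ?_, ⟨_, i1⟩, ?_, fun g hg u ⟨_, i⟩ => ⟨_, i.smul hg⟩,
    fun g hg c d => th_CH hT (Hy.memH hg c) d, fun g hg c => th_inv hT hg (Hy.memH (hT.le hg) c), ?_, c', ?_⟩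
  · rw [Commute, SemiconjBy, ← mul_assoc, c, mul_assoc, mul_assoc, mul_right_inj]
  · rw [← mul_assoc, s1, one_mul, mul_inv_rev, inv_eq_of_mul_eq_one_right (i2.sq Hy)]
  · rintro _ ⟨_, i⟩
    refine ⟨?_, i.sq Hy⟩
    obtain ⟨g, hg, -, rfl⟩ := i
    exact mul_mem (mul_mem hg Hy.tK.1) (inv_mem hg)
  · rintro ⟨_, i⟩
    have := comm_axes H i1 i (by rw [mul_assoc, zz_t])
    rw [← mul_assoc, s1, one_mul] at this
    obtain e | ⟨m, m1, m2, m3⟩ | e := this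
    · exact zz_ne1 (left_eq_mul.1 e)
    · obtain ⟨p, e⟩ := inv_mem (Hy.memH m1 (mul_inv_eq_iff_eq_mul.1 m3))
      obtain ⟨f, e2⟩ := conj_xq p (rq 1) false
      rw [e, ← m2, show m⁻¹ * (m * rho (Mo.wd t31) * m⁻¹) * m⁻¹⁻¹ = rho (Mo.wd t31) by group] at e2
      have t : tbC t31 thD.T1 = true := by
        have := th_ok.h0
        simp only [LD.c0, Bool.and_eq_true] at this
        exact this.1.1.2
      have := tbC_spec t (ug 0)
      rw [cl_center ((rho_eq_xq_iff _).1 ⟨_, _, e2⟩), cl_ug (by norm_num)] at this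
      exact absurd this (by decide +kernel)
    · exact c' e
  · refine ⟨fun i => rho (Mo.wd (E4 i)), fun i j e => ((e4b i).2.2 j).2.resolve_right fun n => neW_spec n e,
      fun i => ⟨LD.cG_mem (D := thD) hT (t := (E4 i, 0)) (e4a i), ?_, ?_, zz_comm' (rho_mem _), fun j => ?_⟩⟩
    · simpa only [wd_append, map_mul, Mo.wd, map_one] using eqW_spec (e4b i).1
    · simpa only [Mo.wd, map_one] using neW_spec (e4b i).2.1
    · simpa only [wd_append, map_mul, Commute, SemiconjBy] using (eqW_spec ((e4b i).2.2 j).1).symm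
/-- the centraliser of the element of order 3 -/
theorem card_c3 (H : dat.OK) : Nat.card (GM tau ⊓ Subgroup.centralizer {rho (Mo.wd t31) * rho (Mo.wd t32)} :
    Subgroup GG) = 272237831663616000 := by rw [(th_c3 H).card, (isCT _ _).card3 H]

end Cfsg.Agent.Mo
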