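import Cfsg.Agent.Mo.LcA
import Cfsg.Agent.Mo.LcTh
import Cfsg.Agent.Mo.LcHn

/-! The centralisers of the pairs of types 3C and 5A are simple. -/

set_option autoImplicit false

namespace Cfsg.Agent.Mo

open H4 H5 H5.Lee Lc

theorem th_simple (H : dat.OK) {T : Subgroup GG} (h : IsCT t31 t32 T) : IsSimpleGroup T := by
  obtain ⟨a1, a2, i1, i2, -, o, -⟩ := th_axes H
  exact simple_of_loc H.hyp2.hyp h.le h.zz h.tau3 (th_ok.nd h) (th_ok.f7 h)
    (th_ok.gen h (i1.sq H.hyp2.hyp) (i2.sq H.hyp2.hyp) (l := 1) o)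
theorem hn_simple (H : dat.OK) {T : Subgroup GG} (h : IsCT t51 t52 T) : IsSimpleGroup T := by
  obtain ⟨a1, a2, i1, i2, -, o, -⟩ := hn_axes H
  exact simple_of_loc H.hyp2.hyp h.le h.zz h.tau5 (hn_ok.nd h) (hn_ok.f7 h)
    (hn_ok.gen h (i1.sq H.hyp2.hyp) (i2.sq H.hyp2.hyp) (l := 2) o)
theorem isTh_CT (H : dat.OK) : IsTh (CT t31 t32) := ⟨th_simple H (isCT _ _), (isCT _ _).card3 H⟩
theorem isHN_CT (H : dat.OK) : IsHN (CT t51 t52) := ⟨hn_simple H (isCT _ _), (isCT _ _).card5 H⟩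
theorem th_B (H : dat.OK) : ∃ K : Subgroup (KK tau (rq 1) ⧸ Subgroup.center (KK tau (rq 1))), IsTh K :=
  th_in_B H (isCT _ _) (th_simple H (isCT _ _))
theorem hn_B (H : dat.OK) : ∃ K : Subgroup (KK tau (rq 1) ⧸ Subgroup.center (KK tau (rq 1))), IsHN K :=
  hn_in_B H (isCT _ _) (hn_simple H (isCT _ _))
/-- the centraliser in `HH` of the element of order 3 -/
theorem th_CH {T : Subgroup GG} (h : IsCT t31 t32 T) {g : GG} (hg : g ∈ HH)
    (c : g * (rho (Mo.wd t31) * rho (Mo.wd t32)) = rho (Mo.wd t31) * rho (Mo.wd t32) * g) :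
    ∃ k : ℤ, g * (rho (Mo.wd t31) * rho (Mo.wd t32)) ^ k ∈ T := th_ok.chT h hg c

end Cfsg.Agent.Mo
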