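import Cfsg.Agent.Mo.Ns2
import Cfsg.Agent.Mo.Ns3D

/-! The triples of short vectors through the vector at position 1. -/

set_option autoImplicit false

namespace Cfsg.Agent.Mo

open H4 H5 H5.Lee Matrix

namespace N3

def kM1 (x : Cr.Q) : ℕ := Nat.land VM (Nat.land x.c (Nat.xor (ones 98304) (Nat.lor x.a x.b)))
/-- the positions with `x 0 - x 1 = ± 4` -/
def kM : ℕ := kM1 (Cr.stp 15 (Cr.toQ (XP 1)) (Cr.toQ (XP 0)))
theorem tb_kM {q : ℕ} (h : VM.testBit q = true) (e : xc q 0 - xc q 1 = 4 ∨ xc q 0 - xc q 1 = -4) :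
    kM.testBit q = true := by
  have h1 := Cr.stp_v 15 (Cr.toQ (XP 1)) (Cr.toQ (XP 0)) q
  have h2 := Cr.toQ_v (i := 0) (by norm_num) q
  have h3 := Cr.toQ_v (i := 1) (by norm_num) q
  have h4 : (Cr.stp 15 (Cr.toQ (XP 1)) (Cr.toQ (XP 0))).v q % 8 = 4 := by push_cast at h1; omega
  rw [kM]
  generalize Cr.stp 15 (Cr.toQ (XP 1)) (Cr.toQ (XP 0)) = x at h4
  simp only [kM1, tb_and, tb_xor, tb_or, tb_ones, h, VM_lt h, decide_true]
  unfold Cr.Q.v at h4
  revert h4
  generalize x.a.testBit q = a, x.b.testBit q = b, x.c.testBit q = c, x.d.testBit q = d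
  revert a b c d
  decide

theorem chk_w : wf 98304 PR = true := by decide +kernel
theorem chk_v : Nat.beq (Nat.land kM (runB PR VM)) kM = true := by decide +kernel
theorem chk_c : eqL (lmap (Nat.land kM) (lmap (runB PR) CPL))
    (lmap (Nat.land kM) (xsel (ones 98304) CPL 958464)) = true := by decide +kernel
theorem vm1 : VM.testBit 1 = true := by decide +kernel
theorem cp1 : cp 1 = 958464 := by decide +kernel
theorem xc1 : ∀ i < 24, xc 1 i = if i = 0 then 4 else if i = 1 then -4 else 0 := by decide +kernel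

theorem partner {q : ℕ} (h : VM.testBit q = true) (k : kM.testBit q = true) :
    VM.testBit (src PR q) = true ∧ cp (src PR q) = cp q ^^^ 958464 := by
  constructor
  · have := congrArg (·.testBit q) (Nat.eq_of_beq_eq_true chk_v)
    simpa only [tb_and, k, Bool.true_and, tb_runB chk_w] using this
  · have := congrArg (vn · q) (eqL_spec chk_c)
    have e : ∀ xs, vn (lmap (Nat.land kM) xs) q = vn xs q := fun xs =>
      vn_map _ _ q q fun x _ => by rw [tb_and, k, Bool.true_and]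
    rw [e, e, vn_map _ _ q _ fun x _ => tb_runB chk_w x q, (xsel_spec _ _ _ _).2, tb_ones,
      decide_eq_true (VM_lt h), if_pos rfl, CPL_len] at this
    exact this

theorem dot1 {q : ℕ} (h : VM.testBit q = true) :
    dotInt (rq 1 : V) (rq q : V) = 4 * (xc q 0 - xc q 1) := by
  rw [dotInt, sum_pt, Finset.sum_congr rfl fun i hi => by
    rw [rq_val vm1, rq_val h, gE.ix_pt i (Finset.mem_range.1 hi), xc1 i (Finset.mem_range.1 hi)]]
  simp [Finset.sum_range_succ]
  ring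

def sM : ℕ := Nat.xor (Nat.xor (Nat.xor (Nat.xor (CPL.getD 1 0) (CPL.getD 3 0)) (CPL.getD 5 0))
  (CPL.getD 6 0)) (CPL.getD 7 0)
theorem sg_sM (q : ℕ) : sg 234 (cp q % 4096) = sgn (sM.testBit q) := by
  have e : ∀ k < 12, (cp q % 4096).testBit k = (CPL.getD k 0).testBit q := fun k hk => by
    rw [show 4096 = 2 ^ 12 from rfl, Nat.testBit_mod_two_pow, decide_eq_true hk, Bool.true_and, cp,
      (Cr.vn_bits _ _).2]
  rw [sg, Finset.prod_congr rfl fun k hk => by rw [e k (Finset.mem_range.1 hk)]]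
  simp only [sM, tb_xor, sgn_xor, Finset.prod_range_succ, Finset.prod_range_zero]
  simp [sgn, show ∀ k < 12, Nat.testBit 234 k = decide (k = 1 ∨ k = 3 ∨ k = 5 ∨ k = 6 ∨ k = 7) by decide]

def chk2 (E0 E1 F0 F1 : ℕ) : Bool :=
  Nat.beq (Nat.land kM (Nat.lor (Nat.land E0 (sel sM F1 F0)) (Nat.land E1 (sel sM F0 F1)))) 0

end N3

/-- the test on the masks of the positions with inner product `5 / 8` -/
def n66M (E0 E1 : ℕ) : Bool := N3.chk2 E0 E1 (runB N3.PR E0) (runB N3.PR E1)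
theorem n66M_spec {v : Amb} {E0 E1 : ℕ}
    (h0 : ∀ q, VM.testBit q = true → ip (ax (rq q) false) v = 5 / 8 → E0.testBit q = true)
    (h1 : ∀ q, VM.testBit q = true → ip (ax (rq q) true) v = 5 / 8 → E1.testBit q = true)
    (h : n66M E0 E1 = true) :
    ∀ s ∈ L2, ∀ t ∈ L2, ∀ f g : Bool, xq (rq 1) false * xq s f = xq t g →
      ¬ (ip (ax s f) v = 5 / 8 ∧ ip (ax t g) v = 5 / 8) := by
  rintro s hs t ht f g e ⟨a, b⟩
  obtain ⟨q, hq, c⟩ := rq_surj hs
  have c' := (cl_rq hq).trans c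
  obtain ⟨g', hg⟩ := exists_sgn_mul (rq 1) s false f
  rw [xq_mul hg, xq_eq_iff, cl_add] at e
  obtain ⟨e, rfl⟩ := e
  have k : N3.kM.testBit q = true := N3.tb_kM hq (by
    have := short_add (rq_mem N3.vm1) (rq_mem hq) ht (c' ▸ e)
    rw [N3.dot1 hq] at this
    omega)
  obtain ⟨p1, p2⟩ := N3.partner hq k
  rw [cl_rq N3.vm1, N3.cp1, ← c] at e hg
  rw [← (ax_inj (rq_mem hq) hs).2 ⟨c', rfl⟩] at a
  rw [← (ax_inj (rq_mem p1) ht).2 ⟨by rw [cl_rq p1, p2, ← e, Nat.xor_comm], rfl⟩] at b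
  rw [sgn_false, one_mul, show 958464 / 4096 = 234 from rfl, N3.sg_sM, ← sgn_xor] at hg
  obtain rfl := sgn_inj hg
  have := congrArg (·.testBit q) (Nat.eq_of_beq_eq_true h)
  simp only [tb_and, tb_or, tb_sel, tb_runB N3.chk_w, k, Nat.zero_testBit, Bool.true_and] at this
  revert b this
  cases f <;> cases N3.sM.testBit q <;> intro b this
  · simp [h0 _ hq a, h0 _ p1 b] at this
  · simp [h0 _ hq a, h1 _ p1 b] at this
  · simp [h1 _ hq a, h1 _ p1 b] at this
  · simp [h1 _ hq a, h0 _ p1 b] at this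

end Cfsg.Agent.Mo
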