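import Cfsg.Agent.Mo.Ns1
import Cfsg.Agent.Mo.Ns3

/-! Inner products with all short axes; identity test for words. -/

set_option autoImplicit false

namespace Cfsg.Agent.Mo

open H4 H5 H5.Lee

/-- no `2A`-triple through `ax (rq 1) false` has both other inner products `5 / 8` -/
noncomputable def n66C (S : List ℕ) : Bool := n66M (N1.em S 5 false) (N1.em S 5 true)
theorem n66C_spec {S : List ℕ} {v : VV} (r : Rp S v) (h : n66C S = true) :
    ∀ s ∈ L2, ∀ t ∈ L2, ∀ f g : Bool, xq (rq 1) false * xq s f = xq t g →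
      ¬ (ip (ax s f) v = 5 / 8 ∧ ip (ax t g) v = 5 / 8) :=
  n66M_spec (fun q a b => (N1.em_spec r 5 false q).2 ⟨a, by rw [b, Int.cast_ofNat]⟩)
    (fun q a b => (N1.em_spec r 5 true q).2 ⟨a, by rw [b, Int.cast_ofNat]⟩) h

end Cfsg.Agent.Mo
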