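import Cfsg.Agent.Mo.Tb

/-! States of short axes; identity tests for words. -/

set_option autoImplicit false

namespace Cfsg.Agent.Mo

open H4 H5 H5.Lee Matrix

namespace N2

theorem vz_land (x : ℕ) (ys : List ℕ) (p : ℕ) :
    vz (lmap (Nat.land x) ys) p = bzi (x.testBit p) * vz ys p := by
  cases h : x.testBit p
  · rw [vz_map0 _ _ p fun y => by rw [tb_and, h, Bool.false_and]]; simp
  · rw [vz_map _ _ p p fun y => by rw [tb_and, h, Bool.true_and]]; simp

def mul1 (ys xs : List ℕ) : ℕ → List ℕ :=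
  List.rec (fun x => negP x (lmap (Nat.land x) ys))
    (fun y _ ih x => Cr.frL (addP (lmap (Nat.land x) ys) (0 :: ih y))) xs
theorem vz_mul1 (ys xs : List ℕ) (x p : ℕ) : vz (mul1 ys xs x) p = vz (x :: xs) p * vz ys p := by
  induction xs generalizing x with
  | nil =>
    change vz (negP _ _) p = _
    rw [vz_negP, vz_land, vz_one]
    cases x.testBit p <;> simp
  | cons y t ih =>
    change vz (Cr.frL (addP _ (0 :: mul1 ys t y))) p = _
    rw [Cr.frL, frc_eq, vz_addP, vz_zero_cons, ih, vz_land, vz_cons2]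
    ring

/-- the bits at address `q` of the planes `b` of the coordinates -/
def gat (b q n : ℕ) : ℕ :=
  Nat.rec 0 (fun i ih => Nat.lor ih
    (Nat.shiftLeft (Nat.land (Nat.shiftRight ((XP i).getD b 0) q) 1) i)) n
theorem tb_gat (b q n p : ℕ) :
    (gat b q n).testBit p = (decide (p < n) && ((XP p).getD b 0).testBit q) := by
  induction n with
  | zero => simp [gat]
  | succ n ih =>
    change (Nat.lor (gat b q n) _).testBit p = _
    rw [tb_or, ih, tb_shl, tb_and, tb_shr]
    rcases lt_trichotomy p n with h | rfl | h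
    · simp [h, h.le, Nat.lt_succ_of_lt h, not_le.2 h]
    · simp
    · have : (Nat.testBit 1 (p - n)) = false := by
        rw [Bool.eq_false_iff, Ne, Nat.testBit_one_eq_true_iff_self_eq_zero]; omega
      simp [this, not_lt.2 h.le, show ¬ p < n + 1 by omega]
def row (q : ℕ) : List ℕ := Cr.frL [gat 0 q 24, gat 1 q 24, gat 2 q 24, gat 3 q 24]
theorem vz_row (q : ℕ) {p : ℕ} (h : p < 24) : vz (row q) p = xc q p := by
  obtain ⟨a, b, c, d, e⟩ := Cr.XP_eq h
  simp only [row, Cr.frL, frc_eq, xc, vz_cons2, vz_one, tb_gat, e, h, decide_true, Bool.true_and]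
  rfl
theorem row_lt (q : ℕ) : ∀ x ∈ row q, ∀ p, x.testBit p = true → p < 24 := by
  intro x hx p hp
  simp only [row, Cr.frL, frc_eq, List.mem_cons, List.not_mem_nil, or_false] at hx
  rcases hx with rfl | rfl | rfl | rfl <;>
  · rw [tb_gat, Bool.and_eq_true, decide_eq_true_eq] at hp; exact hp.1
theorem vz_map' (f : ℕ → ℕ) (xs : List ℕ) (p q : ℕ) (h : ∀ x ∈ xs, (f x).testBit p = x.testBit q) :
    vz (lmap f xs) p = vz xs q := by
  rw [lmap_eq]
  induction xs with
  | nil => rfl
  | cons x t ih => cases t with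
    | nil => simp [h]
    | cons y t =>
      have := ih fun z hz => h z (List.mem_cons_of_mem _ hz)
      simp only [List.map_cons, vz_cons2] at this ⊢
      rw [this, h x (by simp)]
def sqA (r : List ℕ) : List ℕ :=
  List.rec [] (fun x t _ => mul1 (Cr.frL (lmap (rep 24) r)) t x) (Cr.frL (lmap (blk 24) r))
theorem vz_sqA (q p : ℕ) :
    vz (sqA (row q)) p = if p < 576 then xc q (p / 24) * xc q (p % 24) else 0 := by
  have e : vz (sqA (row q)) p = vz (lmap (blk 24) (row q)) p * vz (lmap (rep 24) (row q)) p := by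
    unfold sqA
    simp only [Cr.frL, frc_eq]
    cases lmap (blk 24) (row q) with
    | nil => simp
    | cons x t => exact vz_mul1 _ _ _ _
  rw [e]
  split_ifs with h
  · rw [vz_map _ _ p (p / 24) fun x => by
        rw [blk, tb_blkA (by norm_num), decide_eq_true (by omega), Bool.true_and],
      vz_map' _ _ p (p % 24) fun x hx => by
        rw [tb_rep (row_lt q x hx), decide_eq_true (by omega), Bool.true_and],
      vz_row q (by omega), vz_row q (by omega)]
  · rw [vz_map0 _ _ p fun x => by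
        rw [blk, tb_blkA (by norm_num), decide_eq_false (by omega), Bool.false_and], zero_mul]
def mE (B : ℕ) (f : Bool) : List ℕ := cnd f [0, 0, 0, 0, 0, B, 0] [0, 0, 0, 0, 0, B]
theorem vz_mE (a p : ℕ) (f : Bool) :
    (vz (mE (Nat.shiftLeft 1 a) f) p : ℝ) = if p = a then -32 * sgn f else 0 := by
  have e : (Nat.shiftLeft 1 a).testBit p = decide (p = a) := by
    rw [show Nat.shiftLeft 1 a = 2 ^ a from Nat.one_shiftLeft a, Nat.testBit_two_pow, decide_eq_decide]
    exact eq_comm
  cases f <;> simp only [mE, cnd_true, cnd_false, vz_zero_cons, vz_cons2, vz_one, e, Nat.zero_testBit] <;>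
    by_cases h : p = a <;> simp [h, sgn_true, sgn_false]

end N2

/-- the state of a short axis -/
noncomputable def axS (q : ℕ) (f : Bool) : List ℕ :=
  app [] 0 (3 :: addP (N2.sqA (N2.row q)) (N2.mE (Nat.shiftLeft 1 (Nat.add 576 q)) f))
theorem axS_spec {q : ℕ} (h : VM.testBit q = true) (f : Bool) : Rp (axS q f) (ax (rq q) f) := by
  rw [← one_smul GG (ax (rq q) f)]
  refine Impl.one.app fun p => ?_
  rw [crd_ax h, val, List.tail_cons, List.headD_cons, vz_addP, Int.cast_add, N2.vz_mE, N2.vz_sqA,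
    Nat.add_eq]
  split_ifs with h1 h2 h2
  · omega
  · push_cast; ring
  · push_cast; ring
  · simp

namespace N2

/-- the plane of the test vector -/
def tp (n : ℕ) : ℕ :=
  Nat.rec 0 (fun i ih => Nat.lor ih (Nat.shiftLeft 1 (Nat.add 98880 (Nat.mul 4097 i)))) n
theorem tb_tp (n p : ℕ) : (tp n).testBit p = true ↔ ∃ i < n, p = 98880 + 4097 * i := by
  induction n with
  | zero => simp [tp]
  | succ n ih =>
    change (Nat.lor (tp n) (1 <<< (98880 + 4097 * n))).testBit p = true ↔ _
    rw [tb_or, Bool.or_eq_true, ih, Nat.one_shiftLeft, Nat.testBit_two_pow, decide_eq_true_eq]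
    constructor
    · rintro (⟨i, hi, e⟩ | e)
      exacts [⟨i, by omega, e⟩, ⟨n, by omega, e.symm⟩]
    · rintro ⟨i, hi, e⟩
      rcases Nat.lt_succ_iff_lt_or_eq.1 hi with h | rfl
      exacts [Or.inl ⟨i, h, e⟩, Or.inr e.symm]
def tS : List ℕ := [0, tp 24, 0]
open Classical in
theorem val_tS (p : ℕ) : val tS p = if ∃ i < 24, p = 98880 + 4097 * i then 1 else 0 := by
  simp only [← tb_tp]
  cases h : (tp 24).testBit p <;> simp [val, tS, h]
noncomputable def tv : VV := inc (val tS)
theorem rp_tS : Rp tS tv := fun p => congrFun (crd_inc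
  ⟨fun i hi j hj => by rw [val_tS, val_tS, if_neg (by omega), if_neg (by omega)],
    fun q hq _ => by rw [val_tS, if_neg (by omega)],
    fun p hp => by rw [val_tS, if_neg (by omega)]⟩) p
theorem mul_tv (M : Matrix ι ι ℝ) (a b : ι) :
    (M * (tv : Amb).2.2) a ⟨gE.ix b, (gE.ix_lt b).trans (by norm_num)⟩ = M a b := by
  rw [Matrix.mul_apply, Finset.sum_eq_single b (fun c _ hc => ?_) fun h => absurd (Finset.mem_univ _) h]
  · have := gE.ix_lt b
    rw [tv, Cr.inc_W, val_tS, if_pos ⟨gE.ix b, this, by dsimp only; omega⟩, mul_one]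
  · have h1 := gE.ix_lt b
    have h2 := gE.ix_lt c
    rw [tv, Cr.inc_W, val_tS, if_neg, mul_zero]
    rintro ⟨i, hi, e⟩
    dsimp only at e
    exact hc (by rw [← gE.pt_ix c, ← gE.pt_ix b]; congr 1; omega)

theorem rho_eq_of {p q : Ht} {ys : List ℕ} {ss : ℕ} (hp : Tr p ys ss) (hq : Tr q ys ss)
    (h : rho p • tv = rho q • tv) : rho p = rho q := by
  obtain ⟨a, ha⟩ := commutant (c := (q.1.2 : Matrix κ κ ℝ)ᵀ * p.1.2) fun k hk => by
    have e := (hp.2 k hk).2.trans (hq.2 k hk).2.symm
    calc _ = (q.1.2 : Matrix κ κ ℝ)ᵀ * ((p.1.2 : Matrix κ κ ℝ) * P (2 ^ k) * (p.1.2 : Matrix κ κ ℝ)ᵀ) *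
          p.1.2 := by
          rw [Matrix.mul_assoc _ _ (p.1.2 : Matrix κ κ ℝ), Matrix.mul_assoc _ _ (p.1.2 : Matrix κ κ ℝ),
            OG.tr_mul, Matrix.mul_one, Matrix.mul_assoc]
      _ = _ := by
          rw [e, ← Matrix.mul_assoc, ← Matrix.mul_assoc, OG.tr_mul, Matrix.one_mul, Matrix.mul_assoc]
  have hc : (p.1.2 : Matrix κ κ ℝ) = a • (q.1.2 : Matrix κ κ ℝ) := by
    rw [← Matrix.one_mul (p.1.2 : Matrix κ κ ℝ), ← OG.mul_tr q.1.2, Matrix.mul_assoc, ha,
      Matrix.mul_smul, Matrix.mul_one]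
  have h2 : a * a = 1 := by
    have e := OG.tr_mul p.1.2
    rw [hc, transpose_smul, Matrix.smul_mul, Matrix.mul_smul, OG.tr_mul, smul_smul] at e
    have := congrFun (congrFun e 0) 0
    rwa [Matrix.smul_apply, one_apply_eq, smul_eq_mul, mul_one] at this
  have h3 : mat q.1.1 = a • mat p.1.1 := by
    have e := congrArg (fun u : VV => (u : Amb).2.2 * (q.1.2 : Matrix κ κ ℝ)) h
    simp only [rho_smul, act_apply] at e
    rw [hc, transpose_smul, Matrix.mul_smul, Matrix.smul_mul, Matrix.mul_assoc _ _ (q.1.2 : Matrix κ κ ℝ),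
      Matrix.mul_assoc _ _ (q.1.2 : Matrix κ κ ℝ), OG.tr_mul, Matrix.mul_one, Matrix.mul_one,
      ← Matrix.smul_mul] at e
    ext i j
    rw [← mul_tv (mat q.1.1), ← e, mul_tv]
  refine GG_ext fun u => Subtype.ext ?_
  rw [rho_smul, rho_smul, act_apply, act_apply, hc, h3]
  simp only [transpose_smul, Matrix.mul_smul, Matrix.smul_mul, smul_smul, h2, one_smul]

theorem eqL_refl (xs : List ℕ) : eqL xs xs = true := by
  induction xs with
  | nil => rfl
  | cons x t ih =>
    change cnd (Nat.beq x x) (eqL t t) false = true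
    rw [Nat.beq_refl, ih]; rfl

theorem same {p q : Ht} {ys ys' : List ℕ} {ss ss' : ℕ} (hp : Tr p ys ss) (hq : Tr q ys' ss')
    (h : rho p = rho q) : ys = ys' ∧ Nat.land ss (ones 24) = Nat.land ss' (ones 24) := by
  have e : ∀ k < 24, ys.getD k 0 = ys'.getD k 0 ∧ ss.testBit k = ss'.testBit k := fun k hk => by
    have c : ∀ {p : Ht} {ys : List ℕ} {ss : ℕ}, Tr p ys ss →
        Cj p (ug k) false (p.1.1 • ug k) (ss.testBit k) := fun t => ⟨rfl, by
      rw [sgn_false, one_smul, PL, cl_ug hk, (t.2 k hk).2, PL, (t.2 k hk).1]⟩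
    have := (c hp).conj
    rw [h, (c hq).conj, xq_eq_iff, (hp.2 k hk).1, (hq.2 k hk).1] at this
    exact ⟨this.1.symm, this.2.symm⟩
  refine ⟨List.ext_getElem (hp.1.trans hq.1.symm) fun k h1 h2 => ?_, Nat.eq_of_testBit_eq fun k => ?_⟩
  · have := (e k (hp.1 ▸ h1)).1
    rwa [List.getD_eq_getElem _ _ h1, List.getD_eq_getElem _ _ h2] at this
  · rw [tb_and, tb_and, tb_ones]
    by_cases hk : k < 24
    · rw [(e k hk).2]
    · simp [hk]

def sig (S : List ℕ) : List ℕ := Nat.land (S.headD 0) (ones 24) :: cols S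

def orA (xs : List ℕ) : ℕ := List.rec 0 (fun x _ ih => Nat.lor x ih) xs
theorem orA_zero {xs : List ℕ} (h : ∀ p, vz xs p = 0) : orA xs = 0 := by
  refine Nat.eq_of_testBit_eq fun p => ?_
  replace h := h p
  rw [Nat.zero_testBit]
  induction xs with
  | nil => exact Nat.zero_testBit p
  | cons x t ih =>
    change (Nat.lor x (orA t)).testBit p = false
    cases t with
    | nil =>
      rw [tb_or, ih rfl]
      revert h; rw [vz_one]; cases x.testBit p <;> simp
    | cons y t =>
      rw [vz_cons2] at h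
      rw [tb_or]
      revert h
      cases x.testBit p
      · intro h; exact ih (by simpa using h)
      · intro h; rw [bzi_true] at h; omega

end N2

/-- two states with the same exponent hold different vectors -/
def neS (S S' : List ℕ) : Bool :=
  cnd (Nat.beq (S.headD 0) (S'.headD 0))
    (not (Nat.beq (N2.orA (addP S.tail (negP (ones 197184) S'.tail))) 0)) false
theorem neS_spec {S S' : List ℕ} {v w : VV} (r : Rp S v) (r' : Rp S' w) (h : neS S S' = true) :
    v ≠ w := by
  rintro rfl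
  obtain ⟨h1, h2⟩ := cnd_false_iff.1 h
  rw [N2.orA_zero fun p => ?_] at h2
  · exact absurd h2 (by decide)
  have e := (r p).symm.trans (r' p)
  have e0 := r p
  rw [val, val, Nat.eq_of_beq_eq_true h1, div_left_inj' (by positivity), Int.cast_inj] at e
  rw [vz_addP, vz_negP, tb_ones, e]
  by_cases hp : p < 197184
  · simp [hp]
  · rw [Cr.crd_out _ (not_lt.1 hp), val, eq_comm, div_eq_zero_iff, Int.cast_eq_zero,
      or_iff_left (by positivity)] at e0
    simp [hp, ← e, e0]

/-- two words give the same element: equal images of the basis classes with signs, equal images of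
the test vector `∑ i, dual (W (i, i))` -/
noncomputable def eqW (w w' : List ℕ) : Bool :=
  cnd (okW w) (cnd (okW w') (cnd (eqL (imgW w S0) (imgW w' S0))
    (eqL (appW w N2.tS) (appW w' N2.tS)) false) false) false
theorem eqW_spec {w w' : List ℕ} (h : eqW w w' = true) : rho (wd w) = rho (wd w') := by
  simp only [eqW, cnd_false_iff] at h
  obtain ⟨h1, h2, h3, h4⟩ := h
  refine N2.rho_eq_of (tr_wd h1) (eqL_spec h3 ▸ tr_wd h2) ((N2.rp_tS.appW h1).eq ?_)
  rw [eqL_spec h4]
  exact N2.rp_tS.appW h2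
/-- two words give different elements: different images of the basis classes or their signs, or
different images of the test vector -/
noncomputable def neW (w w' : List ℕ) : Bool :=
  cnd (okW w) (cnd (okW w') (cnd (eqL (N2.sig (imgW w S0)) (N2.sig (imgW w' S0)))
    (neS (appW w N2.tS) (appW w' N2.tS)) true) false) false
theorem neW_spec {w w' : List ℕ} (h : neW w w' = true) : rho (wd w) ≠ rho (wd w') := fun e => by
  simp only [neW, cnd_false_iff] at h
  obtain ⟨h1, h2, h3⟩ := h
  obtain ⟨a, b⟩ := N2.same (tr_wd h1) (tr_wd h2) e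
  rw [N2.sig, N2.sig, a, b, N2.eqL_refl, cnd_true] at h3
  exact neS_spec (N2.rp_tS.appW h1) (N2.rp_tS.appW h2) h3 (by rw [e])

end Cfsg.Agent.Mo
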