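import Cfsg.Agent.Mo.Glue
import Cfsg.Agent.Mo.Ns2
import Cfsg.Agent.Mo.BfB

/-! Inner products with short axes: all at once, and one at a time. -/

set_option autoImplicit false

namespace Cfsg.Agent.Mo

open H4 H5 H5.Lee Finset

namespace N1

open Cr (frL)

theorem frL_eq (xs : List ℕ) : frL xs = xs := frc_eq _ _

/-- `8 * 2 ^ e` times the inner product -/
def IP (xs : List ℕ) (q : ℕ) (f : Bool) : ℤ :=
  ∑ i ∈ range 24, ∑ j ∈ range 24, xc q i * xc q j * vz xs (i * 24 + j) -
    32 * (cnd f (-1) 1 * vz xs (576 + q))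

theorem ip_IP {S : List ℕ} {v : VV} (r : Rp S v) {q : ℕ} (h : VM.testBit q = true) (f : Bool) :
    ip (ax (rq q) f) v = IP S.tail q f / (8 * 2 ^ S.headD 0) := by
  have r' : ∀ p, crd v p = (vz S.tail p : ℝ) / 2 ^ S.headD 0 := r
  have hs : sgn f = ((cnd f (-1) 1 : ℤ) : ℝ) := by cases f <;> simp [sgn]
  rw [ip_ax_crd h, IP, hs]
  simp only [r', ← mul_div_assoc, ← sum_div]
  push_cast
  field_simp
  ring

theorem symm {S : List ℕ} {v : VV} (r : Rp S v) {i j : ℕ} (hi : i < 24) (hj : j < 24) :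
    vz S.tail (i * 24 + j) = vz S.tail (j * 24 + i) := by
  have := (good_crd v).symm i hi j hj
  rw [r, r, val, val, div_left_inj' (by positivity)] at this
  exact_mod_cast this

/-! ### all positions -/

def hor1 (Z : ℕ → List ℕ) (xs : List ℕ) : ℕ → List ℕ :=
  List.rec (fun x => negP VM (Z x)) (fun y _ ih x => frL (addP (Z x) (0 :: ih y))) xs
def hor (Z : ℕ → List ℕ) (xs : List ℕ) : List ℕ := List.rec [] (fun x t _ => hor1 Z t x) xs
theorem vz_hor {Z : ℕ → List ℕ} {q n : ℕ} {w : ℕ → ℤ} (h : VM.testBit q = true)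
    (hZ : ∀ x, vz (Z x) q = ∑ j ∈ range n, bzi (x.testBit j) * w j) (xs : List ℕ) :
    vz (hor Z xs) q = ∑ j ∈ range n, vz xs j * w j := by
  cases xs with
  | nil => simp [hor]
  | cons x t =>
    change vz (hor1 Z t x) q = _
    induction t generalizing x with
    | nil =>
      change vz (negP _ _) q = _
      rw [vz_negP, if_pos h, hZ, ← sum_neg_distrib]
      exact sum_congr rfl fun j _ => by rw [vz_one, neg_mul]
    | cons y t ih =>
      change vz (frL (addP _ (0 :: hor1 Z t y))) q = _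
      rw [frL_eq, vz_addP, vz_zero_cons, ih, hZ, mul_sum, ← sum_add_distrib]
      exact sum_congr rfl fun j _ => by rw [vz_cons2]; ring

def NX (j : ℕ) : List ℕ := negP VM (XP j)
def zs (s n x : ℕ) : List ℕ :=
  Nat.rec [] (fun j ih => cnd (tb x j) (frL (addP ih (cnd (tb s j) (NX j) (XP j)))) ih) n
theorem vz_zs {q : ℕ} (h : VM.testBit q = true) (s n x : ℕ) : vz (zs s n x) q =
    ∑ j ∈ range n, bzi (x.testBit j) * (if s.testBit j then -xc q j else xc q j) := by
  induction n with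
  | zero => rfl
  | succ n ih =>
    change vz (cnd (tb x n) (frL (addP (zs s n x) (cnd (tb s n) (NX n) (XP n)))) (zs s n x)) q = _
    rw [sum_range_succ, tb_eq, tb_eq]
    cases x.testBit n
    · simp [ih]
    · rw [cnd_true, frL_eq, vz_addP, ih]
      cases s.testBit n <;> simp [NX, vz_negP, h, xc]

def lastP (xs : List ℕ) : ℕ → ℕ := List.rec (fun d => d) (fun x _ ih _ => ih x) xs
def yy2 (n s : ℕ) (B : List ℕ) : List ℕ := hor (zs s n) (frL (trimP (negP s B)))
theorem vz_yy2 {q : ℕ} (h : VM.testBit q = true) (n s : ℕ) (B : List ℕ) :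
    vz (yy2 n s B) q = ∑ j ∈ range n, vz B j * xc q j := by
  rw [yy2, vz_hor h (vz_zs h s n)]
  refine sum_congr rfl fun j _ => ?_
  rw [frL_eq, vz_trimP, vz_negP]
  split_ifs <;> ring
def yy1 (n : ℕ) (B : List ℕ) : List ℕ := yy2 n (lastP B 0) B
def rw1 (i x : ℕ) : ℕ := Nat.land (Nat.shiftRight x (Nat.mul i 24)) (ones (Nat.succ i))
def yy (A : List ℕ) (i : ℕ) : List ℕ :=
  frL (trimP (yy1 (Nat.succ i) (frL (dblP (ones i) (lmap (rw1 i) A)))))
theorem vz_yy {q : ℕ} (h : VM.testBit q = true) (A : List ℕ) (i : ℕ) : vz (yy A i) q =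
    vz A (i * 24 + i) * xc q i + 2 * ∑ j ∈ range i, vz A (i * 24 + j) * xc q j := by
  have e : ∀ j ≤ i, vz (lmap (rw1 i) A) j = vz A (i * 24 + j) := fun j hj =>
    vz_map _ _ _ _ fun x => by
      rw [rw1, tb_and, tb_shr, tb_ones, decide_eq_true (Nat.lt_succ_of_le hj), Bool.and_true, add_comm]
      rfl
  rw [yy, frL_eq, vz_trimP, yy1, vz_yy2 h, sum_range_succ, add_comm, mul_sum, frL_eq, vz_dblP, tb_ones,
    if_neg (by simp), e i le_rfl]
  refine congrArg _ (sum_congr rfl fun j hj => ?_)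
  rw [vz_dblP, tb_ones, if_pos (by simpa using hj), e j (mem_range.1 hj).le, mul_assoc]

def mulX (ys xs : List ℕ) : List ℕ := List.rec [] (fun x t _ => N2.mul1 ys t x) xs
theorem vz_mulX (ys xs : List ℕ) (p : ℕ) : vz (mulX ys xs) p = vz xs p * vz ys p := by
  cases xs with
  | nil => simp [mulX]
  | cons x t => exact N2.vz_mul1 _ _ _ _
def DD (A : List ℕ) (n : ℕ) : List ℕ :=
  Nat.rec [] (fun i ih => frL (addP ih (mulX (yy A i) (XP i)))) n
theorem vz_DD {q : ℕ} (h : VM.testBit q = true) {A : List ℕ}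
    (hA : ∀ i < 24, ∀ j < 24, vz A (i * 24 + j) = vz A (j * 24 + i)) : ∀ n ≤ 24,
    vz (DD A n) q = ∑ i ∈ range n, ∑ j ∈ range n, xc q i * xc q j * vz A (i * 24 + j)
  | 0, _ => rfl
  | n + 1, hn => by
    rw [show DD A (n + 1) = frL (addP (DD A n) (mulX (yy A n) (XP n))) from rfl, frL_eq, vz_addP,
      vz_DD h hA n (by omega), vz_mulX, vz_yy h, sum_range_succ, sum_range_succ]
    simp only [sum_range_succ, sum_add_distrib]
    have e : ∑ i ∈ range n, xc q i * xc q n * vz A (i * 24 + n) =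
        ∑ j ∈ range n, xc q n * xc q j * vz A (n * 24 + j) := sum_congr rfl fun j hj => by
      rw [hA j (by have := mem_range.1 hj; omega) n (by omega), mul_comm (xc q j)]
    have e2 : ∑ j ∈ range n, xc q n * xc q j * vz A (n * 24 + j) =
        xc q n * ∑ j ∈ range n, vz A (n * 24 + j) * xc q j := by
      rw [mul_sum]; exact sum_congr rfl fun j _ => by ring
    rw [e, e2]
    change _ + xc q n * _ = _
    ring

def AA (xs : List ℕ) : List ℕ := frL (trimP (lmap (Nat.land (ones 576)) xs))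
theorem vz_AA (xs : List ℕ) {i j : ℕ} (hi : i < 24) (hj : j < 24) :
    vz (AA xs) (i * 24 + j) = vz xs (i * 24 + j) := by
  rw [AA, frL_eq, vz_trimP]
  exact vz_map _ _ _ _ fun x => by rw [tb_and, tb_ones, decide_eq_true (by omega), Bool.true_and]
def m1 (x : ℕ) : ℕ := Nat.land (Nat.shiftRight x 576) VM
def M32 (xs : List ℕ) : List ℕ := 0 :: 0 :: 0 :: 0 :: 0 :: frL (trimP (lmap m1 xs))
theorem vz_M32 {q : ℕ} (h : VM.testBit q = true) (xs : List ℕ) :
    vz (M32 xs) q = 32 * vz xs (576 + q) := by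
  simp only [M32, vz_zero_cons, frL_eq, vz_trimP]
  rw [vz_map _ _ q (576 + q) fun x => by rw [m1, tb_and, tb_shr, h, Bool.and_true, add_comm]]
  ring
def UU (xs : List ℕ) (f : Bool) : List ℕ :=
  frL (addP (DD (AA xs) 24) (cnd f (M32 xs) (negP VM (M32 xs))))
theorem vz_UU {S : List ℕ} {v : VV} (r : Rp S v) {q : ℕ} (h : VM.testBit q = true) (f : Bool) :
    vz (UU S.tail f) q = IP S.tail q f := by
  rw [UU, frL_eq, vz_addP, vz_DD h (fun i hi j hj => by
    rw [vz_AA _ hi hj, vz_AA _ hj hi, symm r hi hj]) 24 le_rfl, IP,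
    sum_congr rfl fun i hi => sum_congr rfl fun j hj => by
      rw [vz_AA _ (mem_range.1 hi) (mem_range.1 hj)]]
  cases f
  · rw [cnd_false, cnd_false, vz_negP, if_pos h, vz_M32 h]; ring
  · rw [cnd_true, cnd_true, vz_M32 h]; ring

def dgP (k : ℕ) : ℕ → List ℕ :=
  Nat.rec (fun _ => [0]) (fun _ ih n => cnd (Nat.ble n 0) [0] (cnd (tb n 0) VM 0 :: ih (Nat.div n 2))) k
theorem dgP_spec {q : ℕ} (h : VM.testBit q = true) (k : ℕ) :
    ∀ n, dgP k n ≠ [] ∧ (n ≤ k → vz (dgP k n) q = n) := by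
  induction k with
  | zero => exact fun n => ⟨List.cons_ne_nil _ _, fun hn => by rw [Nat.le_zero.1 hn]; simp [dgP]⟩
  | succ k ih =>
    intro n
    rw [show dgP (k + 1) n = cnd (Nat.ble n 0) [0] (cnd (tb n 0) VM 0 :: dgP k (n / 2)) from rfl]
    rcases n with _ | n
    · simp [Nat.ble]
    · refine ⟨List.cons_ne_nil _ _, fun hn => ?_⟩
      change vz (_ :: _) q = _
      rw [vz_cons _ (ih _).1, (ih _).2 (by omega), tb_eq, Nat.testBit_zero]
      rcases Nat.mod_two_eq_zero_or_one (n + 1) with e | e <;> simp [e, h] <;> omega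
noncomputable def cst0 (c : ℤ) : List ℕ :=
  Int.rec (fun n => negP VM (dgP n n)) (fun n => dgP (Nat.succ n) (Nat.succ n)) c
noncomputable def cst (c : ℤ) (e : ℕ) : List ℕ := Nat.rec (cst0 c) (fun _ ih => 0 :: ih) e
theorem vz_cst {q : ℕ} (h : VM.testBit q = true) (c : ℤ) (e : ℕ) : vz (cst c e) q = -(c * 2 ^ e) := by
  induction e with
  | zero =>
    cases c with
    | ofNat n =>
      change vz (negP VM (dgP n n)) q = _
      rw [vz_negP, if_pos h, (dgP_spec h n n).2 le_rfl]; simp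
    | negSucc n =>
      change vz (dgP (n + 1) (n + 1)) q = _
      rw [(dgP_spec h _ _).2 le_rfl, Int.negSucc_eq]; simp
  | succ e ih =>
    change vz (0 :: cst c e) q = _
    rw [vz_zero_cons, ih]; ring

def orP (xs : List ℕ) : ℕ := List.rec 0 (fun x _ ih => Nat.lor x ih) xs
theorem orP_spec (xs : List ℕ) (p : ℕ) : (orP xs).testBit p = false ↔ vz xs p = 0 := by
  induction xs with
  | nil => simp [orP]
  | cons x t ih =>
    change (Nat.lor x (orP t)).testBit p = false ↔ _
    rw [tb_or, Bool.or_eq_false_iff, ih]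
    cases t with
    | nil => rw [vz_one]; cases x.testBit p <;> simp
    | cons y t => rw [vz_cons2]; cases x.testBit p <;> simp <;> omega
def zm (xs : List ℕ) : ℕ := Nat.xor VM (Nat.land VM (orP xs))
theorem zm_spec (xs : List ℕ) (p : ℕ) :
    (zm xs).testBit p = true ↔ VM.testBit p = true ∧ vz xs p = 0 := by
  rw [zm, tb_xor, tb_and, ← orP_spec]
  cases VM.testBit p <;> cases (orP xs).testBit p <;> simp

/-- the valid positions `q` where the inner product with `ax (rq q) f` is `c / 8` -/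
noncomputable def em (S : List ℕ) (c : ℤ) (f : Bool) : ℕ := zm (frL (addP (UU S.tail f) (cst c (S.headD 0))))
theorem em_spec {S : List ℕ} {v : VV} (r : Rp S v) (c : ℤ) (f : Bool) (q : ℕ) :
    (em S c f).testBit q = true ↔ VM.testBit q = true ∧ ip (ax (rq q) f) v = c / 8 := by
  rw [em, zm_spec]
  refine and_congr_right fun h => ?_
  rw [frL_eq, vz_addP, vz_UU r h, vz_cst h, ip_IP r h, div_eq_div_iff (by positivity) (by norm_num),
    ← sub_eq_add_neg, sub_eq_zero]
  constructor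
  · intro e; rw [e]; push_cast; ring
  · intro e
    have : ((IP S.tail q f : ℤ) : ℝ) = ((c * 2 ^ S.headD 0 : ℤ) : ℝ) := by push_cast; linarith
    exact_mod_cast this

theorem ncard_tb {X : ℕ} (h : ∀ q, X.testBit q = true → q < 2 ^ 17) :
    {q | X.testBit q = true}.ncard = Bf.pc16 X := by
  rw [Bf.pc16_eq, ← card_filter, ← Set.ncard_coe_finset]
  congr 1; ext x
  simp only [Set.mem_setOf_eq, coe_filter, mem_range]
  exact (and_iff_right_of_imp (h x)).symm

/-! ### one position -/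

noncomputable def sm1 (xs : List ℕ) : ℕ → ℤ :=
  List.rec (fun x => Int.neg (Int.ofNat (Bf.pc16 x)))
    (fun y _ ih x => Int.add (Int.ofNat (Bf.pc16 x)) (Int.mul 2 (ih y))) xs
noncomputable def sm (xs : List ℕ) : ℤ := List.rec 0 (fun x t _ => sm1 t x) xs
theorem sm_eq (xs : List ℕ) : sm xs = ∑ p ∈ range (2 ^ 17), vz xs p := by
  have e : ∀ x, (Bf.pc16 x : ℤ) = ∑ p ∈ range (2 ^ 17), bzi (x.testBit p) := fun x => by
    rw [Bf.pc16_eq, Nat.cast_sum]
    exact sum_congr rfl fun p _ => by cases x.testBit p <;> rfl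
  cases xs with
  | nil => exact (sum_eq_zero fun _ _ => rfl).symm
  | cons x t =>
    change sm1 t x = _
    induction t generalizing x with
    | nil =>
      change -(Bf.pc16 x : ℤ) = _
      rw [e, ← sum_neg_distrib]; rfl
    | cons y t ih =>
      change (Bf.pc16 x : ℤ) + 2 * sm1 t y = _
      rw [e, ih, mul_sum, ← sum_add_distrib]; rfl
theorem sum_mul' (F : ℕ → ℤ) (m n : ℕ) :
    ∑ p ∈ range (m * n), F p = ∑ i ∈ range m, ∑ j ∈ range n, F (i * n + j) := by
  induction m with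
  | zero => simp
  | succ m ih => rw [Nat.succ_mul, sum_range_add, ih, sum_range_succ]
theorem sum_cut (F : ℕ → ℤ) {m n : ℕ} (h : m ≤ n) (hF : ∀ p, m ≤ p → F p = 0) :
    ∑ p ∈ range n, F p = ∑ p ∈ range m, F p :=
  (sum_subset (range_subset_range.2 h) fun p _ hp => hF p (by simpa using hp)).symm
def vq (q : ℕ) (xs : List ℕ) : ℤ := vz (lmap (fun x => Nat.land (Nat.shiftRight x q) 1) xs) 0
theorem vq_eq (q : ℕ) (xs : List ℕ) : vq q xs = vz xs q :=
  vz_map _ _ _ _ fun x => by rw [tb_and, tb_shr, zero_add]; simp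

end N1

open N1

/-- the number of short axes with inner product `c / 8` with the vector held by the state `S` -/
noncomputable def nsC (S : List ℕ) (c : ℤ) : ℕ :=
  Nat.add (Bf.pc16 (em S c false)) (Bf.pc16 (em S c true))
theorem nsC_spec {S : List ℕ} {v : VV} (r : Rp S v) (c : ℤ) : NS v (c / 8) = nsC S c := by
  have hb : ∀ f q, (em S c f).testBit q = true → q < 2 ^ 17 := fun f q h =>
    (VM_lt ((em_spec r c f q).1 h).1).trans (by norm_num)
  have hv : ∀ {f q}, (em S c f).testBit q = true → VM.testBit q = true := fun h =>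
    ((em_spec r c _ _).1 h).1
  have hf : ∀ f, {q | (em S c f).testBit q = true}.Finite := fun f =>
    (Set.finite_Iio (2 ^ 17)).subset (hb f)
  have hi : ∀ f, Set.InjOn (fun q => ax (rq q) f) {q | (em S c f).testBit q = true} :=
    fun f q hq q' hq' e => by
      have := ((ax_inj (rq_mem (hv hq)) (rq_mem (hv hq'))).1 e).1
      rw [cl_rq (hv hq), cl_rq (hv hq')] at this
      exact cp_inj (hv hq) (hv hq') this
  have e : {a : VV | (∃ r ∈ L2, ∃ f, a = ax r f) ∧ ip a v = c / 8} =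
      (fun q => ax (rq q) false) '' {q | (em S c false).testBit q = true} ∪
        (fun q => ax (rq q) true) '' {q | (em S c true).testBit q = true} := by
    ext a
    constructor
    · rintro ⟨⟨s, hs, f, rfl⟩, h⟩
      obtain ⟨q, hq, e⟩ := rq_surj hs
      have e1 : ax (rq q) f = ax s f := (ax_inj (rq_mem hq) hs).2 ⟨(cl_rq hq).trans e, rfl⟩
      have e2 := (em_spec r c f q).2 ⟨hq, e1 ▸ h⟩
      cases f
      exacts [Or.inl ⟨q, e2, e1⟩, Or.inr ⟨q, e2, e1⟩]
    · rintro (⟨q, hq, rfl⟩ | ⟨q, hq, rfl⟩) <;>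
      exact ⟨⟨_, rq_mem (hv hq), _, rfl⟩, ((em_spec r c _ q).1 hq).2⟩
  rw [NS, e, Set.ncard_union_eq ?_ ((hf _).image _) ((hf _).image _), (hi _).ncard_image,
    (hi _).ncard_image, ncard_tb (hb _), ncard_tb (hb _)]
  · rfl
  · rw [Set.disjoint_left]
    rintro _ ⟨q, hq, rfl⟩ ⟨q', hq', e⟩
    exact Bool.noConfusion ((ax_inj (rq_mem (hv hq')) (rq_mem (hv hq))).1 e).2

/-- `8 * 2 ^ e` times the inner product with one short axis (scalar computation), `e = S.headD 0` -/
noncomputable def ipC (S : List ℕ) (q : ℕ) (f : Bool) : ℤ :=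
  Int.sub (sm (Cr.frL (mulX S.tail (Cr.frL (N2.sqA (N2.row q))))))
    (Int.mul 32 (Int.mul (cnd f (-1) 1) (vq (Nat.add 576 q) S.tail)))
theorem ipC_spec {S : List ℕ} {v : VV} (r : Rp S v) {q : ℕ} (h : VM.testBit q = true) (f : Bool) :
    ip (ax (rq q) f) v = ipC S q f / (8 * 2 ^ S.headD 0) := by
  rw [ip_IP r h]
  congr 2
  change _ = sm _ - 32 * (_ * vq (576 + q) _)
  rw [IP, vq_eq, sm_eq, frL_eq, frL_eq, sum_cut _ (show 24 * 24 ≤ 2 ^ 17 by norm_num) fun p hp => by
    rw [vz_mulX, N2.vz_sqA, if_neg (by omega), zero_mul], sum_mul']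
  congr 1
  refine sum_congr rfl fun i hi => sum_congr rfl fun j hj => ?_
  have := mem_range.1 hi
  have := mem_range.1 hj
  rw [vz_mulX, N2.vz_sqA, if_pos (by omega), show (i * 24 + j) / 24 = i by omega,
    show (i * 24 + j) % 24 = j by omega]

end Cfsg.Agent.Mo
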