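import Cfsg.Agent.Mo.Pa1

/-! Pauli matrices. -/

set_option autoImplicit false

namespace Cfsg.Agent.Mo

open H5 H5.Lee Matrix Finset

theorem sg_xor_left (b c j : ℕ) : sg (b ^^^ c) j = sg b j * sg c j := by
  rw [sg, sg, sg, ← prod_mul_distrib]
  refine prod_congr rfl fun k _ => ?_
  rw [Nat.testBit_xor]
  cases b.testBit k <;> cases c.testBit k <;> cases j.testBit k <;> simp
theorem sg_comm (b j : ℕ) : sg b j = sg j b := by simp only [sg, Bool.and_comm]
theorem sg_xor_right (b i j : ℕ) : sg b (i ^^^ j) = sg b i * sg b j := by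
  rw [sg_comm, sg_xor_left, sg_comm i, sg_comm j]
theorem sg_zero (j : ℕ) : sg 0 j = 1 := by simp [sg]
theorem sg_mul_self (b j : ℕ) : sg b j * sg b j = 1 := by
  rw [← sg_xor_left, Nat.xor_self, sg_zero]
theorem sg_cases (b j : ℕ) : sg b j = 1 ∨ sg b j = -1 := mul_self_eq_one_iff.1 (sg_mul_self b j)
theorem sg_two_pow {k : ℕ} (hk : k < 12) (j : ℕ) :
    sg (2 ^ k) j = if j.testBit k then -1 else 1 := by
  rw [sg, prod_eq_single k]
  · simp
  · intro l _ hl
    simp [Nat.testBit_two_pow, hl.symm]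
  · simp [hk]

/-- the permutation underlying a Pauli matrix -/
def px (x : ℕ) (j : κ) : κ :=
  ⟨j.val ^^^ (x % 4096), Nat.xor_lt_two_pow (n := 12) j.2 (Nat.mod_lt _ (by omega))⟩

theorem px_px (x : ℕ) (j : κ) : px x (px x j) = j :=
  Fin.ext (by simp [px, Nat.xor_assoc])
theorem xor_mod (x y : ℕ) : (x ^^^ y) % 4096 = x % 4096 ^^^ y % 4096 := Nat.xor_mod_two_pow (n := 12)
theorem xor_div (x y : ℕ) : (x ^^^ y) / 4096 = x / 4096 ^^^ y / 4096 := Nat.xor_div_two_pow (n := 12)
theorem px_xor (x y : ℕ) (j : κ) : px (x ^^^ y) j = px x (px y j) :=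
  Fin.ext (by simp only [px, xor_mod, Nat.xor_assoc, Nat.xor_comm (x % 4096)])
theorem P_apply (x : ℕ) (i j : κ) : P x i j = if i = px x j then sg (x / 4096) j else 0 := by
  simp only [P, Fin.ext_iff, px]
theorem eq_px_comm {x : ℕ} {i j : κ} : i = px x j ↔ j = px x i :=
  ⟨fun h => by rw [h, px_px], fun h => by rw [h, px_px]⟩
theorem mul_P {α : Type*} (M : Matrix α κ ℝ) (x : ℕ) (i : α) (j : κ) :
    (M * P x) i j = M i (px x j) * sg (x / 4096) j := by
  simp [Matrix.mul_apply, P_apply]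
theorem P_mul_apply {α : Type*} (M : Matrix κ α ℝ) (x : ℕ) (i : κ) (j : α) :
    (P x * M) i j = sg (x / 4096) (px x i) * M (px x i) j := by
  simp [Matrix.mul_apply, P_apply, eq_px_comm (i := i)]

theorem P_zero : P 0 = 1 := by
  ext i j
  simp [P, sg_zero, Matrix.one_apply, Fin.ext_iff]
theorem P_mul' (x y : ℕ) : P x * P y = sg (x / 4096) (y % 4096) • P (x ^^^ y) := by
  ext i j
  rw [mul_P, P_apply, Matrix.smul_apply, P_apply, px_xor, xor_div, sg_xor_left]
  split_ifs
  · simp only [px, sg_xor_right, smul_eq_mul]; ring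
  · simp
theorem P_mul {x y : ℕ} (hx : x < 2 ^ 24) (hy : y < 2 ^ 24) :
    P x * P y = sg (x / 4096) (y % 4096) • P (x ^^^ y) := P_mul' x y
theorem P_transpose (x : ℕ) : (P x)ᵀ = sg (x / 4096) (x % 4096) • P x := by
  ext i j
  rw [transpose_apply, P_apply, Matrix.smul_apply, P_apply]
  by_cases h : i = px x j
  · rw [if_pos (eq_px_comm.1 h), if_pos h, h]; simp only [px, sg_xor_right, smul_eq_mul]; ring
  · rw [if_neg fun e => h (eq_px_comm.1 e), if_neg h, smul_zero]
theorem P_mul_tr (x : ℕ) : P x * (P x)ᵀ = 1 := by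
  rw [P_transpose, Matrix.mul_smul, P_mul', smul_smul, sg_mul_self, Nat.xor_self, P_zero, one_smul]
theorem P_tr_mul (x : ℕ) : (P x)ᵀ * P x = 1 := by
  rw [P_transpose, Matrix.smul_mul, P_mul', smul_smul, sg_mul_self, Nat.xor_self, P_zero, one_smul]
theorem exists_bit {b : ℕ} (hb : b < 4096) (h0 : b ≠ 0) : ∃ k < 12, b.testBit k = true := by
  by_contra h
  push Not at h
  exact h0 (eq_of_bits (n := 12) hb (by norm_num) fun k hk => by simpa using h k hk)
theorem sum_sg {b : ℕ} (hb : b < 4096) (h0 : b ≠ 0) : ∑ j : κ, sg b j = 0 := by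
  obtain ⟨k, hk, h⟩ := exists_bit hb h0
  have h1 : ∑ j : κ, sg b j = ∑ j : κ, sg b (px (2 ^ k) j) :=
    (Equiv.sum_comp (Function.Involutive.toPerm _ (px_px (2 ^ k))) fun j => sg b j.val).symm
  have h2 : ∀ j : κ, sg b (px (2 ^ k) j) = -sg b j := fun j => by
    have : 2 ^ k < 2 ^ 12 := Nat.pow_lt_pow_right (by omega) hk
    simp only [px, sg_xor_right]
    rw [Nat.mod_eq_of_lt (by omega), sg_comm b (2 ^ k), sg_two_pow hk, h]; simp
  simp only [h2, sum_neg_distrib] at h1
  linarith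
theorem trace_P {x : ℕ} (hx : x < 2 ^ 24) (h0 : x ≠ 0) : trace (P x) = 0 := by
  simp only [trace, Matrix.diag, P_apply]
  by_cases h : x % 4096 = 0
  · rw [← sum_sg (b := x / 4096) (by omega) (by omega)]
    exact sum_congr rfl fun j _ => if_pos (Fin.ext (by simp [px, h]))
  · refine sum_eq_zero fun j _ => if_neg fun e => h ?_
    have := congrArg (fun t : κ => j.val ^^^ t.val) e
    simpa [px, ← Nat.xor_assoc] using this.symm
theorem trace_one' : trace (1 : Matrix κ κ ℝ) = 4096 := by simp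
theorem trace_P_mul_tr {x y : ℕ} (hx : x < 2 ^ 24) (hy : y < 2 ^ 24) :
    trace (P x * (P y)ᵀ) = if x = y then 4096 else 0 := by
  split_ifs with h
  · rw [h, P_mul_tr, trace_one']
  · rw [P_transpose, Matrix.mul_smul, P_mul', trace_smul, trace_smul,
      trace_P (Nat.xor_lt_two_pow hx hy) fun e => h (Nat.xor_eq_zero_iff.1 e)]
    simp

/-- the sign character -/
noncomputable def ch (t : ZMod 2) : ℝ := if t = 0 then 1 else -1
theorem ch_add (s t : ZMod 2) : ch (s + t) = ch s * ch t := by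
  have : ∀ s : ZMod 2, s = 0 ∨ s = 1 := by decide
  have e : (1 + 1 : ZMod 2) = 0 := rfl
  rcases this s with rfl | rfl <;> rcases this t with rfl | rfl <;> simp [ch, e]
theorem ch_zero : ch 0 = 1 := if_pos rfl
theorem ch_sum (s : Finset ℕ) (f : ℕ → ZMod 2) : ch (∑ k ∈ s, f k) = ∏ k ∈ s, ch (f k) := by
  induction s using Finset.induction_on with
  | empty => simp [ch]
  | insert a s h ih => rw [sum_insert h, prod_insert h, ch_add, ih]
theorem ch_cast (a : ℤ) : ch a = if a % 2 = 0 then 1 else -1 := by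
  simp only [ch, cast2_eq_zero]
theorem ch_mul_self (t : ZMod 2) : ch t * ch t = 1 := by
  rw [← ch_add, CharTwo.add_self_eq_zero, ch_zero]
theorem ch_cases (t : ZMod 2) : ch t = 1 ∨ ch t = -1 := mul_self_eq_one_iff.1 (ch_mul_self t)

theorem sg_cl (x y : Λ) : sg (cl x / 4096) (cl y % 4096) = ch (hb x y) := by
  rw [hb, ch_sum, sg]
  refine prod_congr rfl fun k hk => ?_
  have hk := mem_range.1 hk
  rw [show 4096 = 2 ^ 12 from rfl, Nat.testBit_div_two_pow, Nat.testBit_mod_two_pow,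
    testBit_cl _ (by omega), testBit_cl _ (by omega), pb_eq, pb_eq, ch]
  generalize bz (uu (k + 12)) x = a
  generalize bz (uu k) y = b
  have : ∀ s : ZMod 2, s = 0 ∨ s = 1 := by decide
  rcases this a with rfl | rfl <;> rcases this b with rfl | rfl <;> simp [hk]
theorem sg_cl_comm (x y : Λ) : sg (cl x / 4096) (cl y % 4096) * sg (cl y / 4096) (cl x % 4096) =
    if dotInt (x : V) (y : V) / 8 % 2 = 0 then 1 else -1 := by
  rw [sg_cl, sg_cl, ← ch_add, hb_add_hb, bz_apply, ch_cast]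
theorem sg_cl_self (x : Λ) : sg (cl x / 4096) (cl x % 4096) =
    if sqNorm (x : V) / 16 % 2 = 0 then 1 else -1 := by
  rw [sg_cl, hb_self, ch_cast]

theorem PL_mul (x y : Λ) : PL x * PL y = ch (hb x y) • PL (x + y) := by
  rw [PL, PL, PL, P_mul', sg_cl, cl_add]
theorem PL_comm (x y : Λ) : PL x * PL y = ch (bz x y) • (PL y * PL x) := by
  rw [PL_mul, PL_mul, smul_smul, ← ch_add, ← hb_add_hb, add_assoc, CharTwo.add_self_eq_zero,
    add_zero, add_comm x]
theorem PL_transpose (x : Λ) : (PL x)ᵀ = ch (hb x x) • PL x := by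
  rw [PL, P_transpose, sg_cl]
theorem PL_zero : PL 0 = 1 := by rw [PL, cl_zero, P_zero]
theorem PL_neg (x : Λ) : PL (-x) = PL x := by rw [PL, cl_neg, PL]
theorem PL_mul_tr (x : Λ) : PL x * (PL x)ᵀ = 1 := P_mul_tr _
theorem PL_tr_mul (x : Λ) : (PL x)ᵀ * PL x = 1 := P_tr_mul _
theorem PL_congr {x y : Λ} (h : cl x = cl y) : PL x = PL y := by rw [PL, h, PL]
theorem hb_short {r : Λ} (hr : r ∈ L2) : hb r r = 0 := by
  rw [hb_self, show sqNorm (r : V) = 32 from hr]; rfl
theorem PL_symm {r : Λ} (hr : r ∈ L2) : (PL r)ᵀ = PL r := by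
  rw [PL_transpose, hb_short hr, ch_zero, one_smul]
theorem PL_sq {r : Λ} (hr : r ∈ L2) : PL r * PL r = 1 := by
  have := PL_mul_tr r
  rwa [PL_symm hr] at this
theorem trace_PL_mul_tr (x y : Λ) : trace (PL x * (PL y)ᵀ) = if cl x = cl y then 4096 else 0 :=
  trace_P_mul_tr (cl_lt x) (cl_lt y)

theorem commutant' {c : Matrix κ κ ℝ} (h : ∀ x < 2 ^ 24, c * P x = P x * c) :
    ∃ a : ℝ, c = a • (1 : Matrix κ κ ℝ) := by
  refine ⟨c 0 0, ?_⟩
  ext i j
  rw [Matrix.smul_apply, Matrix.one_apply]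
  split_ifs with e
  · subst e
    have := congrFun (congrFun (h i (by omega)) i) 0
    have e1 : px i 0 = i := Fin.ext (by simp [px])
    have e2 : px i i = 0 := by rw [← e1, e1, eq_comm, eq_px_comm, e1]
    rw [mul_P, P_mul_apply, Nat.div_eq_of_lt i.2, sg_zero, sg_zero, e1, e2] at this
    simpa using this
  · obtain ⟨k, hk, hb⟩ := exists_bit (b := i.val ^^^ j.val) (Nat.xor_lt_two_pow (n := 12) i.2 j.2)
      fun h0 => e (Fin.ext (Nat.xor_eq_zero_iff.1 h0))
    have p1 : 2 ^ k < 2 ^ 12 := Nat.pow_lt_pow_right (by omega) hk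
    have := congrFun (congrFun (h (4096 * 2 ^ k) (by omega)) i) j
    have e1 : ∀ t, px (4096 * 2 ^ k) t = t := fun t => Fin.ext (by simp [px])
    rw [mul_P, P_mul_apply, e1, e1, Nat.mul_div_cancel_left _ (by omega), sg_two_pow hk,
      sg_two_pow hk] at this
    rw [Nat.testBit_xor] at hb
    cases h1 : i.val.testBit k <;> cases h2 : j.val.testBit k <;> simp [h1, h2] at this hb ⊢ <;>
      linarith
/-- a matrix commuting with the 24 generators is scalar -/
theorem commutant {c : Matrix κ κ ℝ} (h : ∀ k < 24, c * P (2 ^ k) = P (2 ^ k) * c) :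
    ∃ a : ℝ, c = a • (1 : Matrix κ κ ℝ) := by
  refine commutant' (xor_ind 24 (by simp [P_zero]) h fun x _ y _ h1 h2 => ?_)
  have e : P (x ^^^ y) = sg (x / 4096) (y % 4096) • (P x * P y) := by
    rw [P_mul', smul_smul, sg_mul_self, one_smul]
  rw [e, Matrix.mul_smul, Matrix.smul_mul, ← Matrix.mul_assoc, h1, Matrix.mul_assoc, h2,
    Matrix.mul_assoc]

theorem mat_tr_mul (g : Co0) : (mat g)ᵀ * mat g = 1 := by
  ext i j
  have := dot_smul g (e8 i) (e8 j)
  rw [show ((e8 i : Λ) : V) = Pi.single i 8 from rfl, dot_single] at this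
  have h2 := congrArg (fun t : ℤ => (t : ℝ) / 64) this
  simp only [dotInt, Int.cast_sum, Int.cast_mul, Finset.sum_div, e8, Pi.single_apply] at h2
  rw [Matrix.mul_apply, Matrix.one_apply]
  simp only [transpose_apply, mat, e8]
  rw [show (if i = j then (1 : ℝ) else 0) = ((8 : ℤ) : ℝ) * ((if i = j then (8 : ℤ) else 0 : ℤ) : ℝ) / 64
    by split_ifs <;> norm_num, ← h2]
  exact sum_congr rfl fun k _ => by ring
theorem mat_mul_tr (g : Co0) : mat g * (mat g)ᵀ = 1 := mul_eq_one_comm.1 (mat_tr_mul g)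
/-- the real vector of a lattice vector -/
noncomputable def rv (r : Λ) : ι → ℝ := fun i => ((r : V) i : ℝ)
theorem mat_rv (g : Co0) (x : Λ) : mat g *ᵥ rv x = rv (g • x) := mat_mulVec g x
theorem R_eq (r : Λ) : R r = (8 : ℝ)⁻¹ • vecMulVec (rv r) (rv r) := by
  ext i j
  simp only [R, Matrix.smul_apply, vecMulVec_apply, rv, smul_eq_mul]; ring
theorem R_smul (g : Co0) (r : Λ) : R (g • r) = mat g * R r * (mat g)ᵀ := by
  rw [R_eq, R_eq, Matrix.mul_smul, Matrix.smul_mul, mul_vecMulVec, vecMulVec_mul, vecMul_transpose,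
    mat_rv]
theorem R_neg (r : Λ) : R (-r) = R r := by
  ext i j; simp [R]
theorem mat_inj {g h : Co0} (e : mat g = mat h) : g = h := by
  refine ext_bb fun k _ => Subtype.ext (funext fun i => ?_)
  have := congrFun ((mat_rv g (bb k)).symm.trans (e ▸ mat_rv h (bb k))) i
  simpa [rv] using this

/-- the automorphism `-1` -/
noncomputable def neg1 : Co0 := mkCo (-AddMonoidHom.id Λ) fun x => norm_neg _
theorem neg1_smul (x : Λ) : neg1 • x = -x := rfl
theorem mat_neg1 : mat neg1 = -1 := by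
  rw [← mat_one]
  ext i j
  simp [mat, neg1_smul, neg_div]

theorem sep_chk : ∀ i < 24, ∀ j < 24, i = j ∨
    ∃ k < 12, (H4.cw (2 ^ k)).testBit i ≠ (H4.cw (2 ^ k)).testBit j := by decide +kernel

theorem central_cases {g : Co0} (hg : g ∈ Subgroup.center Co0) : g = 1 ∨ g = neg1 := by
  have hc : ∀ (h : Co0) (x : Λ), g • h • x = h • g • x := fun h x => by
    rw [← mul_smul, ← Subgroup.mem_center_iff.1 hg h, mul_smul]
  have h1 : ∀ i j, i ≠ j → ((g • e8 j : Λ) : V) i = 0 := fun i j hij => by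
    obtain e | ⟨k, hk, hb⟩ := sep_chk _ (H4.gE.ix_lt i) _ (H4.gE.ix_lt j)
    · exact absurd (by rw [← H4.gE.pt_ix i, e, H4.gE.pt_ix]) hij
    let c : H4.Code := ⟨_, H4.ofMask_mem_of_inC (H4.inC_cw
      (Nat.pow_lt_pow_right (a := 2) (by omega) hk))⟩
    have e1 := congrArg (fun y : Λ => (y : V) i) (hc (mono 1 c) (e8 j))
    have e2 : mono 1 c • e8 j = (if j ∈ c.1 then -1 else 1 : ℤ) • e8 j := Subtype.ext (by
      rw [mono_smul, e8, signedPerm_single]
      split_ifs with a b b <;> simp_all [← Pi.single_neg])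
    rw [e2, smul_zsmul] at e1
    simp only [mono_smul, signedPerm, AddSubgroup.coe_zsmul, Pi.smul_apply, c,
      H4.Enc.mem_ofMask] at e1
    rw [show (Equiv.symm ((1 : Cfsg.M24) : Equiv.Perm ι)) i = i from rfl] at e1
    cases h1 : (H4.cw (2 ^ k)).testBit (H4.gE.ix i) <;>
      cases h2 : (H4.cw (2 ^ k)).testBit (H4.gE.ix j) <;> simp [h1, h2] at e1 hb <;> omega
  have h2 : ∀ j, ((g • e8 j : Λ) : V) j = ((g • e8 none : Λ) : V) none := fun j => by
    obtain ⟨σ, hσ, e⟩ := H4.trans1 j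
    have e0 : σ j = none := e
    have e1 := congrArg (fun y : Λ => (y : V) none)
      (hc (mono ⟨σ, hσ⟩ ⟨∅, H4.empty_mem_code⟩) (e8 j))
    have e2 : mono ⟨σ, hσ⟩ ⟨∅, H4.empty_mem_code⟩ • e8 j = e8 none := Subtype.ext (by
      rw [mono_smul, e8, signedPerm_single]; simp [e0, e8])
    rw [e2] at e1
    simp only [mono_smul, signedPerm] at e1
    rw [e1, ← e0]; simp
  have h3 : mat g = ((((g • e8 none : Λ) : V) none : ℝ) / 8) • (1 : Matrix ι ι ℝ) := by
    ext i j
    rw [Matrix.smul_apply, Matrix.one_apply, mat]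
    split_ifs with e
    · rw [e, h2]; simp
    · rw [h1 i j e]; simp
  have h4 := congrFun (congrFun (mat_mul_tr g) none) none
  rw [h3] at h4
  simp only [transpose_smul, transpose_one, Matrix.mul_smul, Matrix.mul_one, smul_smul,
    Matrix.smul_apply, Matrix.one_apply_eq, smul_eq_mul, mul_one] at h4
  rcases mul_self_eq_one_iff.1 h4 with e | e <;> rw [e] at h3
  · exact Or.inl (mat_inj (by rw [h3, mat_one, one_smul]))
  · exact Or.inr (mat_inj (by rw [h3, mat_neg1, neg_smul, one_smul]))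

end Cfsg.Agent.Mo
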