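import Cfsg.Agent.Mo.Pa2

/-! Part A1: classes modulo 2, Pauli matrices, the extraspecial group, short axes.
The lemmas on `cl`, `sg`, `P`, `PL`, `mat` are in `Mo/Pa1` and `Mo/Pa2`. -/

set_option autoImplicit false

namespace Cfsg.Agent.Mo

open H5 H5.Lee Matrix Finset

theorem mem_L2F {r : Λ} : r ∈ L2F ↔ r ∈ L2 := (finite_normL 32).mem_toFinset

noncomputable def sgn (e : Bool) : ℝ := if e then -1 else 1

theorem sgn_true : sgn true = -1 := if_pos rfl
theorem sgn_false : sgn false = 1 := if_neg (by decide)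
theorem sgn_mul_self (e : Bool) : sgn e * sgn e = 1 := by cases e <;> simp [sgn]
theorem sgn_not (e : Bool) : sgn (!e) = -sgn e := by cases e <;> simp [sgn]
theorem sgn_cases (e : Bool) : sgn e = 1 ∨ sgn e = -1 := mul_self_eq_one_iff.1 (sgn_mul_self e)
theorem sgn_inj {e f : Bool} (h : sgn e = sgn f) : e = f := by
  cases e <;> cases f <;> simp only [sgn_true, sgn_false] at h <;> first | rfl | norm_num at h
theorem sgn_xor (e f : Bool) : sgn (xor e f) = sgn e * sgn f := by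
  cases e <;> cases f <;> simp [sgn]
theorem exists_sgn {a : ℝ} (h : a * a = 1) : ∃ e, sgn e = a := by
  rcases mul_self_eq_one_iff.1 h with rfl | rfl
  exacts [⟨false, sgn_false⟩, ⟨true, sgn_true⟩]
theorem mem_OG {c : Matrix κ κ ℝ} (h : cᵀ * c = 1) : c ∈ OG :=
  (Matrix.mem_orthogonalGroup_iff' κ ℝ).2 h
theorem PL_conj (x y : Λ) : PL x * PL y * (PL x)ᵀ = ch (bz x y) • PL y := by
  rw [PL_comm, Matrix.smul_mul, Matrix.mul_assoc, PL_mul_tr, Matrix.mul_one]

theorem qe_mem1 (x : Λ) (e : Bool) : sgn e • PL x ∈ OG := mem_OG (by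
  rw [transpose_smul, Matrix.smul_mul, Matrix.mul_smul, smul_smul, sgn_mul_self, PL_tr_mul,
    one_smul])
theorem qe_conj (x y : Λ) (e : Bool) :
    (sgn e • PL x) * PL y * (sgn e • PL x)ᵀ = ch (bz x y) • PL y := by
  rw [transpose_smul, Matrix.smul_mul, Matrix.smul_mul, Matrix.mul_smul, smul_smul, sgn_mul_self,
    one_smul, PL_conj]
theorem qe_mem2 (x : Λ) (e : Bool) : ((1 : Co0), (⟨sgn e • PL x, qe_mem1 x e⟩ : OG)) ∈ Ht := by
  intro y
  change _ * _ * (sgn e • PL x)ᵀ = PL ((1 : Co0) • y) ∨ _ * _ * (sgn e • PL x)ᵀ = -PL ((1 : Co0) • y)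
  rw [one_smul]
  rcases ch_cases (bz x y) with h | h
  · exact Or.inl ((qe_conj x y e).trans (by rw [h, one_smul]))
  · exact Or.inr ((qe_conj x y e).trans (by rw [h, neg_smul, one_smul]))
noncomputable def qe (x : Λ) (e : Bool) : Ht := ⟨(1, ⟨sgn e • PL x, qe_mem1 x e⟩), qe_mem2 x e⟩
/-- the element `± P x` of the extraspecial group -/
noncomputable def xq (x : Λ) (e : Bool) : GG := rho (qe x e)
/-- the central involution -/
noncomputable def zz : GG := xq 0 true

theorem qe_fst (x : Λ) (e : Bool) : (qe x e).1.1 = 1 := rfl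
theorem qe_snd (x : Λ) (e : Bool) : ((qe x e).1.2 : Matrix κ κ ℝ) = sgn e • PL x := rfl
theorem Ht_ext {p q : Ht} (h1 : p.1.1 = q.1.1)
    (h2 : (p.1.2 : Matrix κ κ ℝ) = (q.1.2 : Matrix κ κ ℝ)) : p = q :=
  Subtype.ext (Prod.ext h1 (Subtype.ext h2))
theorem Ht_mul_fst (p q : Ht) : (p * q).1.1 = p.1.1 * q.1.1 := rfl
theorem Ht_inv_fst (p : Ht) : (p⁻¹).1.1 = p.1.1⁻¹ := rfl
theorem Ht_mul_snd (p q : Ht) : ((p * q).1.2 : Matrix κ κ ℝ) = p.1.2 * q.1.2 := rfl
theorem Ht_inv_snd (p : Ht) : ((p⁻¹).1.2 : Matrix κ κ ℝ) = (p.1.2 : Matrix κ κ ℝ)ᵀ := rfl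
theorem act_apply (g : Matrix ι ι ℝ) (c : Matrix κ κ ℝ) (u : Amb) :
    act g c u = (g * u.1 * gᵀ, c * u.2.1 * cᵀ, g * u.2.2 * cᵀ) := rfl

theorem ax_mem {r : Λ} (hr : r ∈ L2) (e : Bool) :
    ((R r, (-4 * sgn e) • PL r, 0) : Amb) ∈ V0 :=
  ⟨by ext i j; simp only [transpose_apply, R]; ring,
    US.smul_mem _ (Submodule.subset_span ⟨r, hr, rfl⟩), trivial⟩
open Classical in
/-- the axis of the involution `xq r e`, for short `r` -/
noncomputable def ax (r : Λ) (e : Bool) : VV := if hr : r ∈ L2 then ⟨_, ax_mem hr e⟩ else 0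
theorem ax_val {r : Λ} (hr : r ∈ L2) (e : Bool) :
    (ax r e : Amb) = (R r, (-4 * sgn e) • PL r, 0) := by rw [ax, dif_pos hr]
/-- four times the identity of the algebra is ... this vector times a scalar -/
noncomputable def one0 : VV := ⟨(1, 0, 0), transpose_one, zero_mem _, trivial⟩

/-- `h` carries `± P x` to `± P y` -/
def Cj (h : Ht) (x : Λ) (e : Bool) (y : Λ) (f : Bool) : Prop :=
  cl y = cl (h.1.1 • x) ∧
    (h.1.2 : Matrix κ κ ℝ) * (sgn e • PL x) * (h.1.2 : Matrix κ κ ℝ)ᵀ = sgn f • PL y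

theorem exists_Cj (h : Ht) (x : Λ) (e : Bool) : ∃ f, Cj h x e (h.1.1 • x) f := by
  rcases h.2 x with a | a
  · exact ⟨e, rfl, by rw [Matrix.mul_smul, Matrix.smul_mul, a]⟩
  · exact ⟨!e, rfl, by rw [Matrix.mul_smul, Matrix.smul_mul, a, sgn_not, neg_smul, smul_neg]⟩
theorem Cj.conj {h : Ht} {x y : Λ} {e f : Bool} (c : Cj h x e y f) :
    rho h * xq x e * (rho h)⁻¹ = xq y f := by
  rw [xq, xq, ← map_inv, ← map_mul, ← map_mul]
  refine congrArg rho (Ht_ext ?_ ?_)
  · rw [Ht_mul_fst, Ht_mul_fst, Ht_inv_fst, qe_fst, qe_fst, mul_one, mul_inv_cancel]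
  · rw [Ht_mul_snd, Ht_mul_snd, Ht_inv_snd, qe_snd, qe_snd, c.2]
theorem R_congr {r s : Λ} (hr : r ∈ L2) (hs : s ∈ L2) (h : cl r = cl s) : R r = R s := by
  rcases short_eq hr hs h with rfl | rfl
  exacts [rfl, (R_neg r).symm]
theorem Cj.smul_ax {h : Ht} {x y : Λ} {e f : Bool} (c : Cj h x e y f) (hx : x ∈ L2) (hy : y ∈ L2) :
    rho h • ax x e = ax y f := by
  refine Subtype.ext ?_
  rw [rho_smul, ax_val hx, ax_val hy, act_apply]
  refine Prod.ext ?_ (Prod.ext ?_ ?_)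
  · exact (R_smul _ _).symm.trans (R_congr (smul_mem_L2 _ hx) hy c.1.symm)
  · change _ * (_ • PL x) * _ = _ • PL y
    rw [mul_smul, mul_smul, ← c.2, Matrix.mul_smul (a := (-4 : ℝ)), Matrix.smul_mul]
  · change _ * (0 : Matrix ι κ ℝ) * _ = 0
    rw [Matrix.mul_zero, Matrix.zero_mul]
theorem Cj.mc {h : Ht} {x y : Λ} {e f : Bool} (c : Cj h x e y f) (M : Matrix κ κ ℝ) :
    sgn f * mc ((h.1.2 : Matrix κ κ ℝ) * M * (h.1.2 : Matrix κ κ ℝ)ᵀ) y = sgn e * mc M x := by
  have e1 : ∀ (a : ℝ) (N : Matrix κ κ ℝ) (z : Λ), a * Mo.mc N z = trace ((a • PL z) * N) / 4096 :=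
    fun a N z => by rw [Mo.mc, Matrix.smul_mul, trace_smul, smul_eq_mul, mul_div_assoc]
  rw [e1, e1, ← c.2, ← Matrix.mul_assoc, trace_mul_comm, ← Matrix.mul_assoc, ← Matrix.mul_assoc,
    ← Matrix.mul_assoc, ← Matrix.mul_assoc, OG.tr_mul, Matrix.one_mul,
    Matrix.mul_assoc (sgn e • PL x), OG.tr_mul, Matrix.mul_one]
theorem sPL_inj {x y : Λ} {e f : Bool} (h : sgn e • PL x = sgn f • PL y) : cl x = cl y ∧ e = f := by
  have h1 := congrArg (fun M => trace (M * (PL y)ᵀ)) h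
  simp only [Matrix.smul_mul, trace_smul, trace_PL_mul_tr, if_true, smul_eq_mul] at h1
  split_ifs at h1 with a
  · exact ⟨a, sgn_inj (by linarith)⟩
  · rcases sgn_cases f with b | b <;> rw [b] at h1 <;> norm_num at h1
theorem rho_eq_W {p q : Ht} (h : rho p = rho q) (W : Matrix ι κ ℝ) :
    mat p.1.1 * W * (p.1.2 : Matrix κ κ ℝ)ᵀ = mat q.1.1 * W * (q.1.2 : Matrix κ κ ℝ)ᵀ := by
  let u : VV := ⟨(0, 0, W), transpose_zero, zero_mem _, trivial⟩
  have := congrArg (fun g : GG => ((g • u : VV) : Amb).2.2) h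
  exact this
theorem qe_congr {x y : Λ} (h : cl x = cl y) (e : Bool) : qe x e = qe y e :=
  Ht_ext rfl (by rw [qe_snd, qe_snd, PL_congr h])
theorem xq_eq_iff {x y : Λ} {e f : Bool} : xq x e = xq y f ↔ cl x = cl y ∧ e = f := by
  refine ⟨fun h => sPL_inj ?_, fun ⟨h, h'⟩ => by rw [xq, xq, qe_congr h, h']⟩
  ext i j
  have := congrFun (congrFun (rho_eq_W h (Matrix.single none j 1)) none) i
  rw [qe_fst, qe_fst, qe_snd, qe_snd, mat_one, Matrix.one_mul, Matrix.single_mul_apply_same,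
    Matrix.single_mul_apply_same, one_mul, one_mul] at this
  exact this
theorem qe_mul {x y : Λ} {e f g : Bool}
    (h : sgn e * sgn f * sg (cl x / 4096) (cl y % 4096) = sgn g) :
    qe x e * qe y f = qe (x + y) g := Ht_ext (mul_one _) (by
  rw [Ht_mul_snd, qe_snd, qe_snd, qe_snd, Matrix.smul_mul, Matrix.mul_smul, PL_mul, smul_smul,
    smul_smul, ← h, sg_cl])
theorem xq_mul {x y : Λ} {e f g : Bool}
    (h : sgn e * sgn f * sg (cl x / 4096) (cl y % 4096) = sgn g) :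
    xq x e * xq y f = xq (x + y) g := by
  rw [xq, xq, xq, ← map_mul, qe_mul h]
theorem qe_zero : qe 0 false = 1 := Ht_ext rfl (by rw [qe_snd, sgn_false, one_smul, PL_zero]; rfl)
theorem xq_zero : xq 0 false = 1 := by rw [xq, qe_zero, map_one]
theorem zz_mul_xq (x : Λ) (e : Bool) : zz * xq x e = xq x (!e) := by
  rw [zz, xq_mul (g := !e) (by rw [cl_zero, Nat.zero_div, sg_zero, sgn_true, sgn_not]; ring),
    zero_add]
theorem exists_sgn_mul (x y : Λ) (e f : Bool) : ∃ g,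
    sgn e * sgn f * sg (cl x / 4096) (cl y % 4096) = sgn g := by
  obtain ⟨g, hg⟩ := exists_sgn (sg_mul_self (cl x / 4096) (cl y % 4096))
  exact ⟨xor (xor e f) g, by rw [sgn_xor, sgn_xor, hg]⟩
theorem xq_comm (x y : Λ) (e f : Bool) : xq x e * xq y f =
    (if dotInt (x : V) (y : V) / 8 % 2 = 0 then 1 else zz) * (xq y f * xq x e) := by
  obtain ⟨g, hg⟩ := exists_sgn_mul x y e f
  obtain ⟨g', hg'⟩ := exists_sgn_mul y x f e
  have h := sg_cl_comm x y
  have h2 : sgn g * sgn g' =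
      sg (cl x / 4096) (cl y % 4096) * sg (cl y / 4096) (cl x % 4096) := by
    rw [← hg, ← hg']
    linear_combination (sg (cl x / 4096) (cl y % 4096) * sg (cl y / 4096) (cl x % 4096) *
      sgn f * sgn f) * sgn_mul_self e +
      (sg (cl x / 4096) (cl y % 4096) * sg (cl y / 4096) (cl x % 4096)) * sgn_mul_self f
  rw [xq_mul hg, xq_mul hg', add_comm y]
  rw [← h2] at h
  split_ifs at h ⊢
  · rw [one_mul, sgn_inj (e := g) (f := g') (by
      linear_combination sgn g' * h - sgn g * sgn_mul_self g')]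
  · rw [zz_mul_xq, sgn_inj (e := g) (f := !g') (by
      rw [sgn_not]; linear_combination sgn g' * h - sgn g * sgn_mul_self g')]
theorem Cj_zero (h : Ht) (e : Bool) : Cj h 0 e 0 e :=
  ⟨by rw [show h.1.1 • (0 : Λ) = 0 from map_zero (hom h.1.1)], by
    rw [PL_zero, Matrix.mul_smul, Matrix.smul_mul, Matrix.mul_one, OG.mul_tr]⟩
theorem zz_comm (h : Ht) : rho h * zz = zz * rho h :=
  mul_inv_eq_iff_eq_mul.1 (Cj_zero h true).conj
theorem zz_smul (u : VV) : ((zz • u : VV) : Amb) = (u.1.1, u.1.2.1, -u.1.2.2) := by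
  rw [zz, xq, rho_smul, act_apply, qe_fst, qe_snd, mat_one, PL_zero, sgn_true, neg_smul, one_smul,
    transpose_neg, transpose_one, transpose_one]
  simp only [Matrix.one_mul, Matrix.mul_one, Matrix.neg_mul, Matrix.mul_neg, neg_neg]
theorem ax_inj {r s : Λ} (hr : r ∈ L2) (hs : s ∈ L2) {e f : Bool} :
    ax r e = ax s f ↔ cl r = cl s ∧ e = f := by
  rw [Subtype.ext_iff, ax_val hr, ax_val hs]
  refine ⟨fun h => sPL_inj ?_, fun ⟨h, h'⟩ => by rw [R_congr hr hs h, PL_congr h, h']⟩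
  have h1 : (-4 * sgn e) • PL r = (-4 * sgn f) • PL s := congrArg (fun u : Amb => u.2.1) h
  rw [mul_smul, mul_smul] at h1
  exact smul_right_injective _ (by norm_num) h1

theorem gram_scalar (g : Co0) (c : Matrix κ κ ℝ) (s : ℕ → Bool)
    (h : ∀ k < 24, c * P (2 ^ k) = sgn (s k) • (PL (g • ug k) * c)) :
    ∃ a : ℝ, cᵀ * c = a • (1 : Matrix κ κ ℝ) := by
  refine commutant fun k hk => ?_
  have e : (c * P (2 ^ k))ᵀ * (c * P (2 ^ k)) = cᵀ * c := by
    rw [h k hk, transpose_smul, Matrix.smul_mul, Matrix.mul_smul, smul_smul, sgn_mul_self, one_smul,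
      transpose_mul, Matrix.mul_assoc, ← Matrix.mul_assoc (PL _)ᵀ, PL_tr_mul, Matrix.one_mul]
  conv_rhs => rw [← e]
  rw [transpose_mul, Matrix.mul_assoc (P _)ᵀ, ← Matrix.mul_assoc (P _), P_mul_tr, Matrix.one_mul,
    Matrix.mul_assoc]
theorem gram_apply (c : Matrix κ κ ℝ) (l : κ) : (cᵀ * c) l l = ∑ j, c j l ^ 2 := by
  simp only [Matrix.mul_apply, transpose_apply, sq]
/-- the criterion for computed elements -/
theorem mem_of_gen (g : Co0) (c : Matrix κ κ ℝ) (s : ℕ → Bool)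
    (h : ∀ k < 24, c * P (2 ^ k) = sgn (s k) • (PL (g • ug k) * c)) (hn : ∑ j, c j 0 ^ 2 = 1) :
    ∃ p : Ht, p.1.1 = g ∧ (p.1.2 : Matrix κ κ ℝ) = c := by
  obtain ⟨a, ha⟩ := gram_scalar g c s h
  have a1 : a = 1 := by
    rw [← gram_apply, ha, Matrix.smul_apply, Matrix.one_apply_eq, smul_eq_mul, mul_one] at hn
    exact hn
  rw [a1, one_smul] at ha
  have hq : ∀ n < 2 ^ 24, ∃ x, cl x = n ∧ ∃ e, c * PL x = sgn e • (PL (g • x) * c) := by
    refine xor_ind 24 ⟨0, cl_zero, false, ?_⟩ (fun k hk => ⟨ug k, cl_ug hk, s k, ?_⟩) ?_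
    · rw [show g • (0 : Λ) = 0 from map_zero (hom g), PL_zero, sgn_false, one_smul, Matrix.mul_one,
        Matrix.one_mul]
    · rw [← h k hk, PL, cl_ug hk]
    · rintro _ - _ - ⟨x, rfl, e, hx⟩ ⟨y, rfl, f, hy⟩
      obtain ⟨e1, h1⟩ := exists_sgn (ch_mul_self (hb x y))
      obtain ⟨e2, h2⟩ := exists_sgn (ch_mul_self (hb (g • x) (g • y)))
      refine ⟨x + y, cl_add x y, xor (xor e1 e2) (xor e f), ?_⟩
      have e3 : PL (x + y) = sgn e1 • (PL x * PL y) := by
        rw [PL_mul, smul_smul, ← h1, sgn_mul_self, one_smul]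
      rw [e3, Matrix.mul_smul, ← Matrix.mul_assoc, hx, Matrix.smul_mul, Matrix.mul_assoc, hy,
        Matrix.mul_smul, ← Matrix.mul_assoc, PL_mul, Matrix.smul_mul, ← h2, smul_smul, smul_smul,
        smul_smul, show g • (x + y) = g • x + g • y from map_add (hom g) _ _, sgn_xor, sgn_xor,
        sgn_xor]
      exact congrArg (· • _) (by ring)
  refine ⟨⟨(g, ⟨c, mem_OG ha⟩), fun x => ?_⟩, rfl, rfl⟩
  obtain ⟨y, hy, e, he⟩ := hq _ (cl_lt x)
  have hc : c * cᵀ = 1 := OG.mul_tr ⟨c, mem_OG ha⟩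
  change c * _ * cᵀ = PL (g • x) ∨ c * _ * cᵀ = -PL (g • x)
  rw [← PL_congr hy, ← PL_congr (cl_smul g hy), he, Matrix.smul_mul, Matrix.mul_assoc, hc,
    Matrix.mul_one]
  cases e
  · exact Or.inl (by rw [sgn_false, one_smul])
  · exact Or.inr (by rw [sgn_true, neg_smul, one_smul])

theorem bz_uu_ug {k l : ℕ} (hk : k < 24) (hl : l < 24) :
    bz (uu k) (ug l) = if l = k then 1 else 0 := by
  rw [ug, bz_uu_uu hk (Nat.mod_lt _ (by omega))]
  exact if_congr (by omega) rfl rfl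
theorem hom_congr (f : Λ →+ ZMod 2) {x y : Λ} (h : cl x = cl y) : f x = f y := by
  obtain ⟨w, hw⟩ := cl_eq_iff.1 h
  rw [← sub_eq_zero, ← map_sub, hw, map_nsmul, two_nsmul, CharTwo.add_self_eq_zero]
theorem hom_expand (f : Λ →+ ZMod 2) (y : Λ) : f y = ∑ l ∈ range 24, bz (uu l) y * f (ug l) := by
  have e : ∀ g : Λ →+ ZMod 2, g (∑ l ∈ range 24, (bz (uu l) y).val • ug l) =
      ∑ l ∈ range 24, bz (uu l) y * g (ug l) := fun g => by
    simp only [map_sum, map_nsmul, nsmul_eq_mul, ZMod.natCast_val, ZMod.cast_id', id]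
  rw [← e]
  refine hom_congr f (cl_eq_iff_bz.2 fun k hk => ?_)
  rw [e, sum_eq_single k (fun l hl a => by rw [bz_uu_ug hk (mem_range.1 hl), if_neg a, mul_zero])
    (fun a => absurd (mem_range.2 hk) a), bz_uu_ug hk hk, if_pos rfl, mul_one]
theorem sum_tri (a b : ℕ → ZMod 2) (β : ℕ → ℕ → ZMod 2) (h0 : ∀ k, β k k = 0)
    (hs : ∀ k l, β k l = β l k) (n : ℕ) : ∑ k ∈ range n, a k * ∑ l ∈ range n, b l * β k l =
      ∑ k ∈ range n, ∑ l ∈ range k, (a k * b l + b k * a l) * β k l := by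
  induction n with
  | zero => simp
  | succ n ih =>
    simp only [sum_range_succ, mul_add, sum_add_distrib, h0, mul_zero, add_zero, ih]
    rw [add_assoc, mul_sum, ← sum_add_distrib]
    congr 1
    exact sum_congr rfl fun l _ => by rw [hs l n]; ring
/-- the defect of `g` on the half form -/
noncomputable def bt (g : Co0) (x : Λ) : Λ →+ ZMod 2 :=
  AddMonoidHom.mk' (fun y => hb (g • x) (g • y) + hb x y) fun y y' => by
    rw [show g • (y + y') = g • y + g • y' from map_add (hom g) _ _, hb_add_right, hb_add_right]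
    ring
theorem bt_apply (g : Co0) (x y : Λ) : bt g x y = hb (g • x) (g • y) + hb x y := rfl
theorem bt_self (g : Co0) (x : Λ) : bt g x x = 0 := by
  rw [bt_apply, hb_self, hb_self, norm_smul', CharTwo.add_self_eq_zero]
theorem bt_comm (g : Co0) (x y : Λ) : bt g x y = bt g y x := by
  have h1 := hb_add_hb (g • x) (g • y)
  have h2 := hb_add_hb x y
  rw [bz_apply, dot_smul, ← bz_apply, ← h2] at h1
  rw [bt_apply, bt_apply]
  have := CharTwo.add_self_eq_zero (hb x y)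
  have := CharTwo.add_self_eq_zero (hb (g • y) (g • x))
  linear_combination h1 + CharTwo.add_self_eq_zero (hb x y) -
    CharTwo.add_self_eq_zero (hb (g • y) (g • x))
/-- a quadratic form with polar form `bt g` -/
noncomputable def qf (g : Co0) (x : Λ) : ZMod 2 :=
  ∑ k ∈ range 24, ∑ l ∈ range k, bz (uu k) x * bz (uu l) x * bt g (ug k) (ug l)
theorem qf_add (g : Co0) (x y : Λ) : qf g (x + y) = qf g x + qf g y + bt g x y := by
  have e : bt g x y = ∑ k ∈ range 24, bz (uu k) x *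
      ∑ l ∈ range 24, bz (uu l) y * bt g (ug k) (ug l) := by
    rw [bt_comm, hom_expand (bt g y) x]
    exact sum_congr rfl fun k _ => by rw [bt_comm, hom_expand (bt g (ug k)) y]
  rw [e, sum_tri _ _ _ (fun k => bt_self g _) (fun k l => bt_comm g _ _), qf, qf, qf,
    ← sum_add_distrib, ← sum_add_distrib]
  refine sum_congr rfl fun k _ => ?_
  rw [← sum_add_distrib, ← sum_add_distrib]
  refine sum_congr rfl fun l _ => ?_
  rw [map_add, map_add]; ring
theorem qf_congr (g : Co0) {x y : Λ} (h : cl x = cl y) : qf g x = qf g y := by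
  simp only [qf, hom_congr _ h]
/-- the twisted Pauli matrices -/
noncomputable def Pg (g : Co0) (x : Λ) : Matrix κ κ ℝ := ch (qf g x) • PL (g • x)
theorem Pg_congr (g : Co0) {x y : Λ} (h : cl x = cl y) : Pg g x = Pg g y := by
  rw [Pg, Pg, qf_congr g h, PL_congr (cl_smul g h)]
theorem Pg_zero (g : Co0) : Pg g 0 = 1 := by
  rw [Pg, show g • (0 : Λ) = 0 from map_zero (hom g), PL_zero, show qf g 0 = 0 by simp [qf],
    ch_zero, one_smul]
theorem Pg_mul (g : Co0) (x y : Λ) : Pg g x * Pg g y = ch (hb x y) • Pg g (x + y) := by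
  rw [Pg, Pg, Pg, Matrix.smul_mul, Matrix.mul_smul, PL_mul, smul_smul, smul_smul, smul_smul,
    show g • (x + y) = g • x + g • y from map_add (hom g) _ _, ← ch_add, ← ch_add, ← ch_add, qf_add,
    bt_apply]
  exact congrArg (ch · • _) (by linear_combination -CharTwo.add_self_eq_zero (hb x y))
theorem sum_xor {M : Type*} [AddCommMonoid M] (n a : ℕ) (ha : a < 2 ^ n) (f : ℕ → M) :
    ∑ m ∈ range (2 ^ n), f m = ∑ m ∈ range (2 ^ n), f (a ^^^ m) :=
  sum_nbij' (a ^^^ ·) (a ^^^ ·) (fun m h => mem_range.2 (Nat.xor_lt_two_pow ha (mem_range.1 h)))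
    (fun m h => mem_range.2 (Nat.xor_lt_two_pow ha (mem_range.1 h)))
    (fun m _ => by simp) (fun m _ => by simp) fun m _ => by simp
theorem Ht_surj (g : Co0) : ∃ p : Ht, p.1.1 = g := by
  have hl : ∀ n : ℕ, ∃ x : Λ, n < 2 ^ 24 → cl x = n := fun n => by
    by_cases h : n < 2 ^ 24
    · exact (cl_surj h).imp fun x hx _ => hx
    · exact ⟨0, fun a => absurd a h⟩
  choose lf hl using hl
  obtain ⟨N, hN⟩ : ∃ N, N = range (2 ^ 24) := ⟨_, rfl⟩
  have hm : ∀ n ∈ N, n < 2 ^ 24 := fun n hn => mem_range.1 (hN ▸ hn)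
  let c : κ → Matrix κ κ ℝ := fun j => ∑ n ∈ N, Pg g (lf n) * Matrix.single 0 j 1 * (PL (lf n))ᵀ
  have h1 : ∀ j x, c j * PL x = Pg g x * c j := fun j x => by
    simp only [c]
    conv_lhs => rw [hN, sum_xor 24 (cl x) (cl_lt x), ← hN]
    rw [Matrix.sum_mul, Matrix.mul_sum]
    refine sum_congr rfl fun n hn => ?_
    have e : cl (lf (cl x ^^^ n)) = cl (x + lf n) := by
      rw [cl_add, hl _ (hm n hn), hl _ (Nat.xor_lt_two_pow (cl_lt x) (hm n hn))]
    have e2 : PL (x + lf n) = ch (hb x (lf n)) • (PL x * PL (lf n)) := by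
      rw [PL_mul, smul_smul, ch_mul_self, one_smul]
    rw [Pg_congr g e, PL_congr e, e2, ← Matrix.mul_assoc, ← Matrix.mul_assoc, Pg_mul,
      transpose_smul, transpose_mul, Matrix.mul_smul, Matrix.smul_mul, Matrix.smul_mul,
      Matrix.smul_mul, Matrix.mul_assoc, Matrix.mul_assoc _ (PL x)ᵀ, PL_tr_mul, Matrix.mul_one]
  have h2 : ∑ j, c j 0 j = 4096 := by
    have e : ∀ j n, (Pg g (lf n) * Matrix.single 0 j 1 * (PL (lf n))ᵀ : Matrix κ κ ℝ) 0 j =
        Pg g (lf n) 0 0 * PL (lf n) j j := fun j n => by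
      rw [Matrix.mul_apply, sum_eq_single j (fun l _ a => by
        rw [Matrix.mul_single_apply_of_ne (hbj := a), zero_mul]) (fun a => absurd (mem_univ _) a),
        Matrix.mul_single_apply_same, mul_one, transpose_apply]
    simp only [c, Matrix.sum_apply, e]
    rw [sum_comm, sum_eq_single 0 (fun n hn a => ?_) (fun a => absurd (hN ▸ mem_range.2 (by norm_num)) a)]
    · have e0 : cl (lf 0) = cl 0 := by rw [cl_zero, hl _ (by norm_num)]
      rw [← mul_sum, Pg_congr g e0, PL_congr e0, Pg_zero, PL_zero, Matrix.one_apply_eq, one_mul]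
      exact trace_one'
    · rw [← mul_sum, PL, hl _ (hm n hn)]
      exact mul_eq_zero_of_right _ (trace_P (hm n hn) a)
  obtain ⟨j, hj⟩ : ∃ j, c j 0 j ≠ 0 := by
    by_contra h
    push Not at h
    simp only [h, sum_const_zero] at h2
    norm_num at h2
  have h3 : ∀ k : ℕ, ∃ e, sgn e = ch (qf g (ug k)) := fun k => exists_sgn (ch_mul_self _)
  choose s hs using h3
  have h4 : ∀ t : ℝ, ∀ k < 24, (t • c j) * P (2 ^ k) = sgn (s k) • (PL (g • ug k) * (t • c j)) :=
    fun t k hk => by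
      rw [← cl_ug hk, ← PL, Matrix.smul_mul, h1, Pg, hs, Matrix.smul_mul, Matrix.mul_smul, smul_comm]
  obtain ⟨a, ha⟩ := gram_scalar g _ s (h4 1)
  rw [one_smul] at ha
  have h5 : ∀ l, ∑ i, c j i l ^ 2 = a := fun l => by
    rw [← gram_apply, ha, Matrix.smul_apply, Matrix.one_apply_eq, smul_eq_mul, mul_one]
  have h6 : 0 < a := by
    rw [← h5 j]
    exact sum_pos' (fun i _ => sq_nonneg _) ⟨0, mem_univ _, sq_pos_of_ne_zero hj⟩
  obtain ⟨p, hp, -⟩ := mem_of_gen g _ s (h4 (√a)⁻¹) (by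
    simp only [Matrix.smul_apply, smul_eq_mul, mul_pow, ← mul_sum, h5, inv_pow, Real.sq_sqrt h6.le]
    exact inv_mul_cancel₀ h6.ne')
  exact ⟨p, hp⟩
theorem exists_qe (p : Ht) (h : p.1.1 = 1) : ∃ x e, p = qe x e := by
  have h1 : ∀ k : ℕ, ∃ t : ZMod 2, (p.1.2 : Matrix κ κ ℝ) * PL (ug k) =
      ch t • (PL (ug k) * p.1.2) := fun k => by
    have e : (p.1.2 : Matrix κ κ ℝ) * PL (ug k) =
        (p.1.2 : Matrix κ κ ℝ) * PL (ug k) * (p.1.2 : Matrix κ κ ℝ)ᵀ * p.1.2 := by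
      rw [Matrix.mul_assoc, OG.tr_mul, Matrix.mul_one]
    rcases p.2 (ug k) with a | a <;> rw [a, h, one_smul] at e
    · exact ⟨0, by rw [e, ch_zero, one_smul]⟩
    · exact ⟨1, by rw [e, ch, if_neg one_ne_zero, neg_smul, one_smul, Matrix.neg_mul]⟩
  choose t ht using h1
  let y : Λ := ∑ l ∈ range 24, (t l).val • uu l
  have h2 : ∀ k < 24, bz y (ug k) = t k := fun k hk => by
    rw [bz_comm]
    simp only [y, map_sum, map_nsmul, nsmul_eq_mul, ZMod.natCast_val, ZMod.cast_id', id]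
    rw [sum_eq_single k (fun l hl a => by
      rw [bz_comm, bz_uu_ug (mem_range.1 hl) hk, if_neg a.symm, mul_zero])
      (fun a => absurd (mem_range.2 hk) a), bz_comm, bz_uu_ug hk hk, if_pos rfl, mul_one]
  obtain ⟨a, ha⟩ := commutant (c := PL y * p.1.2) fun k hk => by
    rw [← cl_ug hk, ← PL, Matrix.mul_assoc, ht, Matrix.mul_smul, ← Matrix.mul_assoc, PL_comm,
      h2 k hk, Matrix.smul_mul, smul_smul, ch_mul_self, one_smul, Matrix.mul_assoc]
  have h3 : (p.1.2 : Matrix κ κ ℝ) = (a * ch (hb y y)) • PL y := by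
    rw [← Matrix.one_mul (p.1.2 : Matrix κ κ ℝ), ← PL_tr_mul y, Matrix.mul_assoc, ha,
      Matrix.mul_smul, Matrix.mul_one, PL_transpose, smul_smul]
  have h4 := congrFun (congrFun (OG.mul_tr p.1.2) 0) 0
  rw [h3, transpose_smul, Matrix.smul_mul, Matrix.mul_smul, PL_mul_tr, smul_smul, Matrix.smul_apply,
    Matrix.one_apply_eq, smul_eq_mul, mul_one] at h4
  obtain ⟨e, he⟩ := exists_sgn h4
  exact ⟨y, e, Ht_ext h (by rw [qe_snd, he, h3])⟩
/-- the element `(-1, -1)`, which acts trivially -/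
noncomputable def nn : Ht := ⟨(neg1, (qe 0 true).1.2), fun x => Or.inl (by
  change (sgn true • PL 0) * _ * (sgn true • PL 0)ᵀ = PL (-x)
  rw [qe_conj, PL_neg, bz_comm, map_zero, ch_zero, one_smul])⟩
theorem rho_nn : rho nn = 1 := by
  refine Units.ext (LinearMap.ext fun u => Subtype.ext ?_)
  change act (mat neg1) (sgn true • PL 0) u = u
  rw [act_apply, mat_neg1, PL_zero, sgn_true, neg_smul, one_smul, transpose_neg, transpose_neg,
    transpose_one, transpose_one]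
  simp only [Matrix.one_mul, Matrix.mul_one, Matrix.neg_mul, Matrix.mul_neg, neg_neg]
/-- `rho p` lies in the extraspecial group iff the lattice part is `± 1` -/
theorem rho_eq_xq_iff (p : Ht) : (∃ x e, rho p = xq x e) ↔ p.1.1 ∈ Subgroup.center Co0 := by
  constructor
  · rintro ⟨x, e, h⟩
    have h1 : rho (p * (qe x e)⁻¹) = rho 1 := by rw [map_mul, map_inv, h, xq, mul_inv_cancel, map_one]
    obtain ⟨c, hc⟩ : ∃ c : Matrix κ κ ℝ, ∀ W : Matrix ι κ ℝ, mat p.1.1 * W * cᵀ = W :=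
      ⟨_, fun W => by
        have := rho_eq_W h1 W
        rw [Ht_mul_fst, Ht_inv_fst, qe_fst, inv_one, mul_one] at this
        refine this.trans ?_
        change mat 1 * W * (1 : Matrix κ κ ℝ)ᵀ = W
        rw [mat_one, transpose_one, Matrix.one_mul, Matrix.mul_one]⟩
    have h2 : c 0 0 • mat p.1.1 = 1 := by
      ext i j
      have := congrFun (congrFun (hc (Matrix.single j 0 1)) i) 0
      rw [Matrix.mul_apply, sum_eq_single 0 (fun l _ a => by
        rw [Matrix.mul_single_apply_of_ne (hbj := a), zero_mul]) (fun a => absurd (mem_univ _) a),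
        Matrix.mul_single_apply_same, mul_one, transpose_apply] at this
      rw [Matrix.smul_apply, smul_eq_mul, mul_comm, this, Matrix.one_apply]
      simp [Matrix.single_apply, eq_comm]
    have h3 : c 0 0 ≠ 0 := fun a => by
      rw [a, zero_smul] at h2
      exact zero_ne_one h2
    refine Subgroup.mem_center_iff.2 fun g => mat_inj (smul_right_injective _ h3 ?_)
    change c 0 0 • _ = c 0 0 • _
    rw [mat_mul, mat_mul, ← Matrix.mul_smul, ← Matrix.smul_mul, h2, Matrix.mul_one, Matrix.one_mul]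
  · intro h
    rcases central_cases h with a | a
    · obtain ⟨x, e, b⟩ := exists_qe p a
      exact ⟨x, e, by rw [b, xq]⟩
    · obtain ⟨x, e, b⟩ := exists_qe (p * nn) (by
        rw [Ht_mul_fst, a]
        exact mat_inj (by
          change mat (neg1 * neg1) = _
          rw [mat_mul, mat_neg1, mat_one, neg_mul_neg, one_mul]))
      exact ⟨x, e, by rw [xq, ← b, map_mul, rho_nn, mul_one]⟩

end Cfsg.Agent.Mo
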