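import Cfsg.Agent.Mo.Crd

/-! Products of basis vectors as sparse lists. -/

set_option autoImplicit false

namespace Cfsg.Agent.Mo

open H4 H5 H5.Lee Matrix Finset

/-- sparse vectors: address and coefficient -/
abbrev SL := List (ℕ × ℤ)
noncomputable def ev (L : SL) (w : Amb) : ℝ := (L.map fun t => (t.2 : ℝ) * crd w t.1).sum

theorem pt_inj {i j : ℕ} (hi : i < 24) (hj : j < 24) : gE.pt i = gE.pt j ↔ i = j :=
  ⟨fun h => by rw [← gE.ix_pt i hi, h, gE.ix_pt j hj], fun h => h ▸ rfl⟩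

theorem ix_eq {a : ι} {i : ℕ} (hi : i < 24) : gE.ix a = i ↔ gE.pt i = a :=
  ⟨fun h => by rw [← h, gE.pt_ix], fun h => by rw [← h, gE.ix_pt i hi]⟩

theorem inc_M (f : ℕ → ℝ) : (inc f : Amb).2.1 =
    ∑ q ∈ (range 98304).filter (fun q => VM.testBit q), f (576 + q) • PL (rq q) := by
  simp only [inc, LinearMap.coe_mk, AddHom.coe_mk]

theorem inc_W (f : ℕ → ℝ) (a : ι) (b : κ) :
    (inc f : Amb).2.2 a b = f (576 + (98304 + (gE.ix a * 4096 + b))) := by
  simp only [inc, LinearMap.coe_mk, AddHom.coe_mk]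

theorem inc_M0 {f : ℕ → ℝ} (h : ∀ q < 98304, VM.testBit q = true → f (576 + q) = 0) :
    (inc f : Amb).2.1 = 0 := by
  rw [inc_M]
  exact sum_eq_zero fun q hq => by rw [h q (mem_range.1 (mem_filter.1 hq).1) (mem_filter.1 hq).2, zero_smul]

theorem dual_A {i j : ℕ} (hi : i < 24) (hj : j < 24) : (dual (i * 24 + j) : Amb) =
    ((2 : ℝ)⁻¹ • (single (gE.pt i) (gE.pt j) 1 + single (gE.pt j) (gE.pt i) 1), 0, 0) := by
  refine Prod.ext (Matrix.ext fun a b => ?_) (Prod.ext (inc_M0 fun q _ _ => ?_)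
    (Matrix.ext fun a b => Pi.single_eq_of_ne (M := fun _ => ℝ) (i := i * 24 + j)
      (i' := 576 + (98304 + (gE.ix a * 4096 + b))) (by omega) _))
  · change (Pi.single (M := fun _ => ℝ) (i * 24 + j) 1 (gE.ix a * 24 + gE.ix b) +
      Pi.single (M := fun _ => ℝ) (i * 24 + j) 1 (gE.ix b * 24 + gE.ix a)) / 2 = _
    have ha := gE.ix_lt a
    have hb := gE.ix_lt b
    simp only [Pi.single_apply, Matrix.smul_apply, Matrix.add_apply, single, of_apply, ← ix_eq hi,
      ← ix_eq hj, smul_eq_mul]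
    rw [if_congr (show _ ↔ gE.ix a = i ∧ gE.ix b = j by omega) rfl rfl,
      if_congr (show gE.ix b * 24 + gE.ix a = i * 24 + j ↔ gE.ix a = j ∧ gE.ix b = i by omega) rfl rfl]
    ring
  · exact Pi.single_eq_of_ne (by omega) _

theorem dual_M {q : ℕ} (h : VM.testBit q = true) : (dual (576 + q) : Amb) = (0, PL (rq q), 0) := by
  have hq := VM_lt h
  refine Prod.ext (Matrix.ext fun a b => ?_) (Prod.ext ?_
    (Matrix.ext fun a b => Pi.single_eq_of_ne (by omega) _))
  · have ha := gE.ix_lt a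
    have hb := gE.ix_lt b
    change (Pi.single (M := fun _ => ℝ) (576 + q) 1 (gE.ix a * 24 + gE.ix b) +
      Pi.single (M := fun _ => ℝ) (576 + q) 1 (gE.ix b * 24 + gE.ix a)) / 2 = 0
    rw [Pi.single_eq_of_ne (by omega), Pi.single_eq_of_ne (by omega)]; ring
  · rw [dual, inc_M, sum_eq_single q (fun r _ hr => by rw [Pi.single_eq_of_ne (by omega), zero_smul])
      fun h1 => absurd (mem_filter.2 ⟨mem_range.2 hq, h⟩) h1, Pi.single_eq_same, one_smul]

theorem dual_W {k l : ℕ} (hk : k < 24) (hl : l < 4096) : (dual (576 + (98304 + (k * 4096 + l))) : Amb) =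
    (0, 0, single (gE.pt k) ⟨l, hl⟩ 1) := by
  refine Prod.ext (Matrix.ext fun a b => ?_) (Prod.ext (inc_M0 fun q hq _ => ?_)
    (Matrix.ext fun a b => ?_))
  · have ha := gE.ix_lt a
    have hb := gE.ix_lt b
    change (Pi.single (M := fun _ => ℝ) _ 1 (gE.ix a * 24 + gE.ix b) +
      Pi.single (M := fun _ => ℝ) _ 1 (gE.ix b * 24 + gE.ix a)) / 2 = 0
    rw [Pi.single_eq_of_ne (by omega), Pi.single_eq_of_ne (by omega)]; ring
  · exact Pi.single_eq_of_ne (by omega) _
  · rw [dual, inc_W]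
    have hb := b.2
    simp only [Pi.single_apply, single, of_apply, ← ix_eq hk, Fin.ext_iff]
    exact if_congr (by omega) rfl rfl

theorem mc_zero_p (r : Λ) : mc 0 r = 0 := by simp [mc]
theorem T1_zero_p (u : Amb) (U : Matrix ι κ ℝ) : T1 u 0 U = 0 := by simp [T1]

theorem trace_single2 {m n : Type*} [Fintype m] [Fintype n] [DecidableEq m] [DecidableEq n]
    (A : Matrix m m ℝ) (k : m) (l : n) (U : Matrix m n ℝ) :
    trace (A * single k l (1 : ℝ) * Uᵀ) = ∑ a, A a k * U a l := by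
  simp [trace, Matrix.mul_apply, single, ite_and, sum_mul]

theorem trace_sss {a b c d : ι} (w : Matrix ι ι ℝ) :
    trace (single a b (1 : ℝ) * single c d (1 : ℝ) * w) = if b = c then w d a else 0 := by
  rw [← transpose_transpose w, trace_single2]
  simp [single, ite_and]

theorem R_rq {q : ℕ} (h : VM.testBit q = true) {i j : ℕ} (hi : i < 24) (hj : j < 24) :
    R (rq q) (gE.pt i) (gE.pt j) = ((xc q i * xc q j : ℤ) : ℝ) / 8 := by
  rw [R, rq_val h, rq_val h, gE.ix_pt i hi, gE.ix_pt j hj, Int.cast_mul]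

theorem crd_Mq {q : ℕ} (h : VM.testBit q = true) (v : Amb) : crd v (576 + q) = mc v.2.1 (rq q) := by
  rw [crd_M v (VM_lt h), if_pos h]

theorem trace_P_US {c : ℕ} (hc : c < 2 ^ 24) (h : ∀ r ∈ L2, cl r ≠ c) {M : Matrix κ κ ℝ} (hM : M ∈ US) :
    trace (P c * M) = 0 := by
  refine Submodule.span_induction (p := fun M _ => trace (P c * M) = 0) ?_ (by simp)
    (fun x y _ _ a b => by rw [Matrix.mul_add, trace_add, a, b, add_zero])
    (fun a x _ b => by rw [Matrix.mul_smul, trace_smul, b, smul_zero]) hM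
  rintro _ ⟨r, hr, rfl⟩
  rw [← PL_symm hr, PL, trace_P_mul_tr hc (cl_lt r), if_neg (h r hr).symm]

theorem TT_MM {r s : Λ} (hr : r ∈ L2) (w : Amb) : TT (0, PL r, 0) (0, PL s, 0) w =
    trace (R r * w.1) * mc (PL s) r + trace (PL r * PL s * w.2.1) / 4096 := by
  have := sum_mc_PL hr (fun x => trace (R x * w.1) * mc (PL s) x) (by rw [R_neg, mc_neg])
  simp only [smul_eq_mul] at this
  simp only [TT, T0, T1_zero_p, Matrix.mul_zero, Matrix.zero_mul, trace_zero, zero_mul, mul_zero,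
    zero_add, add_zero]
  rw [sum_congr rfl fun x _ => mul_right_comm _ _ _, sum_congr rfl fun x _ => mul_comm _ _, this]
  ring

theorem TT_AA {i j k l : ℕ} (hi : i < 24) (hj : j < 24) (hk : k < 24) (hl : l < 24) (w : VV) :
    TT (dual (i * 24 + j)) (dual (k * 24 + l)) w =
      (if j = k then crd w (i * 24 + l) else 0) + (if j = l then crd w (i * 24 + k) else 0) +
      (if i = k then crd w (j * 24 + l) else 0) + (if i = l then crd w (j * 24 + k) else 0) := by
  have hw : ∀ a b, (w : Amb).1 a b = (w : Amb).1 b a := fun a b => congrFun (congrFun w.2.1 b) a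
  rw [dual_A hi hj, dual_A hk hl, crd_A _ hi hl, crd_A _ hi hk, crd_A _ hj hl, crd_A _ hj hk]
  simp only [TT, T0, T1_zero_p, mc_zero_p, Matrix.zero_mul, trace_zero, zero_mul, mul_zero,
    add_zero, sum_const_zero, zero_div, Matrix.smul_mul, Matrix.mul_smul, Matrix.add_mul, Matrix.mul_add,
    trace_smul, trace_add, trace_sss, smul_eq_mul, pt_inj hj hk, pt_inj hj hl, pt_inj hi hk, pt_inj hi hl,
    hw (gE.pt l), hw (gE.pt k) (gE.pt i), hw (gE.pt k) (gE.pt j)]
  ring
theorem TT_AM {i j q : ℕ} (hi : i < 24) (hj : j < 24) (h : VM.testBit q = true) (w : VV) :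
    TT (dual (i * 24 + j)) (dual (576 + q)) w =
      ((xc q i * xc q j : ℤ) : ℝ) / 8 * crd w (576 + q) := by
  rw [dual_A hi hj, dual_M h, crd_Mq h]
  generalize hA : (2 : ℝ)⁻¹ • (single (gE.pt i) (gE.pt j) (1 : ℝ) + single (gE.pt j) (gE.pt i) 1) = A
  have := sum_mc_PL (rq_mem h) (fun x => trace (R x * A) * mc (w : Amb).2.1 x) (by rw [R_neg, mc_neg])
  simp only [smul_eq_mul] at this
  simp only [TT, T0, T1_zero_p, mc_zero_p, Matrix.mul_zero, Matrix.zero_mul, trace_zero, zero_mul, mul_zero,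
    zero_add, add_zero, zero_div]
  rw [sum_congr rfl fun x _ => mul_right_comm _ _ _, sum_congr rfl fun x _ => mul_comm _ _, this, ← hA]
  simp only [Matrix.mul_smul, Matrix.mul_add, trace_smul, trace_add, trace_mul_single, smul_eq_mul,
    MulOpposite.op_one, one_smul, R_rq h hi hj, R_rq h hj hi]
  push_cast; ring
theorem TT_MM_same {q : ℕ} (h : VM.testBit q = true) (w : VV) : TT (dual (576 + q)) (dual (576 + q)) w =
    (∑ i ∈ range 24, ∑ j ∈ range 24, ((xc q i * xc q j : ℤ) : ℝ) * crd w (i * 24 + j)) / 8 := by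
  have hw : ∀ a b, (w : Amb).1 a b = (w : Amb).1 b a := fun a b => congrFun (congrFun w.2.1 b) a
  rw [dual_M h, TT_MM (rq_mem h), mc_PL (rq_mem h), if_pos rfl, PL_sq (rq_mem h), ← P_zero,
    trace_P_US (by norm_num) (fun r hr => short_ne_zero hr) w.2.2.1, zero_div, add_zero, mul_one,
    trace, sum_pt, sum_div]
  refine sum_congr rfl fun i hi => ?_
  rw [diag_apply, Matrix.mul_apply, sum_pt, sum_div]
  refine sum_congr rfl fun j hj => ?_
  rw [R_rq h (mem_range.1 hi) (mem_range.1 hj), crd_A _ (mem_range.1 hi) (mem_range.1 hj), hw]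
  ring
theorem TT_MM_short {q r t : ℕ} (hq : VM.testBit q = true) (hr : VM.testBit r = true)
    (ht : VM.testBit t = true) (e : cp q ^^^ cp r = cp t) (w : VV) :
    TT (dual (576 + q)) (dual (576 + r)) w = sg (cp q / 4096) (cp r % 4096) * crd w (576 + t) := by
  rw [dual_M hq, dual_M hr, TT_MM (rq_mem hq), mc_PL (rq_mem hq), if_neg, PL, PL, P_mul', cl_rq hq,
    cl_rq hr, e, crd_Mq ht, mc, PL, cl_rq ht, Matrix.smul_mul, trace_smul, smul_eq_mul]
  · ring
  · rw [cl_rq hq, cl_rq hr]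
    intro h1
    rw [h1, Nat.xor_self, ← cl_rq ht] at e
    exact short_ne_zero (rq_mem ht) e.symm
theorem TT_MM_zero {q r : ℕ} (hq : VM.testBit q = true) (hr : VM.testBit r = true) (hne : q ≠ r)
    (hd : (∑ i ∈ range 24, xc q i * xc r i) ^ 2 ≠ 256) (w : VV) :
    TT (dual (576 + q)) (dual (576 + r)) w = 0 := by
  rw [dual_M hq, dual_M hr, TT_MM (rq_mem hq), mc_PL (rq_mem hq), if_neg, PL, PL, P_mul',
    Matrix.smul_mul, trace_smul, trace_P_US (Nat.xor_lt_two_pow (cl_lt _) (cl_lt _)) _ w.2.2.1]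
  · simp
  · intro t ht e
    have h1 : dotInt (rq q : V) (rq r : V) = ∑ i ∈ range 24, xc q i * xc r i := by
      rw [dotInt, sum_pt]
      exact sum_congr rfl fun i hi => by rw [rq_val hq, rq_val hr, gE.ix_pt i (mem_range.1 hi)]
    rcases short_add (rq_mem hq) (rq_mem hr) ht e.symm with h2 | h2 <;> rw [← h1, h2] at hd <;>
      exact hd rfl
  · rw [cl_rq hq, cl_rq hr]
    exact fun h1 => hne (cp_inj hq hr h1)
theorem TT_AW {i j k l : ℕ} (hi : i < 24) (hj : j < 24) (hk : k < 24) (hl : l < 4096) (w : VV) :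
    TT (dual (i * 24 + j)) (dual (576 + (98304 + (k * 4096 + l)))) w =
      ((if j = k then crd w (576 + (98304 + (i * 4096 + l))) else 0) +
        (if i = k then crd w (576 + (98304 + (j * 4096 + l))) else 0)) / 2 +
      (if i = j then crd w (576 + (98304 + (k * 4096 + l))) / 8 else 0) := by
  rw [dual_A hi hj, dual_W hk hl, crd_W _ hi ⟨l, hl⟩, crd_W _ hj ⟨l, hl⟩, crd_W _ hk ⟨l, hl⟩]
  simp only [TT, T0, T1_zero_p, mc_zero_p, Matrix.mul_zero, Matrix.zero_mul, trace_zero, zero_mul, mul_zero,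
    zero_add, add_zero, zero_div, sum_const_zero]
  rw [T1, trace_single2, ← Matrix.one_mul (single (gE.pt k) _ _), trace_single2]
  simp only [mc_zero_p, zero_mul, sum_const_zero, zero_div, add_zero, trace_smul, trace_add,
    Matrix.smul_apply, Matrix.add_apply, smul_eq_mul, trace, diag_apply, single, of_apply, one_apply,
    ite_and, add_mul, mul_assoc, ite_mul, one_mul, sum_add_distrib, mul_add, ← mul_sum, sum_ite_eq,
    sum_ite_eq', mem_univ, if_true, pt_inj hj hk, pt_inj hi hk, pt_inj hi hj, pt_inj hj hi, eq_comm (a := j) (b := i)]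
  split_ifs <;> ring
theorem TT_MW {q k l : ℕ} (h : VM.testBit q = true) (hk : k < 24) (hl : l < 4096) (w : VV) :
    TT (dual (576 + q)) (dual (576 + (98304 + (k * 4096 + l)))) w =
      sg (cp q / 4096) l / 32 * ∑ i ∈ range 24, (((if i = k then 4 else 0) - xc q i * xc q k : ℤ) : ℝ) *
        crd w (576 + (98304 + (i * 4096 + (l ^^^ cp q % 4096)))) := by
  rw [dual_M h, dual_W hk hl]
  have := sum_mc_PL (rq_mem h) (fun r => trace ((1 - (2 : ℝ) • R r) * single (gE.pt k) (⟨l, hl⟩ : κ) (1 : ℝ) *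
    PL r * (w : Amb).2.2ᵀ)) (by rw [R_neg, PL_neg])
  simp only [smul_eq_mul] at this
  simp only [TT, T0, T1_zero_p, mc_zero_p, Matrix.mul_zero, Matrix.zero_mul, trace_zero, zero_mul, mul_zero,
    zero_add, add_zero, zero_div, sum_const_zero]
  rw [T1, this, Matrix.mul_assoc _ (PL _), ← PL_symm (rq_mem h), ← transpose_mul]
  simp only [Matrix.zero_mul, trace_zero, zero_div, zero_mul, zero_add]
  rw [trace_single2, sum_pt, mul_sum, mul_sum, sum_div]
  refine sum_congr rfl fun i hi => ?_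
  have hi := mem_range.1 hi
  rw [PL, mul_P, cl_rq h, Matrix.sub_apply, Matrix.smul_apply, R_rq h hi hk, one_apply,
    ← crd_W _ hi, if_congr (pt_inj hi hk) rfl rfl]
  simp only [px, smul_eq_mul]
  split_ifs <;> push_cast <;> ring
theorem dual_hole {q : ℕ} (hq : q < 98304) (h : VM.testBit q = false) : dual (576 + q) = 0 := by
  refine Subtype.ext (Prod.ext (Matrix.ext fun a b => ?_) (Prod.ext (inc_M0 fun r _ hr => ?_)
    (Matrix.ext fun a b => Pi.single_eq_of_ne (by omega) _)))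
  · have ha := gE.ix_lt a
    have hb := gE.ix_lt b
    change (Pi.single (M := fun _ => ℝ) (576 + q) 1 (gE.ix a * 24 + gE.ix b) +
      Pi.single (M := fun _ => ℝ) (576 + q) 1 (gE.ix b * 24 + gE.ix a)) / 2 = 0
    rw [Pi.single_eq_of_ne (by omega), Pi.single_eq_of_ne (by omega)]; ring
  · have h1 : r ≠ q := fun e => by rw [← e, hr] at h; exact absurd h (by decide)
    exact Pi.single_eq_of_ne (by omega) _

end Cfsg.Agent.Mo
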