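import Cfsg.Agent.Mo.Eng

/-! Programs of swap, negation, butterfly and doubling stages. -/

set_option autoImplicit false

namespace Cfsg.Agent.Mo

open Finset

/-- kind (0, 1 swap; 2 negate; 3 butterfly; 4 double), shift, mask -/
structure Sg where
  k : ℕ
  s : ℕ
  m : ℕ
abbrev Prog := List Sg

def Sg.lo (a : Sg) (p : ℕ) : Bool := a.m.testBit p
def Sg.hi (a : Sg) (p : ℕ) : Bool := (Nat.shiftLeft a.m a.s).testBit p
def Sg.pr (a : Sg) (p : ℕ) : ℕ := if a.lo p then p + a.s else if a.hi p then p - a.s else p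
noncomputable def semS (a : Sg) (f : ℕ → ℝ) (p : ℕ) : ℝ :=
  if a.k ≤ 1 then f (a.pr p) else if a.k = 2 then (if a.lo p then -f p else f p)
  else if a.k = 3 then (if a.lo p then f p + f (a.pr p) else if a.hi p then f (a.pr p) - f p else f p)
  else if a.lo p then 2 * f p else f p
noncomputable def sem : Prog → (ℕ → ℝ) → ℕ → ℝ
  | [], f => f
  | a :: P, f => sem P (semS a f)
theorem sem_append (P Q : Prog) (f : ℕ → ℝ) : sem (P ++ Q) f = sem Q (sem P f) := by
  induction P generalizing f with
  | nil => rfl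
  | cons a P ih => exact ih _

def wfS (N : ℕ) (a : Sg) : Bool :=
  and (Nat.beq (Nat.shiftRight (Nat.shiftLeft a.m a.s) N) 0)
    (or (Nat.beq (Nat.land a.m (Nat.shiftLeft a.m a.s)) 0) (and (Nat.beq a.s 0) (not (Nat.beq a.k 3))))
def wf (N : ℕ) (P : Prog) : Bool := List.rec true (fun a _ ih => and (wfS N a) ih) P
theorem wf_cons {N : ℕ} {a : Sg} {P : Prog} : wf N (a :: P) = true ↔ wfS N a = true ∧ wf N P = true :=
  Bool.and_eq_true_iff
theorem wf_iff {N : ℕ} {P : Prog} : wf N P = true ↔ ∀ a ∈ P, wfS N a = true := by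
  induction P with
  | nil => simp [wf]
  | cons a P ih => rw [wf_cons, ih]; simp

theorem beq_f {a b : ℕ} (h : a ≠ b) : Nat.beq a b = false :=
  Bool.eq_false_iff.2 fun e => h (Nat.eq_of_beq_eq_true e)
theorem ble_f {a b : ℕ} (h : ¬ a ≤ b) : Nat.ble a b = false :=
  Bool.eq_false_iff.2 fun e => h (Nat.le_of_ble_eq_true e)
theorem beq_t {a b : ℕ} (h : a = b) : Nat.beq a b = true := by rw [h]; exact Nat.beq_refl b
theorem Sg.hi_eq (a : Sg) (p : ℕ) : a.hi p = (decide (a.s ≤ p) && a.lo (p - a.s)) := tb_shl _ _ _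
theorem Sg.hi_add (a : Sg) (p : ℕ) : a.hi (p + a.s) = a.lo p := by simp [Sg.hi_eq]
theorem wfS_hi {N : ℕ} {a : Sg} (h : wfS N a = true) {p : ℕ} (hp : a.hi p = true) : p < N := by
  by_contra hn
  have h1 := Nat.eq_of_beq_eq_true (Bool.and_eq_true_iff.1 h).1
  have := congrArg (·.testBit (p - N)) h1
  simp only [tb_shr, Nat.zero_testBit, Nat.sub_add_cancel (not_lt.1 hn)] at this
  exact Bool.false_ne_true (this.symm.trans hp)
theorem wfS_lo {N : ℕ} {a : Sg} (h : wfS N a = true) {p : ℕ} (hp : a.lo p = true) : p + a.s < N :=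
  wfS_hi h (by rw [Sg.hi_add, hp])
theorem wfS_disj {N : ℕ} {a : Sg} (h : wfS N a = true) {p : ℕ} (h1 : a.lo p = true)
    (h2 : a.hi p = true) : a.s = 0 ∧ a.k ≠ 3 := by
  rcases Bool.or_eq_true_iff.1 (Bool.and_eq_true_iff.1 h).2 with e | e
  · have := congrArg (·.testBit p) (Nat.eq_of_beq_eq_true e)
    simp only [tb_and, Nat.zero_testBit] at this
    exact absurd (this.symm.trans (Bool.and_eq_true_iff.2 ⟨h1, h2⟩)) Bool.false_ne_true
  · rw [Bool.and_eq_true_iff] at e
    exact ⟨Nat.eq_of_beq_eq_true e.1, fun h3 => by rw [beq_t h3] at e; simpa using e.2⟩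
theorem wfS_mono {N M : ℕ} {a : Sg} (h : wfS N a = true) (hm : N ≤ M) : wfS M a = true := by
  refine Bool.and_eq_true_iff.2 ⟨?_, (Bool.and_eq_true_iff.1 h).2⟩
  rw [Nat.beq_eq]
  refine Nat.eq_of_testBit_eq fun i => ?_
  rw [tb_shr, Nat.zero_testBit]
  by_contra e
  have := wfS_hi h (p := i + M) (by simpa [Sg.hi] using e)
  omega
theorem pr_spec {N : ℕ} {a : Sg} (h : wfS N a = true) (p : ℕ) : a.pr (a.pr p) = p ∧
    ((a.lo (a.pr p) || a.hi (a.pr p)) = (a.lo p || a.hi p)) ∧ (p < N → a.pr p < N) ∧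
    (N ≤ p → a.pr p = p) := by
  by_cases hs : a.s = 0
  · have : ∀ q, a.pr q = q := fun q => by simp [Sg.pr, hs]
    simp [this]
  have dj : ∀ q, a.lo q = true → a.hi q = true → False := fun q h1 h2 => hs (wfS_disj h h1 h2).1
  cases h1 : a.lo p
  · cases h2 : a.hi p
    · have : a.pr p = p := by simp [Sg.pr, h1, h2]
      simp [this, h1, h2]
    · have e : a.pr p = p - a.s := by simp [Sg.pr, h1, h2]
      have h3 := wfS_hi h h2
      rw [Sg.hi_eq, Bool.and_eq_true_iff, decide_eq_true_eq] at h2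
      refine ⟨?_, by simp [e, h2.2], fun _ => by omega, fun _ => by omega⟩
      rw [e, Sg.pr, if_pos h2.2]; omega
  · have e : a.pr p = p + a.s := by simp [Sg.pr, h1]
    have h2 : a.hi (p + a.s) = true := by rw [Sg.hi_add, h1]
    have h3 := wfS_lo h h1
    refine ⟨?_, by simp [e, h2], fun _ => by omega, fun _ => by omega⟩
    rw [e, Sg.pr, if_neg fun h4 => dj _ h4 h2, if_pos h2]; omega

/-! ### execution -/

def swp2 (s x t : ℕ) : ℕ := Nat.xor (Nat.xor x t) (Nat.shiftLeft t s)
def swp (s m x : ℕ) : ℕ := swp2 s x (Nat.land (Nat.xor (Nat.shiftRight x s) x) m)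
def sws2 (s x t : ℕ) : ℕ := Nat.xor x (Nat.xor t (Nat.shiftLeft t s))
def sws1 (s m x y : ℕ) : ℕ := sws2 s x (Nat.land (Nat.xor (Nat.shiftRight y s) y) m)
def sws (s m m2 x : ℕ) : ℕ := sws1 s m x (Nat.land x m2)
def prt (s m x : ℕ) : ℕ :=
  Nat.lor (Nat.land (Nat.shiftRight x s) m) (Nat.shiftLeft (Nat.land x m) s)
def bfl (s m h : ℕ) (xs : List ℕ) : List ℕ :=
  List.rec [] (fun x t _ => add2 (lmap (Nat.xor h) t) (Nat.xor h x) (prt s m x) (lmap (prt s m) t) h) xs
/-- the permutation part of a stage on one plane -/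
def runB1 (a : Sg) : ℕ → ℕ :=
  cnd (Nat.beq a.k 0) (swp a.s a.m)
    (cnd (Nat.beq a.k 1) (sws a.s a.m (Nat.lor a.m (Nat.shiftLeft a.m a.s))) fun x => x)
def runS (a : Sg) (xs : List ℕ) : List ℕ :=
  cnd (Nat.ble a.k 1) (lmap (runB1 a) xs) (cnd (Nat.beq a.k 2) (negP a.m xs)
    (cnd (Nat.beq a.k 3) (bfl a.s a.m (Nat.shiftLeft a.m a.s) xs) (dblP a.m xs)))
def run (P : Prog) : List ℕ → List ℕ := List.rec (fun xs => xs) (fun a _ ih xs => ih (runS a xs)) P

def srcS (a : Sg) (p : ℕ) : ℕ := if a.k ≤ 1 then a.pr p else p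
theorem tb_runB1 {N : ℕ} {a : Sg} (h : wfS N a = true) (x p : ℕ) :
    (runB1 a x).testBit p = x.testBit (srcS a p) := by
  have dj := @wfS_disj N a h p
  have e : ∀ z, a.m.testBit z = a.lo z := fun _ => rfl
  unfold runB1 srcS Sg.pr
  rw [Sg.hi_eq] at *
  rcases hk : a.k with _ | _ | k
  · simp only [Nat.beq, cnd_true, swp, swp2, tb_xor, tb_and, tb_shl, tb_shr, e, zero_le, if_true]
    by_cases hs : a.s ≤ p
    · rw [Nat.sub_add_cancel hs]
      cases h1 : a.lo p <;> cases h2 : a.lo (p - a.s)
      · simp [h1, h2]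
      · simp only [hs, h1, h2]; cases x.testBit p <;> cases hx : x.testBit (p - a.s) <;> simp [hx]
      · simp only [hs, h1, h2]; cases x.testBit p <;> cases hx : x.testBit (p + a.s) <;> simp [hx]
      · simp [(dj h1 (by simp [hs, h2])).1]
    · cases h1 : a.lo p
      · simp [hs]
      · simp only [hs]; cases x.testBit p <;> cases hx : x.testBit (p + a.s) <;> simp [hx]
  · simp only [Nat.beq, cnd_true, cnd_false, sws, sws1, sws2, tb_xor, tb_and, tb_or, tb_shl, tb_shr, e,
      zero_add, le_refl, if_true, Nat.add_sub_cancel]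
    by_cases hs : a.s ≤ p
    · rw [Nat.sub_add_cancel hs]
      cases h1 : a.lo p <;> cases h2 : a.lo (p - a.s)
      · simp [h1, h2]
      · simp only [hs, h1, h2]; cases x.testBit p <;> cases hx : x.testBit (p - a.s) <;> simp [hx]
      · simp only [hs, h1, h2]; cases x.testBit p <;> cases hx : x.testBit (p + a.s) <;> simp [hx]
      · simp [(dj h1 (by simp [hs, h2])).1]
    · cases h1 : a.lo p
      · simp [hs]
      · simp only [hs]; cases x.testBit p <;> cases hx : x.testBit (p + a.s) <;> simp [hx]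
  · simp [Nat.beq]

theorem vz_runS {N : ℕ} {a : Sg} (h : wfS N a = true) (xs : List ℕ) (p : ℕ) :
    (vz (runS a xs) p : ℝ) = semS a (fun q => (vz xs q : ℝ)) p := by
  unfold runS semS
  by_cases h1 : a.k ≤ 1
  · rw [if_pos h1, Nat.ble_eq_true_of_le h1, cnd_true, vz_map _ _ p _ fun x => tb_runB1 h x p, srcS,
      if_pos h1]
  rw [if_neg h1, ble_f h1, cnd_false]
  by_cases h2 : a.k = 2
  · rw [if_pos h2, h2, show Nat.beq 2 2 = true from rfl, cnd_true, vz_negP]
    unfold Sg.lo; split_ifs <;> simp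
  rw [if_neg h2, beq_f h2, cnd_false]
  by_cases h3 : a.k = 3
  · rw [if_pos h3, h3, show Nat.beq 3 3 = true from rfl, cnd_true]
    cases xs with
    | nil => simp [bfl]
    | cons x t =>
      rw [show bfl a.s a.m (Nat.shiftLeft a.m a.s) (x :: t) = add2 _ _ _ _ _ from rfl,
        (add2_spec _ _ _ _ _ p).2]
      change ((vz (lmap _ (x :: t)) p + vz (lmap _ (x :: t)) p + bzi (a.hi p) : ℤ) : ℝ) = _
      have e : ∀ z, a.m.testBit z = a.lo z := fun _ => rfl
      have e' : ∀ z, (Nat.shiftLeft a.m a.s).testBit z = a.hi z := fun _ => rfl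
      have dj := @wfS_disj N a h p
      unfold Sg.pr
      cases g1 : a.lo p <;> cases g2 : a.hi p
      · have := g2; rw [Sg.hi_eq] at this
        rw [vz_map _ _ p p (by simp only [tb_xor, e', g2]; simp), vz_map0 _ _ p fun x => by
          simp only [prt, tb_or, tb_and, tb_shl, tb_shr, e, g1]
          rw [Bool.and_left_comm, this]; simp]
        simp
      · have := g2; rw [Sg.hi_eq] at this
        rw [vz_map_not _ (by simp) p (by simp only [tb_xor, e', g2]; simp), vz_map _ _ p (p - a.s) fun x => by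
          simp only [prt, tb_or, tb_and, tb_shl, tb_shr, e, g1]
          rw [Bool.and_left_comm, this]; simp]
        simp; ring
      · have := g2; rw [Sg.hi_eq] at this
        rw [vz_map _ _ p p (by simp only [tb_xor, e', g2]; simp), vz_map _ _ p (p + a.s) fun x => by
          simp only [prt, tb_or, tb_and, tb_shl, tb_shr, e, g1]
          rw [Bool.and_left_comm, this]; simp]
        simp
      · exact absurd h3 (dj g1 g2).2
  rw [if_neg h3, beq_f h3, cnd_false, vz_dblP]
  unfold Sg.lo; split_ifs <;> simp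

theorem vz_run {N : ℕ} {P : Prog} (h : wf N P = true) (xs : List ℕ) (p : ℕ) :
    (vz (run P xs) p : ℝ) = sem P (fun q => (vz xs q : ℝ)) p := by
  induction P generalizing xs with
  | nil => rfl
  | cons a P ih =>
    rw [wf_cons] at h
    exact (ih h.2 _).trans (by rw [funext (vz_runS h.1 xs)]; rfl)

/-! ### linearity, adjoints, locality -/

noncomputable def semSL (a : Sg) : (ℕ → ℝ) →ₗ[ℝ] (ℕ → ℝ) where
  toFun := semS a
  map_add' f g := funext fun p => by simp only [semS, Pi.add_apply]; split_ifs <;> ring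
  map_smul' c f := funext fun p => by
    simp only [semS, Pi.smul_apply, smul_eq_mul, RingHom.id_apply]; split_ifs <;> ring
noncomputable def semL : Prog → (ℕ → ℝ) →ₗ[ℝ] (ℕ → ℝ)
  | [] => LinearMap.id
  | a :: P => semL P ∘ₗ semSL a
theorem semL_apply (P : Prog) (f : ℕ → ℝ) : semL P f = sem P f := by
  induction P generalizing f with
  | nil => rfl
  | cons a P ih => exact ih _
theorem sem_smul (P : Prog) (c : ℝ) (f : ℕ → ℝ) (p : ℕ) : sem P (fun q => c * f q) p = c * sem P f p := by
  have := (semL P).map_smul c f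
  rw [semL_apply, semL_apply] at this
  exact congrFun this p
theorem sem_sum {α : Type} (P : Prog) (S : Finset α) (c : α → ℝ) (f : α → ℕ → ℝ) (p : ℕ) :
    sem P (fun q => ∑ i ∈ S, c i * f i q) p = ∑ i ∈ S, c i * sem P (f i) p := by
  have : (fun q => ∑ i ∈ S, c i * f i q) = ∑ i ∈ S, c i • f i := by ext q; simp
  rw [this, ← semL_apply, map_sum]
  simp [semL_apply]

theorem semS_adj {N : ℕ} {a : Sg} (h : wfS N a = true) (f g : ℕ → ℝ) :
    ∑ p ∈ range N, semS a f p * g p = ∑ p ∈ range N, f p * semS a g p := by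
  obtain ⟨α, β, e, hb⟩ : ∃ α β : ℕ → ℝ, (∀ u p, semS a u p = α p * u p + β p * u (a.pr p)) ∧
      ∀ p, β (a.pr p) = β p := by
    refine ⟨fun p => if a.k ≤ 1 then 0 else if a.k = 2 then (if a.lo p then -1 else 1)
      else if a.k = 3 then (if a.lo p then 1 else if a.hi p then -1 else 1) else if a.lo p then 2 else 1,
      fun p => if a.k ≤ 1 then 1 else if a.k = 3 ∧ (a.lo p || a.hi p) then 1 else 0, fun u p => ?_,
      fun p => by simp only [(pr_spec h p).2.1]⟩
    unfold semS
    by_cases h1 : a.k ≤ 1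
    · simp [h1]
    by_cases h3 : a.k = 3
    · cases g1 : a.lo p <;> cases g2 : a.hi p <;> simp [h3, g1, g2]; ring
    · cases g1 : a.lo p <;> by_cases h2 : a.k = 2 <;> simp [h1, h3, g1, h2]
  simp only [e, add_mul, mul_add, sum_add_distrib]
  congr 1
  · exact sum_congr rfl fun p _ => by ring
  · refine sum_nbij' a.pr a.pr (fun p hp => ?_) (fun p hp => ?_) (fun p _ => (pr_spec h p).1)
      (fun p _ => (pr_spec h p).1) fun p _ => by rw [(pr_spec h p).1, hb]; ring
    all_goals simpa using (pr_spec h p).2.2.1 (by simpa using hp)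
theorem wf_append {N : ℕ} {P Q : Prog} : wf N (P ++ Q) = true ↔ wf N P = true ∧ wf N Q = true := by
  simp only [wf_iff, List.mem_append, or_imp, forall_and]
theorem wf_reverse {N : ℕ} {P : Prog} (h : wf N P = true) : wf N P.reverse = true := by
  simpa only [wf_iff, List.mem_reverse] using h
theorem sem_adj {N : ℕ} {P : Prog} (h : wf N P = true) (f g : ℕ → ℝ) :
    ∑ p ∈ range N, sem P f p * g p = ∑ p ∈ range N, f p * sem P.reverse g p := by
  induction P generalizing f with
  | nil => rfl
  | cons a P ih =>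
    rw [wf_cons] at h
    rw [List.reverse_cons, sem_append]
    exact (ih h.2 _).trans (semS_adj h.1 _ _)
theorem sem_out {N : ℕ} {P : Prog} (h : wf N P = true) (f : ℕ → ℝ) {p : ℕ} (hp : N ≤ p) :
    sem P f p = f p := by
  induction P generalizing f with
  | nil => rfl
  | cons a P ih =>
    rw [wf_cons] at h
    refine (ih h.2 _).trans ?_
    have h1 : a.lo p = false := by
      by_contra e; have := wfS_lo h.1 (p := p) (by simpa using e); omega
    have h2 : a.hi p = false := by
      by_contra e; have := wfS_hi h.1 (p := p) (by simpa using e); omega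
    simp [semS, Sg.pr, h1, h2]

/-! ### monomial programs -/

def src : Prog → ℕ → ℕ
  | [], p => p
  | a :: P, p => srcS a (src P p)
def sb : Prog → ℕ → Bool
  | [], _ => false
  | a :: P, p => (sb P p ^^ (decide (a.k = 2) && a.lo (src P p)))
def mono (P : Prog) : Bool := List.rec true (fun a _ ih => and (Nat.ble a.k 2) ih) P
theorem mono_iff {P : Prog} : mono P = true ↔ ∀ a ∈ P, a.k ≤ 2 := by
  induction P with
  | nil => simp [mono]
  | cons a P ih =>
    rw [show mono (a :: P) = (Nat.ble a.k 2 && mono P) from rfl, Bool.and_eq_true_iff, ih]; simp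
theorem sem_mono {P : Prog} (h : mono P = true) (f : ℕ → ℝ) (p : ℕ) :
    sem P f p = (if sb P p then -1 else 1) * f (src P p) := by
  rw [mono_iff] at h
  induction P generalizing f with
  | nil => simp [sem, sb, src]
  | cons a P ih =>
    have h1 := h a (by simp)
    rw [sem, ih fun b hb => h b (by simp [hb])]
    simp only [semS, sb, src, srcS]
    by_cases h2 : a.k ≤ 1
    · simp [h2, show a.k ≠ 2 by omega]
    · by_cases g1 : sb P p = true <;> by_cases g2 : a.lo (src P p) = true <;>
        simp [show a.k = 2 by omega, g1, g2]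
def runB (P : Prog) : ℕ → ℕ := List.rec (fun x => x) (fun a _ ih x => ih (runB1 a x)) P
theorem tb_runB {N : ℕ} {P : Prog} (h : wf N P = true) (x p : ℕ) :
    (runB P x).testBit p = x.testBit (src P p) := by
  induction P generalizing x with
  | nil => rfl
  | cons a P ih => rw [wf_cons] at h; exact (ih h.2 _).trans (tb_runB1 h.1 _ _)
def runT (P : Prog) : ℕ → ℕ :=
  List.rec (fun x => x) (fun a _ ih x => ih (cnd (Nat.beq a.k 2) (Nat.xor x a.m) (runB1 a x))) P
theorem tb_runT {N : ℕ} {P : Prog} (h : wf N P = true) (x p : ℕ) :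
    (runT P x).testBit p = (x.testBit (src P p) ^^ sb P p) := by
  induction P generalizing x with
  | nil => simp [runT, src, sb]
  | cons a P ih =>
    rw [wf_cons] at h
    refine (ih h.2 _).trans ?_
    by_cases e : a.k = 2
    · rw [beq_t e, cnd_true]
      simp [src, srcS, sb, e, Sg.lo, Bool.xor_comm, Bool.xor_left_comm]
    · rw [beq_f e, cnd_false, tb_runB1 h.1]
      simp [src, sb, e]
theorem src_append (P Q : Prog) (p : ℕ) : src (P ++ Q) p = src P (src Q p) := by
  induction P with
  | nil => rfl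
  | cons a P ih => exact congrArg (srcS a) ih
theorem srcS_srcS {N : ℕ} {a : Sg} (h : wfS N a = true) (p : ℕ) : srcS a (srcS a p) = p := by
  unfold srcS; split_ifs
  exacts [(pr_spec h p).1, rfl]
theorem src_rev {N : ℕ} {P : Prog} (h : wf N P = true) (p : ℕ) : src P (src P.reverse p) = p := by
  induction P generalizing p with
  | nil => rfl
  | cons a P ih =>
    rw [wf_cons] at h
    rw [List.reverse_cons, src_append, src, ih h.2]
    exact srcS_srcS h.1 p
theorem src_rev' {N : ℕ} {P : Prog} (h : wf N P = true) (p : ℕ) : src P.reverse (src P p) = p := by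
  simpa using src_rev (wf_reverse h) p
theorem src_lt {N : ℕ} {P : Prog} (h : wf N P = true) {p : ℕ} (hp : p < N) : src P p < N := by
  induction P with
  | nil => exact hp
  | cons a P ih =>
    rw [wf_cons] at h
    unfold src srcS; split_ifs
    exacts [(pr_spec h.1 _).2.2.1 (ih h.2), ih h.2]
theorem sem_rev {N : ℕ} {P : Prog} (h : wf N P = true) (hm : mono P = true) (f : ℕ → ℝ) :
    sem P.reverse (sem P f) = f := by
  rw [mono_iff] at hm
  induction P generalizing f with
  | nil => rfl
  | cons a P ih =>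
    rw [wf_cons] at h
    rw [List.reverse_cons, sem_append, show sem (a :: P) f = sem P (semS a f) from rfl,
      ih h.2 fun b hb => hm b (by simp [hb])]
    have h1 := hm a (by simp)
    funext p
    simp only [sem, semS]
    by_cases h2 : a.k ≤ 1
    · simp [h2, (pr_spec h.1 p).1]
    · cases g : a.lo p <;> simp [show a.k = 2 by omega, g]

/-! ### states: exponent and planes -/

noncomputable def val (S : List ℕ) (p : ℕ) : ℝ := (vz S.tail p : ℝ) / 2 ^ S.headD 0
def nrm (xs : List ℕ) : ℕ → List ℕ :=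
  List.rec (fun e => [e]) (fun x t ih e =>
    cnd (Nat.ble e 0) (e :: x :: t) (cnd (Nat.ble x 0) (ih (Nat.pred e)) (e :: x :: t))) xs
theorem val_nrm (xs : List ℕ) (e p : ℕ) : val (nrm xs e) p = (vz xs p : ℝ) / 2 ^ e := by
  induction xs generalizing e with
  | nil => rfl
  | cons x t ih =>
    change val (cnd _ _ (cnd _ (nrm t _) _)) p = _
    rcases e with _ | e
    · rfl
    rcases x with _ | x
    · change val (nrm t e) p = _
      rw [ih, vz_zero_cons]; push_cast; field_simp; ring
    · rfl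
def app2 (xs : List ℕ) (e : ℕ) : List ℕ := frc xs (nrm xs e)
/-- apply a program whose scale is `2 ^ e` -/
def app (P : Prog) (e : ℕ) (S : List ℕ) : List ℕ :=
  List.rec [0] (fun d xs _ => app2 (trimP (run P xs)) (Nat.add d e)) S
theorem val_app {N : ℕ} {P : Prog} (h : wf N P = true) (e : ℕ) (S : List ℕ) (p : ℕ) :
    val (app P e S) p = sem P (val S) p / 2 ^ e := by
  cases S with
  | nil =>
    have := sem_smul P 0 (fun _ => 0) p
    change val [0] p = sem P (fun q => val [] q) p / _
    simp only [val, List.tail, vz_nil] at *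
    simp at this ⊢; rw [this]; simp
  | cons d xs =>
    change val (app2 _ _) p = _
    rw [app2, frc_eq, val_nrm, vz_trimP, vz_run h,
      show val (d :: xs) = fun q => (1 / 2 ^ d : ℝ) * (vz xs q : ℝ) from funext fun q => by
        simp [val]; ring, sem_smul, Nat.add_eq, pow_add]
    field_simp

end Cfsg.Agent.Mo
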