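import Cfsg.Agent.Mo.Tb
import Cfsg.Agent.Mo.TauD

/-! The operator identities for the triality element: definitions. -/

set_option autoImplicit false

namespace Cfsg.Agent.Mo

/-- test of `sem P = sem Q` on functions supported below 197184 -/
def btT (P Q : Prog) : Bool :=
  and (and (wf 197184 P) (wf 197184 Q)) (and (btL 197184 18 6 (TPI ++ P) (TPI ++ Q))
    (btC 197184 18 6 (TPI ++ P) (TPI ++ Q) 0 64))
theorem TPI_chk : wf 197184 TPI = true ∧ mono TPI = true := by decide +kernel
theorem btT_spec {P Q : Prog} (h : btT P Q = true) {f : ℕ → ℝ} (hf : ∀ p, 197184 ≤ p → f p = 0) :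
    sem P f = sem Q f := by
  simp only [btT, Bool.and_eq_true] at h
  exact bt_spec (by norm_num) (by norm_num) TPI_chk.1 TPI_chk.2 h.1.1 h.1.2 h.2.1 h.2.2 hf
/-- negation of the holes -/
def HNP : Prog := [⟨2, 0, Nat.shiftLeft (Nat.xor VM (ones 98304)) 576⟩]
def dgm (d : ℕ) : ℕ := Nat.shiftLeft (Nat.div (ones (Nat.mul 25 (Nat.sub 24 d))) (ones 25)) d
/-- transposition of the matrix entries in the mask `m` -/
def DP (m : ℕ) : Prog := (List.range 24).map fun d => ⟨1, Nat.mul 23 d, Nat.land m (dgm d)⟩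
theorem dgm_chk : ∀ d < 24, dgm d < 2 ^ 576 ∧
    ∀ p < 576, (dgm d).testBit p = true → p % 24 = p / 24 + d := by decide +kernel
theorem sem_DP (m : ℕ) {f : ℕ → ℝ} (h : Good f) : sem (DP m) f = f := by
  have h1 : ∀ a ∈ DP m, semS a f = f := by
    intro a ha
    obtain ⟨d, hd, rfl⟩ := List.mem_map.1 ha
    obtain ⟨h2, h3⟩ := dgm_chk d (List.mem_range.1 hd)
    have h4 : ∀ p, (Nat.land m (dgm d)).testBit p = true → f (p + 23 * d) = f p := fun p hp => by
      rw [tb_and, Bool.and_eq_true] at hp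
      have a : p < 576 := by
        by_contra a
        rw [Nat.testBit_lt_two_pow (h2.trans_le (Nat.pow_le_pow_right (by omega) (not_lt.1 a)))] at hp
        exact Bool.false_ne_true hp.2
      have b := h3 p a hp.2
      rw [show p + 23 * d = p % 24 * 24 + p / 24 by omega, h.symm _ (by omega) _ (by omega),
        Nat.div_add_mod']
    funext p
    rw [semS, if_pos (le_refl 1), Sg.pr]
    split_ifs with c1 c2
    · exact h4 p c1
    · rw [Sg.hi_eq, Bool.and_eq_true_iff, decide_eq_true_eq] at c2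
      rw [← h4 _ c2.2]
      exact congrArg f (Nat.sub_add_cancel c2.1)
    · rfl
  generalize DP m = P at h1
  induction P with
  | nil => rfl
  | cons a P ih => rw [sem, h1 a (by simp), ih fun b hb => h1 b (by simp [hb])]
noncomputable def alOK (a : ℕ) (w : List ℕ) : Bool :=
  and (and (Nat.ble a 68) (okW w)) (and (Nat.beq (gt a).e (wE w))
    (btT (DP (Nat.xor (runT (gt a).P 0) (runT (wP w) 0)) ++ ((gt a).P ++ TP)) (TP ++ wP w)))

end Cfsg.Agent.Mo
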