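import Cfsg.Agent.Mo.Tau0

/-! Kernel checks of operator identities for the triality element. -/

set_option Elab.async false

namespace Cfsg.Agent.Mo

theorem tp_inv : btT (TP ++ TP.reverse) (dbs 197184 6) = true := by decide +kernel
theorem al_1 : alOK 1 [26] = true := by decide +kernel
theorem al_5 : alOK 5 [30] = true := by decide +kernel
theorem al_9 : alOK 9 [34] = true := by decide +kernel
theorem al_14 : alOK 14 [14] = true := by decide +kernel
theorem al_18 : alOK 18 [18] = true := by decide +kernel
theorem al_22 : alOK 22 [22] = true := by decide +kernel
theorem al_26 : alOK 26 [26, 1] = true := by decide +kernel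
theorem al_30 : alOK 30 [30, 5, 15] = true := by decide +kernel
theorem al_34 : alOK 34 [34, 9, 12] = true := by decide +kernel
theorem al_38 : alOK 38 [38] = true := by decide +kernel

end Cfsg.Agent.Mo
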